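import Cfsg.Agent.H8.Similarity

/-!
Plus-type planes.
-/

set_option autoImplicit false
set_option linter.unusedSectionVars false

namespace Cfsg.Agent.H8

open QuadraticMap Module

variable {ι : Type} [Fintype ι] [DecidableEq ι] {F : Type*} [Field F]
  {Q : QuadraticForm F (ι → F)}

theorem isPlusTypeOn_plane {W : Submodule F (ι → F)} (h2 : finrank F W = 2) :
    Geo.IsPlusTypeOn Q W ↔ ∃ x ∈ W, x ≠ 0 ∧ Q x = 0 := by
  constructor
  · rintro ⟨U, hU, h1, h3⟩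
    have : U ≠ ⊥ := by rintro rfl; rw [finrank_bot] at h3; omega
    obtain ⟨x, hx, hx0⟩ := (Submodule.ne_bot_iff U).1 this
    exact ⟨x, hU hx, hx0, h1 x hx⟩
  · rintro ⟨x, hx, hx0, hQ⟩
    refine ⟨sp F [x], sp_le.2 (by simpa using hx), fun y hy => ?_, by rw [finrank_sp_one hx0, h2]⟩
    obtain ⟨c, rfl⟩ := mem_sp_one.1 hy
    rw [Q_smul, hQ, mul_zero]

theorem nondeg_max_even [Fintype F] {n : ℕ} (hn : 13 ≤ n) {Q : QuadraticForm F (Fin n → F)}
    (hN : ND Q) {W : Submodule F (Fin n → F)} (hW0 : W ≠ ⊥) (hW1 : W ≠ ⊤)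
    (hW : Geo.IsNondegenerateOn (polar Q) W)
    (hiso : ∀ g ∈ OG Q, W.map (g : (Fin n → F) →ₗ[F] (Fin n → F)) ≠ perp Q W)
    (hex : ¬ (Fintype.card F ≤ 3 ∧ (∃ U : Submodule F (Fin n → F), finrank F U = 2 ∧
      Geo.IsNondegenerateOn (polar Q) U ∧ Geo.IsPlusTypeOn Q U ∧
      (U = W ∨ (Geo.AreOrthogonalFor (polar Q) U W ∧ finrank F U + finrank F W = n))))) :
    Geo.IsMaximalIn (Geo.omegaGL Q) (Geo.subspaceStabilizer W ⊓ Geo.omegaGL Q) := by
  rw [omegaGL_eq, subspaceStabilizer_eq, ← pull_inf]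
  have hW' := ndOn_of_isNondegenerateOn hW
  refine isMaximalIn_pull (nondeg_max' hN (by simp; omega) hW' hW0 hW1 hiso ?_ ?_)
  · rintro ⟨h1, h2, h3⟩
    exact hex ⟨by rwa [Nat.card_eq_fintype_card] at h1, W, h2, hW,
      (isPlusTypeOn_plane h2).2 h3, Or.inl rfl⟩
  · rintro ⟨h1, h2, h3⟩
    refine hex ⟨by rwa [Nat.card_eq_fintype_card] at h1, perp Q W, h2,
      isNondegenerateOn_of_ndOn (hW'.perp hN), (isPlusTypeOn_plane h2).2 h3,
      Or.inr ⟨fun u hu v hv => mem_perp'.1 hu v hv, ?_⟩⟩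
    have := hN.finrank_perp W
    simp only [Module.finrank_fintype_fun_eq_card, Fintype.card_fin] at this
    omega

end Cfsg.Agent.H8
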