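import Cfsg.Agent.H8.Proper
import Cfsg.Agent.H8.Parity
import Cfsg.Agent.H8.Plane

/-!
Orthogonal decompositions into isometric non-degenerate subspaces.
-/

set_option autoImplicit false
set_option linter.unusedSectionVars false

namespace Cfsg.Agent.H8

open QuadraticMap Module

variable {F V : Type*} [Field F] [AddCommGroup V] [Module F V]

/-- An orthogonal decomposition into isometric non-degenerate subspaces of dimension `k`. -/
structure OD (Q : QuadraticForm F V) {t : ℕ} (D : Fin t → Submodule F V) (k : ℕ) : Prop where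
  nd : ∀ i, NDOn Q (D i)
  orth : ∀ i j, i ≠ j → ∀ x ∈ D i, ∀ y ∈ D j, polar Q x y = 0
  dim : ∀ i, finrank F (D i) = k
  top : iSup D = ⊤
  indep : iSupIndep D
  iso : ∀ i j, ∃ e : D i ≃ₗ[F] D j, ∀ w : D i, Q (e w : V) = Q (w : V)
  total : finrank F V = t * k

/-- The stabiliser of a set of vectors. -/
def SetStab (S : Set V) : Subgroup (V ≃ₗ[F] V) where
  carrier := {g | ∀ v, v ∈ S ↔ g v ∈ S}
  mul_mem' {a b} ha hb := fun v => (hb v).trans (ha _)
  one_mem' := fun _ => Iff.rfl
  inv_mem' {a} ha := fun v => by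
    have := ha (a⁻¹ v)
    rw [apply_inv_apply] at this
    exact this.symm

theorem mem_SetStab {S : Set V} {g : V ≃ₗ[F] V} :
    g ∈ SetStab (F := F) S ↔ ∀ v, v ∈ S ↔ g v ∈ S := Iff.rfl

theorem mem_SetStab_of_maps {S : Set V} {g : V ≃ₗ[F] V} (h : ∀ v ∈ S, g v ∈ S)
    (h' : ∀ v ∈ S, g⁻¹ v ∈ S) : g ∈ SetStab (F := F) S :=
  fun v => ⟨h v, fun hv => by simpa [inv_apply_apply] using h' _ hv⟩

theorem le_SetStab {S : Set V} {H : Subgroup (V ≃ₗ[F] V)} (h : ∀ g ∈ H, ∀ v ∈ S, g v ∈ S) :
    H ≤ SetStab S := fun g hg => mem_SetStab_of_maps (h g hg) (h _ (H.inv_mem hg))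

theorem finrank_of_decomp [FiniteDimensional F V] {t k : ℕ} {D : Fin t → Submodule F V}
    (h1 : iSupIndep D) (h2 : iSup D = ⊤) (h3 : ∀ i, finrank F (D i) = k) :
    finrank F V = t * k := by
  have h := (DirectSum.isInternal_submodule_iff_iSupIndep_and_iSup_eq_top D).2 ⟨h1, h2⟩
  rw [← (LinearEquiv.ofBijective (DirectSum.coeLinearMap D) h).finrank_eq, Module.finrank_directSum]
  simp [h3]

theorem od_of_geo {ι : Type} [Fintype ι] [DecidableEq ι] {Q : QuadraticForm F (ι → F)} {t k : ℕ}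
    {D : Fin t → Submodule F (ι → F)} (h : Geo.IsOrthogonalMDecomposition Q k D) : OD Q D k where
  nd i := ndOn_of_isNondegenerateOn (h.decomp.nondegenerate i)
  orth i j hij x hx y hy := h.decomp.orthogonal i j hij x hx y hy
  dim := h.decomp.decomp.finrank_eq
  top := h.decomp.decomp.iSup_eq_top
  indep := h.decomp.decomp.indep
  iso := h.isometric
  total := finrank_of_decomp h.decomp.decomp.indep h.decomp.decomp.iSup_eq_top
    h.decomp.decomp.finrank_eq

variable {Q : QuadraticForm F V} {t k : ℕ} {D : Fin t → Submodule F V}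

theorem OD.eq_of_mem (h : OD Q D k) {i j : Fin t} {x : V} (hi : x ∈ D i) (hj : x ∈ D j)
    (h0 : x ≠ 0) : i = j := by
  by_contra hij
  exact h0 (h.nd i x hi fun y hy => by rw [pol_comm]; exact h.orth i j hij y hy x hj)

theorem OD.iso_pol (h : OD Q D k) (i j : Fin t) :
    ∃ e : D i ≃ₗ[F] D j, (∀ w : D i, Q (e w : V) = Q (w : V)) ∧
      ∀ v w : D i, polar Q (e v : V) (e w : V) = polar Q (v : V) (w : V) := by
  obtain ⟨e, he⟩ := h.iso i j
  refine ⟨e, he, fun v w => ?_⟩
  rw [polar, polar, ← Submodule.coe_add, ← _root_.map_add, he, he, he, Submodule.coe_add]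

theorem DStab_maps {g : V ≃ₗ[F] V} (hg : g ∈ DStab D) (i : Fin t) :
    ∃ j, ∀ x ∈ D i, g x ∈ D j := by
  obtain ⟨σ, hσ⟩ := hg
  exact ⟨σ i, fun x hx => by rw [← hσ i]; exact ⟨x, hx, rfl⟩⟩

theorem OD.not_mem_DStab (h : OD Q D k) {g : V ≃ₗ[F] V} {i j l : Fin t} (hjl : j ≠ l) {x y : V}
    (hx : x ∈ D i) (hy : y ∈ D i) (hx0 : x ≠ 0) (hy0 : y ≠ 0) (h1 : g x ∈ D j) (h2 : g y ∈ D l) :
    g ∉ DStab D := by
  intro hg
  obtain ⟨m, hm⟩ := DStab_maps hg i
  exact hjl ((h.eq_of_mem h1 (hm x hx) (by simpa using hx0)).trans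
    (h.eq_of_mem (hm y hy) h2 (by simpa using hy0)))

/-- The vectors of norm `c` in the members of the decomposition. -/
def normSet (Q : QuadraticForm F V) (D : Fin t → Submodule F V) (c : F) : Set V :=
  {v | Q v = c ∧ ∃ i, v ∈ D i}

theorem normSet_maps {c : F} {g : V ≃ₗ[F] V} (hg : g ∈ DStab D ⊓ OG Q) {v : V}
    (hv : v ∈ normSet Q D c) : g v ∈ normSet Q D c := by
  obtain ⟨h1, i, hi⟩ := hv
  obtain ⟨j, hj⟩ := DStab_maps hg.1 i
  exact ⟨by rw [hg.2, h1], j, hj v hi⟩

theorem DStab_le_normSet (c : F) : DStab D ⊓ Om Q ≤ SetStab (normSet Q D c) :=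
  le_SetStab fun _ hg _ hv => normSet_maps ⟨hg.1, Om_le_OG hg.2⟩ hv

variable [Finite F] [FiniteDimensional F V]

theorem OD.Om_not_SetStab (hN : ND Q) (h6 : 6 ≤ finrank F V) (h : OD Q D k) (ht : 2 ≤ t)
    (hk : 0 < k) {S : Set V} (hS : ∀ v ∈ S, ∃ i, v ∈ D i) {x : V} (hx : x ∈ S) (hx0 : x ≠ 0) :
    ∃ g ∈ Om Q, g ∉ SetStab S := by
  by_contra h1
  push Not at h1
  let i : Fin t := ⟨0, by omega⟩
  let j : Fin t := ⟨1, by omega⟩
  have hij : i ≠ j := by simp [i, j]
  obtain ⟨a, ha, ha0⟩ := exists_not_mem (T := D i) (S := ⊥) (by rw [finrank_bot, h.dim]; exact hk)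
  obtain ⟨b, hb, hb0⟩ := exists_not_mem (T := D j) (S := ⊥) (by rw [finrank_bot, h.dim]; exact hk)
  obtain ⟨φ, h1', h2⟩ := indep_functional h.indep ha (by simpa using ha0)
  obtain ⟨ψ, h3, h4⟩ := indep_functional h.indep hb (by simpa using hb0)
  obtain ⟨z, hz, h5⟩ := invariant_meets hN (S := S) (fun g hg x hx => (h1 g hg x).1 hx) hx hx0
    [φ, ψ] (by omega) (by simpa using h6) (a + b) ⟨φ, by simp, by simp [h1', h2 j hij.symm b hb]⟩
  obtain ⟨l, hz⟩ := hS z hz
  have h6 := h5 φ (by simp)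
  have h7 := h5 ψ (by simp)
  rw [_root_.map_add, h1', h2 j hij.symm b hb] at h6
  rw [_root_.map_add, h3, h4 i hij a ha] at h7
  by_cases hk : l = i
  · rw [h4 l (hk ▸ hij) z hz] at h7; simp at h7
  · rw [h2 l hk z hz] at h6; simp at h6

omit [Finite F] [FiniteDimensional F V] in
theorem refl_sub_frame (h2 : (2 : F) ≠ 0) {c : F} (hc : c ≠ 0) {S : Set V}
    (hneg : ∀ v ∈ S, -v ∈ S) (hQ : ∀ v ∈ S, Q v = c)
    (hS : ∀ v ∈ S, ∀ w ∈ S, w = v ∨ w = -v ∨ polar Q v w = 0) {v w : V} (hv : v ∈ S) (hw : w ∈ S)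
    (hvw : polar Q v w = 0) : refl Q (v - w) ∈ SetStab S ∧ refl Q (v - w) v = w ∧
      refl Q (v - w) w = v := by
  have h0 : Q (v - w) ≠ 0 := by
    rw [Q_sub, hQ v hv, hQ w hw, hvw, sub_zero, ← two_mul]; exact mul_ne_zero h2 hc
  have e1 : refl Q (v - w) v = w := refl_swap ((hQ v hv).trans (hQ w hw).symm) h0
  have e2 : refl Q (v - w) w = v := by
    have := inv_apply_eq e1
    rwa [refl_inv] at this
  have key : ∀ x ∈ S, refl Q (v - w) x ∈ S := by
    intro x hx
    rcases hS v hv x hx with h | h | h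
    · rw [h, e1]; exact hw
    · rw [h, _root_.map_neg, e1]; exact hneg w hw
    rcases hS w hw x hx with h' | h' | h'
    · rw [h', e2]; exact hv
    · rw [h', _root_.map_neg, e2]; exact hneg v hv
    rw [refl_of_perp (by rw [polar_sub_right, pol_comm Q x v, pol_comm Q x w, h, h', sub_zero])]
    exact hx
  exact ⟨mem_SetStab_of_maps key (by rw [refl_inv]; exact key), e1, e2⟩

/-- Non-maximality when the vectors of some norm in the members form a frame. -/
theorem OD.frame_not_max (hN : ND Q) (h6 : 6 ≤ finrank F V) (h : OD Q D k) (ht : 3 ≤ t)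
    (hk : 2 ≤ k) (h2 : (2 : F) ≠ 0) {c : F} (hc : c ≠ 0)
    (hS : ∀ i, ∀ v ∈ D i, ∀ w ∈ D i, Q v = c → Q w = c → w = v ∨ w = -v ∨ polar Q v w = 0) :
    ∃ M, DStab D ⊓ Om Q < M ∧ M < Om Q := by
  have hex : ∀ i, ∃ v ∈ D i, Q v = c := fun i =>
    (h.nd i).exists_value_two hN (by rw [h.dim]; exact hk) c
  choose v hv hQv using hex
  have hv0 : ∀ i, v i ≠ 0 := fun i h0 => hc (by rw [← hQv i, h0, QuadraticMap.map_zero])
  have hvS : ∀ i, v i ∈ normSet Q D c := fun i => ⟨hQv i, i, hv i⟩
  let i1 : Fin t := ⟨0, by omega⟩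
  let i2 : Fin t := ⟨1, by omega⟩
  let i3 : Fin t := ⟨2, by omega⟩
  have h12 : i1 ≠ i2 := by simp [i1, i2]
  have h13 : i1 ≠ i3 := by simp [i1, i3]
  have h23 : i2 ≠ i3 := by simp [i2, i3]
  have hneg : ∀ x ∈ normSet Q D c, -x ∈ normSet Q D c := by
    rintro x ⟨h1, i, hi⟩; exact ⟨by rw [Q_neg, h1], i, (D i).neg_mem hi⟩
  have hS' : ∀ x ∈ normSet Q D c, ∀ y ∈ normSet Q D c, y = x ∨ y = -x ∨ polar Q x y = 0 := by
    rintro x ⟨h1, i, hi⟩ y ⟨h3, j, hj⟩
    by_cases hij : i = j
    · subst hij; exact hS i x hi y hj h1 h3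
    · exact Or.inr (Or.inr (h.orth i j hij x hi y hj))
  obtain ⟨a1, -, a3⟩ := refl_sub_frame h2 hc hneg (fun x hx => hx.1) hS' (hvS i1) (hvS i2)
    (h.orth _ _ h12 _ (hv _) _ (hv _))
  obtain ⟨b1, -, b3⟩ := refl_sub_frame h2 hc hneg (fun x hx => hx.1) hS' (hvS i2) (hvS i3)
    (h.orth _ _ h23 _ (hv _) _ (hv _))
  refine between_of (DStab_le_normSet c) ⟨refl Q (v i1 - v i2) * refl Q (v i2 - v i3),
    refl_mul_refl_mem_Om hN (by omega) ?_, Subgroup.mul_mem _ a1 b1, ?_⟩
    (h.Om_not_SetStab hN h6 (by omega) (by omega) (fun x hx => hx.2) (hvS i1) (hv0 i1))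
  · rw [Q_sub, Q_sub, hQv, hQv, hQv, h.orth _ _ h12 _ (hv _) _ (hv _),
      h.orth _ _ h23 _ (hv _) _ (hv _)]
  · have hd := finrank_le_inf_perp_sp (Q := Q) (D i3) [v i3]
    simp only [List.length_cons, List.length_nil, h.dim] at hd
    obtain ⟨y, hy, hy0⟩ := exists_not_mem (T := D i3 ⊓ perp Q (sp F [v i3])) (S := ⊥)
      (by rw [finrank_bot]; omega)
    have hy1 : polar Q y (v i3) = 0 := by rw [pol_comm]; exact mem_perp_sp.1 hy.2 _ (by simp)
    refine h.not_mem_DStab h13 (hv i3) hy.1 (hv0 i3) (by simpa using hy0) ?_ ?_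
    · change refl Q _ (refl Q _ (v i3)) ∈ _
      rw [b3, a3]; exact hv i1
    · change refl Q _ (refl Q _ y) ∈ _
      rw [refl_of_perp (a := v i2 - v i3) (by
        rw [polar_sub_right, hy1, h.orth _ _ h23.symm _ hy.1 _ (hv _), sub_zero]),
        refl_of_perp (by rw [polar_sub_right, h.orth _ _ h13.symm _ hy.1 _ (hv _),
          h.orth _ _ h23.symm _ hy.1 _ (hv _), sub_zero])]
      exact hy.1

omit [FiniteDimensional F V] in
theorem eq_of_card_three (hq : Nat.card F = 3) (a : F) : a = 0 ∨ a = 1 ∨ a = -1 := by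
  by_cases h : a = 0
  · exact Or.inl h
  · exact Or.inr (mul_self_eq_one_iff.1 (sq_eq_one_of_card_le_three hq.le h))

omit [FiniteDimensional F V] in
theorem three_eq_zero_of_card (hq : Nat.card F = 3) : (3 : F) = 0 := by
  have := Fintype.ofFinite F
  have h := FiniteField.cast_card_eq_zero F
  rw [← Nat.card_eq_fintype_card, hq] at h
  exact_mod_cast h

omit [FiniteDimensional F V] in
theorem two_ne_zero_of_card_three (hq : Nat.card F = 3) : (2 : F) ≠ 0 := by
  intro h
  have h3 := three_eq_zero_of_card hq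
  have : (1 : F) = 0 := by linear_combination h3 - h
  exact one_ne_zero this

/-- Over the field with three elements, two vectors of the same non-zero norm that are not
orthogonal differ, up to sign, by a singular vector orthogonal to both. -/
theorem frame_of_no_sing (hq : Nat.card F = 3) {c : F} (hc : c ≠ 0) {X : Submodule F V}
    (hX : ∀ s ∈ X, s ≠ 0 → Q s = 0 → ∀ v ∈ X, polar Q s v = 0 → Q v ≠ c) {v w : V} (hv : v ∈ X)
    (hw : w ∈ X) (hQv : Q v = c) (hQw : Q w = c) : w = v ∨ w = -v ∨ polar Q v w = 0 := by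
  have h3 := three_eq_zero_of_card hq
  have hc2 := sq_eq_one_of_card_le_three hq.le hc
  by_cases h0 : polar Q v w = 0
  · exact Or.inr (Or.inr h0)
  have h4 := sq_eq_one_of_card_le_three hq.le h0
  have h5 : (polar Q v w - 2 * c) * (polar Q v w + 2 * c) = 0 := by
    linear_combination h4 - 4 * hc2 - h3
  rcases mul_eq_zero.1 h5 with h6 | h6
  · left
    by_contra hne
    refine hX (v - w) (X.sub_mem hv hw) (sub_ne_zero.2 (Ne.symm hne)) ?_ v hv ?_ hQv
    · rw [Q_sub, hQv, hQw]; linear_combination -h6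
    · rw [polar_sub_left, pol_self, pol_comm Q w v, hQv]; linear_combination -h6
  · right; left
    by_contra hne
    refine hX (v + w) (X.add_mem hv hw) (fun h => hne (eq_neg_of_add_eq_zero_right h)) ?_ v hv ?_
      hQv
    · rw [Q_add, hQv, hQw]; linear_combination h6
    · rw [polar_add_left, pol_self, pol_comm Q w v, hQv]; linear_combination h6

theorem OD.not_max_two_three (hN : ND Q) (h6 : 6 ≤ finrank F V) (h : OD Q D 2)
    (hq : Nat.card F = 3) : ∃ M, DStab D ⊓ Om Q < M ∧ M < Om Q := by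
  have ht := h.total
  refine h.frame_not_max hN h6 (by omega) le_rfl (two_ne_zero_of_card_three hq) one_ne_zero
    fun i v hv w hw => frame_of_no_sing hq one_ne_zero (fun s hs hs0 hQs x hx hsx hQx => ?_) hv hw
  obtain ⟨s', hs', hQs', hss⟩ := (h.nd i).exists_partner hs hs0 hQs
  rw [eq_sp_pair (h.dim i) hs hs' hQs' hss] at hx
  obtain ⟨a, b, rfl⟩ := mem_sp_two.1 hx
  simp only [polar_add_right, pol_smul_right, pol_self, hQs, hss] at hsx
  simp only [Q_add, Q_smul, pol_smul_left, pol_smul_right, hQs, hQs', hss] at hQx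
  have hb : b = 0 := by linear_combination hsx
  rw [hb] at hQx
  simp at hQx

/-- In a non-degenerate three-dimensional space over the field with three elements some non-zero
norm does not occur orthogonally to a singular vector. -/
theorem exists_good_norm (hN : ND Q) (hq : Nat.card F = 3) {X : Submodule F V} (hX : NDOn Q X)
    (h3 : finrank F X = 3) : ∃ c : F, c ≠ 0 ∧
      ∀ s ∈ X, s ≠ 0 → Q s = 0 → ∀ v ∈ X, polar Q s v = 0 → Q v ≠ c := by
  obtain ⟨u, hu, w, hw, hQu, hQw, huw⟩ := hX.exists_hyp h3.ge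
  have hP := ndOn_pair hQu hQw (by rw [huw]; exact one_ne_zero)
  have hPX : sp F [u, w] ≤ X := sp_le.2 (by simp [hu, hw])
  have hd := hX.finrank_inf_perp hN hPX
  have hd2 : finrank F (sp F [u, w]) = 2 := by
    rw [finrank_sp_cons, finrank_sp_one (by rintro rfl; simp at huw)]
    intro h
    obtain ⟨c, rfl⟩ := mem_sp_one.1 h
    rw [pol_smul_left, pol_self, hQw] at huw
    simp at huw
  obtain ⟨z, hz, hQz⟩ := (hX.inf_perp_nd hPX hP).exists_nonsing hN le_rfl (by omega)
  have hz0 : z ≠ 0 := by rintro rfl; simp at hQz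
  have hzs : X ⊓ perp Q (sp F [u, w]) = sp F [z] := by
    symm
    apply Submodule.eq_of_le_of_finrank_eq (sp_le.2 (by simpa using hz))
    rw [finrank_sp_one hz0]; omega
  have hco : ∀ x ∈ X, ∃ a b d : F, x = a • u + b • w + d • z := by
    intro x hx
    obtain ⟨p, hp, r, hr, rfl⟩ := hP.decomp x
    have : r ∈ sp F [z] := by
      rw [← hzs]; exact ⟨by simpa using X.sub_mem hx (hPX hp), hr⟩
    obtain ⟨a, b, rfl⟩ := mem_sp_two.1 hp
    obtain ⟨d, rfl⟩ := mem_sp_one.1 this
    exact ⟨a, b, d, rfl⟩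
  have e1 : polar Q u z = 0 := mem_perp_sp.1 hz.2 u (by simp)
  have e2 : polar Q w z = 0 := mem_perp_sp.1 hz.2 w (by simp)
  refine ⟨-Q z, neg_ne_zero.2 hQz, fun s hs hs0 hQs v hv hsv hQv => ?_⟩
  obtain ⟨x, y, e, rfl⟩ := hco s hs
  obtain ⟨a, b, d, rfl⟩ := hco v hv
  simp only [Q_add, Q_smul, polar_add_left, polar_add_right, pol_smul_left, pol_smul_right,
    pol_self, hQu, hQw, huw, e1, e2, pol_comm Q w u, pol_comm Q z u, pol_comm Q z w] at hQs hsv hQv
  have h3' := three_eq_zero_of_card hq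
  have h2' := two_ne_zero_of_card_three hq
  have hz2 := sq_eq_one_of_card_le_three hq.le hQz
  have hsq : ∀ r : F, r * r ≠ -1 := by
    intro r hr
    by_cases hr0 : r = 0
    · rw [hr0] at hr; simp at hr
    · rw [sq_eq_one_of_card_le_three hq.le hr0] at hr
      exact h2' (by linear_combination hr)
  by_cases he : e = 0
  · subst he
    have hxy : x * y = 0 := by linear_combination hQs
    have hab : a * b = 0 := by
      rcases mul_eq_zero.1 hxy with hx | hy
      · subst hx
        have hy : y ≠ 0 := by rintro rfl; simp at hs0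
        have : a * y = 0 := by linear_combination hsv
        rw [(mul_eq_zero.1 this).resolve_right hy, zero_mul]
      · subst hy
        have hx : x ≠ 0 := by rintro rfl; simp at hs0
        have : b * x = 0 := by linear_combination hsv
        rw [(mul_eq_zero.1 this).resolve_right hx, mul_zero]
    refine hsq d ?_
    have : (d * d + 1) * Q z = 0 := by linear_combination hQv - hab
    exact eq_neg_of_add_eq_zero_left ((mul_eq_zero.1 this).resolve_right hQz)
  · have he2 := sq_eq_one_of_card_le_three hq.le he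
    refine hsq (x * b - y * a) ?_
    have k1 : x * y = -(e * e * Q z) := by linear_combination hQs
    have k2 : x * b + y * a = -(2 * e * d * Q z) := by linear_combination hsv
    have k3 : a * b = -Q z - d * d * Q z := by linear_combination hQv
    calc (x * b - y * a) * (x * b - y * a)
        = (x * b + y * a) * (x * b + y * a) - 4 * (x * y) * (a * b) := by ring
      _ = -4 * (e * e) * (Q z * Q z) := by rw [k1, k2, k3]; ring
      _ = -1 := by rw [he2, hz2]; linear_combination -h3'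

theorem OD.not_max_three_three (hN : ND Q) (h7 : 7 ≤ finrank F V) (h : OD Q D 3)
    (hq : Nat.card F = 3) : ∃ M, DStab D ⊓ Om Q < M ∧ M < Om Q := by
  have ht := h.total
  let i0 : Fin t := ⟨0, by omega⟩
  obtain ⟨c, hc, h1⟩ := exists_good_norm hN hq (h.nd i0) (h.dim i0)
  refine h.frame_not_max hN (by omega) (by omega) (by omega) (two_ne_zero_of_card_three hq) hc
    fun i v hv w hw => frame_of_no_sing hq hc (fun s hs hs0 hQs x hx hsx => ?_) hv hw
  obtain ⟨e, he1, he2⟩ := h.iso_pol i i0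
  have := h1 _ (e ⟨s, hs⟩).2 (by simpa using hs0) ((he1 _).trans hQs) _ (e ⟨x, hx⟩).2
    ((he2 _ _).trans hsx)
  rwa [he1] at this

theorem OD.not_max_two_five (hN : ND Q) (h6 : 6 ≤ finrank F V) (h : OD Q D 2)
    (hq : Nat.card F = 5) (hp : ∀ i, ∃ x ∈ D i, x ≠ 0 ∧ Q x = 0) :
    ∃ M, DStab D ⊓ Om Q < M ∧ M < Om Q := by
  have ht := h.total
  have := Fintype.ofFinite F
  have hq' : Fintype.card F = 5 := by rwa [Nat.card_eq_fintype_card] at hq
  refine h.frame_not_max hN h6 (by omega) le_rfl (two_ne_zero_of_odd (by rw [hq']; decide))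
    one_ne_zero fun i v hv w hw hQv hQw => ?_
  obtain ⟨s, hs, hs0, hQs⟩ := hp i
  obtain ⟨s', hs', hQs', hss⟩ := (h.nd i).exists_partner hs hs0 hQs
  rw [eq_sp_pair (h.dim i) hs hs' hQs' hss] at hv hw
  obtain ⟨a, b, rfl⟩ := mem_sp_two.1 hv
  obtain ⟨c, d, rfl⟩ := mem_sp_two.1 hw
  simp only [Q_add, Q_smul, pol_smul_left, pol_smul_right, hQs, hQs', hss] at hQv hQw
  have h1 : a * b = 1 := by linear_combination hQv
  have h2 : c * d = 1 := by linear_combination hQw
  have hr : c * b ≠ 0 := mul_ne_zero (left_ne_zero_of_mul_eq_one h2) (right_ne_zero_of_mul_eq_one h1)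
  have h4 := FiniteField.pow_card_sub_one_eq_one _ hr
  rw [hq'] at h4
  have h5 : (c * b - 1) * ((c * b + 1) * ((c * b) * (c * b) + 1)) = 0 := by
    linear_combination h4
  rcases mul_eq_zero.1 h5 with h6 | h6
  · left
    have e1 : c = a := by linear_combination a * h6 - c * h1
    have e2 : d = b := by linear_combination -d * h6 + b * h2
    rw [e1, e2]
  rcases mul_eq_zero.1 h6 with h6 | h6
  · right; left
    have e1 : c = -a := by linear_combination a * h6 - c * h1
    have e2 : d = -b := by linear_combination d * h6 - b * h2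
    rw [e1, e2]; module
  · right; right
    simp only [polar_add_left, polar_add_right, pol_smul_left, pol_smul_right, pol_self, hQs, hQs',
      hss, pol_comm Q s' s]
    linear_combination (a * d) * h6 - (c * b * c * d) * h1 - (c * b) * h2

/-- Non-maximality in characteristic two when the vectors of norm one span a smaller structure. -/
theorem OD.char_two_not_max (hN : ND Q) (h6 : 6 ≤ finrank F V) (h : OD Q D k) (ht : 3 ≤ t)
    (hk : 2 ≤ k) (h2 : (2 : F) = 0) (R : AddSubgroup F) (hR : ∀ r ∈ R, r = 0 ∨ r = 1)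
    (hR' : R ≠ ⊤) (hS : ∀ i, ∀ v ∈ D i, ∀ w ∈ D i, Q v = 1 → Q w = 1 → polar Q v w ∈ R) :
    ∃ M, DStab D ⊓ Om Q < M ∧ M < Om Q := by
  have h5 : 5 ≤ finrank F V := by omega
  have hex : ∀ i, ∃ v ∈ D i, Q v = 1 := fun i =>
    (h.nd i).exists_value_two hN (by rw [h.dim]; exact hk) 1
  choose v hv hQv using hex
  have hv0 : ∀ i, v i ≠ 0 := fun i h0 => by
    have := hQv i; rw [h0, QuadraticMap.map_zero] at this; exact zero_ne_one this
  let L := AddSubgroup.closure (normSet Q D 1)
  have hvL : ∀ i, v i ∈ L := fun i => AddSubgroup.subset_closure ⟨hQv i, i, hv i⟩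
  have hLR : ∀ i, ∀ x ∈ L, polar Q x (v i) ∈ R := by
    intro i x hx
    induction hx using AddSubgroup.closure_induction with
    | mem x hx =>
      obtain ⟨h1, j, hj⟩ := hx
      by_cases hij : j = i
      · subst hij; exact hS j x hj _ (hv j) h1 (hQv j)
      · rw [h.orth j i hij x hj _ (hv i)]; exact R.zero_mem
    | zero => rw [polar_zero_left]; exact R.zero_mem
    | add a b _ _ ha hb => rw [polar_add_left]; exact R.add_mem ha hb
    | neg a _ ha => rw [polar_neg_left]; exact R.neg_mem ha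
  have hsm : ∀ r ∈ R, ∀ x ∈ L, r • x ∈ L := by
    intro r hr x hx
    rcases hR r hr with rfl | rfl
    · rw [zero_smul]; exact L.zero_mem
    · rw [one_smul]; exact hx
  let i1 : Fin t := ⟨0, by omega⟩
  let i2 : Fin t := ⟨1, by omega⟩
  let i3 : Fin t := ⟨2, by omega⟩
  have h12 : i1 ≠ i2 := by simp [i1, i2]
  have h13 : i1 ≠ i3 := by simp [i1, i3]
  have h23 : i2 ≠ i3 := by simp [i2, i3]
  have o12 := h.orth _ _ h12 _ (hv _) _ (hv _)
  have o13 := h.orth _ _ h13 _ (hv _) _ (hv _)
  have o23 := h.orth _ _ h23 _ (hv _) _ (hv _)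
  have hu : Q (v i1 + v i2) = 0 := by rw [Q_add, hQv, hQv, o12]; linear_combination h2
  have hu3 : polar Q (v i1 + v i2) (v i3) = 0 := by rw [polar_add_left, o13, o23, add_zero]
  refine between_of (T := SetStab (L : Set V)) (le_SetStab fun g hg x hx => ?_)
    ⟨siegel Q (v i1 + v i2) (v i3), siegel_mem_Om hN h5 _ _, ?_, fun hg => ?_⟩ ?_
  · have : L ≤ L.comap (g : V →+ V) := by
      rw [AddSubgroup.closure_le]
      intro y hy
      exact AddSubgroup.subset_closure (normSet_maps ⟨hg.1, Om_le_OG hg.2⟩ hy)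
    exact this hx
  · have key : ∀ s : F, (s = 1 ∨ s = -1) → ∀ x ∈ L, siegel Q (v i1 + v i2) (s • v i3) x ∈ L := by
      intro s hs x hx
      have hs' : s = 1 := by
        rcases hs with hs | hs
        · exact hs
        · rw [hs]; linear_combination -h2
      rw [hs', one_smul, siegel_apply hu hu3, hQv, one_mul]
      have r1 : polar Q x (v i1 + v i2) ∈ R := by
        rw [polar_add_right]; exact R.add_mem (hLR _ x hx) (hLR _ x hx)
      exact L.sub_mem (L.add_mem hx (hsm _ r1 _ (hvL _)))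
        (hsm _ (R.add_mem (hLR _ x hx) r1) _ (L.add_mem (hvL _) (hvL _)))
    refine mem_SetStab_of_maps (by simpa using key 1 (Or.inl rfl)) ?_
    rw [siegel_inv]
    simpa using key (-1) (Or.inr rfl)
  · obtain ⟨j, hj⟩ := DStab_maps hg i1
    have e1 : siegel Q (v i1 + v i2) (v i3) (v i1) = v i1 :=
      siegel_fix (by rw [polar_add_right, pol_self, o12, h2]; ring) o13
    have hj1 : j = i1 := h.eq_of_mem (by rw [← e1]; exact hj _ (hv _)) (hv i1) (hv0 _)
    obtain ⟨x, hx, hx1⟩ := (h.nd i1).exists_pol_eq_one (hv i1) (hv0 _)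
    obtain ⟨y, hy, hy1⟩ := (h.nd i3).exists_pol_eq_one (hv i3) (hv0 _)
    have e2 := hj x hx
    rw [hj1] at e2
    have e3 := h.orth _ _ h13 _ e2 _ hy
    rw [siegel_apply hu hu3] at e3
    simp only [polar_sub_left, polar_add_left, polar_add_right, pol_smul_left, hy1,
      pol_comm Q x (v i1), hx1, h.orth _ _ h12 _ hx _ (hv _), h.orth _ _ h13 _ hx _ hy,
      h.orth _ _ h13 _ (hv _) _ hy, h.orth _ _ h23 _ (hv _) _ hy] at e3
    simp at e3
  · by_contra h1
    push Not at h1
    obtain ⟨μ, hμ⟩ : ∃ μ, μ ∉ R := by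
      by_contra h3; push Not at h3; exact hR' (eq_top_iff.2 fun x _ => h3 x)
    have hμ0 : μ ≠ 0 := by rintro rfl; exact hμ R.zero_mem
    obtain ⟨x, -, hx1⟩ := (h.nd i1).exists_pol_eq_one (hv i1) (hv0 _)
    obtain ⟨z, hz, h3⟩ := invariant_meets hN (S := (L : Set V)) (fun g hg x hx => (h1 g hg x).1 hx)
      (hvL i1) (hv0 _) [Q.polarBilin (v i1)] h5 (by simp; omega) (μ • x)
      ⟨Q.polarBilin (v i1), by simp, by simp [hx1, hμ0]⟩
    have h4 := h3 (Q.polarBilin (v i1)) (by simp)
    simp only [polarBilin_apply_apply, pol_smul_right, hx1, mul_one] at h4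
    apply hμ
    rw [← h4, pol_comm]
    exact hLR i1 z hz

omit [FiniteDimensional F V] in
theorem eq_of_card_two (hq : Nat.card F = 2) (a : F) : a = 0 ∨ a = 1 := by
  have := Fintype.ofFinite F
  by_cases h : a = 0
  · exact Or.inl h
  · have h1 := FiniteField.pow_card_sub_one_eq_one _ h
    rw [← Nat.card_eq_fintype_card, hq] at h1
    exact Or.inr (by simpa using h1)

omit [FiniteDimensional F V] in
theorem two_eq_zero_of_even_card (hq : Even (Nat.card F)) : (2 : F) = 0 := by
  have := Fintype.ofFinite F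
  rw [Nat.card_eq_fintype_card] at hq
  exact two_eq_zero_of_not_odd (Nat.not_odd_iff_even.2 hq)

theorem OD.not_max_two_char_two (hN : ND Q) (h6 : 6 ≤ finrank F V) (h : OD Q D 2)
    (hq : Nat.card F = 2 ∨ Nat.card F = 4) (hp : ∀ i, ∃ x ∈ D i, x ≠ 0 ∧ Q x = 0) :
    ∃ M, DStab D ⊓ Om Q < M ∧ M < Om Q := by
  have ht := h.total
  have h2 : (2 : F) = 0 := two_eq_zero_of_even_card (by rcases hq with h | h <;> rw [h] <;> decide)
  have key : ∀ i, ∀ v ∈ D i, ∀ w ∈ D i, Q v = 1 → Q w = 1 →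
      ∃ r s : F, r * s = 1 ∧ polar Q v w = r + s := by
    intro i v hv w hw hQv hQw
    obtain ⟨s, hs, hs0, hQs⟩ := hp i
    obtain ⟨s', hs', hQs', hss⟩ := (h.nd i).exists_partner hs hs0 hQs
    rw [eq_sp_pair (h.dim i) hs hs' hQs' hss] at hv hw
    obtain ⟨a, b, rfl⟩ := mem_sp_two.1 hv
    obtain ⟨c, d, rfl⟩ := mem_sp_two.1 hw
    simp only [Q_add, Q_smul, pol_smul_left, pol_smul_right, hQs, hQs', hss] at hQv hQw
    refine ⟨a * d, b * c, by linear_combination (c * d) * hQv + hQw, ?_⟩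
    simp only [polar_add_left, polar_add_right, pol_smul_left, pol_smul_right, pol_self, hQs, hQs',
      hss, pol_comm Q s' s]
    ring
  rcases hq with hq | hq
  · refine h.char_two_not_max hN h6 (by omega) le_rfl h2 ⊥ (by simp) bot_ne_top
      fun i v hv w hw hQv hQw => ?_
    obtain ⟨r, s, h1, h3⟩ := key i v hv w hw hQv hQw
    rw [h3, (eq_of_card_two hq r).resolve_left (left_ne_zero_of_mul_eq_one h1),
      (eq_of_card_two hq s).resolve_left (right_ne_zero_of_mul_eq_one h1), AddSubgroup.mem_bot]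
    linear_combination h2
  · let R : AddSubgroup F :=
      { carrier := {r | r = 0 ∨ r = 1}
        add_mem' := by
          rintro a b (rfl | rfl) (rfl | rfl)
          · simp
          · simp
          · simp
          · left; linear_combination h2
        zero_mem' := Or.inl rfl
        neg_mem' := by
          rintro a (rfl | rfl)
          · simp
          · right; linear_combination -h2 }
    refine h.char_two_not_max hN h6 (by omega) le_rfl h2 R (fun r hr => hr) ?_
      fun i v hv w hw hQv hQw => ?_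
    · intro hR
      have : Nat.card F ≤ Nat.card Bool := by
        refine Nat.card_le_card_of_surjective (fun b : Bool => if b then (1 : F) else 0) fun x => ?_
        have hx : x ∈ R := by rw [hR]; trivial
        rcases hx with rfl | rfl
        · exact ⟨false, by simp⟩
        · exact ⟨true, by simp⟩
      rw [hq] at this; simp at this
    · obtain ⟨r, s, h1, h3⟩ := key i v hv w hw hQv hQw
      have := Fintype.ofFinite F
      have h4 := FiniteField.pow_card_sub_one_eq_one _ (left_ne_zero_of_mul_eq_one h1)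
      rw [← Nat.card_eq_fintype_card, hq] at h4
      have h5 : s = r * r := by linear_combination (r * r) * h1 - s * h4
      have h6 : (r - 1) * (r * r + r + 1) = 0 := by linear_combination h4
      rw [h3, h5]
      rcases mul_eq_zero.1 h6 with h7 | h7
      · left
        rw [sub_eq_zero.1 h7]; linear_combination h2
      · right
        linear_combination h7 - h2

/-- In a plus-type four-space over the field with two elements, a non-singular vector lies in a
given anisotropic plane or is orthogonal to it. -/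
theorem four_plus_split (hN : ND Q) (hq : Nat.card F = 2) {X U : Submodule F V} (hX : NDOn Q X)
    (h4 : finrank F X = 4) (hUX : U ≤ X) (hU : ∀ x ∈ U, Q x = 0) (hU2 : finrank F U = 2) {a b : V}
    (ha : a ∈ X) (hb : b ∈ X) (hQa : Q a = 1) (hQb : Q b = 1) (hab : polar Q a b = 1) {v : V}
    (hv : v ∈ X) (hQv : Q v = 1) :
    v = a ∨ v = b ∨ v = a + b ∨ (polar Q v a = 0 ∧ polar Q v b = 0) := by
  have h2 : (2 : F) = 0 := two_eq_zero_of_even_card (by rw [hq]; decide)
  have hA : ∀ x ∈ sp F [a, b], x = 0 ∨ x = a ∨ x = b ∨ x = a + b := by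
    intro x hx
    obtain ⟨c, d, rfl⟩ := mem_sp_two.1 hx
    rcases eq_of_card_two hq c with rfl | rfl <;> rcases eq_of_card_two hq d with rfl | rfl <;> simp
  have hA1 : ∀ x ∈ sp F [a, b], x ≠ 0 → Q x = 1 := by
    intro x hx hx0
    rcases hA x hx with rfl | rfl | rfl | rfl
    · exact absurd rfl hx0
    · exact hQa
    · exact hQb
    · rw [Q_add, hQa, hQb, hab]; linear_combination h2
  have hAN : NDOn Q (sp F [a, b]) := by
    intro x hx h1
    have e1 := h1 a (mem_sp_of_mem (by simp))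
    have e2 := h1 b (mem_sp_of_mem (by simp))
    obtain ⟨c, d, rfl⟩ := mem_sp_two.1 hx
    simp only [polar_add_left, pol_smul_left, pol_self, h2, hab, pol_comm Q b a] at e1 e2
    have hd : d = 0 := by linear_combination e1
    have hc : c = 0 := by linear_combination e2
    simp [hc, hd]
  have hAX : sp F [a, b] ≤ X := sp_le.2 (by simp [ha, hb])
  have hdA : finrank F (sp F [a, b]) = 2 := by
    rw [finrank_sp_cons, finrank_sp_one (by rintro rfl; simp at hQb)]
    intro h
    obtain ⟨c, rfl⟩ := mem_sp_one.1 h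
    rw [pol_smul_left, pol_self, h2] at hab
    simp at hab
  have hB := hX.inf_perp_nd hAX hAN
  have hdB := hX.finrank_inf_perp hN hAX
  have hBan : ∀ s ∈ X ⊓ perp Q (sp F [a, b]), s ≠ 0 → Q s ≠ 0 := by
    have key : ∀ s ∈ X ⊓ perp Q (sp F [a, b]), s ≠ 0 → Q s = 0 → s ∈ U := by
      intro s hs hs0 hQs
      obtain ⟨s', hs', hQs', hss⟩ := hB.exists_partner hs hs0 hQs
      have hd := finrank_le_inf_perp_sp (Q := Q) U [s]
      simp only [List.length_cons, List.length_nil] at hd
      obtain ⟨u, hu, hu0⟩ := exists_not_mem (T := U ⊓ perp Q (sp F [s])) (S := ⊥)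
        (by rw [finrank_bot]; omega)
      obtain ⟨x, hx, y, hy, rfl⟩ := hAN.decomp u
      have hy' : y ∈ X ⊓ perp Q (sp F [a, b]) := ⟨by simpa using X.sub_mem (hUX hu.1) (hAX hx), hy⟩
      rw [eq_sp_pair (W := X ⊓ perp Q (sp F [a, b])) (by omega) hs hs' hQs' hss] at hy'
      obtain ⟨c, d, rfl⟩ := mem_sp_two.1 hy'
      have e1 : polar Q s (x + (c • s + d • s')) = 0 := mem_perp_sp.1 hu.2 s (by simp)
      have e2 : polar Q s x = 0 := mem_perp'.1 hs.2 x hx
      simp only [polar_add_right, pol_smul_right, pol_self, hQs, hss, e2] at e1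
      have hd0 : d = 0 := by linear_combination e1
      subst hd0
      have e3 := hU _ hu.1
      rw [zero_smul, add_zero, Q_add, Q_smul, pol_smul_right, hQs, pol_comm, e2] at e3
      have hx0 : x = 0 := by
        by_contra hx0
        rw [hA1 x hx hx0] at e3
        simp at e3
      subst hx0
      have hc : c ≠ 0 := by rintro rfl; simp at hu0
      exact (U.smul_mem_iff hc).1 (by simpa using hu.1)
    intro s hs hs0 hQs
    obtain ⟨s', hs', hQs', hss⟩ := hB.exists_partner hs hs0 hQs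
    have := mem_perp'.1 (le_perp_of_sing hU (key s hs hs0 hQs)) _
      (key s' hs' (by rintro rfl; simp at hss) hQs')
    rw [hss] at this
    exact one_ne_zero this
  obtain ⟨x, hx, y, hy, rfl⟩ := hAN.decomp v
  have hy' : y ∈ X ⊓ perp Q (sp F [a, b]) := ⟨by simpa using X.sub_mem hv (hAX hx), hy⟩
  by_cases hx0 : x = 0
  · right; right; right
    rw [hx0, zero_add]
    exact ⟨mem_perp'.1 hy a (mem_sp_of_mem (by simp)), mem_perp'.1 hy b (mem_sp_of_mem (by simp))⟩
  · have hy0 : y = 0 := by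
      by_contra hy0
      rw [Q_add, hA1 x hx hx0, mem_perp.1 hy x hx] at hQv
      exact hBan y hy' hy0 (by linear_combination hQv)
    rw [hy0, add_zero]
    rcases hA x hx with h | h | h | h
    · exact absurd h hx0
    · exact Or.inl h
    · exact Or.inr (Or.inl h)
    · exact Or.inr (Or.inr (Or.inl h))

theorem OD.not_max_four_two (hN : ND Q) (h6 : 6 ≤ finrank F V) (h : OD Q D 4)
    (hq : Nat.card F = 2)
    (hp : ∀ i, ∃ U, U ≤ D i ∧ (∀ x ∈ U, Q x = 0) ∧ 2 * finrank F U = finrank F (D i)) :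
    ∃ M, DStab D ⊓ Om Q < M ∧ M < Om Q := by
  have ht := h.total
  have h2 : (2 : F) = 0 := two_eq_zero_of_even_card (by rw [hq]; decide)
  have hex : ∀ i, ∃ a ∈ D i, ∃ b ∈ D i, Q a = 1 ∧ Q b = 1 ∧ polar Q a b = 1 := by
    intro i
    obtain ⟨a, ha, hQa⟩ := (h.nd i).exists_value_two hN (by rw [h.dim]; omega) 1
    have ha0 : a ≠ 0 := by rintro rfl; simp at hQa
    obtain ⟨b, hb, hab⟩ := (h.nd i).exists_pol_eq_one ha ha0
    obtain ⟨z, hz, hQz⟩ := (h.nd i).exists_value_affine hN (P := sp F [a])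
      (sp_le.2 (by simpa using ha)) (by rw [finrank_sp_one ha0, h.dim]) b 1
    exact ⟨a, ha, b + z, (D i).add_mem hb hz.1, hQa, hQz, by
      rw [polar_add_right, hab, mem_perp_sp.1 hz.2 a (by simp), add_zero]⟩
  let i1 : Fin t := ⟨0, by omega⟩
  let i2 : Fin t := ⟨1, by omega⟩
  have h12 : i1 ≠ i2 := by simp [i1, i2]
  obtain ⟨a, ha, b, hb, hQa, hQb, hab⟩ := hex i1
  obtain ⟨a', ha', b', hb', hQa', hQb', hab'⟩ := hex i2
  have o1 := h.orth _ _ h12 _ ha _ ha'
  have o2 := h.orth _ _ h12 _ ha _ hb'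
  have o3 := h.orth _ _ h12 _ hb _ ha'
  have o4 := h.orth _ _ h12 _ hb _ hb'
  have hu : Q (a + a') = 0 := by rw [Q_add, hQa, hQa', o1]; linear_combination h2
  have hv : Q (b + b') = 0 := by rw [Q_add, hQb, hQb', o4]; linear_combination h2
  have huv : polar Q (a + a') (b + b') = 0 := by
    simp only [polar_add_left, polar_add_right, hab, hab', o2, pol_comm Q a' b, o3]
    linear_combination h2
  have hneg : ∀ x : V, -x = x := fun x => by
    rw [neg_eq_iff_add_eq_zero, ← two_smul F, h2, zero_smul]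
  have hxx : ∀ x : V, x + x = 0 := fun x => by rw [← two_smul F, h2, zero_smul]
  have g1 : siegel Q (a + a') (b + b') a = a' := by
    rw [siegel_apply hu huv]
    simp only [polar_add_right, pol_self, h2, o1, o2, hab, hv]
    simp [sub_eq_add_neg, hneg, ← add_assoc, hxx]
  have g2 : siegel Q (a + a') (b + b') b = b' := by
    rw [siegel_apply hu huv]
    simp only [polar_add_right, pol_self, h2, o3, o4, pol_comm Q b a, hab, hv]
    simp [← add_assoc, hxx]
  have ginv : (siegel Q (a + a') (b + b'))⁻¹ = siegel Q (a + a') (b + b') := by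
    rw [siegel_inv, hneg]
  have g3 : siegel Q (a + a') (b + b') a' = a := by
    conv_lhs => rw [← ginv]
    exact inv_apply_eq g1
  have g4 : siegel Q (a + a') (b + b') b' = b := by
    conv_lhs => rw [← ginv]
    exact inv_apply_eq g2
  have hQab : Q (a + b) = 1 := by rw [Q_add, hQa, hQb, hab]; linear_combination h2
  have hQab' : Q (a' + b') = 1 := by rw [Q_add, hQa', hQb', hab']; linear_combination h2
  have key : ∀ x ∈ normSet Q D 1, siegel Q (a + a') (b + b') x ∈ normSet Q D 1 := by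
    rintro x ⟨hQx, i, hx⟩
    by_cases hi1 : i = i1
    · subst hi1
      obtain ⟨U, hU1, hU2, hU3⟩ := hp i1
      rw [h.dim] at hU3
      rcases four_plus_split hN hq (h.nd _) (h.dim _) hU1 hU2 (by omega) ha hb hQa hQb hab hx hQx
        with rfl | rfl | rfl | ⟨e1, e2⟩
      · rw [g1]; exact ⟨hQa', i2, ha'⟩
      · rw [g2]; exact ⟨hQb', i2, hb'⟩
      · rw [_root_.map_add, g1, g2]; exact ⟨hQab', i2, (D i2).add_mem ha' hb'⟩
      · rw [siegel_fix (by rw [polar_add_right, e1, h.orth _ _ h12 _ hx _ ha', add_zero])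
          (by rw [polar_add_right, e2, h.orth _ _ h12 _ hx _ hb', add_zero])]
        exact ⟨hQx, i1, hx⟩
    by_cases hi2 : i = i2
    · subst hi2
      obtain ⟨U, hU1, hU2, hU3⟩ := hp i2
      rw [h.dim] at hU3
      rcases four_plus_split hN hq (h.nd _) (h.dim _) hU1 hU2 (by omega) ha' hb' hQa' hQb' hab' hx
        hQx with rfl | rfl | rfl | ⟨e1, e2⟩
      · rw [g3]; exact ⟨hQa, i1, ha⟩
      · rw [g4]; exact ⟨hQb, i1, hb⟩
      · rw [_root_.map_add, g3, g4]; exact ⟨hQab, i1, (D i1).add_mem ha hb⟩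
      · rw [siegel_fix (by rw [polar_add_right, e1, h.orth _ _ h12.symm _ hx _ ha, add_zero])
          (by rw [polar_add_right, e2, h.orth _ _ h12.symm _ hx _ hb, add_zero])]
        exact ⟨hQx, i2, hx⟩
    · rw [siegel_fix (by
        rw [polar_add_right, h.orth _ _ hi1 _ hx _ ha, h.orth _ _ hi2 _ hx _ ha', add_zero]) (by
        rw [polar_add_right, h.orth _ _ hi1 _ hx _ hb, h.orth _ _ hi2 _ hx _ hb', add_zero])]
      exact ⟨hQx, i, hx⟩
  have ha0 : a ≠ 0 := by rintro rfl; simp at hQa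
  refine between_of (DStab_le_normSet 1) ⟨siegel Q (a + a') (b + b'),
    siegel_mem_Om hN (by omega) _ _, mem_SetStab_of_maps key (by rw [ginv]; exact key), ?_⟩
    (h.Om_not_SetStab hN h6 (by omega) (by omega) (fun x hx => hx.2) ⟨hQa, i1, ha⟩ ha0)
  have hd := finrank_le_inf_perp_sp (Q := Q) (D i1) [a, b]
  simp only [List.length_cons, List.length_nil, h.dim] at hd
  obtain ⟨y, hy, hy0⟩ := exists_not_mem (T := D i1 ⊓ perp Q (sp F [a, b])) (S := ⊥)
    (by rw [finrank_bot]; omega)
  have hy1 := mem_perp'.1 hy.2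
  refine h.not_mem_DStab h12.symm ha hy.1 ha0 (by simpa using hy0) (by rw [g1]; exact ha') ?_
  rw [siegel_fix (by
    rw [polar_add_right, hy1 a (mem_sp_of_mem (by simp)), h.orth _ _ h12 _ hy.1 _ ha', add_zero]) (by
    rw [polar_add_right, hy1 b (mem_sp_of_mem (by simp)), h.orth _ _ h12 _ hy.1 _ hb', add_zero])]
  exact hy.1

end Cfsg.Agent.H8
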