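import Cfsg.Agent.H8.PairMax

/-!
The subspace of vectors `y` such that all `siegel a (c • y)` lie in a given subgroup.
-/

set_option autoImplicit false
set_option linter.unusedSectionVars false

namespace Cfsg.Agent.H8

open QuadraticMap Module

variable {F V : Type*} [Field F] [AddCommGroup V] [Module F V]

/-- Vectors `y ⊥ a` with all `siegel a (c • y)` in `K`. -/
def MS (Q : QuadraticForm F V) (K : Subgroup (V ≃ₗ[F] V)) (a : V) : Submodule F V where
  carrier := {y | polar Q a y = 0 ∧ ∀ c : F, siegel Q a (c • y) ∈ K}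
  add_mem' := by
    rintro x y ⟨hx, hx'⟩ ⟨hy, hy'⟩
    refine ⟨by rw [polar_add_right, hx, hy, add_zero], fun c => ?_⟩
    by_cases ha : Q a = 0
    · rw [smul_add]
      exact siegel_add_mem ha (by rw [pol_smul_right, hx, mul_zero])
        (by rw [pol_smul_right, hy, mul_zero]) (hx' c) (hy' c)
    · rw [siegel_of_not fun h => ha h.1]; exact K.one_mem
  zero_mem' := ⟨by simp, fun c => by rw [smul_zero, siegel_zero]; exact K.one_mem⟩
  smul_mem' := by
    rintro d x ⟨hx, hx'⟩
    exact ⟨by rw [pol_smul_right, hx, mul_zero], fun c => by rw [smul_smul]; exact hx' _⟩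

variable {Q : QuadraticForm F V} {K : Subgroup (V ≃ₗ[F] V)}

theorem mem_MS {a y : V} : y ∈ MS Q K a ↔ polar Q a y = 0 ∧ ∀ c : F, siegel Q a (c • y) ∈ K :=
  Iff.rfl

theorem MS_siegel {a y : V} (h : y ∈ MS Q K a) : siegel Q a y ∈ K := by
  simpa using h.2 1

theorem self_mem_MS {a : V} (ha : Q a = 0) : a ∈ MS Q K a := by
  refine ⟨by rw [pol_self, ha, mul_zero], fun c => ?_⟩
  have := siegel_add_smul (Q := Q) (u := a) (v := 0) ha (by simp) c
  rw [zero_add, siegel_zero] at this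
  rw [this]; exact K.one_mem

theorem MS_conj {g : V ≃ₗ[F] V} (hg : g ∈ OG Q) (hgK : g ∈ K) {a y : V} (h : y ∈ MS Q K a) :
    g y ∈ MS Q K (g a) :=
  ⟨by rw [OG_pol hg, h.1], fun c => by
    rw [← _root_.map_smul]; exact siegel_conj_mem hg hgK (h.2 c)⟩

theorem MS_fix {g : V ≃ₗ[F] V} (hg : g ∈ OG Q) (hgK : g ∈ K) {a y : V} (ha : g a = a)
    (h : y ∈ MS Q K a) : g y ∈ MS Q K a := by
  have := MS_conj hg hgK h
  rwa [ha] at this

theorem MS_smul {a y : V} (c : F) (h : y ∈ MS Q K a) : y ∈ MS Q K (c • a) := by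
  refine ⟨by rw [pol_smul_left, h.1, mul_zero], fun d => ?_⟩
  by_cases ha : Q a = 0
  · rw [siegel_smul ha (by rw [pol_smul_right, h.1, mul_zero]), smul_smul]; exact h.2 _
  · by_cases hc : c = 0
    · have : siegel Q (c • a) (d • y) = 1 := by
        ext x
        rw [siegel_apply (by simp [hc]) (by simp [hc])]
        simp [hc]
      rw [this]; exact K.one_mem
    · rw [siegel_of_not fun h => ha (by
        have := h.1; rw [Q_smul] at this; simpa [hc] using this)]
      exact K.one_mem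

theorem MS_of_smul {a y : V} {c : F} (hc : c ≠ 0) (h : y ∈ MS Q K (c • a)) : y ∈ MS Q K a := by
  have := MS_smul c⁻¹ h
  rwa [smul_smul, inv_mul_cancel₀ hc, one_smul] at this

theorem MS_eigen {g : V ≃ₗ[F] V} (hg : g ∈ OG Q) (hgK : g ∈ K) {a y : V} {c : F} (hc : c ≠ 0)
    (ha : g a = c • a) (h : y ∈ MS Q K a) : g y ∈ MS Q K a := by
  have := MS_conj hg hgK h
  rw [ha] at this
  exact MS_of_smul hc this

theorem MS_swap {a y : V} (ha : Q a = 0) (hy : Q y = 0) (h : y ∈ MS Q K a) : a ∈ MS Q K y := by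
  have h1 : polar Q y a = 0 := by rw [pol_comm, h.1]
  refine ⟨h1, fun c => ?_⟩
  rw [← siegel_smul hy h1]
  exact siegel_swap_mem ha (by rw [Q_smul, hy, mul_zero]) (by rw [pol_smul_right, h.1, mul_zero])
    (h.2 c)

theorem siegel_all_of_MS {a : V} (h : ∀ y, polar Q a y = 0 → y ∈ MS Q K a) (y : V) :
    siegel Q a y ∈ K := by
  by_cases hy : polar Q a y = 0
  · exact MS_siegel (h y hy)
  · rw [siegel_of_not fun h => hy h.2]; exact K.one_mem

theorem mem_MS_of_all {a : V} (h : ∀ y, siegel Q a y ∈ K) {y : V} (hy : polar Q a y = 0) :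
    y ∈ MS Q K a := ⟨hy, fun _ => h _⟩

theorem MS_le_perp (a : V) : MS Q K a ≤ perp Q (sp F [a]) := fun _ hy =>
  mem_perp_sp.2 (by simpa using hy.1)

/-- A vector in `T` outside two proper subspaces. -/
theorem exists_not_mem_two {T A B : Submodule F V} (hA : ¬ T ≤ A) (hB : ¬ T ≤ B) :
    ∃ x ∈ T, x ∉ A ∧ x ∉ B := by
  by_contra h
  push Not at h
  rcases le_or_le_of_union (S := T) (A := A) (B := B) (fun x hx => by
    by_cases h1 : x ∈ A
    · exact Or.inl h1
    · exact Or.inr (h x hx h1)) with h1 | h1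
  · exact hA h1
  · exact hB h1

variable [FiniteDimensional F V]

theorem ND.not_perp_le (hN : ND Q) {S : Submodule F V} {x : V} (h : x ∉ S) :
    ¬ perp Q S ≤ perp Q (sp F [x]) := by
  intro h1
  have h2 := perp_anti (Q := Q) h1
  rw [hN.perp_perp, hN.perp_perp] at h2
  exact h (h2 (mem_sp_of_mem (by simp)))

/-- A vector orthogonal to `S` and to neither `x` nor `y`. -/
theorem ND.exists_perp_two (hN : ND Q) {S : Submodule F V} {x y : V} (hx : x ∉ S) (hy : y ∉ S) :
    ∃ z ∈ perp Q S, polar Q x z ≠ 0 ∧ polar Q y z ≠ 0 := by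
  obtain ⟨z, hz, h1, h2⟩ := exists_not_mem_two (hN.not_perp_le hx) (hN.not_perp_le hy)
  exact ⟨z, hz, fun h => h1 (mem_perp_sp.2 (by simpa using h)),
    fun h => h2 (mem_perp_sp.2 (by simpa using h))⟩

/-- Adjust a vector to have a given value of `Q` keeping its products with a list. -/
theorem ND.exists_value_list [Finite F] (hN : ND Q) (l : List V)
    (h : 2 * l.length + 2 ≤ finrank F V) (y : V) (c : F) :
    ∃ z, Q z = c ∧ ∀ w ∈ l, polar Q w z = polar Q w y := by
  obtain ⟨z, hz, hQ⟩ := hN.ndOn_top.exists_value_affine hN (P := sp F l) le_top (by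
    have := finrank_sp_le (F := F) l
    rw [finrank_top]; omega) y c
  exact ⟨y + z, hQ, fun w hw => by rw [polar_add_right, mem_perp_sp.1 hz.2 w hw, add_zero]⟩

theorem eq_zero_of_sing [Finite F] (hN : ND Q) (h5 : 5 ≤ finrank F V) {κ : V →ₗ[F] V}
    (h : ∀ u, Q u = 0 → κ u = 0) (x : V) : κ x = 0 := by
  obtain ⟨c, hc⟩ := scalar_of_eigen hN h5 (κ := κ) fun u hu => ⟨0, by rw [h u hu, zero_smul]⟩
  obtain ⟨u, -, hu0, hu⟩ := exists_sing_three Q (T := ⊤) (by rw [finrank_top]; omega)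
  have := hc u
  rw [h u hu] at this
  have hc0 : c = 0 := by
    by_contra h0
    exact hu0 ((smul_eq_zero.1 this.symm).resolve_left h0)
  rw [hc, hc0, zero_smul]

end Cfsg.Agent.H8
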