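import Cfsg.Agent.H1.N1d

/-! Small automisers away from the characteristic. -/

set_option autoImplicit false

namespace Cfsg.Agent.H8.G2

open Matrix Cfsg.Agent.MH Cfsg.Agent.H1.Mit Cfsg.Agent.H1.N1

variable {T K : Type*} [Group T] [Field K] {ρ : PR T K} {x g : T} {G : M4 K}

theorem exists_col (h : G.det ≠ 0) (i : Fin 4) : ∃ j, G j i ≠ 0 := by
  by_contra k
  push Not at k
  exact h (det_eq_zero_of_column_eq_zero i k)

theorem diag_conj {a b : T} {d e : Fin 4 → K} {i j : Fin 4} (hG : ρ.L g G) (n : G j i ≠ 0) (ha : ρ.O a (diagonal d))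
    (hb : ρ.O b (diagonal e)) (c : g * a * g⁻¹ = b) : d i = e j := by
  have := congrFun (congrFun (ha.conj_eq hG hb c) j) i
  rw [mul_diagonal, diagonal_mul] at this
  exact mul_left_cancel₀ n (this.trans (mul_comm _ _))

theorem e4 [Finite T] {p : ℕ} (h : ρ.Gm) (hp : p.Prime) (p0 : (p : K) = 0) : E4 T p := fun x hx => by
  refine or_iff_not_imp_right.2 fun np => ?_
  have := Fact.mk hp
  obtain ⟨r, hr, hd, rp⟩ : ∃ r, r.Prime ∧ r ∣ Nat.card (Cn x) ∧ r ≠ p := by
    by_contra k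
    push Not at k
    exact np (IsPGroup.of_card (Nat.eq_prime_pow_of_unique_prime_dvd Nat.card_pos.ne' fun {r} a b => k r a b))
  have ca := hx.2
  have o : Odd r := (OO_odd hx.1).of_dvd_nat hd
  generalize Cn x = C at *
  obtain ⟨y, yC, oy⟩ := exists_mem_orderOf hr hd
  have y1 : y ≠ 1 := by rintro rfl; exact hr.one_lt.ne (by simpa using oy)
  let R := {a | a ∈ C ∧ a ^ r = 1}
  have yR : y ∈ R := ⟨yC, oy ▸ pow_orderOf_eq_one y⟩
  obtain ⟨Q, hQ, k⟩ := h.diag (R := R) o (fun e => rp (char_uniq hp p0 hr e)) (fun a m => m.2) fun a m b n => ca.comm m.1 n.1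
  generalize ρ.cj Q hQ = ρ at k
  choose! d hd using k
  obtain ⟨i, hi⟩ : ∃ i, d y i ≠ 1 := by
    by_contra k
    push Not at k
    exact y1 ((hd y yR).eq_one.2 (by rw [show d y = fun _ => 1 from funext k, diagonal_one]))
  have cR : ∀ g ∈ Nm C, ∀ a ∈ R, g * a * g⁻¹ ∈ R := fun g m a n => ⟨Nm_conj m n.1, by simp [n.2]⟩
  have mR : ∀ a ∈ R, ∀ b ∈ R, a * b ∈ R := fun a m b n => ⟨mul_mem m.1 n.1, by
    rw [Commute.mul_pow (ca.comm m.1 n.1), m.2, n.2, mul_one]⟩
  have iR : ∀ a ∈ R, a⁻¹ ∈ R := fun a m => ⟨inv_mem m.1, by simp [m.2]⟩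
  have : ∀ g : Nm C, ∃ j, ∀ a ∈ R, d a i = d (g * a * (g : T)⁻¹) j := fun g => by
    obtain ⟨G, hG⟩ := ρ.exL g
    obtain ⟨j, hj⟩ := exists_col hG.nz i
    exact ⟨j, fun a m => diag_conj hG hj (hd a m) (hd _ (cR g g.2 a m)) rfl⟩
  choose f hf using this
  have key : ∀ g g' : Nm C, f g' = f g → (g' : T)⁻¹ * g ∈ C := fun g g' e => by_contra fun n => by
    have m := mul_mem (inv_mem g'.2) g.2
    have fx : ∀ a ∈ R, d ((g' : T)⁻¹ * g * a * ((g' : T)⁻¹ * g)⁻¹) i = d a i := fun a b => by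
      rw [hf g' _ (cR _ m a b), hf g a b, e]
      congr 1
      group
    generalize (g' : T)⁻¹ * g = k at n m fx
    obtain ⟨⟨a, b⟩, e⟩ := (Finite.injective_iff_surjective (f := fun a : R => (⟨(a : T)⁻¹ * (k * a * k⁻¹),
      mR _ (iR _ a.2) _ (cR k m a a.2)⟩ : R))).1 (fun a b e => Subtype.ext (by_contra fun z => n (by
        have e' : (a : T)⁻¹ * (k * a * k⁻¹) = (b : T)⁻¹ * (k * b * k⁻¹) := congrArg Subtype.val e
        rw [← ca _ (mul_mem a.2.1 (inv_mem b.2.1)) (mt mul_inv_eq_one.1 z)]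
        refine Cn_of_conj ?_
        calc k * (a * (b : T)⁻¹) * k⁻¹ = a * ((a : T)⁻¹ * (k * a * k⁻¹)) * (k * b * k⁻¹)⁻¹ := by group
          _ = _ := by rw [e']; group))) ⟨y, yR⟩
    have e' : k * a * k⁻¹ = a * y := by rw [← show a⁻¹ * (k * a * k⁻¹) = y from congrArg Subtype.val e]; group
    have z := ((hd a b).mul (hd y yR) (ca.comm b.1 yC)).uniq (hd _ (mR a b y yR))
    have z' := congrFun (congrFun z i) i
    rw [diagonal_mul_diagonal, diagonal_apply_eq, diagonal_apply_eq, ← e', fx a b] at z'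
    have nz : d a i ≠ 0 := by
      have := (hd a b).1.nz
      rw [det_diagonal] at this
      exact Finset.prod_ne_zero_iff.1 this i (Finset.mem_univ _)
    exact hi (mul_left_cancel₀ nz (z'.symm.trans (mul_one _).symm))
  have := Nat.card_le_card_of_injective (fun g : Nm C => (f g, (⟨_, key g _ (Function.apply_invFun_apply (f := f))⟩ : C)))
    fun a b e => by
      have e1 : f a = f b := congrArg Prod.fst e
      have e2 := congrArg (fun z => (z.2 : T)) e
      simp only [e1] at e2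
      exact Subtype.ext (mul_left_cancel e2)
  simpa using this

end Cfsg.Agent.H8.G2
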