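import Cfsg.Agent.H8.Ho5
import Cfsg.Agent.H6.W8

set_option autoImplicit false

/-! Package (H): a primitive group without transvections containing a homology is the group `G₃₂`. -/

namespace Cfsg.Agent.H8.Ho
open Cfsg Matrix Cfsg.Agent.H2.M4 Cfsg.Agent.Asch
open Cfsg.Agent.H1.Mit (col4 col4_mulVec mul_col4 col4_mul)

variable {K : Type*} [Field K] {Γ Δ : Subgroup (G4 K)} {ω l t : K} {a b c d v w φ ψ χ α : Fin 4 → K}

theorem cb_mul (Q R : G4 K) : cb R (cb Q Γ) = cb (Q * R) Γ := by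
  ext g; simp only [mem_cb, _root_.mul_inv_rev, mul_assoc]

theorem co (hω : ω ^ 2 + ω + 1 = 0) (sc : Sc K ≤ Γ) (ha : Hm Γ ω a φ) (hb : Hm Γ ω b ψ) (hc : Hm Γ ω c χ)
    (e1 : φ ⬝ᵥ b = 0) (e2 : φ ⬝ᵥ c = 0) (e3 : φ ⬝ᵥ d = 0) (e4 : ψ ⬝ᵥ a = 0) (e5 : ψ ⬝ᵥ c = 0) (e6 : ψ ⬝ᵥ d = 0)
    (e7 : χ ⬝ᵥ a = 0) (e8 : χ ⬝ᵥ b = 0) (e9 : χ ⬝ᵥ d = 0) (d0 : d ≠ 0) (hs : Hm Γ ω (a + b + c) α) (f1 : α ⬝ᵥ a = t)
    (f2 : α ⬝ᵥ b = t) (f3 : α ⬝ᵥ c = t) (f4 : α ⬝ᵥ d = 0) :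
    ∃ Q : G4 K, Q.val = col4 a b c d ∧ Fr (cb Q Γ) ω ∧ Hm (cb Q Γ) ω (TT 3) (t • TT 3) := by
  obtain ⟨Q, hQ⟩ := exists_col (a := a) (b := b) (c := c) (d := d) fun p q r s k => by
    have k1 := congrArg (φ ⬝ᵥ ·) k
    have k2 := congrArg (ψ ⬝ᵥ ·) k
    have k3 := congrArg (χ ⬝ᵥ ·) k
    simp [ha.1, hb.1, hc.1, e1, e2, e4, e3, e5, e6, e7, e8, e9] at k1 k2 k3
    exact ⟨k1, k2, k3, by simpa [k1, k2, k3, d0] using k⟩
  exact ⟨Q, hQ, fourth hω (sc_cb sc Q) ((ha.col hQ (EE 0) (by simp [EE])).congr rfl (by simp [EE0, ha.1, *]))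
    ((hb.col hQ (EE 1) (by simp [EE])).congr rfl (by simp [EE1, hb.1, *]))
    ((hc.col hQ (EE 2) (by simp [EE])).congr rfl (by simp [EE2, hc.1, *])),
    (hs.col hQ (TT 3) (by simp [TT])).congr rfl (by simp [TT, *])⟩

/-- the four generators in standard position -/
def Cd (Γ : Subgroup (G4 K)) (ω t : K) : Prop :=
  Hm Γ ω (EE 0) (EE 0) ∧ Hm Γ ω (EE 1) (EE 1) ∧ Hm Γ ω (TT 3) (t • TT 3) ∧ Hm Γ ω (TT 0) (t • TT 0)

variable [Finite K]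

theorem finish (h : St Γ) (h1 : ω ≠ 1) (hω : ω ^ 2 + ω + 1 = 0) (ht : 3 * t = 1) (hf : Fr Γ ω)
    (hs : Hm Γ ω (TT 3) (t • TT 3)) (i j k : Fin 4) (ij : i ≠ j) (ik : i ≠ k) (jk : j ≠ k) (i3 : i ≠ 3) (j3 : j ≠ 3)
    (k3 : k ≠ 3) (e : (TT 3 : Fin 4 → K) = EE i + EE j + EE k) (hr : Ro Γ ω b)
    (eb : b = b j • EE j + b k • EE k + b 3 • EE 3) (bj : b j ≠ 0) (bk : b k ≠ 0) (b3 : b 3 ≠ 0) :
    ∃ Q, Cd (cb Q Γ) ω t := by
  obtain ⟨Q, hQ, f, s⟩ := co (d := (b 3 / b j) • EE 3) (t := t) hω h.sc (hf i) (hf j) (hf k) (by simp [EE, ij])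
    (by simp [EE, ik]) (by simp [EE, i3]) (by simp [EE, ij.symm]) (by simp [EE, jk]) (by simp [EE, j3])
    (by simp [EE, ik.symm]) (by simp [EE, jk.symm]) (by simp [EE, k3]) (by simp [EE, bj, b3]) (hs.congr e.symm rfl)
    (by simp [e, EE, ij.symm, ik.symm, ij, ik]) (by simp [e, EE, ij, jk, ij.symm, jk.symm])
    (by simp [e, EE, ik, jk, ik.symm, jk.symm]) (by simp [EE, TT])
  obtain ⟨ψ, hr⟩ := hr
  have r1 : Ro (cb Q Γ) ω ![0, 1, b k / b j, 1] := Ro.sc ⟨_, hr.col hQ ![0, b j, b k, b j] (by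
    rw [eb]; simp [smul_smul, mul_div_cancel₀, bj, EE, ij, ik, jk, i3, j3, k3, ij.symm, ik.symm, jk.symm, i3.symm,
      j3.symm, k3.symm])⟩ (b j)⁻¹ (inv_ne_zero bj) (by simp [bj, div_eq_inv_mul])
  obtain ⟨n, hn⟩ := cube hω (x := -1) (y := b k / b j) (by
    have := rat (h.cb Q) h1 f r1 ⟨_, s⟩ 1 2 0 3 (by decide) (fun f a b => by simp [Fin.sum_univ_four, a, b]) rfl rfl
      (by simp [TT]) (by simp) (by simp [bj, bk]) (by simp [TT]) (by simp [TT])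
    simp [TT] at this
    linear_combination -this)
  obtain ⟨χ, r2⟩ : Ro (cb Q Γ) ω (TT 0) := (r1.dg f ![0, 0, n, 0]).sc 1 one_ne_zero (by
    ext i; fin_cases i <;> simp [TT, hn])
  have k := supp' (h.cb Q) h1 f r2 (i := 1) (j := 2) (by decide) (by simp [TT]) (by simp [TT])
  have k0 := (k 0).1 rfl
  have k1 := (k 1).2 (by simp [TT])
  have k2 := (k 2).2 (by simp [TT])
  have k3 := (k 3).2 (by simp [TT])
  simp [TT] at k1 k2 k3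
  exact ⟨Q, f 0, f 1, s, r2.congr rfl (by ext i; fin_cases i <;> simp [TT, k0] <;> grind)⟩

theorem exists_cd (h : St Γ) (hI : IR Γ ω) (h1 : ω ≠ 1) (ha : Hm Γ ω a φ) :
    ω ^ 2 + ω + 1 = 0 ∧ ∃ t Q, 3 * t = 1 ∧ Cd (cb Q Γ) ω t := by
  obtain ⟨hω, b, ψ, hb, e⟩ := exists_pair h hI h1 ha
  obtain ⟨a, φ, b, ψ, c, χ, ha, hb, hc, e1, e2, e3, e4⟩ := exists_path h hI h1 hω ha hb e
  have n1 : φ ⬝ᵥ c ≠ 0 := fun k => by simp [k] at e3
  have n2 : ψ ⬝ᵥ c ≠ 0 := fun k => by simp [k] at e4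
  have ha := ha.smul n1
  have hb := hb.smul n2
  have a1 : ((φ ⬝ᵥ c)⁻¹ • φ) ⬝ᵥ ((ψ ⬝ᵥ c) • b) = 0 := by simp [e1]
  have a2 : ((ψ ⬝ᵥ c)⁻¹ • ψ) ⬝ᵥ ((φ ⬝ᵥ c) • a) = 0 := by simp [e2]
  have a3 : ((φ ⬝ᵥ c)⁻¹ • φ) ⬝ᵥ c = 1 := by simp [n1]
  have a4 : ((ψ ⬝ᵥ c)⁻¹ • ψ) ⬝ᵥ c = 1 := by simp [n2]
  have a5 : 3 * (χ ⬝ᵥ ((φ ⬝ᵥ c) • a)) = 1 := by simpa using e3
  have a6 : 3 * (χ ⬝ᵥ ((ψ ⬝ᵥ c) • b)) = 1 := by simpa using e4
  generalize (φ ⬝ᵥ c)⁻¹ • φ = φ' at *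
  generalize (ψ ⬝ᵥ c)⁻¹ • ψ = ψ' at *
  generalize (φ ⬝ᵥ c) • a = a' at *
  generalize (ψ ⬝ᵥ c) • b = b' at *
  have h3 : (3 : K) ≠ 0 := fun k => by simp [k] at a5
  have hd := third h1 hω ha hb hc a1 a2 a3 a4 a5 a6
  obtain ⟨O, o0, o1, o2, o3⟩ := exists_ker φ' ψ' χ
  obtain ⟨Q, -, f, s⟩ := co (t := χ ⬝ᵥ a') hω h.sc ha hb hd a1 (by simp [a1, a3, ha.1]) o1 a2 (by simp [a2, a4, hb.1]) o2
    (by simp [a2, a5, ha.1]) (by simp [a1, a6, hb.1]) (by simp [o1, o2, o3]) o0 (hc.congr (by abel) rfl) rfl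
    (mul_left_cancel₀ h3 (a6.trans a5.symm)) (mul_left_cancel₀ h3 (by simp only [dotProduct_sub, hc.1]; linear_combination -2 * a5 - a6)) o3
  refine ⟨hω, χ ⬝ᵥ a', ?_⟩
  suffices k : ∃ R, Cd (cb R (cb Q Γ)) ω (χ ⬝ᵥ a') by
    obtain ⟨R, k⟩ := k
    exact ⟨Q * R, a5, cb_mul Q R ▸ k⟩
  obtain ⟨d, θ, hd, k1, v, k2, k3⟩ := hI.cb Q (LinearMap.ker (LinearMap.proj 3)) ⟨EE 0, by simp [EE], (f 0).ne⟩
    ⟨EE 3, by simp [EE]⟩
  simp only [LinearMap.mem_ker, LinearMap.coe_proj, Function.eval] at k1 k2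
  rcases supp (h.cb Q) h1 f hd with ⟨i, u, u0, rfl, e⟩ | ⟨-, m, m0, m1⟩
  · obtain rfl : i = 3 := by by_contra k; exact k1 (by simp [EE, Ne.symm k])
    have := congrArg (· ⬝ᵥ v) e
    simp [EE, k2, u0, k3] at this
  have F := fun i j k ij ik jk i3 j3 k3 e => finish (b := d) (h.cb Q) h1 hω a5 f s i j k ij ik jk i3 j3 k3 e ⟨_, hd⟩
  fin_cases m
  · exact F 0 1 2 (by decide) (by decide) (by decide) (by decide) (by decide) (by decide) (by simp [TT, EE0, EE1, EE2])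
      (by ext i; fin_cases i <;> simp [EE]; exact m0) (m1 _ (by decide)) (m1 _ (by decide)) k1
  · exact F 1 0 2 (by decide) (by decide) (by decide) (by decide) (by decide) (by decide) (by simp [TT, EE0, EE1, EE2])
      (by ext i; fin_cases i <;> simp [EE]; exact m0) (m1 _ (by decide)) (m1 _ (by decide)) k1
  · exact F 2 0 1 (by decide) (by decide) (by decide) (by decide) (by decide) (by decide) (by simp [TT, EE0, EE1, EE2])
      (by ext i; fin_cases i <;> simp [EE]; exact m0) (m1 _ (by decide)) (m1 _ (by decide)) k1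
  · exact absurd m0 k1

/-- the simple roots -/
def ga : Fin 4 → Fin 4 → K := ![![1, 0, 0, 0], ![1, 1, 1, 0], ![0, 1, 0, 0], ![0, 1, -1, 1]]

/-- the simple coroots -/
def gf (t : K) : Fin 4 → Fin 4 → K := ![![1, 0, 0, 0], ![t, t, t, 0], ![0, 1, 0, 0], ![0, t, -t, t]]

omit [Finite K] in
theorem sg_id (hω : ω ^ 2 + ω + 1 = 0) (ht : 3 * t = 1) (i : Fin 4) :
    !![-ω * (ω - 1), -ω, 0, 0; 0, -ω, ω - 1, 1; 0, -ω, 0, -1; 0, 0, 0, 1] * G32.sg ω i =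
      hm ω (ga i) (gf t i) * !![-ω * (ω - 1), -ω, 0, 0; 0, -ω, ω - 1, 1; 0, -ω, 0, -1; 0, 0, 0, 1] := by
  have e : ∀ a b c d p q r s : K, hm ω ![a, b, c, d] ![p, q, r, s] =
      !![1 + (ω - 1) * (a * p), (ω - 1) * (a * q), (ω - 1) * (a * r), (ω - 1) * (a * s);
        (ω - 1) * (b * p), 1 + (ω - 1) * (b * q), (ω - 1) * (b * r), (ω - 1) * (b * s);
        (ω - 1) * (c * p), (ω - 1) * (c * q), 1 + (ω - 1) * (c * r), (ω - 1) * (c * s);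
        (ω - 1) * (d * p), (ω - 1) * (d * q), (ω - 1) * (d * r), 1 + (ω - 1) * (d * s)] := fun a b c d p q r s => by
    ext i j; fin_cases i <;> fin_cases j <;> simp [hm, vecMulVec]
  fin_cases i <;> simp [G32.sg, ga, gf, e] <;> grind

theorem exists_G (h : St Γ) (h1 : ω ≠ 1) (hω : ω ^ 2 + ω + 1 = 0) (ht : 3 * t = 1) {Q : G4 K} (hc : Cd (cb Q Γ) ω t) :
    ∃ R, G32.G ω R ≤ Γ ∧ ∀ a φ, Hm Γ ω a φ → Hm (G32.G ω R ⊔ Sc K) ω a φ := by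
  have w0 := hc.1.l_ne
  have w1 := sub_ne_zero.2 h1
  obtain ⟨R, hR⟩ : ∃ R : G4 K, R.val = !![-ω * (ω - 1), -ω, 0, 0; 0, -ω, ω - 1, 1; 0, -ω, 0, -1; 0, 0, 0, 1] :=
    ⟨GeneralLinearGroup.mkOfDetNeZero !![-ω * (ω - 1), -ω, 0, 0; 0, -ω, ω - 1, 1; 0, -ω, 0, -1; 0, 0, 0, 1] (by
      simp [det_succ_row_zero, Fin.sum_univ_succ, Fin.succAbove, w0, w1]), rfl⟩
  have a0 : (ga 0 : Fin 4 → K) = EE 0 ∧ gf t 0 = EE 0 := ⟨EE0.symm, EE0.symm⟩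
  have a1 : (ga 1 : Fin 4 → K) = TT 3 ∧ gf t 1 = t • TT 3 := ⟨rfl, by simp [gf, TT]⟩
  have a2 : (ga 2 : Fin 4 → K) = EE 1 ∧ gf t 2 = EE 1 := ⟨EE1.symm, EE1.symm⟩
  have a3 : (ga 3 : Fin 4 → K) = TT 0 ∧ gf t 3 = t • TT 0 := ⟨rfl, by simp [gf, TT]⟩
  have key : ∀ i, Hm (cb Q Γ) ω (ga i) (gf t i) ∧
      cj (Q * R) (G32.sg ω i) = Q.val * hm ω (ga i) (gf t i) * (Q⁻¹).val := fun i => by
    refine ⟨?_, ?_⟩
    · fin_cases i
      exacts [hc.1.congr a0.1 a0.2, hc.2.2.1.congr a1.1 a1.2, hc.2.1.congr a2.1 a2.2, hc.2.2.2.congr a3.1 a3.2]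
    rw [cj_apply, _root_.mul_inv_rev, Units.val_mul, Units.val_mul, ← mul_assoc, mul_assoc Q.val, mul_assoc Q.val]
    congr 2
    rw [Units.mul_inv_eq_iff_eq_mul, hR, sg_id hω ht]
  have le : G32.G ω (Q * R) ≤ Γ := (Subgroup.closure_le _).2 (by
    rintro g ⟨i, e⟩
    obtain ⟨k1, k2⟩ := key i
    obtain ⟨x, hx, e'⟩ := mm_cb.1 k1.2
    rwa [show g = x from Units.ext (e.trans (k2.trans e'.symm))])
  have g : ∀ i, Hm (cb Q (G32.G ω (Q * R) ⊔ Sc K)) ω (ga i) (gf t i) := fun i => by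
    obtain ⟨k1, k2⟩ := key i
    obtain ⟨x, -, e'⟩ := mm_cb.1 k1.2
    exact ⟨k1.1, mm_cb.2 ⟨x, Subgroup.mem_sup_left (Subgroup.subset_closure ⟨i, e'.trans k2.symm⟩), e'⟩⟩
  obtain ⟨f, hT⟩ := gens h1 hω ht (sc_cb le_sup_right Q) ((g 0).congr a0.1.symm a0.2.symm)
    ((g 2).congr a2.1.symm a2.2.symm) ((g 1).congr a1.1.symm a1.2.symm) ⟨_, (g 3).congr a3.1.symm rfl⟩
  exact ⟨Q * R, le, fun a φ k => hm_cb'.1 (all_roots (h.cb Q) h1 hω (Subgroup.comap_mono (sup_le le h.sc)) f hT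
    (hm_cb'.2 k))⟩

variable {P : Subgroup (G4 K)}

omit [Finite K] in
theorem gen_of (simple : IsSimpleGroup (PQ P)) (h1 : l ≠ 1) (ha : Hm ((bar P).comap pr) l a φ) (sc : Sc K ≤ Δ)
    (h : ∀ a φ, Hm ((bar P).comap pr) l a φ → Mm Δ (hm l a φ)) : (bar P).comap pr ≤ Δ := by
  have : IsSimpleGroup (bar P) := (pqEquiv P).symm.isSimpleGroup
  obtain ⟨e1, r, hr, e2⟩ := id ha
  rcases (Subgroup.normalClosure_normal (s := {(⟨pr r, hr⟩ : bar P)})).eq_bot_or_eq_top with k | k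
  · have := k.le (Subgroup.subset_normalClosure rfl)
    obtain ⟨c, hc⟩ := pr_eq_one'.1 (congrArg Subtype.val (Subgroup.mem_bot.1 this))
    exact absurd (hm_ne_sc e1 (e2.symm.trans hc)) h1
  have le : Subgroup.normalClosure {(⟨pr r, hr⟩ : bar P)} ≤ (bar Δ).comap (bar P).subtype :=
    (Subgroup.closure_le _).2 fun x hx => by
      obtain ⟨_, rfl, e⟩ := Group.mem_conjugatesOfSet_iff.1 hx
      obtain ⟨⟨_, g, hg, rfl⟩, rfl⟩ := isConj_iff.1 e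
      obtain ⟨y, hy, e⟩ := h _ _ (ha.conj (Mm.of_mem (mem_bar hg)) g.mul_inv)
      rw [show y = g * r * g⁻¹ from Units.ext (by rw [e, ← conj_hm g.mul_inv, ← e2]; rfl)] at hy
      exact ⟨_, hy, by simp⟩
  exact fun g hg => le_sup_of_bar le_rfl sc (le (k.ge (Subgroup.mem_top ⟨_, hg⟩)))

omit [Finite K] in
theorem ir_of (simple : IsSimpleGroup (PQ P)) (full : Full (Geo.matrixSet P)) (h1 : l ≠ 1)
    (ha : Hm ((bar P).comap pr) l a φ) : IR ((bar P).comap pr) l := by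
  rintro U ⟨v, hv, v0⟩ ⟨w, hw⟩
  by_contra hn
  push Not at hn
  let S : Subgroup (G4 K) :=
    { carrier := {g | ∀ v, g.val *ᵥ v ∈ U ↔ v ∈ U}
      mul_mem' := fun {x y} hx hy v => by rw [Units.val_mul, ← mulVec_mulVec, hx, hy]
      one_mem' := fun v => by simp
      inv_mem' := fun {x} hx v => by rw [← hx, mulVec_mulVec, Units.mul_inv, one_mulVec] }
  have := gen_of (Δ := S) simple h1 ha (fun g hg v => by
    obtain ⟨c, e⟩ := mem_Sc.1 hg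
    rw [e, smul_mulVec, one_mulVec, U.smul_mem_iff (ne_zero_of_eq_smul e)]) fun b ψ hb => by
      have k : ∀ m : K, ∀ v ∈ U, hm m b ψ *ᵥ v ∈ U := fun m v hv => by
        rw [hm_mulVec]
        by_cases e : b ∈ U
        · exact add_mem hv (U.smul_mem _ e)
        · simpa [hn b ψ hb e v hv] using hv
      obtain ⟨g, -, e⟩ := hb.2
      refine ⟨g, fun v => ⟨fun e' => ?_, e ▸ k l v⟩, e⟩
      have := k l⁻¹ _ e'
      rwa [e, mulVec_mulVec, mul_eq_one_comm.1 hb.mul_inv, one_mulVec] at this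
  rcases full.irred U (by rintro _ ⟨x, hx, rfl⟩ v hv; exact (this (mem_bar hx) v).2 hv) with rfl | rfl
  exacts [v0 hv, hw trivial]

theorem ntv_of (ntv : H7.M4.NoTv P) : NoTv ((bar P).comap pr) := by
  rintro v φ e ⟨g, ⟨y, hy, e1⟩, e2⟩
  obtain ⟨c, hc⟩ := pr_eq_iff.1 e1
  refine NoTv.pow (Γ := P) (D := c • 1) (fun v φ _ ⟨x, hx, e⟩ => ?_) e ?_ (by simp [Commute, SemiconjBy])
    ⟨y, hy, by rw [hc, e2]; simp⟩
  · have := H6.W.eq_one_of_ntv ntv hx (v := v) (w := φ) (by rw [e, add_sub_cancel_left])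
    simpa [e] using this
  · rw [smul_pow, MH.pow_card_sub_one (ne_zero_of_eq_smul hc)]; simp

theorem rt_of (two : (2 : K) ≠ 0) (det : ∀ x ∈ P, x.val.det = 1) (perf : ⁅P, P⁆ = P) (simple : IsSimpleGroup (PQ P))
    (ntv : H7.M4.NoTv P) (sq : H7.M4.SQ P) : Rt ((bar P).comap pr) := by
  rintro E m hE ht ⟨g, hg, e⟩
  have k : ∀ n : ℕ, pr g ^ n = 1 → m ^ n = 1 := fun n hn => by
    obtain ⟨c, hc⟩ := pr_eq_one'.1 ((map_pow pr g n).trans hn)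
    rw [Units.val_pow_eq_pow_val, e, idem_pow hE] at hc
    exact idem_scal two hE ht hc
  refine (H6.W.rot22 two det perf simple ntv sq hg (a := m + 1) (b := -m) ?_ ?_).imp (k 2) (Or.imp (k 3) (k 5))
  · rw [e, ← pow_two, idem_pow hE]; module
  · simp [T, e, ht]; ring

open Polynomial in
omit [Finite K] in
theorem splits_smul {X : M4 K} (h : X.charpoly.Splits) {c : K} (hc : c ≠ 0) : (c • X).charpoly.Splits := by
  have : (c • X).charpoly = C (c ^ 4) * X.charpoly.comp (C c⁻¹ * Polynomial.X) := by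
    have h1 : X.charpoly.comp (C c⁻¹ * Polynomial.X) = ((compRingHom (C c⁻¹ * Polynomial.X)).mapMatrix X.charmatrix).det :=
      RingHom.map_det (compRingHom (C c⁻¹ * Polynomial.X)) X.charmatrix
    rw [h1, map_pow, show C c ^ 4 = C c ^ Fintype.card (Fin 4) from rfl, ← Matrix.det_smul, Matrix.charpoly]
    congr 1
    ext1 i j
    by_cases e : i = j
    · subst e; simp [mul_sub, ← mul_assoc, ← map_mul, hc]
    · simp [e]
  rw [this]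
  exact (h.comp_of_natDegree_le_one ((natDegree_C_mul_le _ _).trans natDegree_X_le)).C_mul _

/-- package (H) -/
theorem main (two : (2 : K) ≠ 0) (det : ∀ x ∈ P, x.val.det = 1) (perf : ⁅P, P⁆ = P) (simple : IsSimpleGroup (PQ P))
    (full : Full (Geo.matrixSet P)) (spl : ∀ x ∈ P, x.val.charpoly.Splits) (ntv : H7.M4.NoTv P) (sq : H7.M4.SQ P) :
    H7.M4.NoPer P ∨ G32.IsG32 P := by
  have hT := ntv_of ntv
  have rt := rt_of two det perf simple ntv sq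
  have sc : Sc K ≤ (bar P).comap pr := fun g hg => by rw [Subgroup.mem_comap, pr_eq_one.2 hg]; exact one_mem _
  have h : St ((bar P).comap pr) := ⟨two, sc, hT, rt, fun a φ hr => by
    obtain ⟨S, hS⟩ := exists_SS two (perfect_bar perf).commutator_eq_top (by
      rintro g ⟨y, hy, e⟩
      obtain ⟨c, hc⟩ := pr_eq_iff.1 e.symm
      rw [hc]
      exact splits_smul (spl y hy) (ne_zero_of_eq_smul hc)) rt hr
    exact hS.fin⟩
  rw [or_iff_not_imp_left, H7.M4.NoPer]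
  push Not
  rintro ⟨X, hX, c, v, φ, e, hn⟩
  have c0 := ne_zero_of_eq_smul e
  have m : Mm ((bar P).comap pr) (1 + vecMulVec v φ) :=
    ((Mm.of_mem (mem_bar hX)).smul sc (inv_ne_zero c0)).congr (by rw [e, smul_smul, inv_mul_cancel₀ c0, one_smul])
  have d0 : φ ⬝ᵥ v ≠ 0 := fun k => hn (pr_eq_one'.2 ⟨c, by rcases hT v φ k m with rfl | rfl <;> simpa using e⟩)
  have ha : Hm ((bar P).comap pr) (1 + φ ⬝ᵥ v) v ((φ ⬝ᵥ v)⁻¹ • φ) :=
    ⟨by simp [d0], m.congr (by simp [hm, smul_smul, d0])⟩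
  have h1 : 1 + φ ⬝ᵥ v ≠ 1 := by simpa using d0
  obtain ⟨hω, t, Q, ht, hc⟩ := exists_cd h (ir_of simple full h1 ha) h1 ha
  obtain ⟨R, k1, k2⟩ := exists_G h h1 hω ht hc
  refine ⟨two, fun k => by simp [k] at ht, _, hω, R, le_antisymm ?_ (Subgroup.map_le_iff_le_comap.2 k1)⟩
  rintro _ ⟨x, hx, rfl⟩
  exact mem_bar_sup (gen_of simple h1 ha le_sup_right (fun a φ k => (k2 a φ k).2) (mem_bar hx))

end Cfsg.Agent.H8.Ho
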