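import Cfsg.Agent.H1.N1d
import Cfsg.Agent.H1.N2a
import Cfsg.Agent.H1.M4P

set_option autoImplicit false

/-! The centraliser of a rotation. -/

namespace Cfsg.Agent.H8.Ng

open Matrix MulAction Cfsg.Agent.H4 Cfsg.Agent.H4.Mob Cfsg.Agent.H4.Bar Cfsg.Agent.H4.Pair Cfsg.Agent.H4.Dick
  Cfsg.Agent.MH Cfsg.Agent.H1.Mit Cfsg.Agent.H1.N1 Cfsg.Agent.H1.N1.PR

variable {T K : Type*} [Group T] [Field K]

theorem s4c : ∀ g u : Equiv.Perm (Fin 4), u = 1 ∨ u * u ≠ 1 ∨ g * u ≠ u * g ∨ g ^ 4 = 1 := by decide +kernel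

theorem a5c : ∀ g u : alternatingGroup (Fin 5), u = 1 ∨ u * u ≠ 1 ∨ g * u ≠ u * g ∨ g ^ 4 = 1 := by decide +kernel

theorem of_inj {M G : Type*} [Group M] [Group G] (f : M →* G) (hf : Function.Injective f)
    (h : ∀ g u : G, u = 1 ∨ u * u ≠ 1 ∨ g * u ≠ u * g ∨ g ^ 4 = 1) {g u : M} (iu : Inv u) (c : g * u = u * g) :
    g ^ 4 = 1 := by
  have := h (f g) (f u)
  simp only [← map_mul, ← map_pow, map_eq_one_iff _ hf, ne_eq, hf.eq_iff] at this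
  exact ((this.resolve_left iu.1).resolve_left (not_not.2 iu.2)).resolve_left (not_not.2 c)

theorem card_three [Finite K] (h2 : (2 : K) ≠ 0) {Γ Γ0 : Subgroup (PG K)}
    (hc : ∀ a ∈ Γ, ∀ b ∈ Γ, a * b * a⁻¹ * b⁻¹ ∈ Γ0)
    (hs : ∀ l : ℕ, l.Prime → (l : K) = 0 → l ∣ Nat.card Γ0 → l = 3 ∧ ¬ 9 ∣ Nat.card Γ0) {k : PG K} {E : Subfield K}
    (h3 : 3 ≤ Nat.card E) (hl : PSsub E ≤ cj k Γ) : Nat.card E = 3 := by
  classical
  by_contra hn
  have := Fintype.ofFinite E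
  obtain ⟨⟨a, ha⟩, a0, a1, a2⟩ : ∃ a : E, a ≠ 0 ∧ a ≠ 1 ∧ a ≠ -1 := by
    by_contra k
    push Not at k
    have : Fintype.card E ≤ ({0, 1, -1} : Finset E).card :=
      Finset.card_le_card fun b _ => by
        by_cases e : b = 0
        · simp [e]
        by_cases e' : b = 1
        · simp [e']
        simp [k b e e']
    have := Finset.card_le_three (a := (0 : E)) (b := 1) (c := -1)
    rw [Nat.card_eq_fintype_card] at h3 hn
    omega
  have b0 : a ≠ 0 := fun e => a0 (Subtype.ext e)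
  have b1 : a * a - 1 ≠ 0 := fun e => by
    rcases mul_self_eq_one_iff.1 (sub_eq_zero.1 e) with e | e
    exacts [a1 (Subtype.ext e), a2 (Subtype.ext e)]
  have key : ∀ b ∈ E, tr b ∈ cj k Γ0 := fun b hb => by
    have m1 : aff (a * a) 0 (mul_ne_zero b0 b0) ∈ PSsub E :=
      mob_mem_PSsub (s := a) (mul_mem ha ha) E.zero_mem E.zero_mem E.one_mem ha (by ring)
    have := hc _ (mem_cj.1 (hl m1)) _ (mem_cj.1 (hl (tr_mem_PSsub (div_mem hb (sub_mem (mul_mem ha ha) E.one_mem)))))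
    rw [mem_cj]
    convert this using 1
    have e := mul_div_cancel₀ b b1
    generalize b / (a * a - 1) = c at *
    rw [show b = a * a * c + -c by linear_combination -e, ← tr_mul, ← tr_inv, ← aff_conj_tr (b := 0) (mul_ne_zero b0 b0)]
    group
  have d : Nat.card E ∣ Nat.card Γ0 := by
    rw [← card_cj k Γ0, show Nat.card E = Nat.card (Multiplicative E) from rfl]
    refine Subgroup.card_dvd_of_injective (MonoidHom.mk' (fun b : Multiplicative E =>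
      (⟨tr (b.toAdd : K), key _ b.toAdd.2⟩ : cj k Γ0)) fun x y => Subtype.ext (by simp [tr_mul])) fun x y e => ?_
    have := congrArg Subtype.val e
    simp only [MonoidHom.mk'_apply, tr, aff_eq_aff] at this
    exact Multiplicative.toAdd.injective (Subtype.ext this.2)
  obtain ⟨p, hp, n, pp, e⟩ := FiniteField.card' E
  rw [← Nat.card_eq_fintype_card] at e
  obtain ⟨rfl, k9⟩ := hs p pp (by rw [← map_natCast E.subtype p, CharP.cast_eq_zero E p, map_zero])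
    ((dvd_pow_self p n.ne_zero).trans (e ▸ d))
  obtain ⟨_ | _ | n, n0⟩ := n
  · simp at n0
  · exact hn (by simpa using e)
  · exact k9 ((e ▸ pow_dvd_pow 3 (by simp : 2 ≤ n + 1 + 1)).trans d)

theorem dick_ng [Finite K] (h2 : (2 : K) ≠ 0) {Γ Γ0 : Subgroup (PG K)}
    (hc : ∀ a ∈ Γ, ∀ b ∈ Γ, a * b * a⁻¹ * b⁻¹ ∈ Γ0)
    (hs : ∀ l : ℕ, l.Prime → (l : K) = 0 → l ∣ Nat.card Γ0 → l = 3 ∧ ¬ 9 ∣ Nat.card Γ0) {u v c g : PG K} (hu : u ∈ Γ)
    (hv : v ∈ Γ) (hγ : c ∈ Γ) (hg : g ∈ Γ) (iu : Inv u) (iv : Inv v) (huv : u ≠ v) (cm : u * v = v * u)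
    (c1 : c * u * c⁻¹ = v) (c2 : c * v * c⁻¹ = u * v) (og : Od g) (gu : g * u = u * g) : g = 1 := by
  have hs' : (∃ k, ∃ E : Subfield K, 3 ≤ Nat.card E ∧ PSsub E ≤ cj k Γ ∧ cj k Γ ≤ PGsub E) →
      ∀ l : ℕ, l.Prime → (l : K) = 0 → l ∣ Nat.card Γ → l = 3 ∧ ¬ 9 ∣ Nat.card Γ := by
    rintro ⟨k, E, h3, hl, hu⟩ l pl l0 d
    have d2 := Subgroup.card_dvd_of_le hu
    have e3 := card_three h2 hc hs h3 hl
    have := Fintype.ofFinite E
    rw [card_cj, ← Nat.card_congr (pgSubEquiv E).toEquiv, MobCard.card_PG, e3] at d2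
    refine ⟨?_, fun k => by have := k.trans d2; omega⟩
    rcases (pl.dvd_mul (m := 2 ^ 3) (n := 3)).1 (d.trans d2) with e | e
    · obtain rfl := (Nat.prime_dvd_prime_iff_eq pl Nat.prime_two).1 (pl.dvd_of_dvd_pow e)
      exact absurd l0 h2
    · exact (Nat.prime_dvd_prime_iff_eq pl Nat.prime_three).1 e
  have fin : (Nonempty (Γ ≃* alternatingGroup (Fin 4)) ∨ Nonempty (Γ ≃* Equiv.Perm (Fin 4)) ∨
      Nonempty (Γ ≃* alternatingGroup (Fin 5))) → g = 1 := fun k => by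
    have iu' : Inv (⟨u, hu⟩ : Γ) := ⟨fun e => iu.1 (congrArg Subtype.val e), Subtype.ext iu.2⟩
    have gu' : (⟨g, hg⟩ : Γ) * ⟨u, hu⟩ = ⟨u, hu⟩ * ⟨g, hg⟩ := Subtype.ext gu
    refine og.eq_one' (k := 2) (congrArg Subtype.val (show (⟨g, hg⟩ : Γ) ^ 4 = 1 from ?_))
    rcases k with ⟨⟨e⟩⟩ | ⟨⟨e⟩⟩ | ⟨⟨e⟩⟩
    · exact of_inj ((alternatingGroup _).subtype.comp e) ((Subgroup.subtype_injective _).comp e.injective) s4c iu' gu'
    · exact of_inj e.toMonoidHom e.injective s4c iu' gu'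
    · exact of_inj e.toMonoidHom e.injective a5c iu' gu'
  have cen : ∀ w, (w = u ∨ w = v ∨ w = u * v) → c * w ≠ w * c := fun w hw e => by
    have e := mul_inv_eq_iff_eq_mul.2 e
    rcases hw with rfl | rfl | rfl
    · exact huv (e.symm.trans c1)
    · exact iu.1 (by simpa using (e.symm.trans c2).symm)
    · rw [← conj_mul, c1, c2, mul_eq_right] at e
      exact iv.1 e
  rcases dickson Γ with ⟨x, hx⟩ | ⟨x, y, hxy, k⟩ | ⟨-, -, k⟩ | ⟨-, -, -, k⟩ | k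
  · exfalso
    obtain ⟨k, hk⟩ := stab_aff hx
    have key : ∀ g ∈ Γ, Inv g → ∃ b, g = k * aff (-1) b (by simp) * k⁻¹ := fun g hg ig => by
      obtain ⟨a, b, ha, rfl⟩ := hk g hg
      have e := aff_eq_one.1 ((aff_mul ha ha).symm.trans (conj_mul_self.1 ig.2))
      rcases mul_self_eq_one_iff.1 e.1 with rfl | rfl
      · refine absurd ?_ ig.1
        rw [aff_eq_one.2 ⟨rfl, mul_left_cancel₀ h2 (by linear_combination e.2)⟩]; simp
      · exact ⟨b, rfl⟩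
    obtain ⟨b3, e⟩ := key _ (mul_mem hu hv) (iu.mul iv huv cm)
    obtain ⟨b1, rfl⟩ := key u hu iu
    obtain ⟨b2, rfl⟩ := key v hv iv
    rw [conj_mul, aff_mul, mul_left_inj, mul_right_inj, aff_eq_aff] at e
    exact h2 (by linear_combination e.1)
  · exfalso
    have cn : ∀ w ∈ Tor x y, Inv w → c * w = w * c := fun w hw iw => by
      by_cases n : c ∈ Tor x y
      · exact Tor_comm hxy.ne n hw
      · rw [← mul_inv_eq_iff_eq_mul, conj_eq_inv hxy.ne (k hγ) n hw, iw.inv_eq]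
    by_cases h1 : u ∈ Tor x y
    · exact cen u (by simp) (cn u h1 iu)
    by_cases h3 : v ∈ Tor x y
    · exact cen v (by simp) (cn v h3 iv)
    exact cen _ (by simp) (cn _ (mul_mem_Tor (k hu) (k hv) h1 h3) (iu.mul iv huv cm))
  · exact fin (k.imp_right .inl)
  · exact fin (.inr (.inr k))
  · rcases dick_four h2 Γ (hs' k) hu hv iu iv huv cm with ⟨⟨w, hw, e⟩, -⟩ | k
    exacts [absurd (e c hγ) (cen w hw), fin k]

theorem ng_of [Finite T] [Finite K] (h2 : (2 : K) ≠ 0) {C C0 : Subgroup T} (ψ : C →* PG K)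
    (hi : ∀ u : C, Inv (u : T) → ψ u ≠ 1) (le : C0 ≤ C) (hc : ∀ a ∈ C, ∀ b ∈ C, a * b * a⁻¹ * b⁻¹ ∈ C0)
    (hs : ∀ l : ℕ, l.Prime → (l : K) = 0 → ∀ z ∈ C0, z ≠ 1 → z ^ l = 1 → l = 3 ∧
      ∀ u ∈ C0, ∀ k, u ^ l ^ k = 1 → u * z = z * u → u = 1 ∨ u = z ∨ u = z⁻¹)
    {t s γ : T} (it : Inv t) (is : Inv s) (ts : t ≠ s) (cm : t * s = s * t) (c1 : γ * t * γ⁻¹ = s)
    (c2 : γ * s * γ⁻¹ = t * s) (ht : t ∈ C) (hs' : s ∈ C) (hγ : γ ∈ C) :
    ∃ Q ≤ C, Odd (Nat.card Q) ∧ (∀ g ∈ C, ∀ j ∈ Q, g * j * g⁻¹ ∈ Q) ∧ ∀ j ∈ C, Od j → j ∈ Cn t → j ∈ Q := by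
  classical
  refine ⟨ψ.ker.map C.subtype, Subgroup.map_subtype_le _, ?_, ?_, fun j hj oj jt => ⟨⟨j, hj⟩, ?_, rfl⟩⟩
  · refine Nat.not_even_iff_odd.1 fun e => ?_
    obtain ⟨_, ⟨u, hu, rfl⟩, iu⟩ := exists_mem_inv (even_iff_two_dvd.1 e)
    exact hi u iu hu
  · rintro g hg _ ⟨j, hj, rfl⟩
    exact ⟨_, ψ.normal_ker.conj_mem j hj ⟨g, hg⟩, rfl⟩
  have iv : ∀ u : C, Inv (u : T) → Inv (ψ u) := fun u iu =>
    ⟨hi u iu, by rw [← map_mul, show u * u = 1 from Subtype.ext iu.2, map_one]⟩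
  have d : Nat.card ((C0.subgroupOf C).map ψ) ∣ Nat.card C0 := by
    rw [← Nat.card_congr (Subgroup.subgroupOfEquivOfLe le).toEquiv]
    exact Subgroup.card_map_dvd _ _
  refine dick_ng h2 (Γ := ψ.range) (Γ0 := (C0.subgroupOf C).map ψ) ?_ (fun l pl l0 dl => ?_) ⟨⟨t, ht⟩, rfl⟩ ⟨⟨s, hs'⟩, rfl⟩
    ⟨⟨γ, hγ⟩, rfl⟩ ⟨⟨j, hj⟩, rfl⟩ (iv _ it) (iv _ is) (fun e => hi (⟨t, ht⟩ * ⟨s, hs'⟩) (it.mul is ts cm) (by
      rw [map_mul, e]; exact (iv _ is).2)) (by rw [← map_mul, ← map_mul]; exact congrArg ψ (Subtype.ext cm))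
    (by rw [← map_inv, ← map_mul, ← map_mul]; exact congrArg ψ (Subtype.ext c1))
    (by rw [← map_inv, ← map_mul, ← map_mul, ← map_mul]; exact congrArg ψ (Subtype.ext c2))
    (oj.imp fun n k => ⟨k.1, by rw [← map_pow, show (⟨j, hj⟩ : C) ^ n = 1 from Subtype.ext k.2, map_one]⟩)
    (by rw [← map_mul, ← map_mul]; exact congrArg ψ (Subtype.ext (mem_Cn.1 jt).symm))
  · rintro _ ⟨a, rfl⟩ _ ⟨b, rfl⟩
    exact ⟨a * b * a⁻¹ * b⁻¹, hc _ a.2 _ b.2, by simp⟩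
  have := Fact.mk pl
  obtain ⟨R⟩ : Nonempty (Sylow l C0) := inferInstance
  obtain ⟨z, hz, oz, cz⟩ := exists_center pl R.isPGroup' (R.ne_bot_of_dvd_card (dl.trans d))
  obtain ⟨rfl, k⟩ := hs l pl l0 z z.2 (fun e => pl.ne_one (by rw [← oz, orderOf_eq_one_iff]; exact Subtype.ext e))
    (congrArg Subtype.val (oz ▸ pow_orderOf_eq_one z))
  refine ⟨rfl, fun e => ?_⟩
  have e1 := Nat.le_of_dvd Nat.card_pos (R.pow_dvd_card_of_pow_dvd_card (n := 2) (e.trans d))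
  have e2 : ((R : Subgroup C0) : Set C0) ⊆ ({1, z, z⁻¹} : Finset C0) := fun u hu => by
    obtain ⟨n, hn⟩ := R.isPGroup' ⟨u, hu⟩
    rw [Finset.mem_coe, Finset.mem_insert, Finset.mem_insert, Finset.mem_singleton]
    exact (k u u.2 n (congrArg (fun x => (x.val : T)) (congrArg Subtype.val hn))
      (congrArg Subtype.val (mem_Cn.1 (cz hu)).symm)).imp Subtype.ext (Or.imp Subtype.ext Subtype.ext)
  have := Set.ncard_le_ncard e2
  rw [ncard_coe, Set.ncard_coe_finset] at this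
  have := Finset.card_le_three (a := (1 : C0)) (b := z) (c := z⁻¹)
  omega

theorem comm_nil2 (two : (2 : K) ≠ 0) {m n : M2 K} (h1 : m * m = 0) (h2 : n * n = 0) (h3 : m * n = n * m) : m * n = 0 := by
  have z := fun i j => congrFun (congrFun h1 i) j
  have y := fun i j => congrFun (congrFun h2 i) j
  have x := fun i j => congrFun (congrFun h3 i) j
  have z1 := z 0 0; have z2 := z 0 1; have z3 := z 1 0; have z4 := z 1 1
  have y1 := y 0 0; have y2 := y 0 1; have y3 := y 1 0; have y4 := y 1 1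
  have x1 := x 0 0; have x2 := x 0 1; have x3 := x 1 0
  simp only [mul_apply, Fin.sum_univ_two, Matrix.zero_apply] at z1 z2 z3 z4 y1 y2 y3 y4 x1 x2 x3
  have t1 : m 1 1 = -m 0 0 := by grind
  have t2 : n 1 1 = -n 0 0 := by grind
  rw [t1, t2] at x2 x3
  have e1 : m 0 0 * n 0 1 = m 0 1 * n 0 0 := mul_left_cancel₀ two (by linear_combination x2)
  have e2 : m 1 0 * n 0 0 = m 0 0 * n 1 0 := mul_left_cancel₀ two (by linear_combination x3)
  have e3 : m 0 0 * n 0 0 + m 0 1 * n 1 0 = 0 := by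
    by_cases b0 : m 0 1 = 0
    · have : m 0 0 = 0 := by simpa [b0] using z1
      simp [b0, this]
    · exact mul_left_cancel₀ b0 (by linear_combination n 0 1 * z1 - m 0 0 * e1 + m 0 1 * x1)
  ext i j
  fin_cases i <;> fin_cases j <;> simp [mul_apply, t1, t2]
  exacts [e3, by linear_combination e1, by linear_combination e2, by linear_combination e3 - x1]

theorem quad_nil {N : M4 K} {a b : K} (h : N * N = a • N + b • 1) (h4 : N ^ 4 = 0) : N * N = 0 := by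
  have e : (N * (N - a • 1)) ^ 4 = (b ^ 4) • 1 := by
    rw [mul_sub, h]; simp [_root_.smul_pow]
  rw [Commute.mul_pow ((Commute.refl N).sub_right ((Commute.one_right N).smul_right a)), h4, zero_mul] at e
  obtain rfl : b = 0 := by simpa using congrFun (congrFun e 0) 0 |>.symm
  rw [zero_smul, add_zero] at h
  have : N ^ 4 = a ^ 3 • N := by simp [pow_succ, h, smul_smul]
  rcases smul_eq_zero.1 (this.symm.trans h4) with k | k
  · rw [h, pow_eq_zero_iff (by decide) |>.1 k, zero_smul]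
  · simp [k]

theorem th_smul {c : K} (hc : c ≠ 0) (X : M4 K) : th (c • X) = th X := by
  simp only [th, b1, b3, trace, adjugate_fin_two, det_fin_two, diag, mul_apply, Fin.sum_univ_two]
  simp
  rw [show c * X 0 0 * (c * X 1 1) - c * X 0 1 * (c * X 1 0) = c * c * (X 0 0 * X 1 1 - X 0 1 * X 1 0) by ring,
    ← mul_div_mul_left _ (X 0 0 * X 1 1 - X 0 1 * X 1 0) (mul_ne_zero hc hc)]
  congr 1; ring

variable {ρ : PR T K}

theorem neg_cj (n : ρ.Neg) {Q : M4 K} (hQ : Q.det ≠ 0) : (ρ.cj Q hQ).Neg where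
  pm c e := n.pm c ((cj_L.1 e).congr (by simp [ri hQ]))
  neg u U iu e := cj_inj hQ (by rw [← cj_mul hQ, n.neg u _ iu e]; simp [ri hQ])

theorem even_ord {u y : T} (iu : Inv u) (oy : Od y) (y1 : y ≠ 1) (c : u * y = y * u) :
    ¬ ((u * y) ^ 2 = 1 ∨ (u * y) ^ 3 = 1 ∨ (u * y) ^ 5 = 1) := by
  have k : ∀ n, (u * y) ^ (2 * n + 1) ≠ 1 := fun n e => by
    rw [Commute.mul_pow c, pow_succ u, pow_mul, pow_two, iu.2, one_pow, one_mul, mul_eq_one_iff_eq_inv] at e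
    exact iu.1 (Od.eq_one (e ▸ (oy.pow _).inv) iu.2)
  rintro (e | e | e)
  · rw [Commute.mul_pow c, pow_two, iu.2, one_mul, pow_two] at e
    exact y1 (oy.eq_one e)
  exacts [k 1 e, k 2 e]

variable [Finite T] [Finite K]

theorem ng_ss (h : ρ.Gm) (n : ρ.Neg) {y : T} {a b : K} (ab : a ≠ b) (hy : ρ.L y (diagonal ![a, a, b, b])) (oy : Od y)
    (y1 : y ≠ 1) : ∃ ψ : Cn y →* PG K, (∀ u : Cn y, Inv (u : T) → ψ u ≠ 1) ∧
      ∀ l : ℕ, l.Prime → (l : K) = 0 → ∀ z ∈ Cn y, z ≠ 1 → z ^ l = 1 → l = 3 ∧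
        ∀ u ∈ Cn y, ∀ k, u ^ l ^ k = 1 → u * z = z * u → u = 1 ∨ u = z ∨ u = z⁻¹ := by
  have q : ∀ g ∈ Cn y, ∀ G, ρ.L g G → UL G ∧ UR G := fun g hg G hG => by
    obtain ⟨m, om, e⟩ := oy
    obtain ⟨Y, hY, -⟩ := ρ.exO om e
    obtain ⟨c, c4, rfl⟩ := hy.uniq hY.1
    have := hY.comm hG (mem_Cn.1 hg).symm
    rw [Matrix.mul_smul, Matrix.smul_mul] at this
    exact comm_bd (d := ![a, a, b, b]) ab ab ab ab (smul_right_injective _ (show c ≠ 0 by rintro rfl; simp at c4) this)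
  obtain ⟨ψ, hψ⟩ := Bk.hom (ρ := ρ) (H := Cn y) ⟨b1_smul, b1_one, fun x _ y hy X Y _ hY => b1_mul X (q y hy Y hY).1⟩
  refine ⟨ψ, fun u iu e => ?_, fun l pl l0 z hz z1 zl => ?_⟩
  · obtain ⟨U, hU⟩ := ρ.exL u
    obtain ⟨_, k⟩ := hψ u U hU
    obtain ⟨e1, e2, e3⟩ := mob_eq_one.1 (k.symm.trans e)
    obtain ⟨⟨a1, a2, a3, a4⟩, a5, a6, a7, a8⟩ := q u u.2 U hU
    have d := (det_ul (q u u.2 U hU).1).symm.trans hU.det
    have s := fun i j => congrFun (congrFun (n.neg u U iu hU) i) j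
    have s0 := s 0 0; have s1 := s 2 2; have s2 := s 2 3; have s3 := s 3 2; have s4 := s 3 3
    simp [b1, b2, det_fin_two, mul_apply, Fin.sum_univ_four, *] at e1 e2 e3 d s0 s1 s2 s3 s4
    have h2 := h.two
    have t : U 2 2 + U 3 3 ≠ 0 := fun t => h2 (by grind)
    have f1 : U 2 3 = 0 := mul_left_cancel₀ t (by linear_combination s2)
    have f2 : U 3 2 = 0 := mul_left_cancel₀ t (by linear_combination s3)
    have f3 : U 2 2 = U 3 3 := mul_left_cancel₀ t (by linear_combination s1 - s4)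
    refine even_ord iu oy y1 (mem_Cn.1 u.2).symm (h.rot _ _ (U 1 1 * a + U 3 3 * b) (-(U 1 1 * a * (U 3 3 * b)))
      (hU.mul hy) ?_)
    rw [show U = diagonal ![U 1 1, U 1 1, U 3 3, U 3 3] by ext i j; fin_cases i <;> fin_cases j <;> simp [*]]
    ext i j; fin_cases i <;> fin_cases j <;> simp <;> ring
  have ol : Odd l := pl.odd_of_ne_two (by rintro rfl; exact h.two l0)
  have key : ∀ u ∈ Cn y, ∀ k, u ^ l ^ k = 1 → ∃ U, ρ.O u U ∧ (U - 1) * (U - 1) = 0 := fun u hu k e => by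
    obtain ⟨U, hU, e'⟩ := ρ.exO ol.pow e
    exact ⟨U, hU, bd_nil (UL.sub1 (q u hu U hU.1).1) (q u hu U hU.1).2.sub1 (nil_of_pow pl l0 e')⟩
  obtain ⟨Z, hZ, eZ⟩ := key z hz 1 (by simpa using zl)
  obtain ⟨h3, sz⟩ := h.sq z Z hZ.1 (mt hZ.eq_one.2 z1) eZ
  refine ⟨by_contra fun e => ?_, fun u hu k e c => ?_⟩
  · have := (CharP.charP_iff_prime_eq_zero (R := K) pl).2 l0
    exact e ((Nat.prime_dvd_prime_iff_eq pl Nat.prime_three).1 ((CharP.cast_eq_zero_iff K l 3).1 h3))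
  obtain ⟨U, hU, eU⟩ := key u hu k e
  have c1 : (U - 1) * (Z - 1) = (Z - 1) * (U - 1) := by
    simp only [mul_sub, sub_mul, hZ.comm hU.1 c, mul_one, one_mul]; abel
  have q1 := q u hu U hU.1
  have q2 := q z hz Z hZ.1
  have : (U - 1) * (Z - 1) = 0 := by
    refine bd_ext ((UL.sub1 q1.1).mul (UL.sub1 q2.1)) (q1.2.sub1.mul q2.2.sub1) ?_ ?_
    · rw [b1_mul _ (UL.sub1 q2.1)]
      exact comm_nil2 h.two (by rw [← b1_mul _ (UL.sub1 q1.1), eU, b1_zero]) (by rw [← b1_mul _ (UL.sub1 q2.1), eZ, b1_zero])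
        (by rw [← b1_mul _ (UL.sub1 q1.1), ← b1_mul _ (UL.sub1 q2.1), c1])
    · rw [b2_mul (UL.sub1 q1.1)]
      exact comm_nil2 h.two (by rw [← b2_mul (UL.sub1 q1.1), eU, b2_zero]) (by rw [← b2_mul (UL.sub1 q2.1), eZ, b2_zero])
        (by rw [← b2_mul (UL.sub1 q1.1), ← b2_mul (UL.sub1 q2.1), c1])
  exact sz u U hU.1 this (c1.symm.trans this)

theorem ng_un (h : ρ.Gm) (n : ρ.Neg) {y : T} (hy : ρ.L y (U0 K)) : ∃ ψ : Cn y →* PG K,
    (∀ u : Cn y, Inv (u : T) → ψ u ≠ 1) ∧ ∃ C0 ≤ Cn y, (∀ a ∈ Cn y, ∀ b ∈ Cn y, a * b * a⁻¹ * b⁻¹ ∈ C0) ∧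
      ∀ l : ℕ, l.Prime → (l : K) = 0 → ∀ z ∈ C0, z ≠ 1 → z ^ l = 1 → l = 3 ∧
        ∀ u ∈ C0, ∀ k, u ^ l ^ k = 1 → u * z = z * u → u = 1 ∨ u = z ∨ u = z⁻¹ := by
  have u1 : U0 K ≠ 1 := fun e => by simpa [U0] using congrFun (congrFun e 0) 2
  obtain ⟨h3, sx⟩ := h.sq y _ hy u1 U0_sq
  have oX := quad_O h3 hy U0_sq
  have cm : ∀ g ∈ Cn y, ∀ G, ρ.L g G → G * U0 K = U0 K * G := fun g hg G hG => oX.comm hG (mem_Cn.1 hg).symm
  have q : ∀ g ∈ Cn y, ∀ G, ρ.L g G → Q0 G := fun g hg G hG => comm_U0 (cm g hg G hG)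
  have tm : ∀ a ∈ Cn y, ∀ b ∈ Cn y, ∀ A B, ρ.L a A → ρ.L b B → th (A * B) = th A + th B := fun a ha b hb A B hA hB =>
    th_mul (q a ha A hA) (q b hb B hB) hA.nz hB.nz
  have tu : ∀ {a A B}, ρ.L a A → ρ.L a B → th B = th A := fun hA hB => by
    obtain ⟨c, c4, rfl⟩ := hA.uniq hB
    exact th_smul (by rintro rfl; simp at c4) _
  have ti : ∀ a ∈ Cn y, ∀ A, ρ.L a A → th A⁻¹ = -th A := fun a ha A hA => by
    have := tm _ ha _ (inv_mem ha) _ _ hA hA.inv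
    rw [ri hA.nz, th_one] at this
    linear_combination -this
  obtain ⟨ψ, hψ⟩ := Bk.hom (ρ := ρ) (H := Cn y) ⟨b1_smul, b1_one, fun x _ y hy X Y _ hY => b1_mul X (q y hy Y hY).1⟩
  let C0 : Subgroup T :=
    { carrier := {g | g ∈ Cn y ∧ ∃ G, ρ.L g G ∧ th G = 0}
      mul_mem' := by
        rintro a b ⟨ha, A, hA, e⟩ ⟨hb, B, hB, e'⟩
        exact ⟨mul_mem ha hb, _, hA.mul hB, by rw [tm a ha b hb A B hA hB, e, e', add_zero]⟩
      one_mem' := ⟨one_mem _, 1, ρ.oneL, th_one⟩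
      inv_mem' := by
        rintro a ⟨ha, A, hA, e⟩
        exact ⟨inv_mem ha, _, hA.inv, by rw [ti a ha A hA, e, neg_zero]⟩ }
  refine ⟨ψ, fun u iu e => ?_, C0, fun g hg => hg.1, fun a ha b hb => ?_, fun l pl l0 z hz z1 zl => ?_⟩
  · obtain ⟨U, hU⟩ := ρ.exL u
    obtain ⟨_, k⟩ := hψ u U hU
    obtain ⟨e1, e2, e3⟩ := mob_eq_one.1 (k.symm.trans e)
    have s := fun i j => congrFun (congrFun (n.neg u U iu hU) i) j
    obtain ⟨a, b, c, d, e, f, g, k', rfl⟩ := (q u u.2 U hU).eq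
    have s0 := s 0 0; have s1 := s 0 2; have s2 := s 0 3; have s3 := s 1 2; have s4 := s 1 3
    simp [b1] at e1 e2 e3
    subst e1 e2 e3
    simp [mul_apply, Fin.sum_univ_four] at s0 s1 s2 s3 s4
    have a2 : 2 * a ≠ 0 := mul_ne_zero h.two (by rintro rfl; simp at s0)
    obtain rfl : e = 0 := mul_left_cancel₀ a2 (by linear_combination s1)
    obtain rfl : f = 0 := mul_left_cancel₀ a2 (by linear_combination s2)
    obtain rfl : g = 0 := mul_left_cancel₀ a2 (by linear_combination s3)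
    obtain rfl : k' = 0 := mul_left_cancel₀ a2 (by linear_combination s4)
    exact iu.1 (hU.sc (c := a) (by ext i j; fin_cases i <;> fin_cases j <;> simp))
  · obtain ⟨A, hA⟩ := ρ.exL a
    obtain ⟨B, hB⟩ := ρ.exL b
    have m := mul_mem (mul_mem ha hb) (inv_mem ha)
    refine ⟨mul_mem m (inv_mem hb), _, (hA.conj hB).mul hB.inv, ?_⟩
    rw [tm _ m _ (inv_mem hb) _ _ (hA.conj hB) hB.inv, tm _ (mul_mem ha hb) _ (inv_mem ha) _ _ (hA.mul hB) hA.inv,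
      tm _ ha _ hb _ _ hA hB, ti a ha A hA, ti b hb B hB]
    ring
  obtain rfl : l = 3 := by
    have := (CharP.charP_iff_prime_eq_zero (R := K) pl).2 l0
    exact (Nat.prime_dvd_prime_iff_eq pl Nat.prime_three).1 ((CharP.cast_eq_zero_iff K l 3).1 h3)
  have key : ∀ u ∈ C0, ∀ k, u ^ 3 ^ k = 1 → ∃ U, ρ.O u U ∧ (U - 1) * (U - 1) = 0 ∧
      (U - 1) * (U0 K - 1) = (U0 K - 1) * (U - 1) ∧ ((U0 K - 1) * (U - 1) = 0 → u = 1) := by
    rintro u ⟨hu, G, hG, tG⟩ k e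
    obtain ⟨U, hU, e'⟩ := ρ.exO (Odd.pow (by decide)) e
    have t := (tu hG hU.1).trans tG
    have q1 := UL.sub1 (q u hu U hU.1).1
    have n4 := nil_of_pow pl l0 e'
    obtain ⟨k1, k2⟩ := q0_cube h3 (q u hu U hU.1) (m := b1 (U - 1)) (by rw [b1_sub, b1_one]; simp) (nil2 ⟨4, by
      rw [← b1_zero, ← n4, show (U - 1) ^ 4 = (U - 1) * ((U - 1) * ((U - 1) * (U - 1))) by simp [pow_succ, mul_assoc],
        b1_mul _ (q1.mul (q1.mul q1)), b1_mul _ (q1.mul q1), b1_mul _ q1]; simp [pow_succ, mul_assoc]⟩)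
    obtain ⟨c, -, e'⟩ := (hU.1.pow 3).of_one (h.per _ _ 1 (hU.1.pow 3) k1)
    have c0 : (U - 1) * (U0 K - 1) = (U0 K - 1) * (U - 1) := by
      simp only [mul_sub, sub_mul, cm u hu U hU.1, mul_one, one_mul]; abel
    refine ⟨U, hU, k2 c e' t, c0, fun e => ?_⟩
    have t2 : th (U0 K) = 2 := by simpa using th_U0 (K := K) one_ne_zero
    rcases sx u U hU.1 (c0.trans e) e with e | rfl | rfl
    · exact e
    · exact absurd ((tu hU.1 hy).trans t) (t2 ▸ h.two)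
    · rw [← tu hU.1 hy.inv, ti y (self_mem_Cn y) _ hy, t2, neg_eq_zero] at t
      exact absurd t h.two
  obtain ⟨Z, hZ, eZ, cZ, nZ⟩ := key z hz 1 (by simpa using zl)
  refine ⟨rfl, fun u hu k e c => ?_⟩
  obtain ⟨U, hU, eU, cU, nU⟩ := key u hu k e
  have c1 : (U - 1) * (Z - 1) = (Z - 1) * (U - 1) := by
    simp only [mul_sub, sub_mul, hZ.comm hU.1 c, mul_one, one_mul]; abel
  rcases cyc_three h.two U0_sq eZ eU cZ.symm cU c1 with k | k | k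
  exacts [absurd (nZ k) z1, .inl (nU k), (h.sq z Z hZ.1 (mt hZ.eq_one.2 z1) eZ).2 u U hU.1 (c1.trans k) k]

/-- package G3 -/
theorem ng (h : ρ.Gm) (n : ρ.Neg) : NG ρ.Rt := fun t s γ y it is ts cm c1 c2 ry oy y1 ht hs hγ => by
  obtain ⟨r, pr, e⟩ : ∃ r : ℕ, r.Prime ∧ y ^ r = 1 := by
    rcases h.ord ry with e | e | e
    exacts [⟨2, by norm_num, e⟩, ⟨3, by norm_num, e⟩, ⟨5, by norm_num, e⟩]
  by_cases r0 : (r : K) = 0
  · obtain ⟨Y, hY, e'⟩ := ρ.exO (pr.odd_of_ne_two (by rintro rfl; exact h.two r0)) e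
    obtain ⟨a, b, q⟩ := ry.all hY.1
    obtain ⟨Q, hQ, e''⟩ := nf_quad (X := Y) (quad_nil (a := a - 2) (b := a + b - 1) (by
      simp only [mul_sub, sub_mul, q, mul_one, one_mul]; module) (nil_of_pow (k := 1) pr r0 (by simpa using e')))
      fun k => y1 (h.per y Y 1 hY.1 (by rwa [one_smul]))
    obtain ⟨ψ, k1, C0, k2, k3, k4⟩ := ng_un (h.cj hQ) (neg_cj n hQ) (hY.1.cj hQ e'')
    exact ng_of h.two ψ k1 k2 k3 k4 it is ts cm c1 c2 ht hs hγ
  obtain ⟨Q, hQ, d, hd, d1, d2, d3, d4⟩ := h.blk y1 r0 e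
  obtain ⟨a, b, q⟩ := ((Rt.cj hQ).2 ry).all hd
  have q' : ∀ i, d i * d i = a * d i + b := fun i => by simpa using congrFun (congrFun q i) i
  have k : ∀ i j, d i ≠ d j → d i + d j = a := fun i j e =>
    mul_left_cancel₀ (sub_ne_zero.2 e) (by linear_combination q' i - q' j)
  obtain ⟨ψ, k1, k4⟩ := ng_ss (h.cj hQ) (neg_cj n hQ) d1 (hd.congr (by
    congr 1; ext i; fin_cases i
    exacts [rfl, by simp; linear_combination k _ _ d1 - k _ _ d3, rfl, by simp; linear_combination k _ _ d1 - k _ _ d2]))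
    oy y1
  exact ng_of h.two ψ k1 le_rfl (fun a ha b hb => mul_mem (mul_mem (mul_mem ha hb) (inv_mem ha)) (inv_mem hb)) k4
    it is ts cm c1 c2 ht hs hγ

end Cfsg.Agent.H8.Ng
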