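import Mathlib

/-!
Arithmetic for the Singer cycle of `PGL₅(q)`.
-/

set_option autoImplicit false

namespace Cfsg.Agent.H8.L5e

/-- order of `GL₅(q)` in factored form -/
def NN (q : ℕ) : ℕ :=
  q ^ 10 * (q - 1) ^ 5 * (q + 1) ^ 2 * (q ^ 2 + 1) * (q ^ 2 + q + 1) * (q ^ 4 + q ^ 3 + q ^ 2 + q + 1)

def chk (k : ℕ) : Bool :=
  (List.range 6).all fun c => (List.range c).all fun a => (c == 5 && a == 4) ||
    NN (5 * k + 1) % (a + c * (k * ((5 * k + 1) ^ 3 + 2 * (5 * k + 1) ^ 2 + 3 * (5 * k + 1) + 4))) != 0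

theorem chk_all : (List.range 2800).all (fun k => decide (k < 2) || chk k) = true := by
  decide +kernel

theorem gcd_mul_le {n A B a b : ℕ} (hn : n ≠ 0) (h1 : n.gcd A ≤ a) (h2 : n.gcd B ≤ b) :
    n.gcd (A * B) ≤ a * b :=
  (Nat.le_of_dvd (Nat.mul_pos (Nat.gcd_pos_of_pos_left _ (Nat.pos_of_ne_zero hn))
    (Nat.gcd_pos_of_pos_left _ (Nat.pos_of_ne_zero hn))) (gcd_mul_dvd_mul_gcd n A B)).trans
    (Nat.mul_le_mul h1 h2)

theorem gcd_pow_le {n A a : ℕ} (hn : n ≠ 0) (h1 : n.gcd A ≤ a) (k : ℕ) : n.gcd (A ^ k) ≤ a ^ k := by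
  induction k with
  | zero => simp
  | succ k ih => rw [pow_succ, pow_succ]; exact gcd_mul_le hn ih h1

theorem gcd_le {n A B : ℕ} {r u v : ℤ} (h : r = u * n + v * A) (h0 : r ≠ 0) (hB : |r| ≤ B) :
    n.gcd A ≤ B := by
  have h1 : ((n.gcd A : ℕ) : ℤ) ∣ r := h ▸ dvd_add
    (Dvd.dvd.mul_left (Int.natCast_dvd_natCast.2 (Nat.gcd_dvd_left n A)) u)
    (Dvd.dvd.mul_left (Int.natCast_dvd_natCast.2 (Nat.gcd_dvd_right n A)) v)
  have := (Int.le_of_dvd (abs_pos.2 h0) ((dvd_abs _ _).2 h1)).trans hB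
  exact_mod_cast this

theorem gcd_ppow_le {n p f B : ℕ} (hp : p.Prime) (hn : n ≠ 0) (h1 : n.gcd (p ^ f) ≤ B) (hB : B < p ^ f)
    (k : ℕ) : n.gcd ((p ^ f) ^ k) ≤ B := by
  rw [← pow_mul]
  obtain ⟨e, -, he⟩ := (Nat.dvd_prime_pow hp).1 (Nat.gcd_dvd_right n (p ^ (f * k)))
  have h2 : p ^ e ∣ n := he ▸ Nat.gcd_dvd_left _ _
  have h3 := Nat.gcd_pos_of_pos_left (p ^ f) (Nat.pos_of_ne_zero hn)
  rw [he]
  rcases le_total e f with h | h
  · exact (Nat.le_of_dvd h3 (Nat.dvd_gcd h2 (pow_dvd_pow p h))).trans h1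
  · have := Nat.le_of_dvd h3 (Nat.dvd_gcd ((pow_dvd_pow p h).trans h2) dvd_rfl)
    omega

theorem le_of_dvd {n p f q b0 b1 b2 b3 b4 b5 : ℕ} (hp : p.Prime) (hq : q = p ^ f) (hn : n ≠ 0)
    (h : n ∣ NN q) (h0 : n.gcd q ≤ b0) (h0' : b0 < q) (h1 : n.gcd (q - 1) ≤ b1) (h2 : n.gcd (q + 1) ≤ b2)
    (h3 : n.gcd (q ^ 2 + 1) ≤ b3) (h4 : n.gcd (q ^ 2 + q + 1) ≤ b4)
    (h5 : n.gcd (q ^ 4 + q ^ 3 + q ^ 2 + q + 1) ≤ b5) : n ≤ b0 * b1 ^ 5 * b2 ^ 2 * b3 * b4 * b5 := by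
  rw [← Nat.gcd_eq_left h]
  subst hq
  exact gcd_mul_le hn (gcd_mul_le hn (gcd_mul_le hn (gcd_mul_le hn (gcd_mul_le hn
    (gcd_ppow_le hp hn h0 h0' 10) (gcd_pow_le hn h1 5)) (gcd_pow_le hn h2 2)) h3) h4) h5

theorem t_eq {q k t : ℕ} (hk : q = 5 * k + 1) (ht : 5 * t = q ^ 4 + q ^ 3 + q ^ 2 + q + 1) :
    t = k * (q ^ 3 + 2 * q ^ 2 + 3 * q + 4) + 1 := by
  subst hk
  apply Nat.eq_of_mul_eq_mul_left (show 0 < 5 by norm_num)
  rw [ht]; ring

theorem A1 {p f q k t : ℕ} (hp : p.Prime) (hq : q = p ^ f) (hk : q = 5 * k + 1) (hk2 : 2 ≤ k)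
    (ht : 5 * t = q ^ 4 + q ^ 3 + q ^ 2 + q + 1) (a c : ℕ) (h1 : a < c) (h2 : c ≤ 5)
    (h : a + c * (t - 1) ∣ NN q) : c = 5 ∧ a + 1 = 5 := by
  rw [t_eq hk ht, Nat.add_sub_cancel] at h
  by_contra hne
  by_cases hs : k < 2800
  · have := List.all_eq_true.1 chk_all k (List.mem_range.2 hs)
    rw [decide_eq_false (by omega), Bool.false_or] at this
    have := List.all_eq_true.1 (List.all_eq_true.1 this c (List.mem_range.2 (by omega))) a
      (List.mem_range.2 h1)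
    rw [← hk] at this
    simp only [Bool.or_eq_true, Bool.and_eq_true, beq_iff_eq, bne_iff_ne] at this
    rcases this with e | e
    · omega
    · exact e (Nat.mod_eq_zero_of_dvd h)
  have hq1 : ((q - 1 : ℕ) : ℤ) = 5 * k := by rw [hk]; simp
  have hqz : (q : ℤ) = 5 * k + 1 := by rw [hk]; simp
  have hq2 : 14000 ≤ q := by omega
  have hq3 : 14000 ^ 3 ≤ q ^ 3 := Nat.pow_le_pow_left hq2 3
  set g := q ^ 3 + 2 * q ^ 2 + 3 * q + 4 with hg
  have hgz : (g : ℤ) = q ^ 3 + 2 * q ^ 2 + 3 * q + 4 := by rw [hg]; push_cast; rfl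
  by_cases ha : a = 0
  · subst ha
    have h3 : g ∣ NN q := Dvd.dvd.trans ⟨c * k, by ring⟩ h
    have := le_of_dvd hp hq (by omega) h3
      (gcd_le (r := 4) (u := 1) (v := -(q ^ 2 + 2 * q + 3)) (B := 4) (by rw [hgz]; ring) (by norm_num)
        (by norm_num)) (by omega)
      (gcd_le (r := 10) (u := 1) (v := -(q ^ 2 + 3 * q + 6)) (B := 10)
        (by rw [hgz, hq1, hqz]; ring) (by norm_num) (by norm_num))
      (gcd_le (r := 2) (u := 1) (v := -(q ^ 2 + q + 2)) (B := 2) (by rw [hgz]; push_cast; ring)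
        (by norm_num) (by norm_num))
      (gcd_le (r := 8) (u := 2 - 2 * q) (v := 4 - (2 - 2 * q) * (q + 2)) (B := 8)
        (by rw [hgz]; push_cast; ring) (by norm_num) (by norm_num))
      (gcd_le (r := 7) (u := 2 - q) (v := 1 - (2 - q) * (q + 1)) (B := 7)
        (by rw [hgz]; push_cast; ring) (by norm_num) (by norm_num))
      (gcd_le (r := 5) (u := 1 - q) (v := 1) (B := 5) (by rw [hgz]; push_cast; ring)
        (by norm_num) (by norm_num))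
    omega
  set n := a + c * (k * g) with hn
  have hnz : 5 * (n : ℤ) = 5 * a - 5 * c + c * (q ^ 4 + q ^ 3 + q ^ 2 + q + 1) := by
    rw [hn]; push_cast; rw [hgz, hqz]; ring
  have r0 : (5 * a - 4 * c : ℤ) ≠ 0 := by omega
  have r1 : |(5 * a - 4 * c : ℤ)| ≤ (20 : ℕ) := by rw [abs_le]; constructor <;> omega
  have := le_of_dvd hp hq (by omega) h
    (gcd_le (u := 5) (v := -c * (q ^ 3 + q ^ 2 + q + 1)) (by rw [hnz]; ring) r0 r1) (by omega)
    (gcd_le (r := 5 * a) (u := 5) (v := -c * g) (B := 20) (by rw [hnz, hq1, hgz, hqz]; ring)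
      (by omega) (by rw [abs_le]; constructor <;> omega))
    (gcd_le (u := 5) (v := -c * (q ^ 3 + q)) (by rw [hnz]; push_cast; ring) r0 r1)
    (gcd_le (u := 5) (v := -c * (q ^ 2 + q)) (by rw [hnz]; push_cast; ring) r0 r1)
    (gcd_le (r := (5 * a - 4 * c) ^ 2 - (5 * a - 4 * c) * c + c ^ 2) (u := (5 * a - 5 * c - c * q) * 5)
      (v := c ^ 2 - (5 * a - 5 * c - c * q) * c * q ^ 2) (B := 525)
      (by rw [mul_assoc _ 5, hnz]; push_cast; ring) (by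
        interval_cases c <;> interval_cases a <;> norm_num) (by
        interval_cases c <;> interval_cases a <;> norm_num))
    (gcd_le (r := 5 * a - 5 * c) (u := 5) (v := -c) (B := 25) (by rw [hnz]; push_cast; ring)
      (by omega) (by rw [abs_le]; constructor <;> omega))
  have e1 : 2800 * 14000 ^ 3 ≤ k * g := Nat.mul_le_mul (by omega) (by omega)
  have e2 : 1 * (k * g) ≤ c * (k * g) := Nat.mul_le_mul_right _ (by omega)
  omega

theorem A2 {q k t : ℕ} (hk : q = 5 * k + 1) (hk2 : 2 ≤ k)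
    (ht : 5 * t = q ^ 4 + q ^ 3 + q ^ 2 + q + 1) (m : ℕ) (h1 : 1 ≤ m) (h2 : 1 + m * t ≤ 5 ^ 6) :
    ¬ 1 + m * t ∣ NN q := by
  have e1 := Nat.mul_le_mul_right t h1
  have e2 : k < 4 := by
    by_contra hc
    have : 21 ^ 4 ≤ q ^ 4 := Nat.pow_le_pow_left (by omega) 4
    omega
  subst hk
  interval_cases k
  · obtain rfl : t = 3221 := by omega
    have : m < 5 := by omega
    interval_cases m <;> decide +kernel
  · obtain rfl : t = 13981 := by omega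
    have : m < 2 := by omega
    interval_cases m; decide +kernel

end Cfsg.Agent.H8.L5e
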