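import Cfsg.Agent.H8.L5d
import Cfsg.Agent.H8.L5e
import Cfsg.Agent.H1.C3d

/-!
An overgroup of a Singer cycle of `SL₅(q)` is semilinear or doubly transitive on points.
-/

set_option autoImplicit false
set_option linter.unusedSectionVars false

namespace Cfsg.Agent.H8.L5f

open Module MulAction Subgroup Cfsg.Agent.H1.C3a Cfsg.Agent.H5.Zas1 Cfsg.Agent.H4.CAG Projectivization
  Polynomial
open scoped LinearAlgebra.Projectivization

section proj
variable {F V : Type*} [Field F] [AddCommGroup V] [Module F V]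

theorem smul_mk_eq (g : V ≃ₗ[F] V) {v w : V} (hv : v ≠ 0) (hw : w ≠ 0) :
    g • mk F v hv = mk F w hw ↔ ∃ c : F, g v = c • w := by
  rw [smul_mk, mk_eq_mk_iff']
  exact exists_congr fun c => eq_comm

/-- the action on points -/
abbrev pp (F V : Type*) [Field F] [AddCommGroup V] [Module F V] : (V ≃ₗ[F] V) →* Equiv.Perm (ℙ F V) :=
  toPermHom _ _

theorem pp_eq_one {g : V ≃ₗ[F] V} : pp F V g = 1 ↔ ∃ c : F, ∀ v, g v = c • v := by
  constructor
  · intro h
    obtain ⟨c, hc⟩ := LinearMap.exists_eq_smul_id_of_forall_notLinearIndependent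
      (f := (g : V →ₗ[F] V)) fun v hli => by
        have hv : v ≠ 0 := hli.ne_zero 0
        obtain ⟨c, hc⟩ := (smul_mk_eq g hv hv).1 (DFunLike.congr_fun h (mk F v hv))
        exact (LinearIndependent.pair_iff' hv).1 hli c hc.symm
    exact ⟨c, fun v => LinearMap.congr_fun hc v⟩
  · rintro ⟨c, hc⟩
    ext1 x
    induction x using Projectivization.ind with
    | h v hv => exact (smul_mk_eq g hv hv).2 ⟨c, hc v⟩

theorem pp_eq {g h : V ≃ₗ[F] V} : pp F V g = pp F V h ↔ ∃ c : F, ∀ v, g v = c • h v := by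
  rw [← mul_inv_eq_one, ← map_inv, ← map_mul, pp_eq_one]
  refine exists_congr fun c => ⟨fun e v => ?_, fun e v => ?_⟩
  · simpa using e (h v)
  · simpa using e (h.symm v)

theorem exists_frame [FiniteDimensional F V] (hV : finrank F V = 5) : ∃ b : Fin 6 → ℙ F V,
    ∀ g : V ≃ₗ[F] V, (∀ i, g • b i = b i) → pp F V g = 1 := by
  let B := finBasisOfFinrankEq F V hV
  have h0 : ∑ i, B i ≠ 0 := fun h => by
    have := congrArg (fun v => B.repr v 0) h
    simp [Finsupp.single_apply] at this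
  refine ⟨Fin.cons (mk F _ h0) fun i => mk F (B i) (B.ne_zero i), fun g hg => ?_⟩
  obtain ⟨c, hc⟩ := (smul_mk_eq g h0 h0).1 (hg 0)
  choose a ha using fun i => (smul_mk_eq g (B.ne_zero i) (B.ne_zero i)).1 (hg i.succ)
  have e : ∀ i, a i = c := fun i => by
    have := congrArg (fun v => B.repr v i) hc
    simpa [map_sum, ha, Finsupp.single_apply] using this
  refine pp_eq_one.2 ⟨c, fun v => ?_⟩
  have : (g : V →ₗ[F] V) = c • LinearMap.id := B.ext fun i => by simp [ha, e]
  exact LinearMap.congr_fun this v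

theorem card_GL5 [Fintype F] [FiniteDimensional F V] (hV : finrank F V = 5) :
    Nat.card (V ≃ₗ[F] V) = L5e.NN (Fintype.card F) := by
  let B := finBasisOfFinrankEq F V hV
  rw [← Nat.card_congr ((Matrix.GeneralLinearGroup.toLin' B).trans
    (LinearMap.GeneralLinearGroup.generalLinearEquiv F V)).toEquiv, Matrix.card_GL_field, L5e.NN]
  obtain ⟨r, hr⟩ : ∃ r, Fintype.card F = r + 1 := ⟨_, (Nat.succ_pred_eq_of_pos Fintype.card_pos).symm⟩
  have hle : ∀ i : Fin 5, (r + 1) ^ (i : ℕ) ≤ (r + 1) ^ 5 := fun i =>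
    Nat.pow_le_pow_right (by omega) i.2.le
  rw [hr]
  zify [hle]
  rw [Fin.prod_univ_five]
  simp
  ring

end proj

variable {F E V : Type*} [Field F] [Field E] [Algebra F E] [AddCommGroup V] [Module F V] [Module E V]
  [IsScalarTower F E V] [FiniteDimensional E V] [Fintype F] [Finite E]

theorem aeval_smul (g : V ≃ₗ[F] V) {k k' : E} (h : ∀ v, g (k • v) = k' • g v) (p : F[X]) (v : V) :
    g (aeval k p • v) = aeval k' p • g v := by
  have h1 : ∀ (n : ℕ) v, g (k ^ n • v) = k' ^ n • g v := fun n => by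
    induction n with
    | zero => simp
    | succ n ih => intro v; rw [pow_succ, pow_succ, mul_smul, mul_smul, ih, h]
  induction p using Polynomial.induction_on' with
  | add p p' a b => simp [add_smul, a, b]
  | monomial n a => simp [aeval_monomial, mul_smul, h1]

theorem exists_aeval (hE : finrank F E = 5) {k : E} (hk : k ∉ (algebraMap F E).range) (e : E) :
    ∃ p : F[X], aeval k p = e := by
  rcases (Subalgebra.isSimpleOrder_of_finrank_prime F E (by rw [hE]; norm_num)).eq_bot_or_eq_top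
    (aeval k : F[X] →ₐ[F] E).range with h | h
  · have : k ∈ (aeval k : F[X] →ₐ[F] E).range := ⟨X, by simp⟩
    rw [h, Algebra.mem_bot] at this
    exact (hk this).elim
  · exact (h ▸ Algebra.mem_top : e ∈ (aeval k : F[X] →ₐ[F] E).range)

/-- multiplication by a unit of `E` -/
def mu (F : Type*) {E : Type*} (V : Type*) [Field F] [Field E] [Algebra F E] [AddCommGroup V] [Module F V]
    [Module E V] [IsScalarTower F E V] : Eˣ →* (V ≃ₗ[F] V) :=
  DistribMulAction.toModuleAut F V

theorem mu_apply (k : Eˣ) (v : V) : mu F V k v = (k : E) • v := rfl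

theorem det_mu (hV : finrank E V = 1) (k : Eˣ) :
    (LinearEquiv.det (mu F V k) : F) = Algebra.norm F (k : E) := by
  have := det_restrict (F := F) (DistribMulAction.toLinearEquiv E V k)
  rw [LinearEquiv.coe_det, LinearEquiv.coe_det,
    show ((DistribMulAction.toLinearEquiv E V k : V ≃ₗ[E] V) : V →ₗ[E] V) = (k : E) • LinearMap.id from rfl,
    LinearMap.det_smul, hV] at this
  rw [LinearEquiv.coe_det]
  exact this.trans (by simp)

theorem pp_mu_eq_one (hV : finrank E V = 1) {k : Eˣ} :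
    pp F V (mu F V k) = 1 ↔ (k : E) ∈ (algebraMap F E).range := by
  have : Nontrivial V := Module.nontrivial_of_finrank_eq_succ hV
  obtain ⟨v, hv⟩ := exists_ne (0 : V)
  rw [pp_eq_one]
  refine exists_congr fun c => ⟨fun h => ?_, fun h v => ?_⟩
  · have := h v
    rw [mu_apply, ← algebraMap_smul E c] at this
    exact (smul_left_injective E hv this).symm
  · rw [mu_apply, ← h, algebraMap_smul]

theorem singer (hE : finrank F E = 5) (hV : finrank E V = 1) {M : Subgroup (V ≃ₗ[F] V)}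
    (hdet : ∀ g ∈ M, LinearEquiv.det g = 1) (hM : ∀ k : Eˣ, Algebra.norm F (k : E) = 1 → mu F V k ∈ M)
    (hS : ∃ g ∈ M, ¬ Semi E g) (x y x' y' : ℙ F V) (hxy : x ≠ y) (hxy' : x' ≠ y') :
    ∃ g ∈ M, g • x = x' ∧ g • y = y' := by
  classical
  have : FiniteDimensional F E := Module.finite_of_finrank_eq_succ hE
  have : FiniteDimensional F V := Module.Finite.trans E V
  have hV5 : finrank F V = 5 := by rw [← Module.finrank_mul_finrank F E V, hE, hV]
  have : Finite V := Module.finite_of_finite F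
  have : Finite (ℙ F V) := (finite_iff_of_finite F V).2 inferInstance
  have : Nontrivial V := Module.nontrivial_of_finrank_eq_succ hV
  obtain ⟨v0, hv0⟩ := exists_ne (0 : V)
  set q := Fintype.card F with hq
  have hq2 : 2 ≤ q := Fintype.one_lt_card
  let Γ : Subgroup (Equiv.Perm (ℙ F V)) := M.map (pp F V)
  let nm : Eˣ →* Fˣ := Units.map (Algebra.norm F (S := E))
  have hnm : ∀ k : Eˣ, k ∈ nm.ker ↔ Algebra.norm F (k : E) = 1 := fun k => by
    rw [MonoidHom.mem_ker, Units.ext_iff]; rfl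
  let ν : nm.ker →* Γ := (((pp F V).comp (mu F V)).comp nm.ker.subtype).codRestrict Γ
    fun k => ⟨_, hM k ((hnm k).1 k.2), rfl⟩
  have hν : ∀ k : nm.ker, (ν k : Equiv.Perm (ℙ F V)) = pp F V (mu F V (k : Eˣ)) := fun k => rfl
  have hν1 : ∀ k : nm.ker, ν k = 1 ↔ ((k : Eˣ) : E) ∈ (algebraMap F E).range := fun k => by
    rw [Subtype.ext_iff, hν, ← pp_mu_eq_one hV]; rfl
  have c1 : Nat.card nm.ker = q ^ 4 + q ^ 3 + q ^ 2 + q + 1 := by
    have a1 := nm.ker.card_mul_index
    rw [index_ker, MonoidHom.range_eq_top.2 (FiniteField.unitsMap_norm_surjective F E), card_top,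
      Nat.card_units, Nat.card_units, Module.natCard_eq_pow_finrank (K := F) (V := E), hE,
      Nat.card_eq_fintype_card (α := F), ← hq] at a1
    refine Nat.eq_of_mul_eq_mul_right (show 0 < q - 1 by omega) (a1.trans ?_)
    obtain ⟨r, hr⟩ : ∃ r, q = r + 1 := ⟨q - 1, by omega⟩
    rw [hr, Nat.add_sub_cancel]
    exact Nat.sub_eq_of_eq_add (by ring)
  set X := ν.range with hX
  set t := Nat.card X with ht
  set d := Nat.card ν.ker with hd
  have c2 : d * t = q ^ 4 + q ^ 3 + q ^ 2 + q + 1 := by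
    rw [← c1, ← ν.ker.card_mul_index, index_ker]
  have hnorm : ∀ c : F, Algebra.norm F (algebraMap F E c) = c ^ 5 := fun c => by
    rw [Algebra.norm_algebraMap, hE]
  have c3 : d = 1 ∨ (d = 5 ∧ ∃ k, q = 5 * k + 1 ∧ 2 ≤ k) := by
    have a0 : ∀ k : ν.ker, ∃ c : F, algebraMap F E c = ((k : nm.ker) : Eˣ) ∧ c ^ 5 = 1 := fun k => by
      obtain ⟨c, hc⟩ := (hν1 k).1 k.2
      exact ⟨c, hc, by rw [← hnorm, hc]; exact (hnm _).1 k.1.2⟩
    have a1 : d ≤ 5 := by
      refine le_trans ?_ (card_rootsOfUnity E 5)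
      refine Nat.card_le_card_of_injective (fun k => ⟨k.1.1, ?_⟩) fun k k' e =>
        Subtype.ext (Subtype.ext (congrArg (fun w : rootsOfUnity 5 E => (w : Eˣ)) e))
      obtain ⟨c, hc, hc'⟩ := a0 k
      rw [mem_rootsOfUnity', ← hc, ← map_pow, hc', map_one]
    by_cases h1 : d = 1
    · exact Or.inl h1
    have : Nontrivial ν.ker := Finite.one_lt_card_iff_nontrivial.1 (by
      have : 0 < d := Nat.card_pos
      omega)
    obtain ⟨k, hk⟩ := exists_ne (1 : ν.ker)
    obtain ⟨c, hc, hc'⟩ := a0 k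
    have hc1 : c ≠ 1 := by
      rintro rfl
      exact hk (Subtype.ext (Subtype.ext (Units.ext (by rw [← hc, map_one]; rfl))))
    have : Fact (Nat.Prime 5) := ⟨by norm_num⟩
    have a2 : orderOf k = 5 := orderOf_eq_prime (Subtype.ext (Subtype.ext (Units.ext (by
      change (((k : nm.ker) : Eˣ) : E) ^ 5 = 1
      rw [← hc, ← map_pow, hc', map_one])))) hk
    have a3 : 5 ∣ d := a2 ▸ orderOf_dvd_natCard k
    have a4 : 5 ∣ q - 1 := by
      rw [← orderOf_eq_prime hc' hc1]
      exact orderOf_dvd_of_pow_eq_one (FiniteField.pow_card_sub_one_eq_one c (by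
        rintro rfl; simp at hc'))
    obtain ⟨k, hk⟩ := a4
    refine Or.inr ⟨by have : 0 < d := Nat.card_pos; omega, k, by omega, ?_⟩
    obtain ⟨p, hp⟩ := CharP.exists F
    obtain ⟨n, hpp, hn⟩ := FiniteField.card F p
    by_contra hc
    have h6 : q = 6 := by omega
    rw [← hq, h6] at hn
    have h3 : (2 : ℕ) ∣ p := Nat.prime_two.dvd_of_dvd_pow (n := n) (by rw [← hn]; norm_num)
    have h4 : (3 : ℕ) ∣ p := Nat.prime_three.dvd_of_dvd_pow (n := n) (by rw [← hn]; norm_num)
    have := (Nat.prime_dvd_prime_iff_eq Nat.prime_two hpp).1 h3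
    subst this
    omega
  have c4 : Nat.Coprime d t := by
    rcases c3 with h | ⟨h, k, hk, -⟩
    · simp [h]
    · rw [h] at c2 ⊢
      rw [L5e.t_eq hk c2, hk, show k * ((5 * k + 1) ^ 3 + 2 * (5 * k + 1) ^ 2 + 3 * (5 * k + 1) + 4) + 1 =
        1 + 5 * (k * (25 * k ^ 3 + 25 * k ^ 2 + 10 * k + 2)) by ring]
      simp
  have c5 : 2 ^ 4 ≤ q ^ 4 := Nat.pow_le_pow_left hq2 4
  have c6 : 2 ^ 3 ≤ q ^ 3 := Nat.pow_le_pow_left hq2 3
  have c7 : 2 ^ 2 ≤ q ^ 2 := Nat.pow_le_pow_left hq2 2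
  have c8 : 5 * (d + 1) + 1 < t ∧ 26 < t := by
    rcases c3 with h | ⟨h, k, hk, hk2⟩
    · rw [h] at c2 ⊢; omega
    · have : 11 ^ 4 ≤ q ^ 4 := Nat.pow_le_pow_left (by omega) 4
      rw [h] at c2 ⊢; omega
  -- conjugation of the field by elements of `M`
  have key : ∀ (g : V ≃ₗ[F] V) (hg : g ∈ M) (k k' : nm.ker),
      (⟨pp F V g, g, hg, rfl⟩ : Γ) * ν k = ν k' * ⟨pp F V g, g, hg, rfl⟩ →
      ∃ c : F, ∀ v, g (((k : Eˣ) : E) • v) = (c • ((k' : Eˣ) : E)) • g v := fun g hg k k' e => by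
    have e1 := congrArg Subtype.val e
    rw [Subgroup.coe_mul, Subgroup.coe_mul, hν, hν, ← map_mul, ← map_mul, pp_eq] at e1
    obtain ⟨c, hc⟩ := e1
    exact ⟨c, fun v => by rw [smul_assoc]; exact hc v⟩
  have hCA : CA X := by
    rintro _ ⟨k, rfl⟩ hk1
    ext y
    rw [mem_centralizer_singleton_iff]
    constructor
    swap
    · rintro ⟨k', rfl⟩
      rw [← map_mul, ← map_mul, mul_comm]
    obtain ⟨_, g, hg, rfl⟩ := y
    intro e
    obtain ⟨c, hc⟩ := key g hg k k e
    have hk0 : ((k : Eˣ) : E) ≠ 0 := Units.ne_zero _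
    have hgv : g v0 ≠ 0 := by simpa using hv0
    have hc0 : c ≠ 0 := by
      rintro rfl
      simpa [hv0] using hc v0
    have a1 : c ^ t = 1 := by
      obtain ⟨a, ha⟩ := (hν1 (k ^ t)).1 (by
        rw [map_pow]
        exact congrArg Subtype.val (pow_card_eq_one' (x := (⟨ν k, k, rfl⟩ : X))))
      have ha' : algebraMap F E a = ((k : Eˣ) : E) ^ t := ha
      have := aeval_smul g hc (Polynomial.X ^ t) v0
      rw [map_pow, map_pow, aeval_X, aeval_X, _root_.smul_pow, ← ha', algebraMap_smul, map_smul,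
        ← algebraMap_smul E a (g v0)] at this
      have e2 := smul_left_injective E hgv this
      rw [Algebra.smul_def, ← map_mul] at e2
      have e3 := (algebraMap F E).injective e2
      have ha0 : a ≠ 0 := by
        rintro rfl
        exact pow_ne_zero t hk0 (by rw [← ha', map_zero])
      exact (mul_eq_right₀ ha0).1 e3.symm
    have a2 : c ^ d = 1 := by
      let u : Eˣ := Units.mk0 (algebraMap F E c) (by simpa using hc0)
      have hu : u ∈ nm.ker := by
        have e2 : g * mu F V (k : Eˣ) = mu F V (u * (k : Eˣ)) * g := by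
          ext v; simp [mu_apply, hc, u, mul_smul]
        have e3 := congrArg (fun x => (LinearEquiv.det x : F)) e2
        simp only [map_mul, Units.val_mul, hdet g hg, det_mu hV, (hnm k).1 k.2] at e3
        exact (hnm u).2 (by simpa using e3.symm)
      have e4 := congrArg (fun x : ν.ker => (((x : nm.ker) : Eˣ) : E))
        (pow_card_eq_one' (x := (⟨⟨u, hu⟩, (hν1 _).2 ⟨c, rfl⟩⟩ : ν.ker)))
      apply (algebraMap F E).injective
      rw [map_pow, map_one]
      exact e4
    have a3 : c = 1 := by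
      have := pow_gcd_eq_one.2 ⟨a2, a1⟩
      rwa [c4, pow_one] at this
    simp only [a3, one_smul] at hc
    obtain ⟨e0, he0⟩ := (finrank_eq_one_iff_of_nonzero' v0 hv0).1 hV (g v0)
    have a4 : e0 ≠ 0 := by rintro rfl; exact hgv (by simpa using he0.symm)
    have a5 : g = mu F V (Units.mk0 e0 a4) := by
      ext v
      obtain ⟨e1, rfl⟩ := (finrank_eq_one_iff_of_nonzero' v0 hv0).1 hV v
      obtain ⟨p, rfl⟩ := exists_aeval hE (fun h => hk1 ((hν1 k).2 h)) e1
      rw [aeval_smul g hc, ← he0, mu_apply, smul_comm]; rfl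
    refine ⟨⟨Units.mk0 e0 a4, (hnm _).2 ?_⟩, Subtype.ext ?_⟩
    · rw [← det_mu (F := F) hV, ← a5, hdet g hg]; rfl
    · rw [hν, ← a5]
  obtain ⟨_, ⟨k0, rfl⟩, hk0⟩ : ∃ z ∈ X, z ≠ 1 := by
    by_contra hc
    push Not at hc
    have := c8.2
    rw [ht, (eq_bot_iff_forall _).2 hc, card_bot] at this
    omega
  have hk0' : ((k0 : Eˣ) : E) ∉ (algebraMap F E).range := fun h => hk0 ((hν1 k0).2 h)
  have key2 : ∀ (g : V ≃ₗ[F] V) (hg : g ∈ M), (⟨pp F V g, g, hg, rfl⟩ : Γ) ∈ Nm X → ∃ k' : nm.ker,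
      (⟨pp F V g, g, hg, rfl⟩ : Γ) * ν k0 * (⟨pp F V g, g, hg, rfl⟩ : Γ)⁻¹ = ν k' ∧
      ∃ c : F, ∀ v, g (((k0 : Eˣ) : E) • v) = (c • ((k' : Eˣ) : E)) • g v := fun g hg hN => by
    obtain ⟨k', hk'⟩ := conj_mem hN (x := ν k0) ⟨k0, rfl⟩
    exact ⟨k', hk'.symm, key g hg k0 k' (by rw [hk']; group)⟩
  obtain ⟨b, hb⟩ := exists_frame hV5
  obtain ⟨p, hp⟩ := CharP.exists F
  obtain ⟨f, hpp, hf⟩ := FiniteField.card F p
  obtain ⟨⟨_, g, hg, rfl⟩, e⟩ := L5d.two_trans (Ω := ℙ F V) (t := t) (d := d) (N := L5e.NN q) (b := b)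
    (by
      rw [card_of_finrank F V hV5, c2, Nat.card_eq_fintype_card, ← hq]
      simp [Finset.sum_range_succ]; ring) c8.1 c8.2 (fun a c h1 h2 h3 => by
      rcases c3 with h | ⟨h, k, hk, hk2⟩
      · omega
      · rw [h] at c2 h2 ⊢
        exact L5e.A1 hpp hf hk hk2 c2 a c h1 h2 h3) (fun m h1 h2 => by
      rcases c3 with h | ⟨h, k, hk, hk2⟩
      · have := Nat.mul_le_mul_right t h1
        rw [h] at h2
        omega
      · rw [h] at c2 h2
        exact L5e.A2 hk hk2 c2 m h1 h2) _ Γ X le_rfl hCA (by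
      obtain ⟨g, hg, hS⟩ := hS
      refine ⟨⟨_, g, hg, rfl⟩, fun hN => hS fun e => ?_⟩
      obtain ⟨k', -, c, hc⟩ := key2 g hg hN
      obtain ⟨p, rfl⟩ := exists_aeval hE hk0' e
      exact ⟨_, aeval_smul g hc p⟩) (by
      rw [← card_class hCA ⟨k0, rfl⟩ hk0]
      let P := (minpoly F ((k0 : Eˣ) : E)).map (algebraMap F E)
      have hP : P ≠ 0 := map_ne_zero (minpoly.ne_zero (Algebra.IsIntegral.isIntegral _))
      let φ : E → Γ := fun e => if h : ∃ k : nm.ker, ∃ c : F, e ≠ 0 ∧ e = c • ((k : Eˣ) : E) then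
        ν h.choose else 1
      refine (Set.ncard_le_ncard (t := φ '' (P.roots.toFinset : Set E)) ?_).trans
        ((Set.ncard_image_le (Finset.finite_toSet _)).trans ?_)
      · rintro _ ⟨⟨_, g, hg, rfl⟩, hN, rfl⟩
        obtain ⟨k', e1, c, hc⟩ := key2 g hg hN
        have hne : c • ((k' : Eˣ) : E) ≠ 0 := fun h => by simpa [h, hv0] using hc v0
        refine ⟨c • ((k' : Eˣ) : E), ?_, ?_⟩
        · have := aeval_smul g hc (minpoly F ((k0 : Eˣ) : E)) v0
          rw [minpoly.aeval, zero_smul, map_zero, eq_comm, smul_eq_zero] at this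
          rw [Finset.mem_coe, Multiset.mem_toFinset, mem_roots hP, IsRoot.def, eval_map_algebraMap]
          exact this.resolve_right (by simpa using hv0)
        · have h : ∃ k : nm.ker, ∃ c' : F, c • ((k' : Eˣ) : E) ≠ 0 ∧
            c • ((k' : Eˣ) : E) = c' • ((k : Eˣ) : E) := ⟨k', c, hne, rfl⟩
          rw [e1]
          simp only [φ, dif_pos h]
          have e2 := h.choose_spec
          generalize h.choose = k'' at e2 ⊢
          obtain ⟨c', -, e2⟩ := e2
          have hc' : c' ≠ 0 := by rintro rfl; exact hne (by simpa using e2)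
          refine Subtype.ext ?_
          rw [hν, hν, pp_eq]
          refine ⟨c'⁻¹ * c, fun v => ?_⟩
          rw [mu_apply, mu_apply, mul_smul, ← smul_assoc c, e2, smul_assoc, smul_smul, inv_mul_cancel₀ hc',
            one_smul]
      · rw [Set.ncard_coe_finset]
        refine (Multiset.toFinset_card_le _).trans ((card_roots' P).trans ?_)
        rw [natDegree_map, ← hE]
        exact minpoly.natDegree_le _) rfl (by
      rintro _ ⟨k, rfl⟩ ω e
      induction ω using Projectivization.ind with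
      | h v hv =>
      obtain ⟨c, hc⟩ := (smul_mk_eq (mu F V (k : Eˣ)) hv hv).1 e
      rw [mu_apply, ← algebraMap_smul E c] at hc
      exact (hν1 k).2 ⟨c, (smul_left_injective E hv hc).symm⟩) (by
      rintro ⟨_, g, hg, rfl⟩ e
      exact Subtype.ext (hb g e)) (by
      rw [← card_GL5 hV5]
      exact (card_map_dvd M _).trans M.card_subgroup_dvd_card) x y x' y' hxy hxy'
  exact ⟨g, hg, e⟩

end Cfsg.Agent.H8.L5f
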