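import Cfsg.Agent.H8.MS
import Cfsg.Agent.H8.Dickson

/-!
Maximality of subfield subgroups of `Ω`.
-/

set_option autoImplicit false
set_option linter.unusedSectionVars false
set_option linter.unusedVariables false

namespace Cfsg.Agent.H8

open QuadraticMap Module

section General

variable {F V : Type*} [Field F] [AddCommGroup V] [Module F V] {Q : QuadraticForm F V}
variable [Finite F] [FiniteDimensional F V]

theorem NDOn.le_of_sing (hN : ND Q) {X T : Submodule F V} (hX : NDOn Q X) (h3 : 3 ≤ finrank F X)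
    (h : ∀ z ∈ X, Q z = 0 → z ∈ T) : X ≤ T := by
  by_contra h1
  have h2 : ¬ H8.perp Q (X ⊓ T) ≤ H8.perp Q X := by
    intro h2
    have := perp_anti (Q := Q) h2
    rw [hN.perp_perp, hN.perp_perp] at this
    exact h1 (this.trans inf_le_right)
  obtain ⟨r, hr, hr'⟩ := SetLike.not_le_iff_exists.1 h2
  obtain ⟨z, hz, hQ, h4⟩ := hX.exists_sing_pol_one h3 hr'
  rw [mem_perp'.1 hr z ⟨hz, h z hz hQ⟩] at h4
  exact zero_ne_one h4

theorem hyp_perp (hN : ND Q) {u w : V} (hu : Q u = 0) (hw : Q w = 0) (huw : polar Q u w = 1) :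
    NDOn Q (perp Q (sp F [u, w])) ∧ finrank F V ≤ finrank F (perp Q (sp F [u, w])) + 2 ∧
      ∀ y, polar Q u y = 0 → y - polar Q w y • u ∈ perp Q (sp F [u, w]) := by
  refine ⟨(ndOn_pair hu hw (by rw [huw]; exact one_ne_zero)).perp hN, ?_, fun y hy => ?_⟩
  · have h1 := hN.finrank_perp (sp F [u, w])
    have h2 := finrank_sp_le (F := F) [u, w]
    simp only [List.length_cons, List.length_nil] at h2
    omega
  · refine mem_perp_sp.2 ?_
    simp only [List.mem_cons, List.not_mem_nil, or_false, forall_eq_or_imp, forall_eq]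
    rw [polar_sub_right, polar_sub_right, pol_smul_right, pol_smul_right, pol_self, hu, hy,
      pol_comm Q w u, huw]
    constructor <;> ring

theorem perp_le_of_sing (hN : ND Q) (h5 : 5 ≤ finrank F V) {u : V} (hu : Q u = 0)
    {T : Submodule F V} (h : ∀ z, Q z = 0 → polar Q u z = 0 → z ∈ T) {y : V}
    (hy : polar Q u y = 0) : y ∈ T := by
  by_cases hu0 : u = 0
  · exact hN.ndOn_top.le_of_sing hN (by rw [finrank_top]; omega)
      (fun z _ hz => h z hz (by simp [hu0])) trivial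
  obtain ⟨w, -, hw, huw⟩ := hN.ndOn_top.exists_partner trivial hu0 hu
  obtain ⟨h1, h2, h3⟩ := hyp_perp hN hu hw huw
  have h4 := h1.le_of_sing hN (by omega) (fun z hz hQ => h z hQ (mem_perp_sp.1 hz u (by simp)))
    (h3 y hy)
  have := T.add_mem h4 (T.smul_mem (polar Q w y) (h u hu (by rw [pol_self, hu, mul_zero])))
  rwa [sub_add_cancel] at this

/-- A subspace of `u^⊥` invariant under the Siegel maps fixing `u` and not inside `⟨u⟩`. -/
theorem perp_le_of_invariant (hN : ND Q) (h7 : 7 ≤ finrank F V) {u : V} (hu : Q u = 0) (hu0 : u ≠ 0)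
    {T : Submodule F V} (hT : ∀ y ∈ T, polar Q u y = 0) (huT : u ∈ T)
    (h : ∀ x y, Q x = 0 → polar Q x y = 0 → polar Q u x = 0 → polar Q u y = 0 → ∀ z ∈ T,
      siegel Q x y z ∈ T) {x : V} (hx : x ∈ T) (hxu : x ∉ sp F [u]) {y : V}
    (hy : polar Q u y = 0) : y ∈ T := by
  obtain ⟨w, -, hw, huw⟩ := hN.ndOn_top.exists_partner trivial hu0 hu
  obtain ⟨h1, h2, h3⟩ := hyp_perp hN hu hw huw
  rcases le_or_le_perp_of_EG_le hN h1 (by omega) (W := T) (EG_le fun a ha b hb hQ hab =>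
    mem_Stab_of_maps (h a b hQ hab (mem_perp_sp.1 ha u (by simp)) (mem_perp_sp.1 hb u (by simp))))
    with h4 | h4
  · have := T.add_mem (h4 (h3 y hy)) (T.smul_mem (polar Q w y) huT)
    rwa [sub_add_cancel] at this
  · exfalso
    rw [hN.perp_perp] at h4
    obtain ⟨c, d, e⟩ := mem_sp_two.1 (h4 hx)
    have := hT x hx
    rw [e, polar_add_right, pol_smul_right, pol_smul_right, pol_self, hu, huw] at this
    have hd : d = 0 := by linear_combination this
    exact hxu (mem_sp_one.2 ⟨c, by rw [e, hd]; simp⟩)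

/-- A non-zero subspace invariant under all long root elements is everything. -/
theorem eq_top_of_long (hN : ND Q) (h5 : 5 ≤ finrank F V) {T : Submodule F V}
    (h : ∀ x y, Q x = 0 → Q y = 0 → polar Q x y = 0 → ∀ z ∈ T, siegel Q x y z ∈ T) {x : V}
    (hx : x ∈ T) (hx0 : x ≠ 0) (y : V) : y ∈ T := by
  rcases le_or_le_perp_of_EG_le hN hN.ndOn_top (by rwa [finrank_top]) (W := T)
    (EG_le fun a _ b _ hQ hab => MS_siegel (perp_le_of_sing hN h5 hQ (T := MS Q (Stab T) a)
      (fun z hz haz => ⟨haz, fun c => mem_Stab_of_maps (h a _ hQ (by rw [Q_smul, hz, mul_zero])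
        (by rw [pol_smul_right, haz, mul_zero]))⟩) hab)) with h4 | h4
  · exact h4 trivial
  · rw [hN.perp_top] at h4
    exact absurd (h4 hx) hx0

theorem exists_sing_partner (hN : ND Q) {l : List V} {y : V} (hy : Q y = 0) (h : y ∉ sp F l)
    (hl : ∀ w ∈ l, polar Q w y = 0) :
    ∃ x, Q x = 0 ∧ polar Q y x = 1 ∧ ∀ w ∈ l, polar Q w x = 0 := by
  obtain ⟨x, hx, h1, h2⟩ := exists_partner (X := perp Q (sp F l)) (mem_perp_sp.2 hl) hy
    (by rwa [hN.perp_perp])
  exact ⟨x, h1, h2, mem_perp_sp.1 hx⟩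

end General

variable {E F W V : Type*} [Field E] [Field F] [Algebra E F] [AddCommGroup W] [Module E W]
  [AddCommGroup V] [Module F V]

/-- A rational structure for `Q` over the subfield `E`. -/
structure RS (Q₀ : QuadraticForm E W) (Q : QuadraticForm F V) (φ : W →+ V) : Prop where
  smul : ∀ (c : E) (w : W), φ (c • w) = algebraMap E F c • φ w
  Q_eq : ∀ w, Q (φ w) = algebraMap E F (Q₀ w)
  span : ∀ N : Submodule F V, (∀ w, φ w ∈ N) → ∀ v, v ∈ N
  inj : Function.Injective φ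

variable {Q₀ : QuadraticForm E W} {Q : QuadraticForm F V} {φ : W →+ V} {K : Subgroup (V ≃ₗ[F] V)}

namespace RS

theorem pol (h : RS Q₀ Q φ) (x y : W) : polar Q (φ x) (φ y) = algebraMap E F (polar Q₀ x y) := by
  simp only [polar, ← _root_.map_add, h.Q_eq, _root_.map_sub]

theorem eq_zero (h : RS Q₀ Q φ) (hN : ND Q) {v : V} (hv : ∀ y, polar Q (φ y) v = 0) : v = 0 :=
  hN v fun x => mem_perp.1 (h.span (perp Q (sp F [v]))
    (fun w => mem_perp_sp.2 (by simpa [pol_comm Q v] using hv w)) x) v (mem_sp_of_mem (by simp))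

theorem nd (h : RS Q₀ Q φ) (hN : ND Q) : ND Q₀ := fun v hv =>
  h.inj (by
    rw [_root_.map_zero]
    exact h.eq_zero hN fun y => by rw [h.pol, pol_comm, hv, _root_.map_zero])

theorem sing (h : RS Q₀ Q φ) {u : W} (hu : Q₀ u = 0) : Q (φ u) = 0 := by
  rw [h.Q_eq, hu, _root_.map_zero]

theorem pol0 (h : RS Q₀ Q φ) {x y : W} (hu : polar Q₀ x y = 0) : polar Q (φ x) (φ y) = 0 := by
  rw [h.pol, hu, _root_.map_zero]

theorem pol1 (h : RS Q₀ Q φ) {x y : W} (hu : polar Q₀ x y = 1) : polar Q (φ x) (φ y) = 1 := by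
  rw [h.pol, hu, _root_.map_one]

theorem map_siegel (h : RS Q₀ Q φ) {u v : W} (hu : Q₀ u = 0) (huv : polar Q₀ u v = 0) (y : W) :
    φ (siegel Q₀ u v y) = siegel Q (φ u) (φ v) (φ y) := by
  rw [siegel_apply hu huv, siegel_apply (h.sing hu) (h.pol0 huv), _root_.map_sub, _root_.map_add,
    h.smul, h.smul, h.pol, h.pol, h.Q_eq, _root_.map_add, _root_.map_mul]

/-- vectors pairing rationally with `v` -/
def ratSub (h : RS Q₀ Q φ) (v : V) (c : F) : Submodule E W where
  carrier := {y | ∃ r : E, polar Q (φ y) v = c * algebraMap E F r}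
  add_mem' := by
    rintro x y ⟨r, hr⟩ ⟨s, hs⟩
    exact ⟨r + s, by rw [_root_.map_add, polar_add_left, hr, hs, _root_.map_add, mul_add]⟩
  zero_mem' := ⟨0, by simp⟩
  smul_mem' := by
    rintro a x ⟨r, hr⟩
    exact ⟨a * r, by rw [h.smul, pol_smul_left, hr, _root_.map_mul]; ring⟩

/-- rational vectors `y ⊥ u` such that `c • y` gives Siegel maps in `K` -/
def NS (h : RS Q₀ Q φ) (K : Subgroup (V ≃ₗ[F] V)) (c : F) (u : W) : Submodule E W where
  carrier := {y | polar Q₀ u y = 0 ∧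
    ∀ s : E, siegel Q (φ u) ((c * algebraMap E F s) • φ y) ∈ K}
  add_mem' := by
    rintro x y ⟨hx, hx'⟩ ⟨hy, hy'⟩
    refine ⟨by rw [polar_add_right, hx, hy, add_zero], fun s => ?_⟩
    by_cases ha : Q (φ u) = 0
    · rw [_root_.map_add, smul_add]
      exact siegel_add_mem ha (by rw [pol_smul_right, h.pol0 hx, mul_zero])
        (by rw [pol_smul_right, h.pol0 hy, mul_zero]) (hx' s) (hy' s)
    · rw [siegel_of_not fun h => ha h.1]; exact K.one_mem
  zero_mem' := ⟨by simp, fun c => by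
    rw [_root_.map_zero, smul_zero, siegel_zero]; exact K.one_mem⟩
  smul_mem' := by
    rintro d x ⟨hx, hx'⟩
    exact ⟨by rw [pol_smul_right, hx, mul_zero], fun c => by
      rw [h.smul, smul_smul, mul_assoc, ← _root_.map_mul]; exact hx' _⟩

theorem self_mem_NS (h : RS Q₀ Q φ) (c : F) {u : W} (hu : Q₀ u = 0) : u ∈ h.NS K c u :=
  ⟨by rw [pol_self, hu, mul_zero], fun _ => (self_mem_MS (h.sing hu)).2 _⟩

theorem NS_swap (h : RS Q₀ Q φ) {c : F} {u y : W} (hu : Q₀ u = 0) (hy : Q₀ y = 0)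
    (h1 : y ∈ h.NS K c u) : u ∈ h.NS K c y := by
  have h2 : polar Q₀ y u = 0 := by rw [pol_comm, h1.1]
  refine ⟨h2, fun s => ?_⟩
  rw [← siegel_smul (h.sing hy) (h.pol0 h2)]
  exact siegel_swap_mem (h.sing hu) (by rw [Q_smul, h.sing hy, mul_zero])
    (by rw [pol_smul_right, h.pol0 h1.1, mul_zero]) (h1.2 s)

variable [Finite F] [Finite E] [FiniteDimensional F V] [FiniteDimensional E W]

theorem rat (h : RS Q₀ Q φ) (hN : ND Q) {v : V} (hv : ∀ y, y ∈ h.ratSub v 1) : ∃ w, v = φ w := by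
  choose r hr using hv
  simp only [one_mul] at hr
  let ψ : W →ₗ[E] E :=
    { toFun := r
      map_add' := fun x y => (algebraMap E F).injective (by
        rw [_root_.map_add, ← hr, ← hr, ← hr, _root_.map_add, polar_add_left])
      map_smul' := fun c x => (algebraMap E F).injective (by
        rw [RingHom.id_apply, smul_eq_mul, _root_.map_mul, ← hr, ← hr, h.smul, pol_smul_left]) }
  have hp : ∀ x, polar Q₀ ((LinearMap.BilinForm.toDual Q₀.polarBilin (h.nd hN).nondeg).symm ψ) x =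
      r x := fun x => LinearMap.BilinForm.apply_toDual_symm_apply (hB := (h.nd hN).nondeg) ψ x
  refine ⟨(LinearMap.BilinForm.toDual Q₀.polarBilin (h.nd hN).nondeg).symm ψ,
    sub_eq_zero.1 (h.eq_zero hN fun y => ?_)⟩
  rw [polar_sub_right, h.pol, pol_comm Q₀, hp, hr, sub_self]

theorem rat_mod (h : RS Q₀ Q φ) (hN : ND Q) {u : W} (hu : Q₀ u = 0) (hu0 : u ≠ 0) {v : V}
    (hv : ∀ y, polar Q₀ u y = 0 → y ∈ h.ratSub v 1) : ∃ (w : W) (t : F), v = φ w + t • φ u := by
  obtain ⟨w, -, huw⟩ := (h.nd hN).ndOn_top.exists_pol_eq_one trivial hu0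
  obtain ⟨x, hx⟩ := h.rat hN (v := v - polar Q (φ w) v • φ u) fun y => by
    obtain ⟨r, hr⟩ := hv (y - polar Q₀ u y • w) (by
      rw [polar_sub_right, pol_smul_right, huw]; ring)
    refine ⟨r, ?_⟩
    rw [_root_.map_sub, h.smul, polar_sub_left, pol_smul_left] at hr
    rw [polar_sub_right, pol_smul_right, h.pol y u, pol_comm Q₀ y u, ← hr]; ring
  exact ⟨x, polar Q (φ w) v, by rw [← hx]; abel⟩

theorem NS_full (h : RS Q₀ Q φ) (hN : ND Q) (h7 : 7 ≤ finrank E W)
    (hK : ∀ u v, siegel Q (φ u) (φ v) ∈ K) {c : F} {u x : W} (hu : Q₀ u = 0) (hu0 : u ≠ 0)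
    (hx : x ∈ h.NS K c u) (hxu : x ∉ sp E [u]) {y : W} (hy : polar Q₀ u y = 0) : y ∈ h.NS K c u := by
  refine perp_le_of_invariant (h.nd hN) h7 hu hu0 (T := h.NS K c u) (fun _ h => h.1) (h.self_mem_NS c hu) ?_ hx hxu hy
  intro a b ha hab h1 h2 z hz
  have e := siegel_fix (Q := Q₀) h1 h2
  refine ⟨by rw [← e, OG_pol (siegel_mem_OG a b), hz.1], fun s => ?_⟩
  have := siegel_conj_mem (siegel_mem_OG _ _) (hK a b) (hz.2 s)
  rwa [_root_.map_smul, ← h.map_siegel ha hab, ← h.map_siegel ha hab, e] at this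

theorem NS_all (h : RS Q₀ Q φ) (hN : ND Q) (h7 : 7 ≤ finrank E W)
    (hK : ∀ u v, siegel Q (φ u) (φ v) ∈ K) {c : F} {u x : W} (hu : Q₀ u = 0) (hu0 : u ≠ 0)
    (hx : x ∈ h.NS K c u) (hxu : x ∉ sp E [u]) {a y : W} (ha : Q₀ a = 0) (hy : polar Q₀ a y = 0) :
    y ∈ h.NS K c a := by
  by_cases ha0 : a = 0
  · refine ⟨hy, fun s => ?_⟩
    have : siegel Q (φ a) ((c * algebraMap E F s) • φ y) = 1 := by
      ext z
      rw [siegel_apply (h.sing ha) (by simp [ha0])]
      simp [ha0]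
    rw [this]; exact K.one_mem
  obtain ⟨z, -, h1, h2, hz⟩ := exists_sing Q₀ ⊤ [u, a] [u, a] (by rw [finrank_top]; simpa using h7)
  have hz0 : z ≠ 0 := by rintro rfl; exact h1 (Submodule.zero_mem _)
  have h3 : z ∉ sp E [u] := fun h => h1 (sp_le.2 (by simp [mem_sp_of_mem]) h)
  have h4 : z ∉ sp E [a] := fun h => h1 (sp_le.2 (by simp [mem_sp_of_mem]) h)
  have k1 := h.NS_swap hu hz (h.NS_full hN h7 hK hu hu0 hx hxu (h2 u (by simp)))
  have k2 := h.NS_swap hz ha (h.NS_full hN h7 hK hz hz0 k1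
    (not_mem_sp_swap h3 (by rw [sp_nil]; simpa using hu0)) (by rw [pol_comm]; exact h2 a (by simp)))
  exact h.NS_full hN h7 hK ha ha0 k2 h4 hy

/-- the ring of scalars -/
def ringA (h : RS Q₀ Q φ) (hN : ND Q) (h7 : 7 ≤ finrank E W)
    (hK : ∀ u v, siegel Q (φ u) (φ v) ∈ K) : Subalgebra E F where
  carrier := {c | ∀ u y, Q₀ u = 0 → polar Q₀ u y = 0 → y ∈ h.NS K c u}
  mul_mem' := by
    intro c d hc hd a b ha hab
    have hN0 := h.nd hN
    obtain ⟨u, -, hu0, -, hu⟩ := exists_sing Q₀ ⊤ [] [] (by rw [finrank_top]; simp; omega)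
    obtain ⟨y, -, hy0, hy1, hy⟩ := exists_sing Q₀ ⊤ [u] [u] (by rw [finrank_top]; simp; omega)
    obtain ⟨x, -, hx0, hx1, hx⟩ := exists_sing Q₀ ⊤ [u, y] [u, y] (by rw [finrank_top]; simp; omega)
    obtain ⟨v, hv1, hv2⟩ := hN0.exists_dual hx0
    have e1 := hy1 u (by simp)
    have e2 := hx1 u (by simp)
    have e3 : polar Q₀ x y = 0 := by rw [pol_comm]; exact hx1 y (by simp)
    have e4 := hv2 u (mem_sp_of_mem (by simp))
    have e5 := hv2 y (mem_sp_of_mem (by simp))
    refine h.NS_all hN h7 hK hu (by rw [sp_nil] at hu0; simpa using hu0) ⟨e1, fun s => ?_⟩ hy0 ha hab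
    have k1 := (hd x y hx e3).2 s
    have k2 := (hc u v hu e4).2 1
    have k3 := siegel_conj_mem (siegel_mem_OG _ _) k1 k2
    have f1 : polar Q (φ u) ((d * algebraMap E F s) • φ y) = 0 := by
      rw [pol_smul_right, h.pol0 e1, mul_zero]
    rw [siegel_fix (h.pol0 e2) f1, _root_.map_smul, siegel_apply (h.sing hx) (by
      rw [pol_smul_right, h.pol0 e3, mul_zero]), Q_smul, h.sing hy, pol_smul_right,
      pol_comm Q (φ v), pol_comm Q (φ v), h.pol1 hv1, h.pol0 e5] at k3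
    have f2 : polar Q (φ u) ((c * algebraMap E F 1) • φ v) = 0 := by
      rw [pol_smul_right, h.pol0 e4, mul_zero]
    have := siegel_sub_mem (h.sing hu) (by
      simp only [pol_smul_right, polar_add_right, polar_sub_right, h.pol0 e1, h.pol0 e2, h.pol0 e4]
      ring) f2 k3 k2
    convert this using 2
    rw [_root_.map_one]
    module
  add_mem' := by
    intro c d hc hd a b ha hab
    refine ⟨hab, fun s => ?_⟩
    rw [add_mul, add_smul]
    exact siegel_add_mem (h.sing ha) (by rw [pol_smul_right, h.pol0 hab, mul_zero])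
      (by rw [pol_smul_right, h.pol0 hab, mul_zero]) ((hc a b ha hab).2 s) ((hd a b ha hab).2 s)
  algebraMap_mem' := by
    intro r a b ha hab
    refine ⟨hab, fun s => ?_⟩
    rw [← _root_.map_mul, ← h.smul]
    exact hK _ _

theorem Om_le_of_scalar (h : RS Q₀ Q φ) (hN : ND Q) (h7 : 7 ≤ finrank E W) (h5 : 5 ≤ finrank F V)
    (hp : (finrank E F).Prime) (hK : ∀ u v, siegel Q (φ u) (φ v) ∈ K) {c : F}
    (hc : ¬ ∃ r, c = algebraMap E F r) {u x : W} (hu : Q₀ u = 0) (hu0 : u ≠ 0)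
    (hx : x ∈ h.NS K c u) (hxu : x ∉ sp E [u]) : Om Q ≤ K := by
  have hA : h.ringA hN h7 hK = ⊤ := by
    refine ((Subalgebra.isSimpleOrder_of_finrank_prime E F hp).eq_bot_or_eq_top _).resolve_left
      fun h0 => hc ?_
    have : c ∈ h.ringA hN h7 hK := fun a b ha hab => h.NS_all hN h7 hK hu hu0 hx hxu ha hab
    rw [h0, Algebra.mem_bot] at this
    obtain ⟨r, hr⟩ := this
    exact ⟨r, hr.symm⟩
  have hall : ∀ a w, Q₀ a = 0 → polar Q₀ a w = 1 → ∀ v, siegel Q (φ a) v ∈ K := by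
    intro a w ha haw
    refine siegel_all_of_MS fun v hv => ?_
    let ψ : V →ₗ[F] V := LinearMap.id - (Q.polarBilin (φ a)).smulRight (φ w)
    have hψ : ∀ v, ψ v = v - polar Q (φ a) v • φ w := fun _ => rfl
    have := h.span ((MS Q K (φ a)).comap ψ) (fun y => by
      rw [Submodule.mem_comap, hψ, h.pol, ← h.smul, ← _root_.map_sub]
      have e : polar Q₀ a (y - polar Q₀ a y • w) = 0 := by
        rw [polar_sub_right, pol_smul_right, haw]; ring
      refine ⟨h.pol0 e, fun d => ?_⟩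
      have hd : d ∈ h.ringA hN h7 hK := by rw [hA]; trivial
      simpa using (hd a _ ha e).2 1) v
    rwa [Submodule.mem_comap, hψ, hv, zero_smul, sub_zero] at this
  obtain ⟨w, -, hw, huw⟩ := (h.nd hN).ndOn_top.exists_partner trivial hu0 hu
  exact Om_le_of_two hN h5 (h.sing hu) (h.sing hw) (by rw [h.pol1 huw]; exact one_ne_zero)
    (hall u w hu huw) (hall w u hw (by rwa [pol_comm]))

theorem Om_le_of_irrational (h : RS Q₀ Q φ) (hN : ND Q) (h7 : 7 ≤ finrank E W)
    (h5 : 5 ≤ finrank F V) (hp : (finrank E F).Prime) (hK : ∀ u v, siegel Q (φ u) (φ v) ∈ K)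
    {u : W} (hu : Q₀ u = 0) (hu0 : u ≠ 0) {v : V} (huv : polar Q (φ u) v = 0)
    (hv : siegel Q (φ u) v ∈ K) (hirr : ¬ ∃ (w : W) (t : F), v = φ w + t • φ u) : Om Q ≤ K := by
  have hN0 := h.nd hN
  have : ∃ x, Q₀ x = 0 ∧ polar Q₀ u x = 0 ∧ x ∉ h.ratSub v 1 := by
    by_contra h1
    push Not at h1
    exact hirr (h.rat_mod hN hu hu0 fun y hy => perp_le_of_sing hN0 (by omega) hu h1 hy)
  obtain ⟨x, hx, hux, hc⟩ := this
  have hxu : x ∉ sp E [u] := by
    intro h1
    obtain ⟨c, rfl⟩ := mem_sp_one.1 h1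
    exact hc ⟨0, by rw [h.smul, pol_smul_left, huv]; simp⟩
  obtain ⟨y, -, hy0, hy1, hy⟩ := exists_sing Q₀ ⊤ [u, x] [u, x] (by rw [finrank_top]; simp; omega)
  obtain ⟨z, hz, hyz, hz1⟩ := exists_sing_partner hN0 hy hy0 hy1
  have e1 := hy1 u (by simp)
  have e2 := hy1 x (by simp)
  have e3 := hz1 u (by simp)
  have e4 := hz1 x (by simp)
  refine h.Om_le_of_scalar hN h7 h5 hp hK (c := polar Q (φ x) v)
    (fun ⟨r, hr⟩ => hc ⟨r, by rw [hr, one_mul]⟩) hu hu0 ⟨hux, fun s => ?_⟩ hxu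
  have k1 := siegel_conj_mem (siegel_mem_OG _ _) (hK x y) hv
  rw [siegel_fix (h.pol0 hux) (h.pol0 e1), siegel_apply (h.sing hx) (h.pol0 e2), h.sing hy] at k1
  have k2 := siegel_sub_mem (h.sing hu) (by
    simp only [pol_smul_right, polar_add_right, polar_sub_right, h.pol0 e1, h.pol0 hux, huv]
    ring) huv k1 hv
  have e : v + polar Q v (φ x) • φ y - (polar Q v (φ y) + 0 * polar Q v (φ x)) • φ x - v =
      polar Q v (φ x) • φ y - polar Q v (φ y) • φ x := by module
  rw [e] at k2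
  have f0 : polar Q (φ u) (polar Q v (φ x) • φ y - polar Q v (φ y) • φ x) = 0 := by
    simp only [pol_smul_right, polar_sub_right, h.pol0 e1, h.pol0 hux]; ring
  have f1 : polar Q₀ z (s • x) = 0 := by rw [pol_smul_right, pol_comm, e4, mul_zero]
  have k3 := siegel_conj_mem (siegel_mem_OG _ _) (hK z (s • x)) k2
  rw [siegel_fix (h.pol0 e3) (h.pol0 (by rw [pol_smul_right, hux, mul_zero])),
    siegel_apply (h.sing hz) (h.pol0 f1)] at k3
  have k4 := siegel_sub_mem (h.sing hu) (by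
    simp only [h.smul, pol_smul_right, polar_add_right, polar_sub_right, h.pol0 e1, h.pol0 hux,
      h.pol0 e3]
    ring) f0 k3 k2
  convert k4 using 2
  simp only [h.smul, polar_sub_left, pol_smul_left, pol_smul_right, h.pol1 hyz, h.pol0 e4, Q_smul,
    h.sing hx, pol_self, pol_comm Q (φ y) (φ x), h.pol0 e2, pol_comm Q v (φ x)]
  module

section Rational

variable (h : RS Q₀ Q φ) (hN : ND Q) (h7 : 7 ≤ finrank E W) (hKO : K ≤ OG Q)
  (hK : ∀ u v, siegel Q (φ u) (φ v) ∈ K)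
  (hR : ∀ u, Q₀ u = 0 → u ≠ 0 → ∀ v, polar Q (φ u) v = 0 → siegel Q (φ u) v ∈ K →
    ∃ (w : W) (t : F), v = φ w + t • φ u)
include h hN h7 hKO hK hR

theorem core_one {u : W} (hu : Q₀ u = 0) (hu0 : u ≠ 0) {a b : V} (ha : Q a = 0) (hb : Q b = 0)
    (hab : polar Q a b = 0) (hω : siegel Q a b ∈ K) (h0 : polar Q (φ u) a = 0)
    (h1 : polar Q (φ u) b = 1) {c : F} (hc : c ≠ 0)
    (hB : ∀ v, polar Q₀ u v = 0 → v ∈ h.ratSub a c) {v : W} (hv : polar Q₀ u v = 0) :
    v ∈ h.ratSub a 1 := by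
  have hN0 := h.nd hN
  obtain ⟨a₀, s, ha0⟩ := h.rat_mod hN hu hu0 (v := c⁻¹ • a) fun y hy => by
    obtain ⟨r, hr⟩ := hB y hy
    exact ⟨r, by rw [pol_smul_right, hr]; field_simp⟩
  have ea : a = c • φ a₀ + (c * s) • φ u := by
    rw [mul_smul, ← smul_add, ← ha0, smul_smul, mul_inv_cancel₀ hc, one_smul]
  have puu : polar Q (φ u) (φ u) = 0 := by rw [pol_self, h.sing hu, mul_zero]
  have e1 : polar Q₀ u a₀ = 0 := by
    rw [ea, polar_add_right, pol_smul_right, pol_smul_right, puu, h.pol] at h0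
    simpa [hc] using h0
  have e2 : Q₀ a₀ = 0 := by
    rw [ea, Q_add, Q_smul, Q_smul, pol_smul_left, pol_smul_right, pol_comm, h.pol0 e1, h.sing hu,
      h.Q_eq] at ha
    simpa [hc] using ha
  by_cases h2 : a₀ ∈ sp E [u]
  · obtain ⟨r, rfl⟩ := mem_sp_one.1 h2
    refine ⟨0, ?_⟩
    rw [ea, h.smul, polar_add_right, pol_smul_right, pol_smul_right, pol_smul_right, pol_comm,
      h.pol0 hv]
    simp
  obtain ⟨x, -, hx0, hx1, hx⟩ := exists_sing Q₀ ⊤ [a₀, u] [u, a₀] (by rw [finrank_top]; simp; omega)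
  have e3 := hx1 u (by simp)
  have e4 := hx1 a₀ (by simp)
  have e5 : polar Q (φ x) a = 0 := by
    rw [ea, polar_add_right, pol_smul_right, pol_smul_right, pol_comm, h.pol0 e4, pol_comm,
      h.pol0 e3]; ring
  set x' := φ x - polar Q (φ x) b • φ u with hx'
  have f1 : polar Q (φ u) x' = 0 := by rw [hx', polar_sub_right, pol_smul_right, puu, h.pol0 e3]; ring
  have f2 : polar Q a x' = 0 := by
    rw [hx', polar_sub_right, pol_smul_right, pol_comm Q a (φ x), e5, pol_comm Q a (φ u), h0]; ring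
  have f3 : Q x' = 0 := by
    rw [hx', Q_sub, Q_smul, pol_smul_right, h.sing hx, h.sing hu, pol_comm Q (φ x) (φ u), h.pol0 e3]
    ring
  have f4 : Q (φ u - a) = 0 := by rw [Q_sub, h.sing hu, ha, h0]; ring
  have f5 : polar Q (φ u - a) x' = 0 := by rw [polar_sub_left, f1, f2, sub_zero]
  have k1 := siegel_conj_mem (siegel_mem_OG _ _) hω (hK u x)
  rw [siegel_apply_of_perp ha hab h0, h1, one_smul, siegel_apply_of_perp ha hab e5] at k1
  have k2 : siegel Q (φ u - a) x' ∈ K := by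
    rw [← siegel_add_smul f4 f5 (polar Q (φ x) b)]
    convert k1 using 2
    rw [hx']; module
  have k3 : siegel Q (φ u) x' ∈ K := by
    rw [← siegel_add_smul (h.sing hu) f1 (polar Q (φ x) b)]
    convert hK u x using 2
    rw [hx']; module
  have k4 := siegel_sub_mem f3 (by rwa [pol_comm]) (by rwa [pol_comm])
    (siegel_swap_mem (h.sing hu) f3 f1 k3) (siegel_swap_mem f4 f3 f5 k2)
  rw [sub_sub_cancel] at k4
  have n1 : a₀ ∉ sp E [x, u] := not_mem_sp_swap hx0 h2
  obtain ⟨y, hy1, hy2⟩ := hN0.exists_dual n1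
  have g1 := hy2 u (mem_sp_of_mem (by simp))
  have g2 := hy2 x (mem_sp_of_mem (by simp))
  have k5 := siegel_conj_mem (siegel_mem_OG _ _) k4 (hK u y)
  have g3 : polar Q (φ y) x' = 0 := by
    rw [hx', polar_sub_right, pol_smul_right, pol_comm, h.pol0 g2, pol_comm Q (φ y) (φ u),
      h.pol0 g1]; ring
  have g4 : polar Q (φ y) a = c := by
    rw [ea, polar_add_right, pol_smul_right, pol_smul_right, pol_comm, h.pol1 hy1, pol_comm,
      h.pol0 g1]; ring
  rw [siegel_fix f1 h0, siegel_apply_of_perp f3 (by rwa [pol_comm]) g3, g4] at k5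
  have g5 : polar Q (φ u) (φ y - c • x') = 0 := by
    rw [polar_sub_right, pol_smul_right, f1, h.pol0 g1]; ring
  obtain ⟨w, t, hw⟩ := hR u hu hu0 _ g5 k5
  have n2 : x ∉ sp E [u] := fun h => hx0 (sp_le.2 (by simp [mem_sp_of_mem]) h)
  obtain ⟨z, hz1, hz2⟩ := hN0.exists_dual n2
  have g6 := hz2 u (mem_sp_of_mem (by simp))
  have g7 := congrArg (fun p => polar Q p (φ z)) hw
  simp only [hx', polar_sub_left, polar_add_left, pol_smul_left, h.pol1 hz1, h.pol0 g6, h.pol] at g7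
  obtain ⟨r, hr⟩ := hB v hv
  refine ⟨(polar Q₀ y z - polar Q₀ w z) * r, ?_⟩
  rw [hr, _root_.map_mul, _root_.map_sub]
  linear_combination (-algebraMap E F r) * g7

theorem core {u : W} (hu : Q₀ u = 0) (hu0 : u ≠ 0) {a b : V} (ha : Q a = 0) (hb : Q b = 0)
    (hab : polar Q a b = 0) (hω : siegel Q a b ∈ K) (h0 : polar Q (φ u) a = 0)
    (h1 : polar Q (φ u) b = 1) {v : W} (hv : polar Q₀ u v = 0) : v ∈ h.ratSub a 1 := by
  have hN0 := h.nd hN
  have hB : ∀ y, polar Q₀ u y = 0 →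
      ∃ k ∈ K, k (φ u) = φ u ∧ k (-a) = -a + polar Q (φ y) a • φ u := fun y hy =>
    ⟨_, hK u y, siegel_fix (by rw [pol_self, h.sing hu, mul_zero]) (h.pol0 hy), by
      rw [siegel_apply_of_perp (h.sing hu) (h.pol0 hy) (by rw [polar_neg_left, pol_comm, h0, neg_zero]),
        polar_neg_left, pol_comm]; module⟩
  by_cases h4 : 4 ≤ {c : F | ∃ k ∈ K, k (φ u) = φ u ∧ k (-a) = -a + c • φ u}.ncard
  · obtain ⟨d1, d2, -⟩ := Dickson.plane h4 ⟨_, hω, by
      rw [siegel_apply_of_perp ha hab h0, h1]; module, by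
      rw [_root_.map_neg, siegel_fix (by rw [pol_self, ha, mul_zero]) hab]⟩
    obtain ⟨y, hy, hy0⟩ : ∃ y, polar Q₀ u y = 0 ∧ Q₀ y = 1 := by
      obtain ⟨y, hy, hy'⟩ := hN0.exists_value_list [u] (by simp; omega) 0 1
      exact ⟨y, by simpa using hy', hy⟩
    have sq : ∀ c : F, (∃ k ∈ K, k (φ u) = φ u ∧ k (-a) = -a + c • φ u) →
        ∃ r, c * c = algebraMap E F r := by
      intro c hc
      by_cases hc0 : c = 0
      · exact ⟨0, by simp [hc0]⟩
      obtain ⟨k, hk, e1, -⟩ := d2 c hc0 hc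
      have k1 := siegel_conj_mem (hKO hk) hk (hK u y)
      have e2 : polar Q (φ u) (k (φ y)) = 0 := by
        have := OG_pol (hKO hk) (φ u) (φ y)
        rw [e1, pol_smul_left, h.pol0 hy] at this
        exact (mul_eq_zero.1 this).resolve_left hc0
      rw [e1, siegel_smul (h.sing hu) e2] at k1
      have e3 : polar Q (φ u) (c • k (φ y)) = 0 := by rw [pol_smul_right, e2, mul_zero]
      obtain ⟨w, t, hw⟩ := hR u hu hu0 _ e3 k1
      have e4 : polar Q (φ u) (φ w) = 0 := by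
        rw [hw, polar_add_right, pol_smul_right, pol_self, h.sing hu] at e3
        linear_combination e3
      have e5 := congrArg Q hw
      rw [Q_smul, hKO hk, h.Q_eq, hy0, Q_add, Q_smul, pol_smul_right, pol_comm, e4, h.sing hu,
        h.Q_eq] at e5
      exact ⟨Q₀ w, by simpa using e5⟩
    obtain ⟨r, hr⟩ := sq _ (hB v hv)
    by_cases h2 : (2 : E) = 0
    · obtain ⟨s, hs⟩ := exists_sq_of_char_two h2 r
      have h2' : (2 : F) = 0 := by rw [← map_ofNat (algebraMap E F) 2, h2, _root_.map_zero]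
      refine ⟨s, ?_⟩
      rw [← hs, _root_.map_mul] at hr
      have : (polar Q (φ v) a - algebraMap E F s) * (polar Q (φ v) a - algebraMap E F s) = 0 := by
        linear_combination hr + (algebraMap E F s * algebraMap E F s -
          polar Q (φ v) a * algebraMap E F s) * h2'
      rw [one_mul, ← sub_eq_zero]
      exact mul_self_eq_zero.1 this
    · obtain ⟨r', hr'⟩ := sq (polar Q (φ v) a + 1) (by
        obtain ⟨k, hk, e1, e2⟩ := hB v hv
        obtain ⟨k', hk', e1', e2'⟩ := d1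
        refine ⟨k * k', K.mul_mem hk hk', ?_, ?_⟩
        · change k (k' _) = _
          rw [e1', e1]
        · change k (k' _) = _
          rw [e2', _root_.map_add, e1, e2]; module)
      have h2' : (2 : F) ≠ 0 := by
        rw [← map_ofNat (algebraMap E F) 2]; exact (map_ne_zero _).2 h2
      refine ⟨(r' - r - 1) / 2, ?_⟩
      rw [map_div₀, _root_.map_sub, _root_.map_sub, ← hr, ← hr', _root_.map_one, map_ofNat]
      field_simp
      ring
  · by_cases hc : polar Q (φ v) a = 0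
    · exact ⟨0, by simp [hc]⟩
    refine h.core_one hN h7 hKO hK hR hu hu0 ha hb hab hω h0 h1 hc (fun y hy => ?_) hv
    by_contra hy1
    apply h4
    have n1 : polar Q (φ y) a ≠ 0 := fun h => hy1 ⟨0, by simp [h]⟩
    have n2 : polar Q (φ y) a ≠ polar Q (φ v) a := fun h => hy1 ⟨1, by simp [h]⟩
    have n3 : polar Q (φ v) a + polar Q (φ y) a ≠ 0 := fun h => hy1 ⟨-1, by
      rw [_root_.map_neg, _root_.map_one]; linear_combination h⟩
    have hsub : ({0, polar Q (φ v) a, polar Q (φ y) a, polar Q (φ v) a + polar Q (φ y) a} : Set F) ⊆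
        {c : F | ∃ k ∈ K, k (φ u) = φ u ∧ k (-a) = -a + c • φ u} := by
      rintro _ (rfl | rfl | rfl | rfl)
      · exact ⟨1, K.one_mem, rfl, by simp⟩
      · exact hB v hv
      · exact hB y hy
      · have := hB (v + y) (by rw [polar_add_right, hv, hy, add_zero])
        rwa [_root_.map_add, polar_add_left] at this
    refine le_trans (le_of_eq ?_) (Set.ncard_le_ncard hsub (Set.toFinite _))
    rw [Set.ncard_insert_of_notMem (by simp [Ne.symm hc, Ne.symm n1, Ne.symm n3]),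
      Set.ncard_insert_of_notMem (by simp [n1, Ne.symm n2]), Set.ncard_pair (by simp [hc])]

theorem claimB {u : W} (hu : Q₀ u = 0) (hu0 : u ≠ 0) {a b : V} (ha : Q a = 0) (hb : Q b = 0)
    (hab : polar Q a b = 0) (hω : siegel Q a b ∈ K) {v : W} (hv : polar Q₀ u v = 0) :
    v ∈ h.ratSub (polar Q (φ u) a • b - polar Q (φ u) b • a) 1 := by
  have key : ∀ a b, Q a = 0 → Q b = 0 → polar Q a b = 0 → siegel Q a b ∈ K →
      polar Q (φ u) b ≠ 0 → v ∈ h.ratSub (polar Q (φ u) a • b - polar Q (φ u) b • a) 1 := by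
    intro a b ha hb hab hω hβ
    have e1 : Q (polar Q (φ u) b • a - polar Q (φ u) a • b) = 0 := by
      rw [Q_sub, Q_smul, Q_smul, pol_smul_left, pol_smul_right, ha, hb, hab]; ring
    have e2 : Q ((polar Q (φ u) b)⁻¹ • b) = 0 := by rw [Q_smul, hb, mul_zero]
    have e3 : polar Q (polar Q (φ u) b • a - polar Q (φ u) a • b) ((polar Q (φ u) b)⁻¹ • b) = 0 := by
      rw [pol_smul_right, polar_sub_left, pol_smul_left, pol_smul_left, pol_self, hb, hab]; ring
    obtain ⟨r, hr⟩ := h.core hN h7 hKO hK hR hu hu0 e1 e2 e3 (by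
      convert hω using 1
      ext x
      rw [siegel_apply e1 e3, siegel_apply ha hab, e2, hb, polar_sub_right, pol_smul_right,
        pol_smul_right, pol_smul_right]
      match_scalars <;> field_simp <;> ring)
      (by rw [polar_sub_right, pol_smul_right, pol_smul_right]; ring)
      (by rw [pol_smul_right, inv_mul_cancel₀ hβ]) hv
    refine ⟨-r, ?_⟩
    rw [← neg_sub, polar_neg_right, hr, _root_.map_neg]; ring
  by_cases hβ : polar Q (φ u) b = 0
  · by_cases hα : polar Q (φ u) a = 0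
    · exact ⟨0, by simp [hα, hβ]⟩
    · have := key b (-a) hb (by rw [Q_neg, ha]) (by rw [polar_neg_right, pol_comm, hab, neg_zero])
        (by rw [← siegel_swap hb ha (by rwa [pol_comm])]; exact hω)
        (by rw [polar_neg_right]; simpa using hα)
      convert this using 2
      rw [polar_neg_right]; module
  · exact key a b ha hb hab hω hβ

theorem claimC {a b : V} (ha : Q a = 0) (hb : Q b = 0) (hab : polar Q a b = 0)
    (hω : siegel Q a b ∈ K) (p : W) : ∃ w, siegel Q a b (φ p) = φ w := by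
  have hN0 := h.nd hN
  let T : Submodule E W :=
    { carrier := {p | ∃ w, polar Q (φ p) a • b - polar Q (φ p) b • a = φ w}
      add_mem' := by
        rintro x y ⟨r, hr⟩ ⟨s, hs⟩
        exact ⟨r + s, by
          rw [_root_.map_add, _root_.map_add, polar_add_left, polar_add_left, ← hr, ← hs]; module⟩
      zero_mem' := ⟨0, by simp⟩
      smul_mem' := by
        rintro c x ⟨r, hr⟩
        exact ⟨c • r, by rw [h.smul, h.smul, pol_smul_left, pol_smul_left, ← hr]; module⟩ }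
  have hT : ∀ u, Q₀ u = 0 → u ∈ T := by
    intro u hu
    by_cases hu0 : u = 0
    · rw [hu0]; exact T.zero_mem
    obtain ⟨w, t, hw⟩ := h.rat_mod hN hu hu0 fun v hv =>
      h.claimB hN h7 hKO hK hR hu hu0 ha hb hab hω hv
    set α := polar Q (φ u) a with hα
    set β := polar Q (φ u) b with hβ
    have puu : polar Q (φ u) (φ u) = 0 := by rw [pol_self, h.sing hu, mul_zero]
    have za : polar Q (α • b - β • a) a = 0 := by
      rw [polar_sub_left, pol_smul_left, pol_smul_left, pol_self, ha, pol_comm, hab]; ring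
    have zb : polar Q (α • b - β • a) b = 0 := by
      rw [polar_sub_left, pol_smul_left, pol_smul_left, pol_self, hb, hab]; ring
    by_cases hz : α = 0 ∧ β = 0
    · exact ⟨0, by rw [← hα, ← hβ, hz.1, hz.2]; simp⟩
    by_cases h2 : w ∈ sp E [u]
    · obtain ⟨r, rfl⟩ := mem_sp_one.1 h2
      rw [h.smul, ← add_smul] at hw
      rw [hw, pol_smul_left, ← hα] at za
      rw [hw, pol_smul_left, ← hβ] at zb
      have : algebraMap E F r + t = 0 := by
        by_contra h3
        exact hz ⟨(mul_eq_zero.1 za).resolve_left h3, (mul_eq_zero.1 zb).resolve_left h3⟩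
      exact ⟨0, by rw [← hα, ← hβ, hw, this]; simp⟩
    have e1 : polar Q₀ u w = 0 := by
      have : polar Q (φ u) (α • b - β • a) = 0 := by
        rw [polar_sub_right, pol_smul_right, pol_smul_right]; ring
      rw [hw, polar_add_right, pol_smul_right, puu, h.pol] at this
      simpa using this
    have hv : ∃ v, ∃ l : F, l ≠ 0 ∧ Q₀ v = 0 ∧ v ∉ sp E [w, u] ∧
        polar Q (φ v) a • b - polar Q (φ v) b • a = l • (α • b - β • a) := by
      obtain ⟨v, -, hv0, hv1, hv⟩ := exists_sing Q₀ ⊤ [w, u] [u, w]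
        (by rw [finrank_top]; simp; omega)
      have e2 := hv1 u (by simp)
      have e3 := hv1 w (by simp)
      have e4 : polar Q (α • b - β • a) (φ v) = 0 := by
        rw [hw, polar_add_left, pol_smul_left, h.pol0 e2, h.pol0 e3]; ring
      rw [polar_sub_left, pol_smul_left, pol_smul_left, pol_comm Q b, pol_comm Q a] at e4
      obtain ⟨l, hl1, hl2⟩ : ∃ l : F, polar Q (φ v) a = l * α ∧ polar Q (φ v) b = l * β := by
        by_cases hα0 : α = 0
        · have hβ0 : β ≠ 0 := fun h => hz ⟨hα0, h⟩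
          refine ⟨polar Q (φ v) b / β, ?_, by field_simp⟩
          rw [hα0] at e4 ⊢
          have : β * polar Q (φ v) a = 0 := by linear_combination -e4
          rw [(mul_eq_zero.1 this).resolve_left hβ0, mul_zero]
        · exact ⟨polar Q (φ v) a / α, by field_simp, by field_simp; linear_combination e4⟩
      by_cases hl : l = 0
      · refine ⟨v + u, 1, one_ne_zero, by rw [Q_add, hv, hu, pol_comm, e2]; ring, fun h3 => hv0 ?_, ?_⟩
        · simpa using Submodule.sub_mem _ h3 (mem_sp_of_mem (x := u) (by simp))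
        · rw [_root_.map_add, polar_add_left, polar_add_left, hl1, hl2, hl]; module
      · exact ⟨v, l, hl, hv, hv0, by rw [hl1, hl2]; module⟩
    obtain ⟨v, l, hl, hv, hv0, hz'⟩ := hv
    have hv0' : v ≠ 0 := by rintro rfl; exact hv0 (Submodule.zero_mem _)
    obtain ⟨w', t', hw'⟩ := h.rat_mod hN hv hv0' fun y hy =>
      h.claimB hN h7 hKO hK hR hv hv0' ha hb hab hω hy
    rw [hz', hw] at hw'
    have n1 : w ∉ sp E [v, u] := not_mem_sp_swap hv0 h2
    have n2 : u ∉ sp E [v, w] := by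
      have n3 : u ∉ sp E [w] := not_mem_sp_swap h2 (by rw [sp_nil]; simpa using hu0)
      refine not_mem_sp_swap (fun h3 => hv0 (sp_le.2 (by simp [mem_sp_of_mem]) h3)) n3
    obtain ⟨y1, hy1, hy1'⟩ := hN0.exists_dual n1
    obtain ⟨y2, hy2, hy2'⟩ := hN0.exists_dual n2
    have g1 := congrArg (fun p => polar Q p (φ y1)) hw'
    have g2 := congrArg (fun p => polar Q p (φ y2)) hw'
    simp only [polar_add_left, pol_smul_left, h.pol, hy1, hy2, hy1' u (mem_sp_of_mem (by simp)),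
      hy1' v (mem_sp_of_mem (by simp)), hy2' w (mem_sp_of_mem (by simp)),
      hy2' v (mem_sp_of_mem (by simp)), _root_.map_zero, _root_.map_one, mul_zero, add_zero,
      zero_add, mul_one] at g1 g2
    refine ⟨w + (polar Q₀ w' y2 / polar Q₀ w' y1) • u, ?_⟩
    rw [← hα, ← hβ, hw, _root_.map_add, h.smul, map_div₀, ← g1, ← g2, mul_div_cancel_left₀ _ hl]
  obtain ⟨w, hw⟩ := hN0.ndOn_top.le_of_sing hN0 (by rw [finrank_top]; omega)
    (fun z _ hz => hT z hz) (Submodule.mem_top (x := p))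
  exact ⟨p + w, by rw [siegel_apply ha hab, hb, _root_.map_add, ← hw]; module⟩

theorem normalizes {g : V ≃ₗ[F] V} (hg : g ∈ K) : ∃ c : F, c ≠ 0 ∧ ∀ y, ∃ w, c • g (φ y) = φ w := by
  have hN0 := h.nd hN
  have hinv : ∀ x y, Q₀ x = 0 → Q₀ y = 0 → polar Q₀ x y = 0 → ∀ v, (∃ w, g v = φ w) →
      ∃ w, g (siegel Q (φ x) (φ y) v) = φ w := by
    rintro x y hx hy hxy v ⟨w, hw⟩
    obtain ⟨w', hw'⟩ := h.claimC hN h7 hKO hK hR (a := g (φ x)) (b := g (φ y))
      (by rw [hKO hg, h.sing hx]) (by rw [hKO hg, h.sing hy]) (by rw [OG_pol (hKO hg), h.pol0 hxy])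
      (siegel_conj_mem (hKO hg) hg (hK x y)) w
    refine ⟨w', ?_⟩
    rw [← hw', ← hw, ← siegel_conj (hKO hg)]
    change _ = g (siegel Q (φ x) (φ y) (g⁻¹ (g v)))
    rw [inv_apply_apply]
  have hsub : ∀ v v', (∃ w, g v = φ w) → (∃ w, g v' = φ w) → ∃ w, g (v - v') = φ w := by
    rintro v v' ⟨w, hw⟩ ⟨w', hw'⟩
    exact ⟨w - w', by rw [_root_.map_sub, _root_.map_sub, hw, hw']⟩
  obtain ⟨p, -, hp0, -⟩ := exists_sing_three Q₀ (T := ⊤) (by rw [finrank_top]; omega)
  obtain ⟨v, hv⟩ := g.surjective (φ p)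
  obtain ⟨x, hx, hc⟩ : ∃ x, Q₀ x = 0 ∧ polar Q (φ x) v ≠ 0 := by
    by_contra h1
    push Not at h1
    have h2 := hN0.ndOn_top.le_of_sing hN0 (T := h.ratSub v 0) (by rw [finrank_top]; omega)
      (fun z _ hz => ⟨0, by rw [h1 z hz, zero_mul]⟩)
    have h3 : v = 0 := h.eq_zero hN fun y => by
      obtain ⟨r, hr⟩ := h2 (Submodule.mem_top (x := y))
      rw [hr, zero_mul]
    rw [h3, _root_.map_zero] at hv
    exact hp0 (h.inj (by rw [← hv, _root_.map_zero]))
  have hx0 : x ≠ 0 := by rintro rfl; simp at hc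
  obtain ⟨y, -, hy0, hy1, hy⟩ := exists_sing Q₀ ⊤ [x] [x] (by rw [finrank_top]; simp; omega)
  obtain ⟨z, hz, hyz, hz1⟩ := exists_sing_partner hN0 hy hy0 hy1
  have e2 := hy1 x (by simp)
  have e4 := hz1 x (by simp)
  have k1 := hsub _ _ (hinv x y hx hy e2 v ⟨p, hv⟩) ⟨p, hv⟩
  have k2 := hsub _ _ (hinv z x hz hx (by rwa [pol_comm]) _ k1) k1
  have e : siegel Q (φ z) (φ x) (siegel Q (φ x) (φ y) v - v) - (siegel Q (φ x) (φ y) v - v) =
      polar Q (φ x) v • φ x := by
    rw [siegel_apply (h.sing hz) (h.pol0 (by rwa [pol_comm])), siegel_apply (h.sing hx) (h.pol0 e2)]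
    simp only [polar_sub_left, polar_add_left, pol_smul_left, h.pol1 hyz, h.pol0 e4, h.sing hx,
      h.sing hy, pol_self, pol_comm Q (φ y) (φ x), h.pol0 e2, pol_comm Q v (φ x)]
    module
  rw [e] at k2
  let T : Submodule E W :=
    { carrier := {y | ∃ w, g (polar Q (φ x) v • φ y) = φ w}
      add_mem' := by
        rintro x y ⟨r, hr⟩ ⟨s, hs⟩
        exact ⟨r + s, by rw [_root_.map_add, smul_add, _root_.map_add, hr, hs, _root_.map_add]⟩
      zero_mem' := ⟨0, by simp⟩
      smul_mem' := by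
        rintro c x ⟨r, hr⟩
        exact ⟨c • r, by rw [h.smul, h.smul, smul_comm, _root_.map_smul, hr]⟩ }
  refine ⟨_, hc, fun y => ?_⟩
  rw [← _root_.map_smul]
  refine eq_top_of_long hN0 (by omega) (T := T) (fun a b ha hb hab q hq => ?_) k2 hx0 y
  have := hinv a b ha hb hab _ hq
  rwa [_root_.map_smul, ← h.map_siegel ha hab] at this

end Rational

theorem max (h : RS Q₀ Q φ) (hN : ND Q) (h7 : 7 ≤ finrank E W) (h5 : 5 ≤ finrank F V)
    (hp : (finrank E F).Prime) {S : Subgroup (V ≃ₗ[F] V)}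
    (hS : ∀ g : V ≃ₗ[F] V, (∃ c : F, c ≠ 0 ∧ ∀ y, ∃ w, c • g (φ y) = φ w) → g ∈ S)
    (hlt : ¬ Om Q ≤ S) : Geo.IsMaximalIn (Om Q) (S ⊓ Om Q) := by
  refine isMaximalIn_of (SetLike.not_le_iff_exists.1 hlt) fun K hK1 hK2 g hg hgS => ?_
  have hKO : K ≤ OG Q := hK2.trans Om_le_OG
  have hK : ∀ u v, siegel Q (φ u) (φ v) ∈ K := by
    intro u v
    refine hK1 ⟨hS _ ⟨1, one_ne_zero, fun y => ?_⟩, siegel_mem_Om hN h5 _ _⟩
    by_cases h1 : Q₀ u = 0 ∧ polar Q₀ u v = 0
    · exact ⟨_, by rw [one_smul, h.map_siegel h1.1 h1.2]⟩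
    · refine ⟨y, ?_⟩
      rw [siegel_of_not, one_smul]
      · rfl
      · rw [h.Q_eq, h.pol]; simpa using h1
  by_contra hne
  refine hgS (hS g (h.normalizes hN h7 hKO hK (fun u hu hu0 v huv hv => ?_) hg))
  by_contra hirr
  exact hne (h.Om_le_of_irrational hN h7 h5 hp hK hu hu0 huv hv hirr)

end RS

theorem Om_smul {F V : Type*} [Field F] [AddCommGroup V] [Module F V] (Q : QuadraticForm F V)
    {c : F} (hc : c ≠ 0) : Om (c • Q) = Om Q := by
  have : OG (c • Q) = OG Q := by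
    ext g
    simp only [mem_OG, QuadraticMap.smul_apply, smul_eq_mul, mul_right_inj' hc]
  unfold Om
  rw [this]

theorem ND.smul {F V : Type*} [Field F] [AddCommGroup V] [Module F V] {Q : QuadraticForm F V}
    (hN : ND Q) {c : F} (hc : c ≠ 0) : ND (c • Q) := fun v hv => hN v fun x => by
  have := hv x
  rw [QuadraticMap.coeFn_smul, polar_smul, smul_eq_mul] at this
  exact (mul_eq_zero.1 this).resolve_left hc

open Matrix

theorem subStd_max {ι : Type} [Fintype ι] [DecidableEq ι] {F : Type*} [Field F] [Finite F]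
    {Q : QuadraticForm F (ι → F)} (hN : ND Q) (h7 : 7 ≤ Fintype.card ι) {F₀ : Subfield F}
    (hp : (finrank F₀ F).Prime) (hQ : ∀ u : ι → F, (∀ i, u i ∈ F₀) → Q u ∈ F₀) :
    Geo.IsMaximalIn (Geo.omegaGL Q) (subStd ι F₀ ⊓ Geo.omegaGL Q) := by
  have hF : F₀ ≠ ⊤ := by
    intro h
    have : finrank F₀ F = 1 := by
      rw [← Subalgebra.bot_eq_top_iff_finrank_eq_one, eq_comm, eq_bot_iff]
      intro x _
      exact Algebra.mem_bot.2 ⟨⟨x, by rw [h]; trivial⟩, rfl⟩
    rw [this] at hp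
    exact Nat.not_prime_one hp
  have hlt := omega_not_le_subStd (by omega) hN hF
  obtain ⟨S, hS⟩ := exists_pull (subStd ι F₀)
  rw [omegaGL_eq, ← hS, pull_le_pull] at hlt
  rw [omegaGL_eq, ← hS, ← pull_inf]
  let φ : (ι → F₀) →+ (ι → F) :=
    { toFun := fun w i => w i
      map_zero' := rfl
      map_add' := fun _ _ => rfl }
  have hφ : ∀ w i, φ w i = w i := fun _ _ => rfl
  have hs : ∀ (c : F₀) (w : ι → F₀), φ (c • w) = (c : F) • φ w := fun _ _ => rfl
  let q : (ι → F₀) → F₀ := fun w => ⟨Q (φ w), hQ _ fun i => (w i).2⟩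
  have hq : ∀ x y, ((polar q x y : F₀) : F) = polar Q (φ x) (φ y) := fun x y => by
    simp only [polar, q, _root_.map_add]; rfl
  let Q₀ : QuadraticForm F₀ (ι → F₀) := QuadraticMap.ofPolar q
    (fun a x => Subtype.ext (by
      change Q (φ (a • x)) = (a : F) * a * Q (φ x)
      rw [hs, Q_smul]))
    (fun x x' y => Subtype.ext (by
      rw [AddMemClass.coe_add, hq, hq, hq, _root_.map_add, polar_add_left]))
    (fun a x y => Subtype.ext (by
      rw [smul_eq_mul, MulMemClass.coe_mul, hq, hq, hs, pol_smul_left]))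
  have hR : RS Q₀ Q φ := by
    refine ⟨hs, fun _ => rfl, fun N hN v => ?_, fun x y h => funext fun i =>
      Subtype.ext (congrFun h i)⟩
    rw [pi_eq_sum_univ' v]
    refine N.sum_mem fun i _ => N.smul_mem _ ?_
    convert hN (fun j => if j = i then 1 else 0) using 1
    ext j
    rw [hφ]
    split_ifs with h <;> simp [h]
  refine isMaximalIn_pull (hR.max hN (by rwa [finrank_pi_card]) (by rw [finrank_pi_card]; omega) hp
    ?_ hlt)
  rintro g ⟨c, hc, hg⟩
  obtain ⟨g, rfl⟩ := toLE.surjective g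
  rw [← mem_pull, hS, mem_subStd]
  refine ⟨c, hc, fun i j => ?_⟩
  obtain ⟨w, hw⟩ := hg (Pi.single j 1)
  have e : φ (Pi.single j 1) = Pi.single j 1 := by
    ext k
    rw [hφ]
    by_cases hk : k = j
    · subst hk; simp
    · simp [hk]
  have := congrFun hw i
  rw [e, toLE_apply, Matrix.mulVec_single_one, hφ] at this
  have h2 : c * (g : Matrix ι ι F) i j = w i := this
  rw [h2]; exact (w i).2

theorem subfield_max {ι : Type} [Fintype ι] [DecidableEq ι] {F : Type*} [Field F] [Fintype F]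
    {Q : (ι → F) → F} (hQ : Geo.IsNondegenerateQuadraticForm Q) (h7 : 7 ≤ Fintype.card ι)
    {F₀ : Subfield F} {r : ℕ} (hr : r.Prime) (hcard : Fintype.card F = Nat.card F₀ ^ r)
    (P : Matrix.GeneralLinearGroup ι F) {ζ : F} (hζ : ζ ≠ 0)
    (hP : Geo.IsQuadFormRationalStructure (fun v => ζ * Q v) F₀ P) :
    Geo.IsMaximalIn (Geo.omegaGL Q) (Geo.subfieldSubgroup F₀ P ⊓ Geo.omegaGL Q) := by
  obtain ⟨Q, rfl, hN⟩ := exists_quadraticForm hQ
  rw [omegaGL_tr Q (Equiv.refl ι) P, subfieldSubgroup_eq, ← map_equiv_inf]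
  refine isMaximalIn_map _ ?_
  rw [omegaGL_eq, ← Om_smul _ hζ, ← omegaGL_eq]
  refine subStd_max ((hN.comp _).smul hζ) h7 ?_ fun u hu => hP u hu
  have h1 : Nat.card F = Nat.card F₀ ^ finrank F₀ F := Module.natCard_eq_pow_finrank
  rw [Nat.card_eq_fintype_card, hcard] at h1
  rwa [← Nat.pow_right_injective (Finite.one_lt_card (α := F₀)) h1]

end Cfsg.Agent.H8
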