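import Cfsg.Agent.H8.C6b
import Cfsg.Agent.Asch.FF
import Cfsg.Agent.Form.Adapters

/-! Extraspecial normalisers in `SL₄(p)`, `SU₄(p)` and `Sp₄(p)`. -/

set_option autoImplicit false
set_option linter.unusedSectionVars false

namespace Cfsg.Agent.H8.C6

open Module Finset Cfsg.Agent.H4 Cfsg.Agent.H4.E QuadraticMap Cfsg.Agent.Form
open Cfsg.Agent.H4.Fr hiding sg sg_mul_self

section alg
variable {F A W : Type*} [Field F] [Ring A] [Algebra F A] [AddCommGroup W] [Module (ZMod 2) W] (D : ES F A W)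

theorem ind {P : A → Prop} (h : ∀ u, P (D.η u)) (h0 : P 0) (hadd : ∀ a b, P a → P b → P (a + b))
    (hsmul : ∀ (c : F) a, P a → P (c • a)) (a : A) : P a :=
  Submodule.span_induction (p := fun x _ => P x) (by rintro _ ⟨u, rfl⟩; exact h u) h0
    (fun x y _ _ => hadd x y) (fun c x _ => hsmul c x) (show a ∈ Submodule.span F (Set.range D.η) by simp [D.span])

/-- sign changes of the basis `η` -/
noncomputable def dg (s : W → ZMod 2) : A →ₗ[F] A :=
  (Basis.mk D.linInd D.span.ge).constr F fun u => sg F (s u) • D.η u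

theorem dg_η (s : W → ZMod 2) (u : W) : dg D s (D.η u) = sg F (s u) • D.η u := by
  simpa [dg] using (Basis.mk D.linInd D.span.ge).constr_basis F (fun u => sg F (s u) • D.η u) u

theorem dg_dg (s : W → ZMod 2) (a : A) : dg D s (dg D s a) = a := by
  induction a using ind D <;> simp [*, dg_η, smul_smul]

theorem dg_mul {Q : W → ZMod 2} (hQ : ∀ u v, Q (u + v) = Q u + Q v + D.f u v) (a b : A) :
    dg D Q (a * b) = dg D Q b * dg D Q a := by
  induction a using ind D with
  | h u =>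
    induction b using ind D with
    | h v =>
      obtain ⟨c, -, hc⟩ := D.mul u v
      rw [hc, map_smul, dg_η, smul_comm, ← hc, dg_η, dg_η, hQ, D.comm]
      simp only [sg_add, smul_smul, smul_mul_assoc, mul_smul_comm, mul_assoc, sg_mul_self, mul_one]
    | _ => simp [*, mul_add, add_mul]
  | _ => simp [*, mul_add, add_mul]

theorem dg_one {Q : W → ZMod 2} (h : Q 0 = 0) : dg D Q 1 = 1 := by rw [← D.η0, dg_η, h]; simp

theorem dg_fix {ι : Type*} [Fintype ι] [DecidableEq ι] (C : CD D ι) {Q : W → ZMod 2}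
    (hall : ∀ u, Q u = 0 → u = 0 ∨ ∃ k, u = C.w k) {a : A} (ha : dg D Q a = a) :
    ∃ (c : F) (m : ι → F), a = c • 1 + C.Φ (RingHom.id F) m := by
  have key : ∀ a, ∃ (c : F) (m : ι → F), a + dg D Q a = c • 1 + C.Φ (RingHom.id F) m := fun a => by
    induction a using ind D with
    | h u =>
      rcases z2 (Q u) with h | h
      · rcases hall u h with rfl | ⟨k, rfl⟩
        · exact ⟨2, 0, by simp [dg_one D h, D.η0, C.Φ_zero, two_smul]⟩
        · exact ⟨0, e k + e k, by simp [dg_η, h, C.Φ_add, C.Φ_e]⟩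
      · exact ⟨0, 0, by simp [dg_η, h, C.Φ_zero]⟩
    | h0 => exact ⟨0, 0, by simp [C.Φ_zero]⟩
    | hadd a b ha hb =>
      obtain ⟨c, m, h⟩ := ha
      obtain ⟨c', m', h'⟩ := hb
      exact ⟨c + c', m + m', by rw [map_add, add_add_add_comm, h, h', C.Φ_add, add_smul]; abel⟩
    | hsmul s a ha =>
      obtain ⟨c, m, h⟩ := ha
      exact ⟨s * c, s • m, by rw [map_smul, ← smul_add, h, C.Φ_smul, smul_add, smul_smul]; rfl⟩
  obtain ⟨c, m, h⟩ := key ((2 : F)⁻¹ • a)
  exact ⟨c, m, by rw [← h, map_smul, ha, ← two_smul F, smul_inv_smul₀ D.two]⟩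

variable {D} {ι : Type*} [Fintype ι] [DecidableEq ι] (C : CD D ι) {E : Type*} [Field E] (φ : E →+* F)

theorem CD.anti {k l : ι} (h : k ≠ l) : D.η (C.w l) * D.ι (C.w k) = -(D.η (C.w k) * D.ι (C.w l)) := by
  simp only [ES.ι, mul_smul_comm, C.hs k l h, sg_add, D.comm (C.w k), smul_smul, sg_one, ← neg_smul]
  congr 1
  linear_combination (-sg F (D.q (C.w k))) * sg_mul_self (F := F) (D.f (C.w k) (C.w l))

theorem CD.norm (v : ι → E) : C.Φ φ v * dg D D.q (C.Φ φ v) = φ (Q0 v) • (1 : A) := by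
  refine smul_right_injective A D.two ?_
  have h1 : C.Φ φ v * dg D D.q (C.Φ φ v) = ∑ k, ∑ l, (φ (v k) * φ (v l)) • (D.η (C.w k) * D.ι (C.w l)) := by
    simp only [CD.Φ, map_sum, map_smul, dg_η, sum_mul_sum, smul_mul_assoc, mul_smul_comm, smul_smul, ES.ι,
      mul_assoc, mul_left_comm, mul_comm]
  beta_reduce
  rw [two_smul, h1]
  nth_rewrite 2 [sum_comm]
  rw [← sum_add_distrib, Q0_apply, dotProduct, map_sum, sum_smul, smul_sum]
  refine sum_congr rfl fun k _ => ?_
  rw [← sum_add_distrib, sum_eq_single k (fun l _ h => by rw [C.anti h, mul_comm]; simp) (by simp)]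
  simp [two_smul]

variable {C φ}

theorem CD.exists_c {g g' : A} (h1 : g * g' = 1) (h2 : g' * g = 1) {a : F} (ha : a ≠ 0)
    (h : ∀ k, ∃ v, C.Φ φ v = a • (g * D.η (C.w k) * C.τ g)) :
    ∃ c : F, ∀ k, dg D D.q (g * D.η (C.w k) * C.τ g) = c • (C.τ g' * D.ι (C.w k) * g') := by
  obtain ⟨y, hy⟩ := CD.exists_rel h1 h2 ha h
  have h3 : ∀ v, (a * a) • (C.Φ φ v * (C.τ g * dg D D.q (g * C.Φ φ v * C.τ g) * g)) = φ (Q0 (y v)) • 1 := fun v => by
    have := congrArg (fun z => g' * z * g) (C.norm φ (y v))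
    simp only [hy, map_smul, mul_smul_comm, smul_mul_assoc, smul_smul, mul_one, h2] at this
    rw [← this]; simp only [← mul_assoc, h2, one_mul]
  have h4 : ∀ k, (a * a) • (C.τ g * dg D D.q (g * D.η (C.w k) * C.τ g) * g) = φ (Q0 (y (e k))) • D.ι (C.w k) :=
    fun k => by simpa [C.Φ_e, ← mul_assoc] using congrArg (D.ι (C.w k) * ·) (h3 (e k))
  have h5 : ∀ k l, φ (Q0 (y (e k))) = φ (Q0 (y (e l))) := fun k l => by
    by_contra h6
    have hkl : k ≠ l := by rintro rfl; exact h6 rfl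
    have h7 := h3 (e k + e l)
    rw [← mul_smul_comm] at h7
    simp only [C.Φ_add, C.Φ_e, mul_add g, add_mul _ _ (C.τ g), map_add (dg D D.q), mul_add (C.τ g),
      add_mul _ _ g, smul_add, h4] at h7
    simp only [add_mul, mul_add, mul_smul_comm, ES.η_ι, C.anti hkl] at h7
    obtain ⟨c, hc, h8⟩ := D.mul (C.w k) (C.w l)
    refine hkl (C.inj (H4.E.add_eq_zero'.1 (D.eq_of_smul (c := ((φ (Q0 (y (e l))) - φ (Q0 (y (e k)))) *
      (sg F (D.q (C.w l)) * c))⁻¹ * (φ (Q0 (y (e k + e l))) - φ (Q0 (y (e k))) - φ (Q0 (y (e l))))) ?_)))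
    rw [mul_smul, eq_inv_smul_iff₀ (mul_ne_zero (sub_ne_zero.2 (Ne.symm h6)) (mul_ne_zero (sg_ne _) hc)), D.η0,
      sub_smul, sub_smul, ← h7, mul_smul, mul_smul, ← h8, ← mul_smul_comm, sub_smul]
    simp only [ES.ι, smul_neg, smul_add]; abel
  rcases isEmpty_or_nonempty ι with _ | ⟨⟨k0⟩⟩
  · exact ⟨0, fun k => isEmptyElim k⟩
  refine ⟨(a * a)⁻¹ * φ (Q0 (y (e k0))), fun k => ?_⟩
  rw [mul_smul, eq_inv_smul_iff₀ (mul_ne_zero ha ha), h5 k0 k, ← smul_mul_assoc, ← mul_smul_comm, ← h4]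
  simp only [mul_smul_comm, smul_mul_assoc, ← mul_assoc, ← C.τ_mul, h1, C.τ_one, one_mul]
  rw [mul_assoc _ g, h1, mul_one]

theorem CD.exists_sim [Nonempty ι] {g g' : A} (h1 : g * g' = 1) (h2 : g' * g = 1) {a : F} (ha : a ≠ 0)
    (h : ∀ k, ∃ v, C.Φ φ v = a • (g * D.η (C.w k) * C.τ g)) : ∃ y, Sim y ∧ C.Rel φ g y := by
  obtain ⟨c, hc⟩ := CD.exists_c h1 h2 ha h
  obtain ⟨y, hy⟩ := CD.exists_rel h1 h2 ha h
  have h3 : ∀ v, φ (Q0 (y v)) = a * a * c * φ (Q0 v) := fun v => by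
    have h4 : dg D D.q (g * C.Φ φ v * C.τ g) = c • (C.τ g' * dg D D.q (C.Φ φ v) * g') := by
      simp only [CD.Φ, mul_sum, sum_mul, map_sum, smul_sum, mul_smul_comm, smul_mul_assoc, map_smul, hc, dg_η, ES.ι,
        smul_smul, mul_left_comm]
    refine D.smul_inj ?_
    rw [← C.norm, hy, map_smul, h4]
    simp only [mul_smul_comm, smul_mul_assoc, smul_smul, mul_assoc, ← mul_assoc (C.τ g), ← C.τ_mul, h2, C.τ_one,
      one_mul, ← mul_assoc (C.Φ φ v), C.norm, h1, mul_left_comm c]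
  refine ⟨y, ⟨Q0 (y (e (Classical.arbitrary ι))), fun v => φ.injective ?_⟩, a, ha, hy⟩
  simp [h3, Q0_apply (e _)]

variable (D) in
/-- the frame attached to a quadratic form -/
noncomputable def mkCD {Q : W → ZMod 2} (hQ : ∀ u v, Q (u + v) = Q u + Q v + D.f u v) (w : ι → W)
    (inj : Function.Injective w) (q1 : ∀ i j, i ≠ j → D.q (w i + w j) = 1)
    (act : ∀ i j, i ≠ j → ∀ k, D.f (w i + w j) (w k) + Q (w i + w j) + 1 = if k ∈ ({i, j} : Finset ι) then 1 else 0)
    (hs : ∀ i j, i ≠ j → D.q (w j) = D.f (w i) (w j) + 1 + D.q (w i))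
    (perp : ∀ v, (∀ i j, D.f (w i + w j) v = 0) → v = 0) : CD D ι where
  w := w
  τ := dg D Q
  τ_mul := dg_mul D hQ
  τ_one := dg_one D (by simpa using hQ 0 0)
  inj := inj
  q1 := q1
  act i j hij k := by
    rw [D.comm, dg_η, smul_mul_assoc, mul_smul_comm, mul_assoc, D.sq, q1 i j hij, mul_smul_comm, mul_one, smul_smul,
      smul_smul, ← sg_add, ← sg_add, act i j hij]
    split_ifs <;> simp
  hs := hs
  perp := perp

variable {Q : W → ZMod 2} {w : Fin 5 → W}

theorem Five.f' {S : Sp W} (h : Five S Q w) (i j : Fin 5) : S.f (w i) (w j) = if i = j then 0 else 1 := by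
  split_ifs with e
  · rw [e, S.alt]
  · exact h.f i j e

theorem Five.perp {S : Sp W} (h : Five S Q w) (v : W) (hv : ∀ i j, S.f (w i + w j) v = 0) : v = 0 := by
  rcases h.all v with rfl | ⟨k, rfl⟩ | ⟨i, j, hij, rfl⟩
  · rfl
  all_goals
    simp only [map_add, LinearMap.add_apply, h.f'] at hv
  · exact absurd hv (by revert k; decide)
  · exact absurd hv (by revert i j; decide)

theorem Five.inj {S : Sp W} (h : Five S Q w) : Function.Injective w := fun i j e => by
  by_contra hij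
  simpa [e, S.alt] using h.f i j hij

theorem Five.ne {S : Sp W} (h : Five S Q w) (i : Fin 5) : w i ≠ 0 := fun e => by
  simpa [e] using h.f i (i + 1) (by clear e; revert i; decide)

theorem Five.zero {S : Sp W} (h : Five S Q w) (hQ : ∀ u v, Q (u + v) = Q u + Q v + S.f u v) (u : W) (hu : Q u = 0) :
    u = 0 ∨ ∃ k, u = w k := by
  rcases h.all u with rfl | ⟨k, rfl⟩ | ⟨i, j, hij, rfl⟩
  · exact Or.inl rfl
  · exact Or.inr ⟨k, rfl⟩
  · simp [hQ, h.Q, h.f i j hij] at hu

theorem exists_six (D : ES F A W) (hq : ∀ u, u ≠ 0 → D.q u = 1) (hW : Nat.card W = 16) :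
    ∃ (C : CD D (Option (Fin 5))) (Q : W → ZMod 2), C.τ = dg D Q ∧
      ∀ g k, ∃ m, C.Φ (RingHom.id F) m = g * D.η (C.w k) * C.τ g := by
  obtain ⟨Q, hQ, w, h⟩ := exists_five D.toSp hW
  have h0 : Q 0 = 0 := by simpa using hQ 0 0
  have inj : Function.Injective fun k : Option (Fin 5) => k.elim 0 w := by
    rintro (_ | i) (_ | j) e
    exacts [rfl, absurd e.symm (h.ne j), absurd e (h.ne i), congrArg _ (h.inj e)]
  have h1 : ∀ k : Option (Fin 5), Q (k.elim 0 w) = 0 := by rintro (_ | k); exacts [h0, h.Q k]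
  have h2 : ∀ k l : Option (Fin 5), D.f (k.elim 0 w) (l.elim 0 w) =
      if k = none ∨ l = none ∨ k = l then 0 else 1 := by
    rintro (_ | k) (_ | l) <;> simp [h.f']
  have h3 : ∀ k : Option (Fin 5), D.q (k.elim 0 w) = if k = none then 0 else 1 := by
    rintro (_ | k); exacts [D.q0, hq _ (h.ne k)]
  let C := mkCD D hQ _ inj (fun i j hij => hq _ (mt H4.E.add_eq_zero'.1 (inj.ne hij)))
    (by simp only [map_add, LinearMap.add_apply, hQ, h1, h2]; decide) (by simp only [h2, h3]; decide)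
    fun v hv => h.perp v fun i j => hv (some i) (some j)
  refine ⟨C, Q, rfl, fun g k => ?_⟩
  obtain ⟨c, m, hm⟩ := dg_fix D C (Q := Q) (fun u hu => (h.zero hQ u hu).imp_right fun ⟨k, e⟩ => ⟨some k, e⟩)
    (a := g * D.η (C.w k) * dg D Q g) (by
      rw [dg_mul D hQ, dg_mul D hQ, dg_dg, dg_η, show Q (C.w k) = 0 from h1 k]; simp [mul_assoc])
  exact ⟨c • e none + m, by rw [C.Φ_add, C.Φ_smul, C.Φ_e, show D.η (C.w none) = 1 from D.η0]; exact hm.symm⟩

theorem unip_inv {N : A} (h : N * N = 0) (c : F) : (1 + c • N) * (1 + (-c) • N) = 1 := by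
  simp [add_mul, mul_add, h]

theorem base_lin' [Finite F] (D : ES F A W) (hq : ∀ u, u ≠ 0 → D.q u = 1) (hW : Nat.card W = 16)
    (hp : (Nat.card F).Prime) {M : Gp F A} (hM : D.Over M) :
    (∀ g, M.mem g → D.Nrm g) ∨ ∀ N : A, N * N = 0 → M.mem (1 + N) := by
  obtain ⟨C, Q, -, h⟩ := exists_six D hq hW
  have key : ∀ g g' : A, g * g' = 1 → g' * g = 1 → ∃ y, Sim y ∧ C.Rel (RingHom.id F) g y := fun g g' h1 h2 =>
    CD.exists_sim h1 h2 one_ne_zero (by simpa using h g)
  refine (C.core (RingHom.id F) hp (Or.inr (by simp)) hM fun g hg => ?_).imp_right fun H N hN =>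
    H N hN (key _ _ (unip_inv hN _) (by simpa using unip_inv hN (-(-2 : F)⁻¹)))
  obtain ⟨g', -, h1, h2⟩ := M.inv hg
  exact key g g' h1 h2

end alg

section form
variable {F V W : Type*} [Field F] [AddCommGroup V] [Module F V] [AddCommGroup W] [Module (ZMod 2) W]

theorem base_lin [Finite F] (D : ES F (End F V) W) (hq : ∀ u, u ≠ 0 → D.q u = 1) (hW : Nat.card W = 16)
    (hp : (Nat.card F).Prime) {M : Gp F (End F V)} (hM : D.Over M) :
    (∀ g, M.mem g → D.Nrm g) ∨ ∀ (φ : V →ₗ[F] F) (v : V), φ v = 0 → M.mem (1 + φ.smulRight v) :=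
  (base_lin' D hq hW hp hM).imp_right fun h φ v hv => h _ (by ext x; simp [hv])

variable {P : FP F} (S : PQ P V)

/-- adjoint pairs -/
def Adj (a b : End F V) : Prop := ∀ x y, S.B (a x) y = S.B x (b y)

variable {S}

theorem Adj.unique (hS : S.Nondeg) {a b b' : End F V} (h : Adj S a b) (h' : Adj S a b') : b = b' :=
  LinearMap.ext fun y => sub_eq_zero.1 (hS.right _ fun x => by rw [S.B_sub_right, ← h, ← h', sub_self])

theorem Adj.zero : Adj S 0 0 := fun x y => by simp
theorem Adj.one : Adj S 1 1 := fun _ _ => rfl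
theorem Adj.add {a b a' b' : End F V} (h : Adj S a b) (h' : Adj S a' b') : Adj S (a + a') (b + b') := fun x y => by
  simp [h x y, h' x y]
theorem Adj.smul {a b : End F V} (h : Adj S a b) (c : F) : Adj S (c • a) (P.σ c • b) := fun x y => by
  simp [h x y]
theorem Adj.mul {a b a' b' : End F V} (h : Adj S a b) (h' : Adj S a' b') : Adj S (a * a') (b' * b) := fun x y =>
  (h _ _).trans (h' _ _)
theorem Adj.sum {ι : Type*} (s : Finset ι) {a b : ι → End F V} (h : ∀ k, Adj S (a k) (b k)) :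
    Adj S (∑ k ∈ s, a k) (∑ k ∈ s, b k) := by
  classical
  induction s using Finset.induction_on with
  | empty => simpa using Adj.zero
  | insert k s hk ih => rw [sum_insert hk, sum_insert hk]; exact (h k).add ih

theorem adj_of_sim {g g' : End F V} (h1 : g * g' = 1) {d : F} (h : ∀ x y, S.B (g x) (g y) = d * S.B x y) :
    Adj S g (P.σ d • g') := fun x y => by
  have := h x (g' y)
  rw [show g (g' y) = y from LinearMap.congr_fun h1 y] at this
  simp [this]

theorem adj_η {D : ES F (End F V) W} (hη : ∀ u x y, S.B (D.η u x) (D.η u y) = S.B x y) (u : W) :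
    Adj S (D.η u) (D.ι u) := by
  simpa using adj_of_sim (D.η_ι u) (d := 1) (by simpa using hη u)

theorem Adj.dg (hS : S.Nondeg) {D : ES F (End F V) W} (hη : ∀ u x y, S.B (D.η u x) (D.η u y) = S.B x y)
    (Q : W → ZMod 2) {a b : End F V} (h : Adj S a b) : Adj S (dg D Q a) (dg D Q b) := by
  have key : ∀ a, ∃ b, Adj S a b ∧ Adj S (C6.dg D Q a) (C6.dg D Q b) := fun a => by
    induction a using ind D with
    | h u =>
      refine ⟨_, adj_η hη u, ?_⟩
      rw [ES.ι, map_smul, dg_η, smul_comm]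
      simpa only [map_sg, ES.ι] using (adj_η hη u).smul (sg F (Q u))
    | h0 => exact ⟨0, Adj.zero, by simpa using Adj.zero⟩
    | hadd a b ha hb =>
      obtain ⟨c, h1, h2⟩ := ha
      obtain ⟨c', h1', h2'⟩ := hb
      exact ⟨c + c', h1.add h1', by simpa using h2.add h2'⟩
    | hsmul s a ha =>
      obtain ⟨c, h1, h2⟩ := ha
      exact ⟨_, h1.smul s, by simpa using h2.smul s⟩
  obtain ⟨b', h1, h2⟩ := key a
  rwa [h.unique hS h1]

theorem tv_iso {d : V} (hd : S.B d d = 0) {c : F} (hc : P.ε * c + P.σ c = 0) (x y : V) :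
    S.B ((1 + (S.lin d).smulRight (c • d) : End F V) x) ((1 + (S.lin d).smulRight (c • d) : End F V) y) =
      1 * S.B x y := by
  simp only [LinearMap.add_apply, End.one_apply, LinearMap.smulRight_apply, PQ.lin_apply, PQ.B_add_left,
    PQ.B_add_right, PQ.B_smul_left, PQ.B_smul_right, hd, S.B_swap y d]
  linear_combination (S.B x d * P.σ (S.B y d)) * hc

theorem card_fixSub [Finite F] {p : ℕ} (hp : p.Prime) (hF : Nat.card F = p ^ 2) {σ : F →+* F} (hne : ∃ a, σ a ≠ a) :
    Nat.card (Asch.fixSub σ) = p := by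
  obtain ⟨k, hk, e⟩ := (Nat.dvd_prime_pow hp).1
    (hF ▸ AddSubgroup.card_addSubgroup_dvd_card (Asch.fixSub σ).toAddSubgroup)
  interval_cases k
  · exact absurd e (Finite.one_lt_card (α := Asch.fixSub σ)).ne'
  · simpa using e
  · obtain ⟨a, ha⟩ := hne
    have := AddSubgroup.eq_top_of_card_eq _ (e.trans hF.symm)
    exact absurd (show a ∈ (Asch.fixSub σ).toAddSubgroup by simp [this]) ha

theorem base_unit' [Finite F] {p : ℕ} (hp : p.Prime) (hF : Nat.card F = p ^ 2) {σ : F →+* F} {hσ : ∀ a, σ (σ a) = a}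
    (hne : ∃ a, σ a ≠ a) {S : PQ (FP.unit σ hσ) V} (hS : S.Nondeg) (D : ES F (End F V) W)
    (hq : ∀ u, u ≠ 0 → D.q u = 1) (hW : Nat.card W = 16) (hη : ∀ u x y, S.B (D.η u x) (D.η u y) = S.B x y)
    {M : Gp F (End F V)} (hM : D.Over M)
    (hiso : ∀ g, M.mem g → ∃ d, d ≠ 0 ∧ ∀ x y, S.B (g x) (g y) = d * S.B x y) :
    (∀ g, M.mem g → D.Nrm g) ∨
      ∀ d c, S.B d d = 0 → c + σ c = 0 → M.mem (1 + (S.lin d).smulRight (c • d)) := by
  obtain ⟨C, Q, hτ, h⟩ := exists_six D hq hW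
  have key : ∀ g g' : End F V, g * g' = 1 → g' * g = 1 → (∃ d, d ≠ 0 ∧ ∀ x y, S.B (g x) (g y) = d * S.B x y) →
      ∃ y, Sim y ∧ C.Rel (Asch.fixSub σ).subtype g y := fun g g' h1 h2 ⟨d, hd, h3⟩ => by
    obtain ⟨c, hc⟩ := CD.exists_c (C := C) (φ := RingHom.id F) h1 h2 one_ne_zero (by simpa using h g)
    choose m hm using h g
    have h4 : ∀ k l, c * σ (m k l) = σ d * σ d * m k l := fun k l => by
      have h5 := ((adj_of_sim h1 h3).mul (adj_η hη (C.w k))).mul ((adj_of_sim h1 h3).dg hS hη Q)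
      rw [← hτ, ← hm] at h5
      have h6 := (Adj.sum univ fun l => (adj_η hη (C.w l)).smul (m k l)).unique hS h5
      have h7 : dg D D.q (C.Φ (RingHom.id F) (c • fun l => σ (m k l))) =
          dg D D.q (C.Φ (RingHom.id F) ((σ d * σ d) • m k)) := by
        rw [C.Φ_smul, C.Φ_smul, map_smul, map_smul, hm, hc, smul_comm]
        simp only [CD.Φ, map_sum, map_smul, dg_η]
        erw [h6]
        simp only [map_smul, mul_smul_comm, smul_mul_assoc, smul_smul, mul_assoc, RingHom.id_apply]; rfl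
      exact congrFun (C.Φ_inj _ (by simpa only [dg_dg] using congrArg (dg D D.q) h7)) l
    obtain ⟨l, hl⟩ : ∃ l, m none l ≠ 0 := by
      by_contra! h5
      have := congrArg (fun z => D.ι (C.w none) * (g' * z * C.τ g')) (hm none)
      simp only [show m none = 0 from funext h5, C.Φ_zero, mul_zero, zero_mul, mul_assoc, ← C.τ_mul, h2, C.τ_one,
        mul_one] at this
      rw [← mul_assoc g', h2, one_mul, D.ι_η] at this
      exact D.nt this.symm
    have hc0 : c ≠ 0 := by rintro rfl; simpa [hd, hl] using h4 none l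
    refine CD.exists_sim h1 h2 (inv_ne_zero hl) fun k => ⟨fun j => ⟨(m none l)⁻¹ * m k j, ?_⟩, ?_⟩
    · rw [Asch.mem_fixSub, map_mul, map_inv₀, eq_div_of_mul_eq hc0 ((mul_comm _ _).trans (h4 k j)),
        eq_div_of_mul_eq hc0 ((mul_comm _ _).trans (h4 none l))]
      have := (map_ne_zero σ).2 hd
      field_simp
    · rw [← hm, CD.Φ, CD.Φ, smul_sum]; simp [smul_smul]
  refine (C.core (Asch.fixSub σ).subtype (by rwa [card_fixSub hp hF hne]) (Or.inr (by simp)) hM fun g hg => ?_).imp_right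
    fun H d c hd hc => ?_
  · obtain ⟨g', -, h1, h2⟩ := M.inv hg
    exact key g g' h1 h2 (hiso g hg)
  · have hN : (S.lin d).smulRight (c • d) * (S.lin d).smulRight (c • d) = 0 := by ext x; simp [hd]
    refine H _ hN (key _ _ (unip_inv hN _) (by simpa using unip_inv hN (-(-2 : F)⁻¹)) ⟨1, one_ne_zero, ?_⟩)
    convert tv_iso hd (c := (-2)⁻¹ * c) (by
      change 1 * _ + σ _ = 0
      simp only [map_mul, map_inv₀, map_neg, map_ofNat]; linear_combination (-2 : F)⁻¹ * hc) using 5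
    all_goals ext; simp [smul_smul, mul_left_comm]

theorem base_unit [Finite F] {p : ℕ} (hp : p.Prime) (hF : Nat.card F = p ^ 2) {σ : F →+* F} {hσ : ∀ a, σ (σ a) = a}
    (hne : ∃ a, σ a ≠ a) {S : PQ (FP.unit σ hσ) V} (hS : S.Nondeg) (D : ES F (End F V) W)
    (hq : ∀ u, u ≠ 0 → D.q u = 1) (hW : Nat.card W = 16) (hη : ∀ u x y, S.B (D.η u x) (D.η u y) = S.B x y)
    {M : Gp F (End F V)} (hM : D.Over M)
    (hiso : ∀ g, M.mem g → ∃ c, c ≠ 0 ∧ ∀ x y, S.B (g x) (g y) = c * σ c * S.B x y) :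
    (∀ g, M.mem g → D.Nrm g) ∨
      ∀ d c, S.B d d = 0 → c + σ c = 0 → M.mem (1 + (S.lin d).smulRight (c • d)) :=
  base_unit' hp hF hne hS D hq hW hη hM fun g hg =>
    let ⟨_, hc, h⟩ := hiso g hg; ⟨_, mul_ne_zero hc ((map_ne_zero σ).2 hc), h⟩

theorem base_symp [Finite F] [FiniteDimensional F V] (hp : (Nat.card F).Prime) {S : PQ (FP.symp F) V} (hS : S.Nondeg)
    (hV : finrank F V = 4) (D : ES F (End F V) W) (hW : Nat.card W = 16)
    (hη : ∀ u x y, S.B (D.η u x) (D.η u y) = S.B x y) {M : Gp F (End F V)} (hM : D.Over M)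
    (hiso : ∀ g, M.mem g → ∃ d, d ≠ 0 ∧ ∀ x y, S.B (g x) (g y) = d * S.B x y) :
    (∀ g, M.mem g → D.Nrm g) ∨ ∀ (d : V) (c : F), M.mem (1 + (S.lin d).smulRight (c • d)) := by
  have hself : ∀ x, S.B x x = 0 := fun x => by rw [S.B_self]; simp [FP.symp]
  have hτ : ∀ a, Adj S a (dg D D.q a) := fun a => by
    induction a using ind D with
    | h u => rw [dg_η]; exact adj_η hη u
    | h0 => simpa using Adj.zero
    | hadd a b ha hb => simpa using ha.add hb
    | hsmul s a ha => simpa using ha.smul s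
  have hQ : ∀ u v, D.q (u + v) = D.q u + D.q v + D.f u v := fun u v => by
    have h1 := (hτ _).unique hS ((adj_η hη u).mul (adj_η hη v))
    obtain ⟨c, hc, h2⟩ := D.mul u v
    rw [h2, map_smul, dg_η, smul_comm, ← h2, D.comm] at h1
    simp only [ES.ι, smul_mul_assoc, mul_smul_comm, smul_smul, ← sg_add] at h1
    have := sg_inj D.two (smul_left_injective F (fun e => D.η_ne u (by
      rw [← one_mul (D.η u), ← D.ι_η v, mul_assoc, e, mul_zero])) h1)
    rw [← this, add_assoc, z2_add, add_zero]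
  have htr : ∀ u, u ≠ 0 → LinearMap.trace F V (D.η u) = 0 := fun u hu => by
    obtain ⟨v, hv⟩ := D.nd _ hu
    have := congrArg (LinearMap.trace F V) (D.conj v u)
    rw [LinearMap.trace_mul_comm, ← mul_assoc, D.ι_η, one_mul, hv] at this
    exact (mul_eq_zero.1 (show 2 * _ = (0 : F) by simpa [two_mul, ← eq_neg_iff_add_eq_zero] using this)).resolve_left
      D.two
  have h5 : (4 : F) ≠ 0 := by rw [show (4 : F) = 2 * 2 by norm_num]; exact mul_ne_zero D.two D.two
  rcases hyp_or_five D.toSp hW hQ with ⟨a, b, qa, a0, qb, b0, hab, fab, hz⟩ | ⟨w, h⟩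
  · exfalso
    obtain ⟨s, hs, h1⟩ := D.mul a b
    obtain ⟨T, hT⟩ : ∃ T, T = (1 + D.η a) * (1 + D.η b) := ⟨_, rfl⟩
    have hT' : T = (1 + D.η b) * (1 + D.η a) := by simp [hT, add_mul, mul_add, D.comm0 fab, add_add_add_comm]
    have ha : D.η a * T = T := by rw [hT, ← mul_assoc, mul_add (D.η a), D.sq0 qa, mul_one, add_comm]
    have hb : D.η b * T = T := by rw [hT', ← mul_assoc, mul_add (D.η b), D.sq0 qb, mul_one, add_comm]
    have hTT : T * T = (4 : F) • T := by
      nth_rewrite 1 [hT]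
      rw [mul_assoc, add_mul, add_mul, one_mul, one_mul, hb, mul_add, ha, show (4 : F) = 2 + 2 by norm_num, add_smul,
        two_smul]
    have h2 : ∀ x u, D.q x = 0 → D.f x u = 1 → (1 + D.η x) * (D.η u * (1 + D.η x)) = 0 := fun x u h1 h2 => by
      rw [← mul_assoc, add_mul 1, D.comm1 h2]; simp [add_mul, mul_add, mul_assoc, D.sq0 h1]
    have key : ∀ X, ∃ l : F, T * X * T = l • T := fun X => by
      induction X using ind D with
      | h u =>
        rcases z2 (D.f a u) with e1 | e1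
        · rcases z2 (D.f b u) with e2 | e2
          · rw [mul_assoc]
            rcases hz u e1 e2 with rfl | rfl | rfl | rfl
            exacts [⟨4, by rw [D.η0, one_mul, hTT]⟩, ⟨4, by rw [ha, hTT]⟩, ⟨4, by rw [hb, hTT]⟩, ⟨s⁻¹ * 4, by
              rw [← (inv_smul_eq_iff₀ hs).2 h1, smul_mul_assoc, mul_assoc, hb, ha, mul_smul_comm, hTT, smul_smul]⟩]
          · refine ⟨0, ?_⟩
            nth_rewrite 1 [hT]
            rw [hT', mul_assoc, mul_assoc, ← mul_assoc (D.η u), ← mul_assoc (1 + D.η b), h2 b u qb e2]; simp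
        · refine ⟨0, ?_⟩
          nth_rewrite 1 [hT']
          rw [hT, mul_assoc, mul_assoc, ← mul_assoc (D.η u), ← mul_assoc (1 + D.η a), h2 a u qa e1]; simp
      | h0 => exact ⟨0, by simp⟩
      | hadd X Y hX hY =>
        obtain ⟨l, e1⟩ := hX
        obtain ⟨m, e2⟩ := hY
        exact ⟨l + m, by rw [mul_add, add_mul, e1, e2, add_smul]⟩
      | hsmul c X hX =>
        obtain ⟨l, e1⟩ := hX
        exact ⟨c * l, by rw [mul_smul_comm, smul_mul_assoc, e1, smul_smul]⟩
    have h3 : Adj S T T := by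
      have := (Adj.one.add (adj_η hη a)).mul (Adj.one.add (adj_η hη b))
      simp only [ES.ι, qa, qb, sg_zero, one_smul] at this
      rwa [← hT, ← hT'] at this
    obtain ⟨x, hx⟩ : ∃ x, T x ≠ 0 := by
      by_contra! h4
      have := congrArg (LinearMap.trace F V) (hT.symm.trans (LinearMap.ext h4 : T = 0))
      simp [add_mul, mul_add, h1, htr a a0, htr b b0, htr _ (mt H4.E.add_eq_zero'.1 hab), hV, h5] at this
    have h4 : T (T x) = (4 : F) • T x := LinearMap.congr_fun hTT x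
    obtain ⟨l, hl⟩ := key ((S.lin (T x)).smulRight (T x))
    have h6 : ∀ z, (4 * S.B z (T x) * 4) • T x = l • T z := fun z => by
      have := LinearMap.congr_fun hl z
      simp only [End.mul_apply, LinearMap.smulRight_apply, PQ.lin_apply, h3 z, h4, map_smul, smul_smul,
        PQ.B_smul_right] at this
      exact this
    have h7 : l = 0 := by simpa [hself, h4, h5, hx] using (h6 (T x)).symm
    exact hx (hS.right _ fun z => by simpa [h7, h5, hx] using h6 z)
  let C := mkCD D hQ w h.inj (fun i j hij => by simp [hQ, h.Q, h.f i j hij])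
    (by simp only [map_add, LinearMap.add_apply, hQ, h.Q, h.f']; decide) (by simp only [h.Q, h.f']; decide) h.perp
  have key : ∀ g g' : End F V, g * g' = 1 → g' * g = 1 → (∃ d, d ≠ 0 ∧ ∀ x y, S.B (g x) (g y) = d * S.B x y) →
      ∃ y, Sim y ∧ C.Rel (RingHom.id F) g y := fun g g' h1 h2 ⟨d, hd, h3⟩ =>
    CD.exists_sim h1 h2 one_ne_zero fun k => by
      obtain ⟨c, m, hm⟩ := dg_fix D C (h.zero hQ) (a := g * D.η (w k) * dg D D.q g) (by
        rw [dg_mul D hQ, dg_mul D hQ, dg_dg, dg_η, h.Q k]; simp [mul_assoc])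
      have h4 := congrArg (LinearMap.trace F V) hm
      rw [LinearMap.trace_mul_comm, ← mul_assoc, (hτ g).unique hS (adj_of_sim h1 h3)] at h4
      simp [CD.Φ, h2, htr _ (h.ne _), C, mkCD, hV, h5] at h4
      rw [h4, zero_smul, zero_add] at hm
      exact ⟨m, by rw [one_smul]; exact hm.symm⟩
  refine (C.core (RingHom.id F) hp (Or.inl (by simp)) hM fun g hg => ?_).imp_right fun H d c => ?_
  · obtain ⟨g', -, h1, h2⟩ := M.inv hg
    exact key g g' h1 h2 (hiso g hg)
  · have hN : (S.lin d).smulRight (c • d) * (S.lin d).smulRight (c • d) = 0 := by ext x; simp [hself]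
    refine H _ hN (key _ _ (unip_inv hN _) (by simpa using unip_inv hN (-(-2 : F)⁻¹)) ⟨1, one_ne_zero, ?_⟩)
    convert tv_iso (hself d) (c := (-2)⁻¹ * c) (by simp [FP.symp]) using 5
    all_goals ext; simp [smul_smul, mul_left_comm]

end form

end Cfsg.Agent.H8.C6
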