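import Cfsg.Agent.H2.Bang

/-! Zsigmondy's theorem for exponents at least seven. -/

set_option autoImplicit false

namespace Cfsg.Agent.H8.ZS

open Finset Polynomial

theorem zs_prime {n p q : ℕ} (hn : n ≠ 0) (hp : p.Prime) (h : (p : ℤ) ∣ (cyclotomic n ℤ).eval (q : ℤ)) :
    ∃ k m, n = p ^ k * m ∧ ¬ p ∣ m ∧ orderOf (q : ZMod p) = m ∧ m ∣ p - 1 := by
  haveI := Fact.mk hp
  obtain ⟨k, m, hm, e⟩ := Nat.exists_eq_pow_mul_and_not_dvd hn p hp.ne_one
  haveI : NeZero (m : ZMod p) := ⟨by rwa [Ne, ZMod.natCast_eq_zero_iff]⟩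
  have h1 : (cyclotomic (p ^ k * m) (ZMod p)).IsRoot q := by
    rw [← e, IsRoot, ← map_cyclotomic_int]
    have : (q : ZMod p) = Int.castRingHom (ZMod p) q := by simp
    rw [this, eval_map, eval₂_hom]
    simpa [ZMod.intCast_zmod_eq_zero_iff_dvd] using h
  rw [isRoot_cyclotomic_prime_pow_mul_iff_of_charP] at h1
  have hm0 : m ≠ 0 := fun h0 => hm (h0 ▸ dvd_zero p)
  have h2 : (q : ZMod p) ≠ 0 := h1.ne_zero hm0
  refine ⟨k, m, e, hm, h1.eq_orderOf.symm, ?_⟩
  rw [h1.eq_orderOf]; exact ZMod.orderOf_dvd_card_sub_one h2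

theorem zsig3 {n q : ℕ} (hq : 3 ≤ q) (h3 : 3 ≤ n) : ∃ r : ℕ, r.Prime ∧ orderOf (q : ZMod r) = n := by
  by_contra hc
  push Not at hc
  have hn : n ≠ 0 := by omega
  set Φ := (cyclotomic n ℤ).eval (q : ℤ) with hΦ
  have hlow : (2 : ℤ) ^ n.totient < Φ := by
    have := sub_one_pow_totient_lt_natAbs_cyclotomic_eval (n := n) (q := q) (by omega) (by omega)
    have hpos : 0 < Φ := cyclotomic_pos' n (by exact_mod_cast (by omega : 1 < q))
    have h2 : 2 ^ n.totient ≤ (q - 1) ^ n.totient := Nat.pow_le_pow_left (by omega) _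
    have h4 : 2 ^ n.totient < Φ.natAbs := h2.trans_lt this
    rw [← Int.natAbs_of_nonneg hpos.le]
    exact_mod_cast h4
  have h1 : 1 < Φ := lt_of_le_of_lt (one_le_pow₀ (by norm_num)) hlow
  have key : ∀ p : ℕ, p.Prime → (p : ℤ) ∣ Φ → ∃ k m, n = p ^ (k + 1) * m ∧ ¬ p ∣ m ∧
      orderOf (q : ZMod p) = m ∧ m ∣ p - 1 := fun p hp h => by
    obtain ⟨k, m, e, h1, h2, h3⟩ := zs_prime hn hp h
    rcases k with _ | k
    · exact absurd (by rw [h2, e]; simp) (hc p hp)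
    · exact ⟨k, m, e, h1, h2, h3⟩
  obtain ⟨p, hp, hpd⟩ := Int.exists_prime_and_dvd (n := Φ) (by omega)
  replace hpd : ((p.natAbs : ℕ) : ℤ) ∣ Φ := Int.natAbs_dvd.2 hpd
  replace hp : p.natAbs.Prime := Int.prime_iff_natAbs_prime.1 hp
  generalize p.natAbs = p at hp hpd
  obtain ⟨k, m, e, hm, ho, hd⟩ := key p hp hpd
  have hm0 : 0 < m := Nat.pos_of_ne_zero fun h0 => hm (h0 ▸ dvd_zero p)
  have big : ∀ (p k m : ℕ), p.Prime → n = p ^ (k + 1) * m → m ∣ p - 1 → ∀ q, q.Prime → q ∣ n → q ≤ p := by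
    intro p k m hp e hd q hq h
    rw [e] at h
    rcases (Nat.Prime.dvd_mul hq).1 h with h | h
    · exact Nat.le_of_dvd hp.pos (hq.dvd_of_dvd_pow h)
    · have := Nat.le_of_dvd (by have := hp.two_le; omega) (h.trans hd)
      omega
  have uniq : ∀ q : ℕ, q.Prime → q ∣ Φ.natAbs → q = p := fun q hq h => by
    obtain ⟨k', m', e', -, -, hd'⟩ := key q hq (Int.natCast_dvd.2 h)
    refine le_antisymm (big p k m hp e hd q hq ?_) (big q k' m' hq e' hd' p hp ?_)
    · rw [e']; exact (dvd_pow_self q (by omega)).mul_right _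
    · rw [e]; exact (dvd_pow_self p (by omega)).mul_right _
  have hsq : ¬ (p : ℤ) ^ 2 ∣ Φ := fun hsq => by
    set d := p ^ k * m with hdd
    have hnd : n = d * p := by rw [e, hdd]; ring
    have hd0 : 0 < d := Nat.mul_pos (pow_pos hp.pos _) hm0
    have hdiv : d ∈ n.properDivisors := by
      rw [Nat.mem_properDivisors, hnd]
      exact ⟨dvd_mul_right _ _, lt_mul_of_one_lt_right hd0 hp.one_lt⟩
    have h3 := eval_dvd (x := (q : ℤ)) (X_pow_sub_one_mul_cyclotomic_dvd_X_pow_sub_one_of_dvd ℤ hdiv)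
    simp only [eval_mul, eval_sub, eval_pow, eval_X, eval_one] at h3
    rw [← hΦ, hnd, pow_mul (q : ℤ) d p, ← mul_geom_sum ((q : ℤ) ^ d) p] at h3
    have hne : (q : ℤ) ^ d - 1 ≠ 0 := by
      have : (1 : ℤ) < (q : ℤ) ^ d := one_lt_pow₀ (by exact_mod_cast (by omega : 1 < q)) hd0.ne'
      omega
    have h4 := hsq.trans ((mul_dvd_mul_iff_left hne).1 h3)
    by_cases hp2 : p = 2
    · subst hp2
      have hm1 : m = 1 := by simpa using hd
      subst hm1
      rcases k with _ | k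
      · simp at e; omega
      · have : d = 2 ^ k * 2 := by rw [hdd]; ring
        rw [this, pow_mul] at h4
        simp only [sum_range_succ, range_zero, sum_empty, pow_zero, pow_one] at h4
        generalize (q : ℤ) ^ 2 ^ k = t at h4
        obtain ⟨c, hc⟩ := h4
        have := Int.emod_two_eq_zero_or_one t
        obtain ⟨u, rfl | rfl⟩ := Int.even_or_odd' t
        · have : (2 * u) ^ 2 = 4 * (u * u) := by ring
          push_cast at hc; omega
        · have : (2 * u + 1) ^ 2 = 4 * (u * u + u) + 1 := by ring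
          push_cast at hc; omega
    have h5 : (p : ℤ) ∣ (q : ℤ) ^ d - 1 := by
      rw [← ZMod.intCast_zmod_eq_zero_iff_dvd]
      push_cast
      rw [sub_eq_zero, ← orderOf_dvd_iff_pow_eq_one, ho]
      exact dvd_mul_left _ _
    obtain ⟨b, hb⟩ := h5
    have h6 := odd_sq_dvd_geom_sum₂_sub (p := p) (1 : ℤ) b (hp.odd_of_ne_two hp2)
    simp only [one_pow, mul_one] at h6
    rw [show (1 : ℤ) + p * b = (q : ℤ) ^ d by omega] at h6
    have h7 : (p : ℤ) ^ 2 ∣ p := by simpa using (dvd_sub h4 h6)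
    have h8 : p ^ 2 ∣ p := by exact_mod_cast h7
    have := Nat.le_of_dvd hp.pos h8
    nlinarith [hp.two_le]
  have hΦp : Φ = p := by
    have h3 := Nat.eq_prime_pow_of_unique_prime_dvd (n := Φ.natAbs) (p := p) (by omega) (fun {d} hd h => uniq d hd h)
    generalize Φ.natAbs.primeFactorsList.length = j at h3
    have h4 : Φ = (p : ℤ) ^ j := by rw [← Int.natAbs_of_nonneg (a := Φ) (by omega), h3]; push_cast; rfl
    rcases j with _ | _ | j
    · rw [pow_zero] at h4; omega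
    · simpa using h4
    · exact absurd (h4 ▸ pow_dvd_pow _ (by omega)) hsq
  have ht : p - 1 ≤ n.totient := by
    rw [← Nat.totient_prime hp]
    refine Nat.le_of_dvd (Nat.totient_pos.2 (by omega)) (Nat.totient_dvd_of_dvd ?_)
    rw [e]; exact (dvd_pow_self p (by omega)).mul_right _
  have h8 : 2 ^ n.totient < p := by rw [hΦp] at hlow; exact_mod_cast hlow
  have h9 : p - 1 < 2 ^ (p - 1) := Nat.lt_two_pow_self
  have h10 : 2 ^ (p - 1) ≤ 2 ^ n.totient := Nat.pow_le_pow_right (by norm_num) ht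
  omega

theorem zsig {n q : ℕ} (hq : 2 ≤ q) (h7 : 7 ≤ n) : ∃ r : ℕ, r.Prime ∧ orderOf (q : ZMod r) = n := by
  rcases hq.eq_or_lt with rfl | hq
  · simpa using H2.Tr.bang (n := n) (by omega) (by omega)
  · exact zsig3 hq (by omega)

theorem ppd_of_order {q k s : ℕ} (hk : 0 < k) (hs : s.Prime) (o : orderOf (q : ZMod s) = k) :
    s ∣ q ^ k - 1 ∧ ∀ a b : ℕ, b ≤ a → q ^ a ≡ q ^ b [MOD s] → k ∣ a - b := by
  have := Fact.mk hs
  have e : (q : ZMod s) ^ k = 1 := by rw [← o]; exact pow_orderOf_eq_one _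
  have q0 : (q : ZMod s) ≠ 0 := fun h => by
    rw [h, zero_pow hk.ne'] at e; exact zero_ne_one e
  have hq : 1 ≤ q := Nat.pos_of_ne_zero fun h => q0 (by simp [h])
  refine ⟨?_, fun a b hab h => ?_⟩
  · rw [← ZMod.natCast_eq_zero_iff, Nat.cast_sub (Nat.one_le_pow _ _ hq)]
    push_cast
    rw [e, sub_self]
  · obtain ⟨c, rfl⟩ := Nat.exists_eq_add_of_le hab
    have h' := (ZMod.natCast_eq_natCast_iff _ _ _).2 h
    push_cast at h'
    rw [pow_add] at h'
    rw [Nat.add_sub_cancel_left, ← o, orderOf_dvd_iff_pow_eq_one]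
    exact mul_left_cancel₀ (pow_ne_zero b q0) (by rw [h', mul_one])

/-- Zsigmondy, in the form used by the Cameron-Kantor packages. -/
theorem exists_ppd7 {q k : ℕ} (hq : 2 ≤ q) (hk : 7 ≤ k) : ∃ s : ℕ, s.Prime ∧ s ∣ q ^ k - 1 ∧
    ∀ a b : ℕ, b ≤ a → q ^ a ≡ q ^ b [MOD s] → k ∣ a - b := by
  obtain ⟨s, hs, o⟩ := zsig hq hk
  exact ⟨s, hs, ppd_of_order (by omega) hs o⟩

theorem exists_ppd' {q k : ℕ} (hq : 2 ≤ q) (hk : 8 ≤ k) (_he : Even k) : ∃ s : ℕ, s.Prime ∧ s ∣ q ^ k - 1 ∧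
    ∀ a b : ℕ, b ≤ a → q ^ a ≡ q ^ b [MOD s] → k ∣ a - b :=
  exists_ppd7 hq (by omega)

end Cfsg.Agent.H8.ZS
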