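import Cfsg.Agent.H4.Dick
import Cfsg.Agent.H4.Small
import Cfsg.Agent.H7.Basic

/-!
Group theoretic lemmas for the normaliser of the extraspecial group of order `125`.
-/

set_option autoImplicit false
set_option linter.unusedSectionVars false

namespace Cfsg.Agent.H8.L5g

open Subgroup MulAction Cfsg.Agent.H4 Cfsg.Agent.H4.Mob Cfsg.Agent.H4.Dick Cfsg.Agent.H4.MobCard Module
open scoped commutatorElement Cfsg.Agent.H4.Bar

section grp
variable {G : Type*} [Group G]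

theorem odd_of_isol [Finite G] {z : G} (hz : z * z = 1) (h : ∀ t, IsConj z t → t * z = z * t → t = z) (g : G) :
    Odd (orderOf (z * (g * z * g⁻¹))) := by
  have ht : g * z * g⁻¹ * (g * z * g⁻¹) = 1 := by rw [conj_mul, hz]; simp
  have hc : IsConj z (g * z * g⁻¹) := isConj_iff.2 ⟨g, rfl⟩
  generalize g * z * g⁻¹ = t at ht hc
  by_contra hn
  obtain ⟨m, hm⟩ := Nat.not_odd_iff_even.1 hn
  have e0 : t = z * (z * t) := by rw [← mul_assoc, hz, one_mul]
  have e1 : SemiconjBy z (z * t) (z * t)⁻¹ := by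
    rw [SemiconjBy, ← e0, eq_inv_mul_iff_mul_eq, mul_assoc, ht, mul_one]
  generalize z * t = x at *
  have e2 : ∀ k : ℕ, (x ^ k)⁻¹ * z = z * x ^ k := fun k => by rw [← inv_pow]; exact (e1.pow_right k).eq.symm
  have e3 : (x ^ m)⁻¹ = x ^ m := inv_eq_of_mul_eq_one_right (by rw [← pow_add, ← hm, pow_orderOf_eq_one])
  have e4 : x ^ m ≠ 1 := pow_ne_one_of_lt_orderOf (by have := orderOf_pos x; omega) (by have := orderOf_pos x; omega)
  refine e4 (mul_eq_left.1 (h (z * x ^ m) ?_ (by rw [mul_assoc, ← e2, e3])))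
  obtain ⟨k, rfl | rfl⟩ := Nat.even_or_odd' m
  · exact isConj_iff.2 ⟨(x ^ k)⁻¹, by rw [e2, inv_inv, mul_assoc, ← pow_add, two_mul]⟩
  · exact hc.trans (isConj_iff.2 ⟨(x ^ k)⁻¹, by rw [e0, ← mul_assoc, e2]; group⟩)

theorem comm_mod {O Z : Subgroup G} (hO : Odd (Nat.card O)) (hZ : Z ≤ center G) {z : G} (hz : z * z = 1)
    (hn : ∀ o ∈ O, z * o * z⁻¹ ∈ O) (h : ∀ o ∈ O, z * o * z⁻¹ = o → o ∈ Z) {o o' : G} (ho : o ∈ O) (ho' : o' ∈ O) :
    ∃ c ∈ Z, o * o' = c * (o' * o) := by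
  have hc : ∀ {c}, c ∈ Z → ∀ g, g * c = c * g := fun hc => mem_center_iff.1 (hZ hc)
  have key : ∀ o ∈ O, ∃ c ∈ Z, z * o * z⁻¹ = c * o⁻¹ := fun o ho => by
    obtain ⟨k, hk⟩ := hO
    have m1 : o⁻¹ * (z * o * z⁻¹) ∈ O := mul_mem (inv_mem ho) (hn o ho)
    have e1 : z * (o⁻¹ * (z * o * z⁻¹)) * z⁻¹ = (o⁻¹ * (z * o * z⁻¹))⁻¹ := by
      simp only [mul_inv_rev, mul_assoc, ← eq_inv_of_mul_eq_one_left hz, hz, mul_one]
      rw [inv_inv]
    have e2 : z * o * z⁻¹ = o * (o⁻¹ * (z * o * z⁻¹)) := by group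
    generalize o⁻¹ * (z * o * z⁻¹) = y at *
    have e3 : y ^ (k + 1) * y ^ (k + 1) = y := by
      have := congrArg Subtype.val (pow_card_eq_one' (x := (⟨y, m1⟩ : O)))
      rw [hk] at this
      rw [← pow_add, show k + 1 + (k + 1) = 2 * k + 1 + 1 by ring, pow_succ, show y ^ (2 * k + 1) = 1 from this, one_mul]
    have e4 : z * y ^ (k + 1) * z⁻¹ = (y ^ (k + 1))⁻¹ := by rw [← conj_pow, e1, inv_pow]
    have m2 := pow_mem m1 (k + 1)
    generalize y ^ (k + 1) = s at *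
    have m3 := h _ (mul_mem ho m2) (by rw [← conj_mul, e2, e4, ← e3]; group)
    exact ⟨_, mul_mem m3 m3, by rw [e2, ← e3, mul_assoc _ (o * s), ← hc m3]; group⟩
  obtain ⟨c1, m1, e1⟩ := key _ (inv_mem ho)
  obtain ⟨c2, m2, e2⟩ := key _ (inv_mem ho')
  obtain ⟨c3, m3, e3⟩ := key _ (mul_mem (inv_mem ho) (inv_mem ho'))
  rw [← conj_mul, e1, e2] at e3
  refine ⟨c2⁻¹ * c1⁻¹ * c3, mul_mem (mul_mem (inv_mem m2) (inv_mem m1)) m3, ?_⟩
  rw [mul_assoc, show c3 * (o' * o) = _ from (by simpa using e3.symm), mul_assoc c1, ← mul_assoc o, hc m2 o]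
  group

theorem a5_four (e : G ≃* alternatingGroup (Fin 5)) {y : G} (h : y ^ 4 = 1) : y ^ 2 = 1 := by
  rcases Small.A5_pow (e y) with k | k | k <;> rw [← map_pow, map_eq_one_iff _ e.injective] at k
  · exact k
  · rw [pow_succ, k, one_mul] at h; simp [h]
  · rw [pow_succ, h, one_mul] at k; simp [k]

theorem a5_cent (e : G ≃* alternatingGroup (Fin 5)) {x y : G} (h : x ^ 2 = 1) (h1 : x ≠ 1) (hc : Commute x y) :
    y ^ 2 = 1 := by
  have key : ∀ y : G, y ^ 2 = 1 ∨ y ^ 15 = 1 := fun y => by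
    rcases Small.A5_pow (e y) with k | k | k <;> rw [← map_pow, map_eq_one_iff _ e.injective] at k
    exacts [.inl k, .inr (by rw [show 15 = 3 * 5 by rfl, pow_mul, k, one_pow]),
      .inr (by rw [show 15 = 5 * 3 by rfl, pow_mul, k, one_pow])]
  rcases key y with k | k
  · exact k
  rcases key (x * y) with l | l <;> rw [hc.mul_pow] at l
  · rwa [h, one_mul] at l
  · rw [k, mul_one, show 15 = 2 * 7 + 1 by rfl, pow_succ, pow_mul, h, one_pow, one_mul] at l
    exact (h1 l).elim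

theorem a5_thirty (e : G ≃* alternatingGroup (Fin 5)) (y : G) : y ^ 30 = 1 := by
  rcases Small.A5_pow (e y) with k | k | k <;> rw [← map_pow, map_eq_one_iff _ e.injective] at k
  exacts [by rw [show 30 = 2 * 15 by rfl, pow_mul, k, one_pow], by rw [show 30 = 3 * 10 by rfl, pow_mul, k, one_pow],
    by rw [show 30 = 5 * 6 by rfl, pow_mul, k, one_pow]]

end grp

section dick
variable {F : Type*} [Field F] [Finite F]

theorem dk (hE : ∀ E : Subfield F, E = ⊤) {M : Subgroup (PG F)} {x : PG F} (hx : x ∈ M) (x5 : x ^ 5 = 1)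
    (x1 : x ≠ 1) (hs : ∀ x : P1 F, ¬ M ≤ stabilizer (PG F) x) (hn : ∀ x y, x ≠ y → ¬ M ≤ Bar.Nor x y) :
    Nonempty (M ≃* alternatingGroup (Fin 5)) ∨ LS F ≤ M := by
  have key : ∀ n : ℕ, n.Coprime 5 → (⟨x, hx⟩ : M) ^ n ≠ 1 := fun n hn e => x1 (by
    have := pow_gcd_eq_one.2 ⟨congrArg Subtype.val e, x5⟩
    rwa [hn, pow_one] at this)
  rcases dickson M with ⟨x, hx⟩ | ⟨x, y, hxy, hx⟩ | ⟨-, -, ⟨⟨e⟩⟩ | ⟨⟨e⟩⟩⟩ | ⟨-, -, -, e⟩ | ⟨g, E, -, h3, -⟩
  · exact (hs x hx).elim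
  · exact (hn x y hxy.ne hx).elim
  · rcases Small.A4_pow (e ⟨x, hx⟩) with k | k <;> rw [← map_pow, map_eq_one_iff _ e.injective] at k <;>
      exact (key _ (by norm_num) k).elim
  · rcases Small.S4_pow (e ⟨x, hx⟩) with k | k <;> rw [← map_pow, map_eq_one_iff _ e.injective] at k <;>
      exact (key _ (by norm_num) k).elim
  · exact .inl e
  · rw [hE E, PSsub_top, Pair.le_cj_iff, Pair.cj_normal] at h3
    exact .inr h3

theorem d5 (hE : ∀ E : Subfield F, E = ⊤) {M : Subgroup (PG F)} {x : PG F} (hx : x ∈ M) (x5 : x ^ 5 = 1)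
    (x1 : x ≠ 1) {r s : F} {h} (h1 : mob r 0 0 s h ∈ M) (hr : r ^ 2 ≠ s ^ 2) {a b c d : F} {h'}
    (h2 : mob a b c d h' ∈ M) (hb : b ≠ 0) (hc : c ≠ 0) (ha : a ≠ 0 ∨ d ≠ 0) :
    Nonempty (M ≃* alternatingGroup (Fin 5)) ∨ LS F ≤ M := by
  have hr' : r ≠ s := fun e => hr (by rw [e])
  refine dk hE hx x5 x1 (fun y hy => ?_) fun y y' hyy hy => ?_
  · rcases P1_cases y with rfl | ⟨t, rfl⟩
    · exact hc (mob_smul_inf_eq_inf.1 (hy h2))
    · have e1 := mob_smul_pt_eq_pt.1 (hy h1)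
      obtain rfl : t = 0 := by
        by_contra t0
        exact hr' (mul_right_cancel₀ t0 (by linear_combination e1))
      exact hb (by simpa using mob_smul_pt_eq_pt.1 (hy h2))
  have e1 := Bar.mul_self_mem_Tor (hy h1)
  have e2 : mob r 0 0 s h * mob r 0 0 s h ≠ 1 := by
    rw [mob_mul, Ne, mob_eq_one]
    exact fun e => hr (by linear_combination e.2.2)
  have e3 : ∀ w : P1 (Bar.Kb F), (mob r 0 0 s h * mob r 0 0 s h) • w = w → w = inf ∨ w = pt 0 := fun w hw =>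
    Bar.fix_eq' e2 (by simp [eq_comm]) (by rw [mob_mul, Bar.inf_inf]; simp) (by rw [mob_mul, Bar.pt_pt]; simp) hw
  have f1 : mob a b c d h' • (inf : P1 (Bar.Kb F)) ≠ inf := fun e => hc (Bar.inf_inf.1 e)
  have f2 : mob a b c d h' • (pt 0 : P1 (Bar.Kb F)) ≠ pt 0 := fun e => hb (by simpa using Bar.pt_pt.1 e)
  have f3 : mob a b c d h' • (inf : P1 (Bar.Kb F)) = pt 0 → mob a b c d h' • (pt 0 : P1 (Bar.Kb F)) ≠ inf :=
    fun e e' => ha.elim (fun k => k (by simpa using Bar.inf_pt.1 e)) fun k => k (by simpa using Bar.pt_inf.1 e')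
  rcases e3 y e1.1 with rfl | rfl <;> rcases e3 y' e1.2 with rfl | rfl
  exacts [hyy rfl, (hy h2).elim (fun e => f1 e.1) fun e => f3 e.1 e.2,
    (hy h2).elim (fun e => f2 e.1) fun e => f3 e.2 e.1, hyy rfl]

theorem meta_of {G : Type*} [Group G] {M A : Subgroup G} (h1 : ∀ a ∈ A, ∀ b ∈ A, a * b = b * a)
    (h2 : ∀ a ∈ M, ∀ b ∈ M, ⁅a, b⁆ ∈ A) : ⁅⁅M, M⁆, ⁅M, M⁆⁆ ≤ ⊥ := commutator_le.2 fun a ha b hb =>
  commutatorElement_eq_one_iff_mul_comm.2 (h1 a (commutator_le.2 h2 ha) b (commutator_le.2 h2 hb))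

theorem stab_meta {M : Subgroup (PG F)} {y : P1 F} (hy : M ≤ stabilizer (PG F) y) : ⁅⁅M, M⁆, ⁅M, M⁆⁆ ≤ ⊥ := by
  obtain ⟨g, rfl⟩ := exists_smul_inf y
  refine meta_of (A := Pair.cj g (closure (Set.range tr))) (fun a ha b hb => ?_) fun a ha b hb => ?_
  · have := isMulCommutative_closure (k := Set.range (tr : F → PG F)) (by
      rintro _ ⟨s, rfl⟩ _ ⟨t, rfl⟩; rw [tr_mul, tr_mul, add_comm])
    have := congrArg Subtype.val (this.is_comm.comm ⟨_, Pair.mem_cj.1 ha⟩ ⟨_, Pair.mem_cj.1 hb⟩)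
    exact mul_right_cancel (b := g) (by simpa [mul_assoc] using this)
  · have h1 : ∀ a ∈ M, ∃ u v hu, a = g * aff u v hu * g⁻¹ := fun a ha => by
      obtain ⟨u, v, hu, e⟩ := exists_aff_of_fix (g := g⁻¹ * a * g) (by
        rw [mul_smul, mul_smul, hy ha, inv_smul_smul])
      exact ⟨u, v, hu, by rw [← e]; group⟩
    obtain ⟨u, v, hu, rfl⟩ := h1 a ha
    obtain ⟨u', v', hu', rfl⟩ := h1 b hb
    rw [← conjugate_commutatorElement, Pair.conj_mem_cj]
    refine subset_closure ⟨u * v' + v - u' * v - v', ?_⟩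
    rw [commutatorElement_def, aff_inv, aff_inv, aff_mul, aff_mul, aff_mul, tr, aff_eq_aff]
    constructor <;> field_simp <;> ring

theorem simple_of_perfect (hE : ∀ E : Subfield F, E = ⊤) (h4 : 4 ≤ Nat.card F) {M : Subgroup (PG F)} {x : PG F}
    (hx : x ∈ M) (x5 : x ^ 5 = 1) (x1 : x ≠ 1) (hp : ⁅M, M⁆ = M) : IsSimpleGroup M := by
  have hm : ¬ ⁅⁅M, M⁆, ⁅M, M⁆⁆ ≤ ⊥ := fun h => x1 (h (by rwa [hp, hp]))
  refine (dk hE hx x5 x1 (fun y hy => hm (stab_meta hy)) fun y y' hyy hy => ?_).elim (fun ⟨e⟩ => ?_) fun h => ?_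
  rotate_left
  · have := alternatingGroup.isSimpleGroup (α := Fin 5) (by simp)
    exact e.isSimpleGroup
  · have := Matrix.ProjectiveSpecialLinearGroup.rank_two_simple h4
    have h1 : M ≤ LS F := hp.ge.trans (commutator_le.2 fun a _ b _ => by
      rw [← ker_detSq, MonoidHom.mem_ker, map_commutatorElement, commutatorElement_eq_one_iff_mul_comm]
      exact mul_comm (detSq F a) _)
    rw [le_antisymm h1 h]
    exact (psEquiv F).symm.isSimpleGroup
  · refine hm (meta_of (fun a ha b hb => Bar.Tor_comm hyy ha hb) fun a ha b hb => ?_)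
    replace ha := hy ha
    replace hb := hy hb
    by_cases h1 : a ∈ Bar.Tor y y'
    · have := mul_mem h1 (Bar.conj_mem_Tor hb (inv_mem h1))
      simpa [commutatorElement_def, mul_assoc] using this
    by_cases h3 : b ∈ Bar.Tor y y'
    · exact mul_mem (Bar.conj_mem_Tor ha h3) (inv_mem h3)
    have := mul_mem (Bar.mul_mem_Tor ha hb h1 h3) (Bar.mul_mem_Tor (inv_mem ha) (inv_mem hb) (by simpa using h1)
      (by simpa using h3))
    simpa [commutatorElement_def, mul_assoc] using this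

theorem LS_perfect (h : ∃ a : F, a ≠ 0 ∧ a ^ 2 ≠ 1) : ⁅LS F, LS F⁆ = LS F := by
  rw [LS, MonoidHom.range_eq_map, ← map_commutator, ← commutator_def, SL2Simple.PSL_commutator_eq_top h]

theorem unitri_pow (t : F) (n : ℕ) : !![1, t; 0, 1] ^ n = !![1, n * t; 0, 1] := by
  induction n with
  | zero => simp [Matrix.one_fin_two]
  | succ n ih => rw [pow_succ, ih]; simp [add_mul, add_comm]

theorem of_tr {g : GL (Fin 2) F} {t : F} (h : Matrix.ProjGenLinGroup.mk g = tr t) :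
    ∃ c : F, c ≠ 0 ∧ g.val = c • !![1, t; 0, 1] := by
  obtain ⟨u, h1, h2, h3, h4⟩ := mob_eq_mob.1 (h.symm.trans (mk_eq_mob g))
  refine ⟨u, by rintro rfl; exact gl_det_ne g (by simp [h1, h2]), ?_⟩
  ext i j; fin_cases i <;> fin_cases j <;> simp [h1, h2, h3, h4]

end dick

section nsl
open H7
variable {F V : Type*} [Field F] [AddCommGroup V] [Module F V] [FiniteDimensional F V] {K : Subgroup (V ≃ₗ[F] V)}
  (hK : ∀ s, LinearEquiv.det s = 1 → ∀ k ∈ K, s * k * s⁻¹ ∈ K)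
include hK

theorem nsl_comm {k : V ≃ₗ[F] V} (hk : k ∈ K) {φ : Dual F V} {v : V} (hv : φ v = 0) :
    ∃ h ∈ K, ∀ z, h z = z - φ z • v + φ (k.symm (z - φ z • v)) • k v := by
  obtain ⟨t, t1, t2⟩ := exists_transvection hv
  refine ⟨_, mul_mem hk (hK t t1 _ (inv_mem hk)), fun z => ?_⟩
  change k (t (k.symm (t.symm z))) = _
  rw [symm_apply_of_tr t2 hv, t2, map_add, map_smul, k.apply_symm_apply]

theorem nsl_left {φ ψ : Dual F V} {v w : V} (h : Has K φ v) (hv : φ v = 0) (h1 : ψ v = 0) (h2 : ψ w = 0) :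
    Has K ψ (φ w • v) := by
  obtain ⟨t, t1, t2⟩ := h
  obtain ⟨k, k1, k2⟩ := nsl_comm hK t1 h2
  refine ⟨k, k1, fun z => ?_⟩
  rw [k2, symm_apply_of_tr t2 hv, t2]
  simp only [h1, h2, map_sub, map_smul, smul_eq_mul]
  module

theorem nsl_right {φ ψ : Dual F V} {v w : V} (h : Has K φ v) (hv : φ v = 0) (h1 : φ w = 0) (h2 : ψ w = 0) :
    Has K φ (-ψ v • w) := by
  obtain ⟨t, t1, t2⟩ := h
  obtain ⟨k, k1, k2⟩ := nsl_comm hK t1 h2
  refine ⟨k, k1, fun z => ?_⟩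
  rw [k2, symm_apply_of_tr t2 hv, t2]
  simp only [h1, h2, map_sub, map_smul, smul_eq_mul]
  module

theorem nsl_one (h3 : 3 ≤ finrank F V) {g : V ≃ₗ[F] V} (hg : g ∈ K) {v : V} (hv : g v ∉ F ∙ v) :
    ∃ (φ : Dual F V) (x w : V), φ x = 1 ∧ w ≠ 0 ∧ φ w = 0 ∧ Has K φ w := by
  obtain ⟨x, -, hx⟩ := exists_mem_notMem_of_finrank_lt (U := ⊤) (W := (F ∙ v) ⊔ F ∙ g v) (by
    have := finrank_sup_span_le (F ∙ v) (g v)
    have := finrank_span_singleton_le (F := F) v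
    rw [finrank_top]; omega)
  obtain ⟨φ, h1, h2⟩ := exists_dual_one hx
  have a1 := h2 v (Submodule.mem_sup_left (Submodule.mem_span_singleton_self _))
  have a2 := h2 _ (Submodule.mem_sup_right (Submodule.mem_span_singleton_self _))
  obtain ⟨h, m, e⟩ := nsl_comm hK hg a1
  have a3 : ∀ z, φ (h z) = φ z := fun z => by simp [e, a1, a2]
  by_cases hc : ∀ w, φ w = 0 → h w = w
  · refine ⟨φ, x, h x - x, h1, fun e0 => hv ?_, by simp [a3], h, m, fun z => ?_⟩
    · rw [e, h1] at e0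
      generalize φ (g.symm (x - (1 : F) • v)) = c at e0
      have e1 : v = c • g v := by linear_combination (norm := module) -e0
      have c0 : c ≠ 0 := by
        rintro rfl
        exact hv (by simp [show v = 0 by simpa using e1])
      exact Submodule.mem_span_singleton.2 ⟨c⁻¹, by rw [inv_smul_eq_iff₀ c0, ← e1]⟩
    · have := hc (z - φ z • x) (by simp [h1])
      rw [map_sub, map_smul] at this
      linear_combination (norm := module) this
  push Not at hc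
  obtain ⟨w, w1, w2⟩ := hc
  obtain ⟨k, k1, k2⟩ := nsl_comm hK m w1
  refine ⟨φ, x, h w - w, h1, sub_ne_zero.2 w2, by simp [a3], k, k1, fun z => ?_⟩
  rw [k2, ← a3 (h.symm _), h.apply_symm_apply]
  simp only [w1, map_sub, map_smul, smul_eq_mul]
  module

theorem nsl_all (h3 : 3 ≤ finrank F V) {g : V ≃ₗ[F] V} (hg : g ∈ K) {v : V} (hv : g v ∉ F ∙ v)
    (ψ : Dual F V) (y : V) (hy : ψ y = 0) : Has K ψ y := by
  have R : ∀ {φ : Dual F V} {w}, w ≠ 0 → φ w = 0 → Has K φ w → ∀ y, φ y = 0 → Has K φ y := fun {φ w} w0 h1 h2 => by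
    have key : ∀ y, φ y = 0 → w ∉ F ∙ y → Has K φ y := fun y h4 h5 => by
      obtain ⟨χ, c1, c2⟩ := exists_dual_one h5
      simpa [c1] using (nsl_right hK h2 h1 h4 (c2 y (Submodule.mem_span_singleton_self _))).neg_right (by simp [h4])
    intro y h4
    by_cases h5 : w ∈ F ∙ y
    · obtain ⟨y', m1, m2⟩ := exists_mem_notMem_of_finrank_lt (U := ⊤ ⊓ LinearMap.ker φ) (W := F ∙ y) (by
        have := finrank_le_finrank_inf_ker ⊤ φ
        have := finrank_span_singleton_le (F := F) y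
        rw [finrank_top] at *; omega)
      obtain ⟨c, rfl⟩ := Submodule.mem_span_singleton.1 h5
      have c0 : c ≠ 0 := by rintro rfl; simp at w0
      have k : ∀ d : F, c • y ∉ F ∙ (y' + d • y) := fun d hd => by
        obtain ⟨e, he⟩ := Submodule.mem_span_singleton.1 hd
        have e0 : e ≠ 0 := by rintro rfl; exact w0 (by simpa using he.symm)
        exact m2 (Submodule.mem_span_singleton.2 ⟨e⁻¹ * c - d, by
          rw [sub_smul, mul_smul, ← he, inv_smul_smul₀ e0, add_sub_cancel_right]⟩)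
      have m3 : φ y' = 0 := m1.2
      simpa using (key _ (by simp [m3, h4]) (k 1)).sub_right (key _ (by simp [m3]) (k 0)) (by simp [m3])
    · exact key y h4 h5
  obtain ⟨φ, x, w, h1, h2, h4, h5⟩ := nsl_one hK h3 hg hv
  by_cases h6 : ∀ z, ψ z = 0 → φ z = 0
  · have e : ∀ z, ψ z = φ z * ψ x := fun z => by
      have := h6 (ψ x • z - ψ z • x) (by simp [mul_comm])
      simp only [map_sub, map_smul, h1, smul_eq_mul] at this
      linear_combination -this
    exact (R h2 h4 h5 (ψ x • y) (by simp [h6 y hy])).congr fun z => by rw [e z, mul_smul]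
  push Not at h6
  obtain ⟨z, z1, z2⟩ := h6
  obtain ⟨w', m1, m2⟩ := exists_mem_notMem_of_finrank_lt (U := ⊤ ⊓ LinearMap.ker φ ⊓ LinearMap.ker ψ) (W := ⊥) (by
    have := finrank_le_finrank_inf_ker ⊤ φ
    have := finrank_le_finrank_inf_ker (⊤ ⊓ LinearMap.ker φ) ψ
    rw [finrank_top, finrank_bot] at *; omega)
  exact R (smul_ne_zero z2 m2) (by simp [show ψ w' = 0 from m1.2])
    (nsl_left hK (R h2 h4 h5 w' m1.1.2) m1.1.2 m1.2 z1) y hy

end nsl

end Cfsg.Agent.H8.L5g
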