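import Cfsg.Agent.H8.L5i
import Cfsg.Agent.H5.MH13
import Cfsg.Agent.H5.MH9
import Cfsg.Agent.MH.Main
import Cfsg.Agent.H7.Tensor
import Cfsg.Agent.H5.ZStar

/-!
Overgroups of the normaliser of the extraspecial group of order `125`: the centraliser of the involution.
-/

set_option autoImplicit false
set_option linter.unusedSectionVars false
set_option linter.unusedSimpArgs false

namespace Cfsg.Agent.H8.L5

open Matrix Subgroup Om5 Cfsg.Agent.H4 Cfsg.Agent.H4.Mob Cfsg.Agent.H4.MobCard L5g Cfsg.Agent.H5 Cfsg.Agent.Asch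
open scoped commutatorElement

universe v
variable {F : Type v} [Field F] [Fintype F]

/-- the centraliser of `z` -/
def Cz (M : Subgroup (G5 F)) : Subgroup (G5 F) := M ⊓ centralizer {z F}

theorem mem_Cz {M : Subgroup (G5 F)} {g : G5 F} : g ∈ Cz M ↔ g ∈ M ∧ g * z F = z F * g :=
  and_congr_right' mem_centralizer_singleton_iff

/-- basis of the fixed space -/
def Pp (F : Type v) [Field F] : Matrix (Fin 5) (Fin 3) F := !![1, 0, 0; 0, 1, 0; 0, 0, 1; 0, 0, 1; 0, 1, 0]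
/-- coordinates on the fixed space -/
def Qp (F : Type v) [Field F] : Matrix (Fin 3) (Fin 5) F := !![1, 0, 0, 0, 0; 0, 2⁻¹, 0, 0, 2⁻¹; 0, 0, 2⁻¹, 2⁻¹, 0]
/-- basis of the negated space -/
def Pm (F : Type v) [Field F] : Matrix (Fin 5) (Fin 2) F := !![0, 0; 1, 0; 0, 1; 0, -1; -1, 0]
/-- coordinates on the negated space -/
def Qm (F : Type v) [Field F] : Matrix (Fin 2) (Fin 5) F := !![0, 2⁻¹, 0, 0, -2⁻¹; 0, 0, 2⁻¹, -2⁻¹, 0]

variable (o : Om5 F) {p : ℕ} (M : Subgroup (G5 F))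

include o in
theorem PQp : Pp F * Qp F = (2⁻¹ : F) • (1 + (z F).val) := by have := o.h2; rw [Pp, Qp, z_val]; mx5
include o in
theorem PQm : Pm F * Qm F = (2⁻¹ : F) • (1 - (z F).val) := by have := o.h2; rw [Pm, Qm, z_val]; mx5
include o in
theorem QPp : Qp F * Pp F = 1 := by have := o.h2; rw [Pp, Qp]; mx5
include o in
theorem QPm : Qm F * Pm F = 1 := by have := o.h2; rw [Pm, Qm]; mx5
include o in
theorem cp (g : G5 F) (hg : g ∈ Cz M) : g.val * (Pp F * Qp F) = Pp F * Qp F * g.val := by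
  have : g.val * (z F).val = (z F).val * g.val := congrArg Units.val (mem_Cz.1 hg).2
  rw [PQp o, mul_smul_comm, smul_mul_assoc, mul_add, add_mul, this, mul_one, one_mul]
include o in
theorem cm (g : G5 F) (hg : g ∈ Cz M) : g.val * (Pm F * Qm F) = Pm F * Qm F * g.val := by
  have : g.val * (z F).val = (z F).val * g.val := congrArg Units.val (mem_Cz.1 hg).2
  rw [PQm o, mul_smul_comm, smul_mul_assoc, mul_sub, sub_mul, this, mul_one, one_mul]

/-- action on the fixed space -/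
def rp : Cz M →* GL (Fin 3) F := res (QPp o) _ (cp o M)
/-- action on the negated space -/
def rm : Cz M →* GL (Fin 2) F := res (QPm o) _ (cm o M)
/-- projective action on the negated space -/
abbrev pm : Cz M →* PG F := ProjGenLinGroup.mk.comp (rm o M)

variable {o M}

theorem rp_val (g : Cz M) : (rp o M g).val = Qp F * g.1.val * Pp F := rfl
theorem rm_val (g : Cz M) : (rm o M g).val = Qm F * g.1.val * Pm F := rfl

theorem recon (g : Cz M) : g.1.val = Pp F * (rp o M g).val * Qp F + Pm F * (rm o M g).val * Qm F := by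
  have e1 := congrArg (· * (Pp F * Qp F)) (cp o M _ g.2)
  have e2 := congrArg (· * (Pm F * Qm F)) (cm o M _ g.2)
  simp only [Matrix.mul_assoc, ← Matrix.mul_assoc (Qp F) (Pp F), ← Matrix.mul_assoc (Qm F) (Pm F), QPp o, QPm o,
    Matrix.one_mul] at e1 e2
  simp only [rp_val, rm_val, Matrix.mul_assoc, ← e1, ← e2]
  rw [← mul_add, PQp o, PQm o, ← smul_add, add_add_sub_cancel, ← two_smul F, smul_smul, inv_mul_cancel₀ o.h2]
  simp

theorem inj {g k : Cz M} (h1 : rp o M g = rp o M k) (h2 : rm o M g = rm o M k) : g = k :=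
  Subtype.ext (Units.ext (by rw [recon (o := o) g, recon (o := o) k, h1, h2]))

theorem mk_one {g : GL (Fin 2) F} : ProjGenLinGroup.mk g = 1 ↔ IsSc g.val := by
  rw [mk_eq_mob, mob_eq_one]
  refine ⟨fun ⟨h1, h2, h3⟩ => ⟨g.val 0 0, ?_⟩, fun ⟨c, h⟩ => by simp [h]⟩
  ext i j; fin_cases i <;> fin_cases j <;> simp [h1, h2, h3]

theorem det_comm {n : ℕ} {L : Subgroup (GL (Fin n) F)} {g : GL (Fin n) F} (h : g ∈ ⁅L, L⁆) : g.val.det = 1 := by
  have : ⁅L, L⁆ ≤ (GeneralLinearGroup.det (n := Fin n) (R := F)).ker := commutator_le.2 fun a _ b _ => by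
    rw [MonoidHom.mem_ker, map_commutatorElement, commutatorElement_eq_one_iff_mul_comm, mul_comm]
  exact congrArg Units.val (this h)

theorem sc_comm {n : ℕ} {g : GL (Fin n) F} (h : IsSc g.val) (k : GL (Fin n) F) : g * k = k * g := Units.ext (h.comm _)

namespace Hyp
variable (H : Hyp o p M)
include H

theorem key' (g : Cz M) {x y w y' w' : F} (h1 : (rp o M g).val = !![x, 0, 0; 0, y, 0; 0, 0, w])
    (h2 : (rm o M g).val = !![y', 0; 0, w']) (h : y ^ 2 ≠ y' ^ 2) : Big M := by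
  have := o.h2
  refine H.key g.2.1 (x := x) (α := 2⁻¹ * (y + y')) (β := 2⁻¹ * (y - y')) (α' := 2⁻¹ * (w + w'))
    (β' := 2⁻¹ * (w - w')) ?_ (by grind) (by grind)
  rw [recon (o := o), h1, h2, Pp, Qp, Pm, Qm]; mx5

theorem phi (g : Cz M) {c c' : F} (h1 : (rp o M g).val = !![1, 0, 0; 0, 1, c; 0, 0, 1])
    (h2 : (rm o M g).val = !![1, c'; 0, 1]) (h : c ≠ 0 ∨ c' ≠ 0) : Big M := by
  have := o.h2
  have e : g.1.val = !![1, 0, 0, 0, 0; 0, 1, 2⁻¹ * (c + c'), 2⁻¹ * (c - c'), 0; 0, 0, 1, 0, 0; 0, 0, 0, 1, 0;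
      0, 0, 2⁻¹ * (c - c'), 2⁻¹ * (c + c'), 1] := by rw [recon (o := o), h1, h2, Pp, Qp, Pm, Qm]; mx5
  have key := fun i j => H.abel {(1, 2), (1, 3), (4, 2), (4, 3)} (by decide) (by decide) g.2.1 (i := i) (j := j)
    fun i j => by rw [e]; fin_cases i <;> fin_cases j <;> simp
  by_cases hc : c + c' = 0
  · exact key 1 3 (by decide) (by simp [e]; grind)
  · exact key 1 2 (by decide) (by simp [e]; grind)

/-- `u` in the centraliser -/
def uC : Cz M := ⟨_, mem_Cz.2 ⟨H.u, o.zu.symm⟩⟩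
/-- `f` in the centraliser -/
def fC : Cz M := ⟨_, mem_Cz.2 ⟨H.f, by rw [← o.ff, mul_assoc]⟩⟩
/-- `z` in the centraliser -/
def zC : Cz M := ⟨_, mem_Cz.2 ⟨H.z, rfl⟩⟩

theorem up : (rp o M H.uC).val = !![1, 0, 0; 0, o.ω, 0; 0, 0, o.ω ^ 4] := by
  have := o.h2; rw [rp_val, uC, u_val, Pp, Qp]; mx5
theorem um : (rm o M H.uC).val = !![o.ω, 0; 0, o.ω ^ 4] := by
  have := o.h2; rw [rm_val, uC, u_val, Pm, Qm]; mx5
theorem zp : rp o M H.zC = 1 := Units.ext (by have := o.h2; rw [rp_val, zC, z_val, Pp, Qp]; mx5)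
theorem zm : (rm o M H.zC).val = (-1 : F) • 1 := by have := o.h2; rw [rm_val, zC, z_val, Pm, Qm]; mx5
theorem fp : (rp o M H.fC).val = o.s • !![1, 2, 2; 1, o.ω + o.ω ^ 4, o.ω ^ 2 + o.ω ^ 3;
    1, o.ω ^ 2 + o.ω ^ 3, o.ω + o.ω ^ 4] := by
  have := o.h2; rw [rp_val, fC, f_val, Matrix.mul_smul, Matrix.smul_mul, Φ, Pp, Qp]; congr 1; mx5
theorem fm : (rm o M H.fC).val = o.s • !![o.ω - o.ω ^ 4, o.ω ^ 2 - o.ω ^ 3; o.ω ^ 2 - o.ω ^ 3, o.ω ^ 4 - o.ω] := by
  have := o.h2; rw [rm_val, fC, f_val, Matrix.mul_smul, Matrix.smul_mul, Φ, Pm, Qm]; congr 1; mx5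
theorem ffC : H.fC * H.fC = H.zC := Subtype.ext o.ff
theorem up5 : rp o M H.uC ^ 5 = 1 := Units.ext (by
  have := o.w5
  simp only [pow_succ, pow_zero, one_mul, Units.val_mul, H.up]; mx5)
theorem fp2 : rp o M H.fC ^ 2 = 1 := by rw [sq, ← map_mul, ffC, zp]
theorem fu3 : (rp o M H.fC * rp o M H.uC ^ 2) ^ 3 = 1 := Units.ext (by
  have := o.h
  have e : (rp o M H.fC * rp o M H.uC ^ 2).val = o.s • !![1, 2 * o.ω ^ 2, 2 * o.ω ^ 3; 1, o.ω + o.ω ^ 3, 1 + o.ω;
      1, 1 + o.ω ^ 4, o.ω ^ 2 + o.ω ^ 4] := by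
    rw [sq, Units.val_mul, Units.val_mul, fp, up, smul_mul_assoc]; congr 1; mx5
  have e2 : !![1, 2 * o.ω ^ 2, 2 * o.ω ^ 3; 1, o.ω + o.ω ^ 3, 1 + o.ω; 1, 1 + o.ω ^ 4, o.ω ^ 2 + o.ω ^ 4] ^ 3 =
      (5 * (5 * o.s)) • 1 := by
    rw [o.hs, pow_three]; mx5
  rw [Units.val_pow_eq_pow_val, e, _root_.smul_pow, e2, smul_smul, show o.s ^ 3 * (5 * (5 * o.s)) = 1 by
    have := o.s2; grind, one_smul, Units.val_one])

/-- the alternating group of degree five on the fixed space -/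
def S : Subgroup (GL (Fin 3) F) := closure {rp o M H.uC, rp o M H.fC}

theorem uS : rp o M H.uC ∈ H.S := subset_closure (by simp)
theorem fS : rp o M H.fC ∈ H.S := subset_closure (by simp)
theorem S_le : H.S ≤ (rp o M).range := (closure_le _).2 (by rintro _ (rfl | rfl) <;> exact ⟨_, rfl⟩)

theorem S_perfect : ⁅H.S, H.S⁆ = H.S := by
  let φ := Abelianization.of (G := H.S)
  have e1 : φ ⟨_, H.uS⟩ ^ 5 = 1 := by rw [← map_pow, show (⟨_, H.uS⟩ : H.S) ^ 5 = 1 from Subtype.ext H.up5, map_one]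
  have e2 : φ ⟨_, H.fS⟩ ^ 2 = 1 := by rw [← map_pow, show (⟨_, H.fS⟩ : H.S) ^ 2 = 1 from Subtype.ext H.fp2, map_one]
  have e3 : (φ ⟨_, H.fS⟩ * φ ⟨_, H.uS⟩ ^ 2) ^ 3 = 1 := by
    rw [← map_pow, ← map_mul, ← map_pow, show ((⟨_, H.fS⟩ : H.S) * ⟨_, H.uS⟩ ^ 2) ^ 3 = 1 from Subtype.ext H.fu3, map_one]
  rw [mul_pow, pow_succ _ 2, e2, one_mul, ← pow_mul, pow_succ _ 5, e1, one_mul] at e3
  have e4 : φ ⟨_, H.uS⟩ = 1 := by
    rw [eq_inv_of_mul_eq_one_left e3, inv_pow, inv_eq_one] at e2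
    simpa using pow_gcd_eq_one.2 ⟨(pow_mul _ 1 2).trans (by simpa using e2), e1⟩
  rw [e4, mul_one] at e3
  have key : ∀ x : H.S, φ x = 1 → x.1 ∈ ⁅H.S, H.S⁆ := fun x hx => by
    rw [← map_subtype_commutator]
    exact ⟨x, Abelianization.ker_of H.S ▸ hx, rfl⟩
  refine le_antisymm (commutator_le.2 fun a ha b hb => ?_) ((closure_le _).2 ?_)
  · exact mul_mem (mul_mem (mul_mem ha hb) (inv_mem ha)) (inv_mem hb)
  · rintro _ (rfl | rfl)
    exacts [key _ e4, key _ e3]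

theorem S_full : Full (Geo.matrixSet H.S) := by
  rw [← alg_eq_top_iff, eq_top_iff]
  have m : ∀ c : F, (rp o M H.uC).val - c • 1 ∈ alg F H.S := fun c =>
    sub_mem (mem_alg H.uS) (Subalgebra.smul_mem _ (one_mem _) c)
  have sm : ∀ {X} {c : F}, c ≠ 0 → c • X ∈ alg F H.S → X ∈ alg F H.S := fun {X c} hc h => by
    simpa [hc] using Subalgebra.smul_mem _ h c⁻¹
  have n1 := sub_ne_zero.2 o.w1
  have n2 := sub_ne_zero.2 (o.wne (k := 4) (l := 0) (by norm_num))
  have n3 := sub_ne_zero.2 (o.wne (k := 4) (l := 1) (by norm_num))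
  have h1 : ∀ i : Fin 3, single i i 1 ∈ alg F H.S := fun i => by
    fin_cases i
    · refine sm (mul_ne_zero n1 n2) ?_
      convert mul_mem (m o.ω) (m (o.ω ^ 4)); rw [up]; mx5
    · refine sm (mul_ne_zero n1 (neg_ne_zero.2 n3)) ?_
      convert mul_mem (m 1) (m (o.ω ^ 4)); rw [up]; mx5
    · refine sm (mul_ne_zero n2 n3) ?_
      convert mul_mem (m 1) (m o.ω); rw [up]; mx5
  have h2 : ∀ i j, (rp o M H.fC).val i j ≠ 0 := fun i j => by
    have := o.h
    have := o.s0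
    have := o.h2
    rw [fp]; fin_cases i <;> fin_cases j <;> simp <;> grind
  intro X _
  rw [matrix_eq_sum_single X]
  refine sum_mem fun i _ => sum_mem fun j _ => ?_
  have := mul_mem (mul_mem (h1 i) (mem_alg H.fS)) (h1 j)
  rw [single_mul_mul_single] at this
  simpa [h2 i j] using Subalgebra.smul_mem _ this (X i j * ((rp o M H.fC).val i j)⁻¹)

theorem twoA (hB : ¬ Big M) (k : Cz M) (hk : IsSc (rm o M k).val) : IsSc (rp o M k).val := by
  have := Fact.mk H.prime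
  by_contra hn
  let L := H.S ⊔ H.S.map (MulAut.conj (rp o M k)).toMonoidHom
  have hL : L ≤ (rp o M).range := sup_le H.S_le (by
    rintro _ ⟨s, hs, rfl⟩
    exact mul_mem (mul_mem ⟨k, rfl⟩ (H.S_le hs)) (inv_mem ⟨k, rfl⟩))
  have hp : ⁅L, L⁆ = L := le_antisymm (commutator_le.2 fun a ha b hb =>
    mul_mem (mul_mem (mul_mem ha hb) (inv_mem ha)) (inv_mem hb)) (sup_le
      (H.S_perfect.ge.trans (commutator_mono le_sup_left le_sup_left)) (by
        rw [← H.S_perfect, map_commutator]; exact commutator_mono le_sup_right le_sup_right))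
  have hd : ∀ g ∈ L, g.val.det = 1 := fun g hg => det_comm (hp.ge hg)
  have l1 : ∀ s ∈ H.S, s ∈ L := fun s hs => mem_sup_left hs
  have l2 : ∀ s ∈ H.S, rp o M k * s * (rp o M k)⁻¹ ∈ L := fun s hs => mem_sup_right ⟨s, hs, rfl⟩
  let K := (rm o M).ker.map (rp o M) ⊓ L
  have hK : ∀ s ∈ L, ∀ x ∈ K, s * x * s⁻¹ ∈ K := fun s hs x ⟨⟨y, hy, e⟩, hx⟩ => by
    obtain ⟨t, rfl⟩ := hL hs
    exact ⟨⟨t * y * t⁻¹, (MonoidHom.normal_ker _).conj_mem y hy t, by simp [e]⟩, L.mul_mem (L.mul_mem hs hx) (L.inv_mem hs)⟩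
  obtain ⟨g, hg, g1⟩ : ∃ g ∈ K, MH.pr g ≠ 1 := by
    by_contra! hc
    have key : ∀ s ∈ H.S, ∀ n : ℕ, n.Coprime 3 → s ^ n = 1 → s ∈ centralizer {rp o M k} := fun s hs n h3 hn => by
      obtain ⟨t, rfl⟩ := H.S_le hs
      have := hc (rp o M k * rp o M t * (rp o M k)⁻¹ * (rp o M t)⁻¹) ⟨⟨k * t * k⁻¹ * t⁻¹, by
        simp [MonoidHom.mem_ker, sc_comm hk], by simp⟩, L.mul_mem (l2 _ hs) (L.inv_mem (l1 _ hs))⟩
      rw [map_mul, map_inv, mul_inv_eq_one] at this
      have := MH.eq_of_pr_eq (hd _ (l2 _ hs)) (hd _ (l1 _ hs)) h3 (by rw [conj_pow, hn]; simp) hn this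
      exact mem_centralizer_singleton_iff.2 (mul_inv_eq_iff_eq_mul.1 this).symm
    have : H.S ≤ centralizer {rp o M k} := (closure_le _).2 (by
      rintro _ (rfl | rfl)
      exacts [key _ H.uS 5 (by norm_num) H.up5, key _ H.fS 2 (by norm_num) H.fp2])
    refine hn (H.S_full.isSc ?_)
    rintro _ ⟨s, hs, rfl⟩
    exact (congrArg Units.val (mem_centralizer_singleton_iff.1 (this hs))).symm
  have u1 : MH.pr (rp o M H.uC) ≠ 1 := fun e => by
    obtain ⟨c, e⟩ := MH.pr_eq_one'.1 e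
    have e1 := congrFun (congrFun e 0) 0
    have e2 := congrFun (congrFun e 1) 1
    simp [up] at e1 e2
    exact o.w1 (e2.trans e1.symm)
  have u5 : (⟨_, MH.mem_bar (l1 _ H.uS)⟩ : MH.bar L) ^ 5 = 1 := Subtype.ext (by simp [← map_pow, H.up5])
  have simple : ¬ IsSimpleGroup (MH.bar L) := fun hs => by
    have : ((MH.bar K).subgroupOf (MH.bar L)).Normal := ⟨by
      rintro ⟨_, x', hx', rfl⟩ ⟨x, hx, e⟩ ⟨_, s, hs, rfl⟩
      exact ⟨_, hK s hs x hx, by simp [e]⟩⟩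
    rcases this.eq_bot_or_eq_top with h | h
    · exact g1 (congrArg Subtype.val ((eq_bot_iff_forall _).1 h ⟨_, MH.mem_bar hg.2⟩ (MH.mem_bar hg)))
    obtain ⟨_, ⟨⟨y, hy, rfl⟩, y2⟩, e⟩ : _ ∈ MH.bar K := h.ge (mem_top ⟨_, MH.mem_bar (l1 _ H.uS)⟩)
    obtain ⟨c, e⟩ := MH.pr_eq_iff.1 e
    have c3 := MH.cube_of_smul (hd _ y2) (hd _ (l1 _ H.uS)) e
    refine hB (H.key' y (x := c) (y := c * o.ω) (w := c * o.ω ^ 4) (y' := 1) (w' := 1) (by rw [e, up]; mx5)
      (by rw [show rm o M y = 1 from hy]; mx5) fun e => o.w1 ?_)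
    have := o.w5
    grind
  rcases MH.mainF Cfsg.Agent.MH.main hp (H.S_full.mono (Set.image_mono l1)) with ⟨E, Q, -, h⟩ |
    ⟨E, q, Q, h3, hE, -⟩ | ⟨-, B, h1, h2, h⟩ | h | ⟨⟨e⟩⟩ | ⟨h5, -⟩
  · obtain ⟨v, hv⟩ : ∃ v, H7.toLE g v ∉ F ∙ v := by
      by_contra! hc
      obtain ⟨c, hc⟩ := H7.scalar_of_forall_mem_span (H7.toLE g).toLinearMap hc
      exact g1 (MH.pr_eq_one'.2 ⟨c, mulVec_injective (funext fun v => by simpa [smul_mulVec, H7.toLE_apply] using hc v)⟩)
    obtain ⟨_, ⟨_, ⟨⟨y, hy, rfl⟩, -⟩, rfl⟩, e⟩ := nsl_all (K := K.map (H7.toLE (F := F)).toMonoidHom) (by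
      rintro s hs _ ⟨x, hx, rfl⟩
      obtain ⟨s, rfl⟩ := H7.toLE.surjective s
      rw [H7.det_toLE] at hs
      exact ⟨_, hK s ((h s).2 ⟨congrArg Units.val hs, H.top E ▸ fun _ _ => trivial⟩) x hx, by simp⟩) (by simp)
      ⟨g, hg, rfl⟩ hv (LinearMap.proj 2) (Pi.single 1 1) (by simp)
    refine hB (H.phi y (c := 1) (c' := 0) ?_ (by rw [show rm o M y = 1 from hy]; mx5) (.inl one_ne_zero))
    ext i j
    have : ((rp o M y).val *ᵥ Pi.single j 1) i = _ := congrFun (e (Pi.single j 1)) i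
    fin_cases i <;> fin_cases j <;> simpa using this
  · rw [H.top E, Nat.card_congr Subfield.topEquiv.toEquiv, Nat.card_eq_fintype_card, H.card] at hE
    exact absurd ((Nat.Prime.eq_one_of_pow (hE ▸ H.prime))) (by norm_num)
  · obtain ⟨M', ⟨e⟩⟩ := MH.exists_pgl o.h2 h1 h2 L fun m hm => ⟨1, by rw [h m hm, one_smul]⟩
    have := MH.perfect_bar hp
    have := simple_of_perfect H.top (by
      have := H.prime.two_le
      have := H.cop
      rw [Nat.card_eq_fintype_card, H.card]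
      by_contra hc
      obtain rfl | rfl : p = 2 ∨ p = 3 := by omega
      all_goals exact absurd this (by norm_num)) (e ⟨_, MH.mem_bar (l1 _ H.uS)⟩).2 (by
        rw [← coe_pow, ← map_pow, u5]; simp) (fun h => u1 (congrArg Subtype.val (e.injective
          ((Subtype.ext h).trans (map_one e).symm)))) (isPerfect_iff.1 (Group.IsPerfect.ofSurjective (f := e.toMonoidHom) e.surjective))
    exact simple e.isSimpleGroup
  · have h1 := pow_card_eq_one' (x := (⟨_, MH.mem_bar (l1 _ H.uS)⟩ : MH.bar L))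
    rw [MH.card_bar, h] at h1
    exact u1 (by simpa using pow_gcd_eq_one.2 ⟨h1, u5⟩)
  · have := alternatingGroup.isSimpleGroup (α := Fin 6) (by simp)
    exact simple ((MH.pqEquiv L).symm.trans e).isSimpleGroup
  · exact o.h5 h5

theorem fermat' (x : F) : x ^ p = x := H.card ▸ FiniteField.pow_card x

theorem cen (hB : ¬ Big M) {k : Cz M} (hk : IsSc (rm o M k).val) (g : Cz M) : k * g = g * k :=
  inj (o := o) (by rw [map_mul, map_mul, sc_comm (H.twoA hB k hk)]) (by rw [map_mul, map_mul, sc_comm hk])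

theorem um_mob : pm o M H.uC = mob o.ω 0 0 (o.ω ^ 4) (by simp [o.w0]) :=
  (mk_eq_mob _).trans (mob_congr (by simp [um]) (by simp [um]) (by simp [um]) (by simp [um]))

theorem eig {ν : Matrix (Fin 3) (Fin 3) F} (e9 : (rp o M H.uC).val * ν = o.ω ^ 2 • (ν * (rp o M H.uC).val)) :
    ν = !![0, 0, 0; 0, 0, ν 1 2; 0, 0, 0] := by
  have a0 := o.w0
  have a1 := o.w5
  have a2 := o.wne (k := 2) (l := 0) (by norm_num)
  have a3 := o.wne (k := 3) (l := 0) (by norm_num)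
  have a4 := o.w1
  have a5 := o.wne (k := 4) (l := 0) (by norm_num)
  rw [up] at e9
  ext i j
  have := congrFun (congrFun e9 i) j
  clear e9
  fin_cases i <;> fin_cases j <;> simp [mul_apply, Fin.sum_univ_succ, vecMul, dotProduct] at this ⊢ <;> grind

theorem um_tr : (rm o M H.uC).val * !![1, 1; 0, 1] = !![1, o.ω ^ 2 * 1; 0, 1] * (rm o M H.uC).val := by
  have := o.w5
  rw [um]; mx5

theorem twoB (hB : ¬ Big M) : Nonempty ((pm o M).range ≃* alternatingGroup (Fin 5)) := by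
  have := Fact.mk H.prime
  have := H.char
  have m1 : mob o.ω 0 0 (o.ω ^ 4) _ ∈ (pm o M).range := ⟨_, H.um_mob⟩
  have f5 := H.five (h := by simp [o.w0]) (r := o.ω) (s := o.ω ^ 4) (by have := o.w5; grind)
    (by simpa using o.wne (k := 1) (l := 4) (by norm_num))
  have n1 := sub_ne_zero.2 (o.wne (k := 2) (l := 3) (by norm_num))
  have n2 := sub_ne_zero.2 (o.wne (k := 4) (l := 1) (by norm_num))
  refine (d5 H.top m1 f5.1 f5.2 m1 (by rw [← pow_mul]; exact o.wne (by norm_num)) ⟨H.fC, mk_eq_mob _⟩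
    (by simpa [fm, o.s0] using n1) (by simpa [fm, o.s0] using n1) (.inr (by simpa [fm, o.s0] using n2))).resolve_right
    fun h => hB ?_
  obtain ⟨c, hc⟩ := h (tr_mem_LS 1)
  have e1 := H.pow_tr hc (p - 1)
  have e2 : rp o M (c ^ ((p - 1) * (p - 1))) ^ p = 1 := by
    have := H.pow_tr hc p
    obtain ⟨μ, e⟩ := H.twoA hB (c ^ ((p - 1) * p)) ⟨1, by rw [map_pow, this]; simp [one_fin_two]⟩
    rw [← map_pow, ← pow_mul, mul_right_comm, pow_mul, map_pow]
    exact Units.ext (by rw [Units.val_pow_eq_pow_val, e, _root_.smul_pow, H.fermat (MH.ne_zero_of_eq_smul e)]; simp)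
  rw [← map_pow, H.cast, mul_one, neg_neg] at e1
  generalize c ^ ((p - 1) * (p - 1)) = g at e1 e2
  obtain ⟨k, hk⟩ := H.nat (o.ω ^ 2)
  obtain ⟨μ, e3⟩ := H.twoA hB (H.uC * g * H.uC⁻¹ * (g ^ k)⁻¹) ⟨1, by
    have : rm o M (H.uC * g) = rm o M (g ^ k * H.uC) := Units.ext (by
      simp only [map_mul, map_pow, Units.val_mul, Units.val_pow_eq_pow_val, e1, um_tr, unitri_pow, ← hk])
    rw [mul_assoc, ← _root_.mul_inv_rev, map_mul, map_inv, this]; simp⟩
  have e4 : (rp o M H.uC * rp o M g * (rp o M H.uC)⁻¹).val = μ • (rp o M g ^ k).val := by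
    rw [← smul_one_mul, ← e3, ← Units.val_mul]; simp
  obtain rfl : μ = 1 := by
    have := congrArg (· ^ p) e4
    simp only [_root_.smul_pow, ← Units.val_pow_eq_pow_val, conj_pow, e2, pow_right_comm _ k, H.fermat'] at this
    simpa using (congrFun (congrFun this 0) 0).symm
  have e5 := MH.ch (g := rp o M g) (by simpa [H.fermat'] using congrArg (·.val.det) e2)
  rw [MH.T_unip p (k := 1) (by simpa using e2), MH.T_unip p (k := 1) (by simpa using e2)] at e5
  obtain ⟨n, hn⟩ : ∃ n, (rp o M g).val = 1 + n := ⟨_, (add_sub_cancel _ _).symm⟩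
  have n3 : n * (n * n) = 0 := by
    simp only [hn, pow_succ, pow_zero, one_mul, mul_add, add_mul, mul_one, mul_assoc] at e5
    linear_combination (norm := module) e5
  have e6 : ∀ j : ℕ, (1 + n) ^ j = 1 + (j : F) • n + ((j : F) * (j - 1) * 2⁻¹) • (n * n) := fun j => by
    induction j with
    | zero => simp
    | succ j ih =>
      simp only [pow_succ, ih, mul_add, add_mul, mul_one, one_mul, smul_mul_assoc, mul_assoc n, n3]
      have := o.h2
      match_scalars <;> grind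
  have e7 := congrArg (· * (rp o M H.uC).val) e4
  simp only [Units.val_mul, Units.val_pow_eq_pow_val, hn, e6, ← hk, one_smul, Units.inv_mul_cancel_right] at e7
  generalize hU : (rp o M H.uC).val = U at e7
  have e8 : U * n = (o.ω ^ 2 • n + (o.ω ^ 2 * (o.ω ^ 2 - 1) * 2⁻¹) • (n * n)) * U := by
    simp only [mul_add, add_mul, mul_one, one_mul] at e7 ⊢
    linear_combination (norm := module) e7
  have n4 : n * (n * (n * U)) = 0 := by simpa [mul_assoc] using congrArg (· * U) n3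
  have e9 : U * (n - (2⁻¹ : F) • (n * n)) = o.ω ^ 2 • ((n - (2⁻¹ : F) • (n * n)) * U) := by
    rw [mul_sub, mul_smul_comm, ← mul_assoc, e8, mul_assoc _ U, e8]
    simp only [mul_add, add_mul, sub_mul, smul_mul_assoc, mul_smul_comm, mul_assoc, n4, mul_zero]
    have := o.h2
    match_scalars <;> grind
  have e10 : (n - (2⁻¹ : F) • (n * n)) * (n - (2⁻¹ : F) • (n * n)) = n * n := by
    simp [mul_sub, sub_mul, mul_assoc, n3]
  have e11 := (sub_add_cancel n ((2⁻¹ : F) • (n * n))).symm.trans (congrArg (_ + (2⁻¹ : F) • ·) e10.symm)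
  generalize n - (2⁻¹ : F) • (n * n) = ν at e9 e11
  have e12 := H.eig (hU ▸ e9)
  generalize ν 1 2 = c at e12
  exact H.phi g (c := c) (by rw [hn, e11, e12]; ext i j; fin_cases i <;> fin_cases j <;> simp) e1 (.inr one_ne_zero)

theorem z_not : ¬ IsSc (Om5.z F).val := fun ⟨c, h⟩ => by simpa [z_val] using congrFun (congrFun h 1) 4

theorem bisc (g : Cz M) {a b : F} (h1 : (rp o M g).val = a • 1) (h2 : (rm o M g).val = b • 1) :
    g.1.val = (2⁻¹ * (a + b)) • 1 + (2⁻¹ * (a - b)) • (Om5.z F).val := by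
  rw [recon (o := o), h1, h2]
  simp only [Matrix.mul_smul, Matrix.smul_mul, Matrix.mul_one, PQp o, PQm o]
  module

theorem twoC (hB : ¬ Big M) {g : G5 F} (hg : g ∈ M) (h : g * Om5.z F * g⁻¹ * Om5.z F = Om5.z F * (g * Om5.z F * g⁻¹)) :
    g * Om5.z F * g⁻¹ = Om5.z F := by
  let t : Cz M := ⟨_, mem_Cz.2 ⟨mul_mem (mul_mem hg H.z) (inv_mem hg), h⟩⟩
  have t2 : t * t = 1 := Subtype.ext (by simp [t, zz])
  have sq : ∀ {n : ℕ} (r : Cz M →* GL (Fin n) F), (r t).val * (r t).val = 1 := fun r => by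
    rw [← Units.val_mul, ← map_mul, t2, map_one, Units.val_one]
  by_cases hs : IsSc (rm o M t).val
  · obtain ⟨a, h1⟩ := H.twoA hB t hs
    obtain ⟨b, h2⟩ := hs
    have e := H.bisc t h1 h2
    have a2 : a * a = 1 := by simpa [h1] using congrFun (congrFun (sq (rp o M)) 0) 0
    have b2 : b * b = 1 := by simpa [h2] using congrFun (congrFun (sq (rm o M)) 0) 0
    have := o.h2
    by_cases hab : a = b
    · refine (H.z_not ⟨a, ?_⟩).elim
      have e1 : (g * Om5.z F * g⁻¹).val = a • 1 := e.trans (by rw [← hab]; match_scalars <;> grind)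
      have := congrArg ((g⁻¹).val * · * g.val) e1
      simpa [mul_assoc] using this
    have e1 : (g * Om5.z F * g⁻¹).val = a • (Om5.z F).val := e.trans (by match_scalars <;> grind)
    have := congrArg Matrix.det e1
    rw [H.det _ t.2.1, det_smul, H.det _ H.z, Fintype.card_fin] at this
    exact Units.ext (by rw [e1, show a = 1 by grind, one_smul])
  obtain ⟨e⟩ := H.twoB hB
  have hp : ⁅(pm o M).range, (pm o M).range⁆ = (pm o M).range := by
    have : Group.IsPerfect (alternatingGroup (Fin 5)) := ⟨commutator_alternatingGroup_eq_top (by simp)⟩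
    exact isPerfect_iff.1 (Group.IsPerfect.ofSurjective (f := e.symm.toMonoidHom) e.symm.surjective)
  obtain ⟨s, s1, s2⟩ : pm o M t ∈ Subgroup.map (pm o M) ⁅(⊤ : Subgroup (Cz M)), ⊤⁆ := by
    rw [map_commutator, ← MonoidHom.range_eq_map, hp]; exact ⟨t, rfl⟩
  have hβ : IsSc (rm o M (s⁻¹ * t)).val := mk_one.1 (by
    change pm o M _ = 1
    rw [map_mul, map_inv, s2, inv_mul_cancel])
  have dt : ∀ {n : ℕ} (r : Cz M →* GL (Fin n) F), (r (s⁻¹ * t)).val.det = (r t).val.det := fun r => by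
    have := det_comm (L := (⊤ : Subgroup (Cz M)).map r) (g := r s⁻¹) (map_commutator ⊤ ⊤ r ▸ ⟨_, inv_mem s1, rfl⟩)
    rw [map_mul, Units.val_mul, det_mul, this, one_mul]
  obtain ⟨a, h1⟩ := H.twoA hB _ hβ
  have hc := H.cen hB hβ
  obtain ⟨b, h2⟩ := hβ
  have a6 : a ^ 6 = 1 := by
    have e1 := dt (rp o M)
    have e2 := congrArg Matrix.det (sq (rp o M))
    rw [h1, det_smul] at e1
    rw [det_mul, ← e1] at e2
    simp at e2
    grind
  have b2 : b ^ 2 = -1 := by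
    have e1 := dt (rm o M)
    have e2 := fun i j => congrFun (congrFun (sq (rm o M)) i) j
    rw [h2, det_smul, det_fin_two (rm o M t).val] at e1
    rw [← mk_one, mk_eq_mob, mob_eq_one] at hs
    simp [Fin.forall_fin_two, mul_apply] at e1 e2
    grind
  have y2 : (s⁻¹ * t) ^ 6 = H.zC := inj (o := o) (Units.ext (by
    rw [map_pow, Units.val_pow_eq_pow_val, h1, zp, _root_.smul_pow, a6]; simp)) (Units.ext (by
      rw [map_pow, Units.val_pow_eq_pow_val, h2, zm, _root_.smul_pow, one_pow, show b ^ 6 = -1 by grind]))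
  generalize s⁻¹ * t = y at y2 hc
  have m : g⁻¹ * Om5.z F * g ∈ Cz M := mem_Cz.2 ⟨mul_mem (mul_mem (inv_mem hg) H.z) hg, by
    simpa [mul_assoc] using (congrArg (g⁻¹ * · * g) h).symm⟩
  let y' : Cz M := ⟨g * y * g⁻¹, mem_Cz.2 ⟨mul_mem (mul_mem hg y.2.1) (inv_mem hg), by
    simpa [mul_assoc] using congrArg (fun x : Cz M => g * x.1 * g⁻¹) (hc ⟨_, m⟩)⟩⟩
  have y6 : y' ^ 6 = t := Subtype.ext (by
    change (g * y * g⁻¹) ^ 6 = _
    rw [conj_pow, ← coe_pow, y2]; rfl)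
  have := congrArg Subtype.val (a5_four e (y := ⟨_, y' ^ 3, rfl⟩) (Subtype.ext (by
    change pm o M _ ^ 4 = 1
    rw [← map_pow, ← pow_mul, show 3 * 4 = 6 + 6 by rfl, pow_add, y6, t2, map_one])))
  change pm o M _ ^ 2 = 1 at this
  rw [← map_pow, ← pow_mul, y6] at this
  exact (hs (mk_one.1 this)).elim

theorem core : Big M ∨ M ≤ Geo.subgroupNormalizer o.R := by
  refine or_iff_not_imp_left.2 fun hB m hm => ?_
  let z' : M := ⟨_, H.z⟩
  have z2 : z' * z' = 1 := Subtype.ext zz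
  obtain ⟨O, hO, ho, h⟩ := ZStar.zstar' z2 (odd_of_isol z2 fun t ht hc => by
    obtain ⟨g, rfl⟩ := isConj_iff.1 ht
    exact Subtype.ext (H.twoC hB g.2 (congrArg Subtype.val hc)))
  have h5 : ∀ x : M, x ^ 5 = 1 → x * z' * x = z' → x ∈ O := fun x x5 e => by
    have := pow_mem (h _ _ (isConj_iff.2 ⟨x, rfl⟩) (IsConj.refl z')) 3
    rwa [show x * z' * x⁻¹ * z' = x ^ 2 by
      rw [mul_assoc, ← eq_inv_mul_iff_mul_eq.2 (mul_assoc x z' x ▸ e), mul_assoc, ← mul_assoc z', z2, one_mul, sq], ← pow_mul,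
      pow_succ _ 5, x5, one_mul] at this
  have ha := h5 ⟨_, H.a⟩ (Subtype.ext o.a5) (Subtype.ext o.za)
  have hb := h5 ⟨_, H.b⟩ (Subtype.ext o.b5) (Subtype.ext zb)
  obtain ⟨e⟩ := H.twoB hB
  have := alternatingGroup.isSimpleGroup (α := Fin 5) (by simp)
  have := e.isSimpleGroup
  have odd : ∀ {G : Type v} [Group G] (r : Cz M →* G) (x : Cz M), inclusion inf_le_left x ∈ O → r x ^ Nat.card O = 1 :=
    fun r x hx => by
      rw [← map_pow, show x ^ Nat.card O = 1 from Subtype.ext (congrArg (·.1.1) (pow_card_eq_one' (x := (⟨_, hx⟩ : O)))),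
        map_one]
  have key := fun x hx y hy => comm_mod (Z := (Geo.scalars (Fin 5) F).subgroupOf M) ho (fun x hx =>
    mem_center_iff.2 fun y => Subtype.ext (sc_comm ((mem_scalars_iff _).1 hx) _).symm) z2
    (fun x hx => hO.conj_mem x hx _) (fun x hx hc => by
      let x' : Cz M := ⟨x, mem_Cz.2 ⟨x.2, (congrArg Subtype.val (mul_inv_eq_iff_eq_mul.1 hc)).symm⟩⟩
      rcases ((hO.comap (inclusion (inf_le_left : Cz M ≤ M))).map _
        (pm o M).rangeRestrict_surjective).eq_bot_or_eq_top with k | k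
      swap
      · obtain ⟨i, -, i1, -, -, i2, -⟩ := Small.A5_facts
        obtain ⟨w, w1, w2⟩ := k.ge (mem_top (e.symm i))
        have := odd (pm o M).rangeRestrict w w1
        rw [show (pm o M).rangeRestrict w = _ from w2, ← map_pow, map_eq_one_iff _ e.symm.injective] at this
        have := pow_gcd_eq_one.2 ⟨this, (sq i).trans i2⟩
        rw [ho.coprime_two_right, pow_one] at this
        exact (i1 this).elim
      obtain ⟨b, h2⟩ := mk_one.1 (congrArg Subtype.val ((eq_bot_iff_forall _).1 k _ ⟨x', hx, rfl⟩))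
      obtain ⟨a, h1⟩ := H.twoA hB x' ⟨b, h2⟩
      have a1 := congrArg (·.val 0 0) (odd (rp o M) x' hx)
      have b1 := congrArg (·.val 0 0) (odd (rm o M) x' hx)
      simp [h1, h2, _root_.smul_pow] at a1 b1
      have e1 : a ^ 2 = b ^ 2 := by_contra fun hn =>
        hB (H.key' x' (x := a) (w := a) (w' := b) (by rw [h1]; mx5) (by rw [h2]; mx5) hn)
      obtain ⟨n, hn⟩ := ho
      rw [hn, pow_succ, pow_mul] at a1 b1
      obtain rfl : a = b := mul_left_cancel₀ (left_ne_zero_of_mul_eq_one b1) (by rw [b1, ← e1, a1])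
      exact (mem_scalars_iff _).2 ⟨2⁻¹ * (a + a), by simpa using H.bisc x' h1 h2⟩) (o := x) (o' := y) hx hy
  have fin : ∀ x ∈ O, x.1 ∈ o.R := fun x hx => by
    obtain ⟨c, c1, c2⟩ := key x hx _ ha
    obtain ⟨d, d1, d2⟩ := key x hx _ hb
    obtain ⟨c', c1⟩ := (mem_scalars_iff _).1 c1
    obtain ⟨d', d1⟩ := (mem_scalars_iff _).1 d1
    exact o.mem_R (c := c') (d := d') (by simpa [Cm, show c.1.val = _ from c1] using congrArg (·.1.val) c2)
      (by simpa [Cm, show d.1.val = _ from d1] using congrArg (·.1.val) d2) (H.det _ x.2)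
  exact o.nrm (fin _ (hO.conj_mem _ ha ⟨m, hm⟩)) (fin _ (hO.conj_mem _ hb ⟨m, hm⟩))

end Hyp

end Cfsg.Agent.H8.L5
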