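import Cfsg.Agent.H8.ArR

/-! The class equation for homocyclic Sylow subgroups: a finite search. -/

set_option autoImplicit false

namespace Cfsg.Agent.H8.Ar2

/-- evaluate `n` first -/
def sq1 (n : ℕ) (k : ℕ → Bool) : Bool := Nat.rec (k 0) (fun p _ => k (Nat.succ p)) n

theorem sq1_eq (n : ℕ) (k : ℕ → Bool) : sq1 n k = k n := by cases n <;> rfl

/-- bounded quantifier -/
def al (p : ℕ → Bool) (n : ℕ) : Bool := Nat.rec true (fun k b => p k && b) n

theorem al_ok {p : ℕ → Bool} {n k : ℕ} (h : al p n = true) (hk : k < n) : p k = true := by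
  induction n with
  | zero => omega
  | succ n ih =>
    have h' : (p n && al p n) = true := h
    rw [Bool.and_eq_true] at h'
    rcases Nat.lt_succ_iff_lt_or_eq.1 hk with a | rfl
    exacts [ih h'.2 a, h'.1]

/-- `d` lies strictly between two consecutive squares, or `alt` holds -/
def ns (d : ℕ) (alt : ℕ → Bool) (k : ℕ) : ℕ → Bool := Nat.rec (fun _ => false) (fun _ b s =>
  cond (Nat.ble (Nat.mul s s) d) (cond (Nat.beq (Nat.mul s s) d) (alt s) (Nat.blt d (Nat.mul (Nat.succ s) (Nat.succ s))))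
    (sq1 (Nat.div (Nat.add s (Nat.div d s)) 2) b)) k

theorem ns_ok {d t : ℕ} {alt : ℕ → Bool} (e : t * t = d) : ∀ k s, ns d alt k s = true → alt t = true := by
  intro k
  induction k with
  | zero => intro s h; cases h
  | succ k ih =>
    intro s h
    have h' : cond (Nat.ble (s * s) d) (cond (Nat.beq (s * s) d) (alt s) (Nat.blt d ((s + 1) * (s + 1))))
      (sq1 ((s + d / s) / 2) (ns d alt k)) = true := h
    cases h1 : Nat.ble (s * s) d <;> rw [h1] at h'
    · exact ih _ (sq1_eq _ _ ▸ h')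
    cases h2 : Nat.beq (s * s) d <;> rw [h2] at h'
    · have a := Nat.ne_of_beq_eq_false h2
      have b := Nat.le_of_ble_eq_true h1
      have c : d < (s + 1) * (s + 1) := Nat.blt_eq.to_iff.1 h'
      rw [← e] at a b c
      have := Nat.mul_self_le_mul_self_iff.1 b
      have := Nat.mul_self_lt_mul_self_iff.1 c
      exact absurd (show s = t by omega) fun z => a (by rw [z])
    · rwa [← Nat.mul_self_inj.1 ((Nat.eq_of_beq_eq_true h2).trans e.symm)]

/-- the positive root is excluded -/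
def rt (α B E C s : ℕ) : Bool := sq1 (Nat.div (Nat.add s B) (Nat.mul 2 α)) fun u =>
  !Nat.beq (Nat.mul (Nat.mul 2 α) u) (Nat.add s B) || Nat.blt (Nat.mul E u) (Nat.add C 6)

/-- the last slot -/
def q3 (A c r f D E : ℕ) : Bool := sq1 (Nat.add c r) fun C' => sq1 (Nat.mul D E) fun α =>
  sq1 (Nat.add (Nat.add (Nat.mul D C') (Nat.mul (Nat.succ c) E)) (Nat.mul A f)) fun B =>
  sq1 (Nat.sub (Nat.add (Nat.mul B B) (Nat.mul (Nat.mul 4 α) A)) (Nat.mul (Nat.mul 4 α) (Nat.succ (Nat.mul (Nat.succ c) C')))) fun d =>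
  ns d (rt α B E C') 30 (Nat.pow 2 (Nat.succ (Nat.div (Nat.log2 d) 2)))

theorem q3_ok {A c r f D E u : ℕ} (h : q3 A c r f D E = true) {x w : ℕ} (hx : E * u = c + r + x) (hw : D * u = c + 1 + w)
    (x6 : 6 ≤ x) (A0 : 0 < A) (e : A * (f * u + 1) = 1 + x * w) : False := by
  simp only [q3, sq1_eq] at h
  have u0 : 0 < u := Nat.pos_of_ne_zero (by rintro rfl; omega)
  have k : A * f ≤ D * x := Nat.le_of_mul_le_mul_right (by nlinarith) u0
  obtain ⟨t, ht⟩ := Nat.exists_eq_add_of_le (k.trans (Nat.le_add_right _ (E * w)))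
  have e1 : 2 * (D * E) * u = t + (D * (c + r) + (c + 1) * E + A * f) := by
    zify at *
    linear_combination D * hx + E * hw + ht
  have := ns_ok (t := t) (Nat.eq_sub_of_add_eq (by
    change t * t + 4 * (D * E) * ((c + 1) * (c + r) + 1) =
      (D * (c + r) + (c + 1) * E + A * f) * (D * (c + r) + (c + 1) * E + A * f) + 4 * (D * E) * A
    zify at *
    have e2 : (D * E * u * u : ℤ) - (D * (c + r) + (c + 1) * E + A * f) * u + ((c + 1) * (c + r) + 1 - A) = 0 := by
      linear_combination (D * u - c - 1) * hx + x * hw - e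
    linear_combination 4 * (D * E) * e2 - (t - (D * (c + r) + (c + 1) * E + A * f) + 2 * (D * E) * u) * e1)) _ _ h
  have p : 0 < 2 * (D * E) := by
    have : D ≠ 0 := by rintro rfl; omega
    have : E ≠ 0 := by rintro rfl; omega
    positivity
  have e3 : (t + (D * (c + r) + (c + 1) * E + A * f)) / (2 * (D * E)) = u := by rw [← e1, Nat.mul_div_cancel_left _ p]
  simp only [rt, sq1_eq] at this
  change (!Nat.beq (2 * (D * E) * ((t + (D * (c + r) + (c + 1) * E + A * f)) / (2 * (D * E)))) (t + (D * (c + r) + (c + 1) * E + A * f)) ||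
    Nat.blt (E * ((t + (D * (c + r) + (c + 1) * E + A * f)) / (2 * (D * E)))) (c + r + 6)) = true at this
  rw [e3, e1] at this
  simp at this
  omega

/-- parity indicator -/
def ep (f : ℕ) : ℕ := Nat.mul 8 (Nat.sub 1 (Nat.mod f 2))

/-- the last slot -/
def q1 (A S r f : ℕ) : Bool := Nat.ble (Nat.mul 5 A) S || sq1 (Nat.sub (Nat.sub (Nat.mul 5 A) S) 1) fun c =>
  sq1 (Nat.sub (Nat.mul 8 A) (Nat.mul (Nat.succ c) f)) fun D => Nat.ble D (ep f) || q3 A c r f D (Nat.sub D (ep f))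

/-- second level -/
def c2 (f1 f2 f3 u1 x n1 : ℕ) : Bool := Nat.beq n1 0 ||
  al (fun u2 => sq1 (Nat.succ (Nat.mul f2 u2)) fun y => Nat.beq (Nat.mod y 2) 0 || Nat.blt y x ||
      sq1 (Nat.mul x y) fun A => q1 A (Nat.mul 8 (Nat.add (Nat.mul u1 y) (Nat.mul u2 x))) (Nat.add (Nat.mul (ep f1) u1) (Nat.mul (ep f2) u2)) f3)
    ((f1 * f2 * f3 * x + 8 * f1 * (f2 + f3) * (x + 1) + 8 * f2 * f3) / (n1 * f2) + 1)

/-- first level -/
def c1 (f1 f2 f3 : ℕ) : Bool := sq1 (8 * (f1 * f2 + f1 * f3 + f2 * f3) - 5 * (f1 * f2 * f3)) fun n0 => Nat.beq n0 0 ||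
  al (fun u1 => sq1 (Nat.succ (Nat.mul f1 u1)) fun x => Nat.beq (Nat.mod x 2) 0 ||
      sq1 (Nat.sub (Nat.mul x n0) (Nat.mul (Nat.mul 8 f2) f3)) fun n1 => c2 f1 f2 f3 u1 x n1)
    ((f1 * f2 * f3 + 16 * f1 * (f2 + f3) + 16 * f2 * f3) / (n0 * f1) + 1)

/-- all types -/
def c0 (e g : ℕ) : Bool := al (fun k => sq1 (Nat.add k 5) fun l => c1 l e g && c1 e l g && c1 e g l) 655

theorem chk : (c0 2 2 && c0 2 3 && c0 2 4 && c0 3 2 && c0 3 3 && c0 3 4 && c0 4 2 && c0 4 3 && c0 4 4) = true := by decide +kernel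

end Cfsg.Agent.H8.Ar2
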