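import Cfsg.Agent.H8.ArF

/-! The class equation for homocyclic Sylow subgroups has no solution. -/

set_option autoImplicit false

namespace Cfsg.Agent.H8.Ar2

open Cfsg.Agent.H1.N1 Cfsg.Agent.H8.Ar

theorem ep_def (f : ℕ) : ep f = 8 * (1 - f % 2) := rfl

theorem ep_le (f : ℕ) : (0 : ℤ) ≤ ep f ∧ (ep f : ℤ) ≤ 8 := by rw [ep_def]; omega

/-- the two equations -/
def Eq2 (f1 u1 f2 u2 f3 u3 : ℕ) (m : ℤ) : Prop :=
  (8 * (u1 * (f2 * u2 + 1) * (f3 * u3 + 1) + u2 * (f1 * u1 + 1) * (f3 * u3 + 1) + u3 * (f1 * u1 + 1) * (f2 * u2 + 1)) : ℤ) =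
    5 * ((f1 * u1 + 1) * (f2 * u2 + 1) * (f3 * u3 + 1)) + (2 * m - 1 + ep f1 * u1 + ep f2 * u2 + ep f3 * u3) ∧
  ((f1 * u1 + 1) * (f2 * u2 + 1) * (f3 * u3 + 1) : ℤ) = 1 + 2 * m * (2 * m - 1 + ep f1 * u1 + ep f2 * u2 + ep f3 * u3)

theorem Eq2.s1 {f1 u1 f2 u2 f3 u3 : ℕ} {m : ℤ} (h : Eq2 f1 u1 f2 u2 f3 u3 m) : Eq2 f2 u2 f1 u1 f3 u3 m :=
  ⟨by linear_combination h.1, by linear_combination h.2⟩

theorem Eq2.s2 {f1 u1 f2 u2 f3 u3 : ℕ} {m : ℤ} (h : Eq2 f1 u1 f2 u2 f3 u3 m) : Eq2 f1 u1 f3 u3 f2 u2 m :=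
  ⟨by linear_combination h.1, by linear_combination h.2⟩

theorem bound {f1 f2 f3 u1 u2 u3 x y z m a b c n : ℤ} (p1 : 0 < f1) (p2 : 0 < f2) (p3 : 0 < f3) (k1 : 0 ≤ u1) (k2 : 0 ≤ u2)
    (k3 : 0 ≤ u3) (hx : x = f1 * u1 + 1) (hy : y = f2 * u2 + 1) (hz : z = f3 * u3 + 1) (xy : x ≤ y) (yz : y ≤ z) (hm : 3 ≤ m)
    (ha : 0 ≤ a ∧ a ≤ 8) (hb : 0 ≤ b ∧ b ≤ 8) (hc : 0 ≤ c ∧ c ≤ 8)
    (e1 : 8 * (u1 * y * z + u2 * x * z + u3 * x * y) = 5 * (x * y * z) + (2 * m - 1 + a * u1 + b * u2 + c * u3))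
    (e2 : x * y * z = 1 + 2 * m * (2 * m - 1 + a * u1 + b * u2 + c * u3))
    (hn : n = x * (8 * (f1 * f2 + f1 * f3 + f2 * f3) - 5 * (f1 * f2 * f3)) - 8 * f2 * f3) :
    0 < n ∧ n * y < f1 * f2 * f3 * x + 8 * f1 * (f2 + f3) * (x + 1) + 8 * f2 * f3 := by
  have x0 : 0 < x := by rw [hx]; positivity
  have y0 : 0 < y := by omega
  have z0 : 0 < z := by omega
  have r1 := mul_nonneg ha.1 k1
  have r2 := mul_nonneg hb.1 k2
  have r3 := mul_nonneg hc.1 k3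
  have e : n * y * z = f1 * f2 * f3 * (2 * m - 1 + a * u1 + b * u2 + c * u3) + 8 * f1 * x * (f3 * z + f2 * y) := by
    have h1 : f1 * u1 = x - 1 := by omega
    have h2 : f2 * u2 = y - 1 := by omega
    have h3 : f3 * u3 = z - 1 := by omega
    linear_combination f1 * f2 * f3 * e1 + y * z * hn - 8 * f2 * f3 * y * z * h1 - 8 * f1 * f3 * x * z * h2 - 8 * f1 * f2 * x * y * h3
  have hm' : 2 * m - 1 < x * z := by
    by_contra k
    have k1 : y ≤ x * z := by nlinarith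
    have k2 : x * z * y ≤ (2 * m - 1) * (2 * m - 1) := mul_le_mul (by omega) (by omega) y0.le (by omega)
    nlinarith
  have w0 : 0 < 2 * m - 1 + a * u1 + b * u2 + c * u3 := by omega
  refine ⟨(mul_pos_iff_of_pos_right (mul_pos y0 z0)).1 (by rw [← mul_assoc, e]; positivity), lt_of_mul_lt_mul_right ?_ z0.le⟩
  have t1 : f1 * f2 * f3 * (a * u1) ≤ 8 * f2 * f3 * z := by
    have : a * (f1 * u1) ≤ 8 * z := mul_le_mul ha.2 (by omega) (by positivity) (by omega)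
    nlinarith [mul_pos p2 p3]
  have t2 : f1 * f2 * f3 * (b * u2) ≤ 8 * f1 * f3 * z := by
    have : b * (f2 * u2) ≤ 8 * z := mul_le_mul hb.2 (by omega) (by positivity) (by omega)
    nlinarith [mul_pos p1 p3]
  have t3 : f1 * f2 * f3 * (c * u3) ≤ 8 * f1 * f2 * z := by
    have : c * (f3 * u3) ≤ 8 * z := mul_le_mul hc.2 (by omega) (by positivity) (by omega)
    nlinarith [mul_pos p1 p2]
  have t4 : f1 * f2 * f3 * (2 * m - 1) < f1 * f2 * f3 * (x * z) := mul_lt_mul_of_pos_left hm' (by positivity)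
  have t5 : f1 * x * f2 * y ≤ f1 * x * f2 * z := mul_le_mul_of_nonneg_left yz (by positivity)
  rw [e]
  linarith

theorem neg {A S r m v w k u : ℤ} (u1 : 1 ≤ u) (v0 : 0 ≤ v) (h : 5 * A ≤ S) (o : (5 * A - S) % 2 = 1) (s1 : r ≤ 4 * (A - 1)) (r0 : 0 ≤ r)
    (k8 : k ≤ 8 * u) (k0 : 0 ≤ k) (hw : w = 2 * m - 1 + r + k) (e : 8 * (A * u) = (5 * A - S) * (v + 1) + w)
    (e' : A * (v + 1) = 1 + 2 * m * w) : False := by
  have t1 : (5 * A - S) * (v + 1) ≤ -1 * (v + 1) := mul_le_mul_of_nonneg_right (by omega) (by omega)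
  have t2 : (A - 1) * 1 ≤ (A - 1) * u := mul_le_mul_of_nonneg_left u1 (by omega)
  have t3 : v + 1 ≤ 2 * m := by linarith
  have t5 : A * 1 ≤ A * u := mul_le_mul_of_nonneg_left u1 (by omega)
  have t4 : A ≤ w := by linarith
  have := mul_le_mul t3 t4 (by omega) (by omega)
  linarith

theorem q1_ok {A S r f u : ℕ} {m : ℤ} (h : q1 A S r f = true) (hm : 3 ≤ m) (A0 : 0 < A) (hS : S < 5 * A)
    (e1 : (8 * A * u : ℤ) = (5 * A - S) * (f * u + 1) + (2 * m - 1 + r + ep f * u))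
    (e2 : (A * (f * u + 1) : ℤ) = 1 + 2 * m * (2 * m - 1 + r + ep f * u)) : False := by
  obtain ⟨c, hc⟩ : ∃ c, 5 * A = S + c + 1 := ⟨5 * A - S - 1, by omega⟩
  obtain ⟨m, rfl⟩ := Int.eq_ofNat_of_zero_le (show 0 ≤ m by omega)
  have hc' : (5 * A - S : ℤ) = c + 1 := by omega
  rw [hc'] at e1
  have k : (c + 1) * f + ep f < 8 * A := by
    zify
    refine lt_of_mul_lt_mul_right ?_ (Int.natCast_nonneg u)
    linarith
  obtain ⟨E, hE⟩ := Nat.exists_eq_add_of_lt k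
  simp only [q1, sq1_eq] at h
  change (Nat.ble (5 * A) S || (Nat.ble (8 * A - (5 * A - S - 1 + 1) * f) (ep f) || q3 A (5 * A - S - 1) r f
    (8 * A - (5 * A - S - 1 + 1) * f) (8 * A - (5 * A - S - 1 + 1) * f - ep f))) = true at h
  rw [show 5 * A - S - 1 = c by omega, show 8 * A - (c + 1) * f = ep f + E + 1 by omega,
    show ep f + E + 1 - ep f = E + 1 by omega] at h
  simp only [Bool.or_eq_true, Nat.ble_eq] at h
  obtain ⟨n, rfl⟩ : ∃ n, m = n + 1 := ⟨m - 1, by omega⟩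
  refine q3_ok (u := u) (x := 2 * (n + 1)) (w := 2 * n + 1 + r + ep f * u) ((h.resolve_left (by omega)).resolve_left (by omega))
    ?_ ?_ (by omega) A0 ?_ <;> zify at hE ⊢ <;> push_cast at e1 e2
  · linear_combination e1 - u * hE
  · linear_combination e1 - u * hE
  · linear_combination e2

theorem c1_ok {f1 u1 f2 u2 f3 u3 : ℕ} {m : ℤ} (h : c1 f1 f2 f3 = true) (p1 : 2 ≤ f1) (p2 : 2 ≤ f2) (p3 : 0 < f3)
    (o1 : (f1 * u1 + 1) % 2 = 1) (o2 : (f2 * u2 + 1) % 2 = 1) (xy : f1 * u1 ≤ f2 * u2) (yz : f2 * u2 ≤ f3 * u3) (hm : 3 ≤ m)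
    (e : Eq2 f1 u1 f2 u2 f3 u3 m) : False := by
  obtain ⟨b1, b2⟩ := bound (f1 := f1) (f2 := f2) (f3 := f3) (u1 := u1) (u2 := u2) (u3 := u3) (by omega) (by omega) (by omega)
    (by omega) (by omega) (by omega) rfl rfl rfl (by norm_cast; omega) (by norm_cast; omega) hm (ep_le f1) (ep_le f2) (ep_le f3)
    e.1 e.2 rfl
  have x0 : (0 : ℤ) < f1 * u1 + 1 := by positivity
  have n0 : (0 : ℤ) < 8 * (f1 * f2 + f1 * f3 + f2 * f3) - 5 * (f1 * f2 * f3) :=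
    (mul_pos_iff_of_pos_left x0).1 (by linarith [(by positivity : (0 : ℤ) ≤ f2 * f3)])
  have n0' : 5 * (f1 * f2 * f3) < 8 * (f1 * f2 + f1 * f3 + f2 * f3) := by zify; linarith
  simp only [c1, sq1_eq, Bool.or_eq_true, Nat.beq_eq] at h
  have h := al_ok (k := u1) (h.resolve_left (by omega)) (Nat.lt_succ_of_le ((Nat.le_div_iff_mul_le (Nat.mul_pos (by omega) (by omega))).2 (by
    zify [n0'.le]
    have xy' : (f1 * u1 + 1 : ℤ) ≤ f2 * u2 + 1 := by norm_cast; omega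
    have k1 := mul_le_mul_of_nonneg_left xy' b1.le
    have k2 : (8 * f1 * (f2 + f3) + 8 * f2 * f3 : ℤ) * 1 ≤ (8 * f1 * (f2 + f3) + 8 * f2 * f3) * (f1 * u1 + 1) :=
      mul_le_mul_of_nonneg_left (by omega) (by positivity)
    have k3 := lt_of_mul_lt_mul_right (a := (f1 * u1 + 1 : ℤ)) (b := (f1 * u1 + 1) * (8 * (f1 * f2 + f1 * f3 + f2 * f3) -
      5 * (f1 * f2 * f3)) - 8 * f2 * f3) (c := f1 * f2 * f3 + 16 * f1 * (f2 + f3) + 8 * f2 * f3) (by linarith) x0.le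
    linarith)))
  obtain ⟨n, hn⟩ := Int.eq_ofNat_of_zero_le b1.le
  have hn' : (f1 * u1 + 1) * (8 * (f1 * f2 + f1 * f3 + f2 * f3) - 5 * (f1 * f2 * f3)) - 8 * f2 * f3 = n :=
    Nat.sub_eq_of_eq_add (by zify [n0'.le]; linarith)
  change (Nat.beq ((f1 * u1 + 1) % 2) 0 || c2 f1 f2 f3 u1 (f1 * u1 + 1)
    ((f1 * u1 + 1) * (8 * (f1 * f2 + f1 * f3 + f2 * f3) - 5 * (f1 * f2 * f3)) - 8 * f2 * f3)) = true at h
  rw [hn'] at h
  rw [hn] at b1 b2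
  simp only [c2, sq1_eq, Bool.or_eq_true, Nat.beq_eq] at h
  have h := al_ok (k := u2) ((h.resolve_left (by omega)).resolve_left (by omega)) (Nat.lt_succ_of_le ((Nat.le_div_iff_mul_le
    (Nat.mul_pos (by omega) (by omega))).2 (by zify; linarith)))
  change (Nat.beq ((f2 * u2 + 1) % 2) 0 || Nat.blt (f2 * u2 + 1) (f1 * u1 + 1) || q1 ((f1 * u1 + 1) * (f2 * u2 + 1))
    (8 * (u1 * (f2 * u2 + 1) + u2 * (f1 * u1 + 1))) (ep f1 * u1 + ep f2 * u2) f3) = true at h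
  simp only [Bool.or_eq_true, Nat.beq_eq, Nat.blt_eq] at h
  refine q1_ok (u := u3) (h.resolve_left (by omega)) hm (by positivity) (not_le.1 fun k => ?_) (by push_cast; linear_combination e.1)
    (by push_cast; linear_combination e.2)
  have s1 : 2 * (u1 + u2) + 1 ≤ (f1 * u1 + 1) * (f2 * u2 + 1) := by
    have := Nat.mul_le_mul_right u1 p1
    have := Nat.mul_le_mul_right u2 p2
    nlinarith [Nat.zero_le (f1 * u1 * (f2 * u2))]
  have oA : (f1 * u1 + 1) * (f2 * u2 + 1) % 2 = 1 := by rw [Nat.mul_mod, o1, o2]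
  have u0 : u3 ≠ 0 := by
    rintro rfl
    have a : f2 * u2 = 0 := by omega
    have b : f1 * u1 = 0 := by omega
    obtain rfl : u1 = 0 := (Nat.mul_eq_zero.1 b).resolve_left (by omega)
    obtain rfl : u2 = 0 := (Nat.mul_eq_zero.1 a).resolve_left (by omega)
    simp at k
  zify at s1 oA k
  have r1 : (0 : ℤ) ≤ ep f1 * u1 ∧ (ep f1 * u1 : ℤ) ≤ 8 * u1 := ⟨by positivity, mul_le_mul_of_nonneg_right (ep_le _).2 (by omega)⟩
  have r2 : (0 : ℤ) ≤ ep f2 * u2 ∧ (ep f2 * u2 : ℤ) ≤ 8 * u2 := ⟨by positivity, mul_le_mul_of_nonneg_right (ep_le _).2 (by omega)⟩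
  exact neg (u := u3) (v := f3 * u3) (r := ep f1 * u1 + ep f2 * u2) (k := ep f3 * u3) (m := m) (by omega) (by positivity) k (by omega)
    (by linarith) (by linarith) (mul_le_mul_of_nonneg_right (ep_le _).2 (by omega)) (by positivity) rfl (by linear_combination e.1)
    (by linear_combination e.2)

theorem core {e1 u1 e2 u2 l u3 : ℕ} {m : ℤ} (a1 : 2 ≤ e1) (a2 : e1 ≤ 4) (b1 : 2 ≤ e2) (b2 : e2 ≤ 4) (l1 : 5 ≤ l) (l2 : l < 660)
    (o1 : (e1 * u1 + 1) % 2 = 1) (o2 : (e2 * u2 + 1) % 2 = 1) (o3 : (l * u3 + 1) % 2 = 1) (hm : 3 ≤ m)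
    (e : Eq2 e1 u1 e2 u2 l u3 m) : False := by
  have k : ∀ e g, 2 ≤ e → e ≤ 4 → 2 ≤ g → g ≤ 4 → c1 l e g = true ∧ c1 e l g = true ∧ c1 e g l = true := fun e g a b c d => by
    have := chk
    simp only [Bool.and_eq_true] at this
    have k : c0 e g = true := by interval_cases e <;> interval_cases g <;> simp only [this]
    have := al_ok (k := l - 5) k (by omega)
    simp only [sq1_eq, Bool.and_eq_true, Nat.add_eq, Nat.sub_add_cancel l1] at this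
    exact ⟨this.1.1, this.1.2, this.2⟩
  wlog h : e1 * u1 ≤ e2 * u2 generalizing e1 u1 e2 u2
  · exact this b1 b2 a1 a2 o2 o1 e.s1 (by omega)
  obtain ⟨k1, k2, k3⟩ := k e1 e2 a1 a2 b1 b2
  rcases le_total (e2 * u2) (l * u3) with h1 | h1
  · exact c1_ok k3 (by omega) (by omega) (by omega) o1 o2 h h1 hm e
  rcases le_total (e1 * u1) (l * u3) with h2 | h2
  · exact c1_ok k2 (by omega) (by omega) (by omega) o1 o3 h2 h1 hm e.s2
  · exact c1_ok k1 (by omega) (by omega) (by omega) o3 o1 h2 h hm e.s2.s1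

theorem gap {e1 u1 e2 u2 : ℕ} (a1 : 2 ≤ e1) (a2 : e1 ≤ 4) (b1 : 2 ≤ e2) (b2 : e2 ≤ 4) (o1 : (e1 * u1 + 1) % 2 = 1)
    (o2 : (e2 * u2 + 1) % 2 = 1) (h : 8 * (u1 * (e2 * u2 + 1) + u2 * (e1 * u1 + 1)) < 5 * ((e1 * u1 + 1) * (e2 * u2 + 1))) :
    660 * (8 * (u1 * (e2 * u2 + 1) + u2 * (e1 * u1 + 1))) + 8 * ((e1 * u1 + 1) * (e2 * u2 + 1)) ≤
      660 * (5 * ((e1 * u1 + 1) * (e2 * u2 + 1))) := by
  by_cases k1 : u1 < 7
  · interval_cases e1 <;> interval_cases e2 <;> interval_cases u1 <;> omega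
  by_cases k2 : u2 < 7
  · interval_cases e1 <;> interval_cases e2 <;> interval_cases u2 <;> omega
  have t1 : 7 * u2 ≤ u1 * u2 := Nat.mul_le_mul_right _ (by omega)
  have t2 : u1 * 7 ≤ u1 * u2 := Nat.mul_le_mul_left _ (by omega)
  interval_cases e1 <;> interval_cases e2 <;> linarith

theorem ep_eq (f u : ℕ) : (ep f * u : ℤ) = 8 * ((if 2 ∣ f then u else 0 : ℕ) : ℤ) := by
  rw [ep_def]
  split_ifs
  · rw [show f % 2 = 0 by omega]; simp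
  · rw [show f % 2 = 1 by omega]; simp

theorem big {e1 u1 e2 u2 l u3 : ℕ} {m : ℤ} (a1 : 2 ≤ e1) (a2 : e1 ≤ 4) (b1 : 2 ≤ e2) (b2 : e2 ≤ 4) (l2 : 660 ≤ l) (u0 : u3 ≠ 0)
    (o1 : (e1 * u1 + 1) % 2 = 1) (o2 : (e2 * u2 + 1) % 2 = 1) (hm : 3 ≤ m) (e : Eq2 e1 u1 e2 u2 l u3 m) : False := by
  obtain ⟨e, e'⟩ := e
  have g := @gap e1 u1 e2 u2 a1 a2 b1 b2 o1 o2
  have s1 : 2 * (u1 + u2) + 1 ≤ (e1 * u1 + 1) * (e2 * u2 + 1) := by
    have := Nat.mul_le_mul_right u1 a1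
    have := Nat.mul_le_mul_right u2 b1
    nlinarith [Nat.zero_le (e1 * u1 * (e2 * u2))]
  have oA : (e1 * u1 + 1) * (e2 * u2 + 1) % 2 = 1 := by rw [Nat.mul_mod, o1, o2]
  zify at g s1 oA
  have r1 : (0 : ℤ) ≤ ep e1 * u1 ∧ (ep e1 * u1 : ℤ) ≤ 8 * u1 := ⟨mul_nonneg (ep_le _).1 (by omega), mul_le_mul_of_nonneg_right (ep_le _).2 (by omega)⟩
  have r2 : (0 : ℤ) ≤ ep e2 * u2 ∧ (ep e2 * u2 : ℤ) ≤ 8 * u2 := ⟨mul_nonneg (ep_le _).1 (by omega), mul_le_mul_of_nonneg_right (ep_le _).2 (by omega)⟩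
  have r3 : (0 : ℤ) ≤ ep l * u3 ∧ (ep l * u3 : ℤ) ≤ 8 * u3 := ⟨mul_nonneg (ep_le _).1 (by omega), mul_le_mul_of_nonneg_right (ep_le _).2 (by omega)⟩
  have e : 8 * ((e1 * u1 + 1) * (e2 * u2 + 1) * u3 : ℤ) = (5 * ((e1 * u1 + 1) * (e2 * u2 + 1)) - 8 * (u1 * (e2 * u2 + 1) +
    u2 * (e1 * u1 + 1))) * (l * u3 + 1) + (2 * m - 1 + ep e1 * u1 + ep e2 * u2 + ep l * u3) := by linear_combination e
  generalize (u1 * (e2 * u2 + 1) + u2 * (e1 * u1 + 1) : ℤ) = S at *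
  generalize ((e1 * u1 + 1) * (e2 * u2 + 1) : ℤ) = A at *
  have u1' : (1 : ℤ) ≤ u3 := by omega
  have q0 : (660 * u3 : ℤ) ≤ l * u3 := mul_le_mul_of_nonneg_right (by omega) (by omega)
  generalize (l * u3 : ℤ) = v at *
  by_cases k : 8 * S < 5 * A
  · have := g k
    have t1 : (5 * A - 8 * S) * (660 * u3) ≤ (5 * A - 8 * S) * (v + 1) := mul_le_mul_of_nonneg_left (by omega) (by omega)
    have t2 : 8 * A * u3 ≤ 660 * (5 * A - 8 * S) * u3 := mul_le_mul_of_nonneg_right (by omega) (by omega)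
    linarith
  have t1 : (5 * A - 8 * S) * (v + 1) ≤ -1 * (v + 1) := mul_le_mul_of_nonneg_right (by omega) (by omega)
  have t2 : (A - 1) * 1 ≤ (A - 1) * u3 := mul_le_mul_of_nonneg_left u1' (by omega)
  have t3 : v + 1 ≤ 2 * m := by linarith
  have t4 : A ≤ 2 * m - 1 + ep e1 * u1 + ep e2 * u2 + ep l * u3 := by linarith
  have := mul_le_mul t3 t4 (by omega) (by omega)
  linarith

theorem arH.{u} : ArH.{u} := fun ι s e n m N h m3 _ hN ht hp => by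
  have m0 : (3 : ℚ) ≤ m := by exact_mod_cast m3
  have N0 : (0 : ℚ) < N := by exact_mod_cast h.pos
  obtain ⟨e1, u1, e2, u2, l, u3, a1, a2, b1, b2, l1, s1, s2, s3, -, -, -, k1, k2, k3, -⟩ := red h (by
    have := inv_anti₀ (by norm_num) m0
    have := inv_pos.2 N0
    rw [ht]; linarith)
  have E : Eq2 e1 u1 e2 u2 l u3 m := by
    rw [k1, k3] at hp
    rw [k1] at hN
    rw [k2, hN] at ht
    have h2 : ((e1 * u1 + 1) * (e2 * u2 + 1) * (l * u3 + 1) : ℤ) = 1 + 2 * m * (2 * m - 1 + ep e1 * u1 + ep e2 * u2 + ep l * u3) := by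
      rw [ep_eq, ep_eq, ep_eq]
      generalize (if 2 ∣ e1 then u1 else 0) = r1, (if 2 ∣ e2 then u2 else 0) = r2, (if 2 ∣ l then u3 else 0) = r3 at hp ⊢
      zify at hp
      linear_combination hp
    refine ⟨mul_left_cancel₀ (show (2 * m : ℤ) ≠ 0 by omega) ?_, h2⟩
    have : (16 * m * (u1 * (e2 * u2 + 1) * (l * u3 + 1) + u2 * (e1 * u1 + 1) * (l * u3 + 1) + u3 * (e1 * u1 + 1) * (e2 * u2 + 1)) : ℚ) =
        10 * m * ((e1 * u1 + 1) * (e2 * u2 + 1) * (l * u3 + 1)) + (e1 * u1 + 1) * (e2 * u2 + 1) * (l * u3 + 1) - 1 := by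
      push_cast at ht
      field_simp at ht
      linear_combination ht / 8
    have : (16 * m * (u1 * (e2 * u2 + 1) * (l * u3 + 1) + u2 * (e1 * u1 + 1) * (l * u3 + 1) + u3 * (e1 * u1 + 1) * (e2 * u2 + 1)) : ℤ) =
        10 * m * ((e1 * u1 + 1) * (e2 * u2 + 1) * (l * u3 + 1)) + (e1 * u1 + 1) * (e2 * u2 + 1) * (l * u3 + 1) - 1 := by
      exact_mod_cast this
    linear_combination this + h2
  have hm : (3 : ℤ) ≤ m := by omega
  by_cases u0 : u3 = 0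
  · subst u0
    exact core (l := 5) (u3 := 0) a1 a2 b1 b2 le_rfl (by omega) s1.odd s2.odd rfl hm (by simpa [Eq2] using E)
  by_cases l2 : l < 660
  · exact core a1 a2 b1 b2 l1 l2 s1.odd s2.odd s3.odd hm E
  · exact big a1 a2 b1 b2 (by omega) u0 s1.odd s2.odd hm E

end Cfsg.Agent.H8.Ar2
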