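import Cfsg.Agent.H1.N1r

/-! Reduction of the class equation to three slots. -/

set_option autoImplicit false

namespace Cfsg.Agent.H8.Ar

open Cfsg.Agent.H1.N1 Finset

/-- a class with automiser `e` and centraliser of order `e * u + 1`; absent when `u = 0` -/
structure Sl (c N e u : ℕ) : Prop where
  odd : (e * u + 1) % 2 = 1
  coc : (e * u + 1).Coprime c
  ev : u ≠ 0 → 2 ∣ e → e ∣ c
  den : u ≠ 0 → (e * u + 1) * e ∣ N

variable {ι : Type*} {s : Finset ι} {e n : ι → ℕ} {c N : ℕ}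

theorem term (h : AR s e n c N) {i : ι} (hi : i ∈ s) : ∃ u, u ≠ 0 ∧ n i = e i * u + 1 ∧
    ((e i : ℚ)⁻¹ - (n i : ℚ)⁻¹ * (e i : ℚ)⁻¹) = u / (e i * u + 1 : ℕ) ∧ (n i - 1) / e i = u := by
  obtain ⟨u, hu⟩ := h.dvd i hi
  have h1 := h.gt i hi
  have h2 := h.two i hi
  have h3 : n i = e i * u + 1 := by omega
  refine ⟨u, by rintro rfl; omega, h3, ?_, by rw [hu, Nat.mul_div_cancel_left _ (by omega)]⟩
  have : (e i : ℚ) ≠ 0 := by positivity
  rw [h3]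
  push_cast
  field_simp
  ring

theorem slot (h : AR s e n c N) {t : Finset ι} (ht : t ⊆ s) (h1 : t.card ≤ 1) (d : ℕ) : ∃ f u, Sl c N f u ∧
    ∏ i ∈ t, n i = f * u + 1 ∧ tau t e n = u / (f * u + 1 : ℕ) ∧ rho t e n = (if 2 ∣ f then u else 0) ∧
    (f = d ∧ t = ∅ ∨ ∃ i, t = {i} ∧ f = e i ∧ u ≠ 0) := by
  rcases (Nat.le_one_iff_eq_zero_or_eq_one.1 h1).imp card_eq_zero.1 card_eq_one.1 with rfl | ⟨i, rfl⟩
  · exact ⟨d, 0, ⟨by simp, by simp, by simp, by simp⟩, by simp, by simp [tau], by simp [rho], .inl ⟨rfl, rfl⟩⟩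
  have hi : i ∈ s := ht (mem_singleton_self i)
  obtain ⟨u, u0, a, b, k⟩ := term h hi
  refine ⟨e i, u, ⟨a ▸ h.odd i hi, a ▸ h.coc i hi, fun _ => h.ev i hi, fun _ => a ▸ h.den i hi⟩, by simpa, by simpa [tau] using b,
    ?_, .inr ⟨i, rfl, rfl, u0⟩⟩
  rw [rho, sum_filter, sum_singleton, k]

theorem low (h : AR s e n c N) {i : ι} (hi : i ∈ s) (h4 : e i ≤ 4) :
    (if n i = 5 then 1 / 5 else if n i = 9 then 2 / 9 else 3 / 13 : ℚ) ≤ (e i : ℚ)⁻¹ - (n i : ℚ)⁻¹ * (e i : ℚ)⁻¹ := by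
  obtain ⟨u, u0, a, b, -⟩ := term h hi
  have o := h.odd i hi
  have h2 := h.two i hi
  rw [b, le_div_iff₀ (by positivity), a]
  rw [a] at o
  generalize e i = f at *
  have k : ∀ x y : ℕ, x * (f * u + 1) ≤ y * u → y ≠ 0 → (x / y : ℚ) * (f * u + 1 : ℕ) ≤ u := fun x y z y0 => by
    rw [div_mul_eq_mul_div, div_le_iff₀ (by positivity), mul_comm (u : ℚ)]
    exact_mod_cast z
  split_ifs with k1 k2
  · exact_mod_cast k 1 5 (by interval_cases f <;> omega) (by decide)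
  · exact_mod_cast k 2 9 (by interval_cases f <;> omega) (by decide)
  · exact_mod_cast k 3 13 (by interval_cases f <;> omega) (by decide)

theorem small (h : AR s e n c N) (ht : tau s e n < 382 / 585) : (s.filter fun i => e i ≤ 4).card ≤ 2 := by
  classical
  by_contra k
  obtain ⟨i, j, k, hi, hj, hk, ij, ik, jk⟩ := two_lt_card_iff.1 (not_le.1 k)
  rw [mem_filter] at hi hj hk
  have d : ∀ i ∈ s, ∀ j ∈ s, i ≠ j → n i ≠ n j := fun i hi j hj ij z => by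
    have := h.co i hi j hj ij
    rw [z, Nat.coprime_self] at this
    exact (h.gt j hj).ne' this
  have d1 := d i hi.1 j hj.1 ij
  have d2 := d i hi.1 k hk.1 ik
  have d3 := d j hj.1 k hk.1 jk
  have l1 := low h hi.1 hi.2
  have l2 := low h hj.1 hj.2
  have l3 := low h hk.1 hk.2
  have := sum_le_sum_of_subset_of_nonneg (f := fun i => (e i : ℚ)⁻¹ - (n i : ℚ)⁻¹ * (e i : ℚ)⁻¹)
    (show ({i, j, k} : Finset ι) ⊆ s by simp [insert_subset_iff, hi.1, hj.1, hk.1]) fun i hi _ => by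
      obtain ⟨u, -, -, b, -⟩ := term h hi
      rw [b]; positivity
  rw [sum_insert (by simp [ij, ik]), sum_pair jk] at this
  unfold tau at ht
  split_ifs at l1 l2 l3 <;> first | omega | linarith

/-- three slots -/
theorem red (h : AR s e n c N) (ht : tau s e n < 382 / 585) : ∃ e1 u1 e2 u2 l u3 : ℕ,
    2 ≤ e1 ∧ e1 ≤ 4 ∧ 2 ≤ e2 ∧ e2 ≤ 4 ∧ 5 ≤ l ∧ Sl c N e1 u1 ∧ Sl c N e2 u2 ∧ Sl c N l u3 ∧
    (e1 * u1 + 1).Coprime (e2 * u2 + 1) ∧ (e1 * u1 + 1).Coprime (l * u3 + 1) ∧ (e2 * u2 + 1).Coprime (l * u3 + 1) ∧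
    ∏ i ∈ s, n i = (e1 * u1 + 1) * (e2 * u2 + 1) * (l * u3 + 1) ∧
    tau s e n = u1 / (e1 * u1 + 1 : ℕ) + u2 / (e2 * u2 + 1 : ℕ) + u3 / (l * u3 + 1 : ℕ) ∧
    rho s e n = (if 2 ∣ e1 then u1 else 0) + (if 2 ∣ e2 then u2 else 0) + (if 2 ∣ l then u3 else 0) ∧
    ((∃ i ∈ s, e i = 3) → e1 = 3 ∧ u1 ≠ 0) ∧ (u1 = 0 → u2 = 0) := by
  classical
  have h2 := small h ht
  obtain ⟨t, t1, t2, t3, t4, t5⟩ : ∃ t ⊆ s.filter fun i => e i ≤ 4, t.card ≤ 1 ∧ ((s.filter fun i => e i ≤ 4) \ t).card ≤ 1 ∧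
      ((∃ i ∈ s, e i = 3) → ∃ i, t = {i} ∧ e i = 3) ∧ (t = ∅ → (s.filter fun i => e i ≤ 4) \ t = ∅) := by
    have k : ∀ i ∈ s.filter fun i => e i ≤ 4, ((s.filter fun i => e i ≤ 4) \ {i}).card ≤ 1 := fun i hi => by
      rw [card_sdiff_of_subset (by simpa using hi), card_singleton]; omega
    by_cases h3 : ∃ i ∈ s, e i = 3
    · obtain ⟨i, hi, z⟩ := h3
      have m : i ∈ s.filter fun i => e i ≤ 4 := mem_filter.2 ⟨hi, by omega⟩
      exact ⟨{i}, by simpa using m, by simp, k i m, fun _ => ⟨i, rfl, z⟩, by simp⟩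
    rcases (s.filter fun i => e i ≤ 4).eq_empty_or_nonempty with z | ⟨i, m⟩
    · exact ⟨∅, by simp, by simp, by simp [z], fun a => (h3 a).elim, by simp [z]⟩
    · exact ⟨{i}, by simpa using m, by simp, k i m, fun a => (h3 a).elim, by simp⟩
  have s1 : t ⊆ s := t1.trans (filter_subset _ _)
  have s2 : (s.filter fun i => e i ≤ 4) \ t ⊆ s := sdiff_subset.trans (filter_subset _ _)
  have s3 : (s.filter fun i => ¬ e i ≤ 4) ⊆ s := filter_subset _ _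
  obtain ⟨e1, u1, a1, a2, a3, a4, a5⟩ := slot h s1 t2 2
  obtain ⟨e2, u2, b1, b2, b3, b4, b5⟩ := slot h s2 t3 2
  obtain ⟨l, u3, c1, c2, c3, c4, c5⟩ := slot h s3 (card_le_one.2 fun i hi j hj => by
    rw [mem_filter] at hi hj
    exact h.four i hi.1 j hj.1 (by omega) (by omega)) 5
  have bd : ∀ {t f u}, t ⊆ s.filter (fun i => e i ≤ 4) → (f = 2 ∧ t = ∅ ∨ ∃ i, t = {i} ∧ f = e i ∧ u ≠ 0) → 2 ≤ f ∧ f ≤ 4 := by
    rintro t f u a (⟨rfl, -⟩ | ⟨i, rfl, rfl, -⟩)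
    · omega
    · have := mem_filter.1 (a (mem_singleton_self i))
      exact ⟨h.two i this.1, this.2⟩
  have co : ∀ {t t' : Finset ι}, t ⊆ s → t' ⊆ s → Disjoint t t' → (∏ i ∈ t, n i).Coprime (∏ i ∈ t', n i) := fun a b d =>
    Nat.Coprime.prod_left fun i hi => Nat.Coprime.prod_right fun j hj => h.co i (a hi) j (b hj) (d.forall_ne_finset hi hj)
  have d3 : Disjoint (s.filter fun i => e i ≤ 4) (s.filter fun i => ¬ e i ≤ 4) := disjoint_filter_filter_not _ _ _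
  have sum : ∀ {M : Type} [AddCommMonoid M] (f : ι → M), ∑ i ∈ s, f i =
      ∑ i ∈ t, f i + ∑ i ∈ (s.filter fun i => e i ≤ 4) \ t, f i + ∑ i ∈ s.filter fun i => ¬ e i ≤ 4, f i := fun f => by
    rw [add_comm (∑ i ∈ t, f i), sum_sdiff t1, sum_filter_add_sum_filter_not]
  refine ⟨e1, u1, e2, u2, l, u3, (bd t1 a5).1, (bd t1 a5).2, (bd sdiff_subset b5).1, (bd sdiff_subset b5).2, ?_, a1, b1, c1,
    a2 ▸ b2 ▸ co s1 s2 disjoint_sdiff, a2 ▸ c2 ▸ co s1 s3 (d3.mono_left t1), b2 ▸ c2 ▸ co s2 s3 (d3.mono_left sdiff_subset),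
    ?_, ?_, ?_, fun z => ?_, fun z => ?_⟩
  · rcases c5 with ⟨rfl, -⟩ | ⟨i, z, rfl, -⟩
    · rfl
    · have := (mem_filter.1 (z.ge (mem_singleton_self i))).2
      omega
  · rw [← a2, ← b2, ← c2, mul_comm (∏ i ∈ t, n i), prod_sdiff t1, prod_filter_mul_prod_filter_not]
  · rw [← a3, ← b3, ← c3]; exact sum (M := ℚ) _
  · rw [← a4, ← b4, ← c4]; simp only [rho]; simp only [sum_filter (fun i => 2 ∣ e i)]; exact sum (M := ℕ) _
  · obtain ⟨i, rfl, z⟩ := t4 z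
    rcases a5 with ⟨-, y⟩ | ⟨j, y, rfl, u0⟩
    · simp at y
    · exact ⟨by rw [← singleton_injective y, z], u0⟩
  · rcases a5 with ⟨-, y⟩ | ⟨j, -, -, u0⟩
    · rw [t5 y, prod_empty] at b2
      have := (bd sdiff_subset b5).1
      by_contra u0
      have := Nat.mul_pos (show 0 < e2 by omega) (Nat.pos_of_ne_zero u0)
      omega
    · exact absurd z u0

end Cfsg.Agent.H8.Ar
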