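import Cfsg.Agent.H8.F5d
import Cfsg.Agent.H4.Fr5
import Cfsg.Agent.H4.E3

/-! Elliptic quadrics in `F₂⁴`, and normalisers of monomial groups. -/

set_option autoImplicit false
set_option linter.unusedSectionVars false

namespace Cfsg.Agent.H8.C6

open Module Finset Cfsg.Agent.H4 Cfsg.Agent.H4.E

section geo
variable {W : Type*} [AddCommGroup W] [Module (ZMod 2) W] (S : Sp W)

/-- four vectors that are pairwise non-orthogonal -/
structure Four (a b c d : W) : Prop where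
  ab : S.f a b = 1
  ac : S.f a c = 1
  ad : S.f a d = 1
  bc : S.f b c = 1
  bd : S.f b d = 1
  cd : S.f c d = 1

/-- coordinates -/
def co (a b c d : W) (x : Fin 4 → ZMod 2) : W := x 0 • a + x 1 • b + x 2 • c + x 3 • d

/-- the model form -/
def f0 (x y : Fin 4 → ZMod 2) : ZMod 2 :=
  x 0 * (y 1 + y 2 + y 3) + x 1 * (y 0 + y 2 + y 3) + x 2 * (y 0 + y 1 + y 3) + x 3 * (y 0 + y 1 + y 2)

/-- the model quadratic forms -/
def q0 (t x : Fin 4 → ZMod 2) : ZMod 2 :=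
  x 0 * (t 0 + x 1 + x 2 + x 3) + x 1 * (t 1 + x 2 + x 3) + x 2 * (t 2 + x 3) + x 3 * t 3

variable {S} {a b c d : W}

theorem co_add (x y : Fin 4 → ZMod 2) : co a b c d (x + y) = co a b c d x + co a b c d y := by
  simp only [co, Pi.add_apply, add_smul]; abel

theorem co_zero : co a b c d 0 = 0 := by simp [co]

theorem Four.f_co (h : Four S a b c d) (x y : Fin 4 → ZMod 2) :
    S.f (co a b c d x) (co a b c d y) = f0 x y := by
  simp only [co, f0, map_add, map_smul, LinearMap.add_apply, LinearMap.smul_apply, smul_eq_mul, S.alt,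
    S.symm b a, S.symm c a, S.symm d a, S.symm c b, S.symm d b, S.symm d c, h.ab, h.ac, h.ad, h.bc, h.bd, h.cd]
  ring

theorem Four.q_co (h : Four S a b c d) {Q : W → ZMod 2} (hQ : ∀ u v, Q (u + v) = Q u + Q v + S.f u v)
    (x : Fin 4 → ZMod 2) : Q (co a b c d x) = q0 ![Q a, Q b, Q c, Q d] x := by
  have h0 : Q 0 = 0 := by simpa using hQ 0 0
  have h1 : ∀ (s : ZMod 2) v, Q (s • v) = s * Q v := fun s v => by rcases z2 s with rfl | rfl <;> simp [h0]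
  simp only [co, q0, hQ, h1, map_add, map_smul, LinearMap.add_apply, LinearMap.smul_apply, smul_eq_mul,
    h.ab, h.ac, h.ad, h.bc, h.bd, h.cd, Matrix.cons_val]
  ring

theorem f0_nd : ∀ x : Fin 4 → ZMod 2, (∀ y, f0 x y = 0) → x = 0 := by decide +kernel

theorem Four.inj (h : Four S a b c d) : Function.Injective (co a b c d) := fun x y e =>
  add_eq_zero'.1 (f0_nd _ fun z => by rw [← h.f_co, co_add, e, aa]; simp)

theorem Four.surj (h : Four S a b c d) (hW : Nat.card W = 16) : Function.Surjective (co a b c d) := by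
  have : Finite W := Nat.finite_of_card_ne_zero (by omega)
  exact ((Nat.bijective_iff_injective_and_card _).2 ⟨h.inj, by simp [hW]⟩).2

theorem exists_four (S : Sp W) (hW : Nat.card W = 16) : ∃ a b c d, Four S a b c d := by
  classical
  have : Finite W := Nat.finite_of_card_ne_zero (by omega)
  have := Fintype.ofFinite W
  have hW' : Fintype.card W = 16 := by rw [← hW, Nat.card_eq_fintype_card]
  obtain ⟨b, hb⟩ := Fr.exists_not_mem (S := ({0} : Finset W)) (by simp [hW'])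
  obtain ⟨a, ha⟩ := S.nd b (by simpa using hb)
  have ha' : S.f b a = 1 := by rwa [S.symm]
  obtain ⟨x, hx⟩ := Fr.exists_not_mem (S := ({0, a, b, a + b} : Finset W)) (card_le_four.trans_lt (by omega))
  have h1 : x + (S.f x b • a + S.f x a • b) ≠ 0 := fun e => hx (by
    rw [E.add_eq_zero'.1 e]; rcases z2 (S.f x b) with h | h <;> rcases z2 (S.f x a) with h' | h' <;> simp [h, h'])
  obtain ⟨y, hy⟩ := S.nd _ h1
  refine ⟨a, b, a + b + (y + (S.f y b • a + S.f y a • b)), a + b + (x + (S.f x b • a + S.f x a • b)),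
    ha, ?_, ?_, ?_, ?_, ?_⟩
  all_goals
    simp only [map_add, map_smul, LinearMap.add_apply, LinearMap.smul_apply, smul_eq_mul, S.alt, ha, ha',
      S.symm a x, S.symm b x, S.symm a y, S.symm b y] at hy ⊢
  all_goals
    revert hy
    generalize S.f x a = s1, S.f x b = s2, S.f y a = s3, S.f y b = s4, S.f y x = s5
    revert s1 s2 s3 s4 s5; decide

/-- the five singular points of an elliptic quadric -/
structure Five (S : Sp W) (Q : W → ZMod 2) (w : Fin 5 → W) : Prop where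
  f : ∀ i j, i ≠ j → S.f (w i) (w j) = 1
  Q : ∀ i, Q (w i) = 0
  all : ∀ v, v = 0 ∨ (∃ k, v = w k) ∨ ∃ i j, i ≠ j ∧ v = w i + w j

/-- the model -/
def w0 : Fin 5 → Fin 4 → ZMod 2 := ![![1, 0, 0, 0], ![0, 1, 0, 0], ![0, 0, 1, 0], ![0, 0, 0, 1], ![1, 1, 1, 1]]

theorem w0_f : ∀ i j, i ≠ j → f0 (w0 i) (w0 j) = 1 := by decide +kernel
theorem w0_q : ∀ i, q0 0 (w0 i) = 0 := by decide +kernel
theorem w0_all : ∀ v, v = 0 ∨ (∃ k, v = w0 k) ∨ ∃ i j, i ≠ j ∧ v = w0 i + w0 j := by decide +kernel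

theorem Four.five (h : Four S a b c d) (hW : Nat.card W = 16) {Q : W → ZMod 2}
    (hQ : ∀ u v, Q (u + v) = Q u + Q v + S.f u v) (ha : Q a = 0) (hb : Q b = 0) (hc : Q c = 0) (hd : Q d = 0) :
    Five S Q fun k => co a b c d (w0 k) where
  f i j hij := by rw [h.f_co, w0_f i j hij]
  Q i := by
    rw [h.q_co hQ, ha, hb, hc, hd]; revert i; decide +kernel
  all v := by
    obtain ⟨x, rfl⟩ := h.surj hW v
    rcases w0_all x with rfl | ⟨k, rfl⟩ | ⟨i, j, hij, rfl⟩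
    exacts [Or.inl co_zero, Or.inr (Or.inl ⟨k, rfl⟩), Or.inr (Or.inr ⟨i, j, hij, co_add _ _⟩)]

theorem exists_five (S : Sp W) (hW : Nat.card W = 16) :
    ∃ Q : W → ZMod 2, (∀ u v, Q (u + v) = Q u + Q v + S.f u v) ∧ ∃ w, Five S Q w := by
  obtain ⟨a, b, c, d, h⟩ := exists_four S hW
  let e := Equiv.ofBijective _ ⟨h.inj, h.surj hW⟩
  have h1 : ∀ x y, q0 0 (x + y) = q0 0 x + q0 0 y + f0 x y := by decide +kernel
  have hQ : ∀ u v, q0 0 (e.symm (u + v)) = q0 0 (e.symm u) + q0 0 (e.symm v) + S.f u v := fun u v => by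
    obtain ⟨x, rfl⟩ := e.surjective u
    obtain ⟨y, rfl⟩ := e.surjective v
    rw [show e x + e y = e (x + y) from (co_add x y).symm]
    simp only [e.symm_apply_apply, h1]; exact congrArg _ (h.f_co x y).symm
  have h2 : ∀ k v, co a b c d (w0 k) = v → q0 0 (e.symm v) = 0 := by
    rintro k _ rfl; exact (congrArg (q0 0) (e.symm_apply_apply (w0 k))).trans (w0_q k)
  exact ⟨fun v => q0 0 (e.symm v), hQ, _, h.five (Q := fun v => q0 0 (e.symm v)) hW hQ (h2 0 a (by simp [co, w0])) (h2 1 b (by simp [co, w0]))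
    (h2 2 c (by simp [co, w0])) (h2 3 d (by simp [co, w0]))⟩

set_option synthInstance.maxSize 2000 in
set_option synthInstance.maxHeartbeats 400000 in
theorem q0_cases : ∀ t : Fin 4 → ZMod 2,
    (∃ x, q0 t x = 0 ∧ x ≠ 0 ∧ ∃ y, q0 t y = 0 ∧ y ≠ 0 ∧ x ≠ y ∧ f0 x y = 0 ∧
      ∀ z, f0 x z = 0 → f0 y z = 0 → z = 0 ∨ z = x ∨ z = y ∨ z = x + y) ∨
    ∃ x, q0 t x = 0 ∧ ∃ y, q0 t y = 0 ∧ f0 x y = 1 ∧ ∃ z, q0 t z = 0 ∧ f0 x z = 1 ∧ f0 y z = 1 ∧
      ∃ u, q0 t u = 0 ∧ f0 x u = 1 ∧ f0 y u = 1 ∧ f0 z u = 1 := by decide +kernel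

theorem hyp_or_five (S : Sp W) (hW : Nat.card W = 16) {Q : W → ZMod 2}
    (hQ : ∀ u v, Q (u + v) = Q u + Q v + S.f u v) :
    (∃ x y, Q x = 0 ∧ x ≠ 0 ∧ Q y = 0 ∧ y ≠ 0 ∧ x ≠ y ∧ S.f x y = 0 ∧
      ∀ z, S.f x z = 0 → S.f y z = 0 → z = 0 ∨ z = x ∨ z = y ∨ z = x + y) ∨ ∃ w, Five S Q w := by
  obtain ⟨a, b, c, d, h⟩ := exists_four S hW
  rcases q0_cases ![Q a, Q b, Q c, Q d] with ⟨x, h1, h2, y, h3, h4, h5, h6, h7⟩ |
    ⟨x, h1, y, h2, h3, z, h4, h5, h6, u, h7, h8, h9, h10⟩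
  · refine Or.inl ⟨co a b c d x, co a b c d y, by rw [h.q_co hQ, h1], fun e => h2 (h.inj (e.trans co_zero.symm)),
      by rw [h.q_co hQ, h3], fun e => h4 (h.inj (e.trans co_zero.symm)), h.inj.ne h5, by rw [h.f_co, h6],
      fun z => ?_⟩
    obtain ⟨z, rfl⟩ := h.surj hW z
    rw [h.f_co, h.f_co, ← co_add, ← co_zero (a := a) (b := b) (c := c) (d := d)]
    simpa only [h.inj.eq_iff] using h7 z
  · rw [← h.q_co hQ] at h1 h2 h4 h7
    rw [← h.f_co] at h3 h5 h6 h8 h9 h10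
    exact Or.inr ⟨_, Four.five ⟨h3, h5, h8, h6, h9, h10⟩ hW hQ h1 h2 h4 h7⟩

end geo

theorem perm_eq_one {ι : Type*} [Fintype ι] [DecidableEq ι] (h5 : 5 ≤ Fintype.card ι) {π : Equiv.Perm ι}
    (h : ∀ σ : Equiv.Perm ι, Equiv.Perm.sign σ = 1 → ∀ l, π (σ (π (σ.symm l))) = σ (π (σ.symm (π l)))) :
    π = 1 := by
  ext a
  by_contra hab
  obtain ⟨c, hc⟩ := Fr.exists_not_mem (S := ({a, π a} : Finset ι)) (card_le_two.trans_lt (by omega))
  obtain ⟨e, he⟩ := Fr.exists_not_mem (S := ({a, π a, c, π c} : Finset ι)) (card_le_four.trans_lt (by omega))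
  simp only [mem_insert, mem_singleton, not_or, Equiv.Perm.coe_one, id] at hc he hab
  have h1 := h (Equiv.swap (π a) e * Equiv.swap (π a) c) (by simp [Ne.symm hc.2, Ne.symm he.2.1]) a
  have h2 := π.injective.eq_iff (a := e) (b := a)
  have h3 := π.injective.eq_iff (a := e) (b := c)
  have h4 := π.injective.eq_iff (a := c) (b := a)
  simp only [Equiv.Perm.coe_mul, Function.comp, ← Equiv.Perm.inv_def, mul_inv_rev, Equiv.swap_inv,
    Equiv.swap_apply_def] at h1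
  grind

open Cfsg.Agent.H4.Fr QuadraticMap

variable {ι : Type*} [Fintype ι] [DecidableEq ι] {E : Type*} [Field E]

/-- similarities of the sum of squares -/
def Sim (y : (ι → E) ≃ₗ[E] (ι → E)) : Prop := ∃ μ : E, ∀ v, Q0 (y v) = μ * Q0 v

theorem Sim.ne {y : (ι → E) ≃ₗ[E] (ι → E)} [Nonempty ι] {μ : E} (h : ∀ v, Q0 (y v) = μ * Q0 v) : μ ≠ 0 := by
  rintro rfl
  have := h (y⁻¹ (e (Classical.arbitrary ι)))
  simp [Q0_apply] at this

theorem Sim.inv {y : (ι → E) ≃ₗ[E] (ι → E)} [Nonempty ι] (h : Sim y) : Sim y⁻¹ := by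
  obtain ⟨μ, h⟩ := h
  exact ⟨μ⁻¹, fun v => by rw [eq_inv_mul_iff_mul_eq₀ (Sim.ne h), ← h]; simp⟩

theorem Sim.conj {y k : (ι → E) ≃ₗ[E] (ι → E)} [Nonempty ι] (h : Sim y) (hk : k ∈ Om Q0) :
    y * k * y⁻¹ ∈ Om Q0 := by
  obtain ⟨μ, h⟩ := h
  have : (Om Q0).map (MulAut.conj y).toMonoidHom ≤ Om Q0 := by
    rw [Om, Subgroup.map_commutator]
    have h1 : (OG Q0).map (MulAut.conj y).toMonoidHom ≤ OG Q0 := by
      rintro _ ⟨x, hx, rfl⟩ v
      change Q0 (y (x (y⁻¹ v))) = _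
      rw [h, hx, ← h]; simp
    exact Subgroup.commutator_mono h1 h1
  exact this ⟨k, hk, rfl⟩

theorem Sim.pow [Finite E] {y : (ι → E) ≃ₗ[E] (ι → E)} (h : Sim y) (h2 : (2 : E) ≠ 0)
    (h5 : 5 ≤ Fintype.card ι) : y ^ (2 * (Nat.card E - 1)) ∈ Om Q0 := by
  have : Nonempty ι := Fintype.card_pos_iff.1 (by omega)
  have := Fintype.ofFinite E
  obtain ⟨μ, h⟩ := h
  have h1 : ∀ n : ℕ, ∀ v, Q0 ((y ^ n) v) = μ ^ n * Q0 v := fun n => by
    induction n with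
    | zero => simp
    | succ n ih => intro v; rw [pow_succ', LinearEquiv.mul_apply, h, ih, pow_succ', mul_assoc]
  rw [two_mul, pow_add]
  refine sq_mem_Om (nd_Q0 h2) (by simpa using h5) fun v => ?_
  rw [h1, Nat.card_eq_fintype_card, FiniteField.pow_card_sub_one_eq_one _ (Sim.ne h), one_mul]

theorem diag_of_norm [Finite E] {K : Subgroup ((ι → E) ≃ₗ[E] (ι → E))} (h : H8.Fr.B5 K) (hM : K ≤ Mon)
    {y : (ι → E) ≃ₗ[E] (ι → E)} (h1 : ∀ k ∈ K, y * k * y⁻¹ ∈ K) (h2 : ∀ k ∈ K, y⁻¹ * k * y ∈ K) {i j : ι}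
    (hij : i ≠ j) (l : ι) : ∃ c : E, (y * Fr.sg {i, j} * y⁻¹ : (ι → E) ≃ₗ[E] (ι → E)) (e l) = c • e l := by
  set x := y * Fr.sg {i, j} * y⁻¹ with hx
  obtain ⟨π, hπ⟩ := hM (h1 _ (h.pair i j hij))
  choose c hc using hπ
  rw [← hx] at hc
  have hc0 : ∀ l, c l ≠ 0 := fun l e0 => by
    have := hc l
    rw [e0, zero_smul, LinearEquiv.map_eq_zero_iff] at this
    simpa using congrFun this l
  suffices π = 1 from ⟨c l, by rw [hc l, this]; rfl⟩
  refine perm_eq_one h.five fun σ hσ l => ?_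
  have hk := h2 _ (h.pm σ hσ)
  obtain ⟨a, ha⟩ := map_e_ne (y⁻¹ * pm σ * y) i
  obtain ⟨b, hb⟩ := map_e_ne (y⁻¹ * pm σ * y) j
  have h3 := (H8.Fr.mon_conj_sg h.two (h.OG hk) hij (hM hk) ha hb).2
  have h4 : x * (pm σ * x * (pm σ)⁻¹) = pm σ * x * (pm σ)⁻¹ * x := by
    have : pm σ * x * (pm σ)⁻¹ = y * Fr.sg {a, b} * y⁻¹ := by rw [← h3, hx]; group
    rw [this, hx]
    calc _ = y * (Fr.sg {i, j} * Fr.sg {a, b}) * y⁻¹ := by group
      _ = _ := by rw [sg_comm]; group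
  have h5 := congrFun (LinearEquiv.congr_fun h4 (e l)) (π (σ (π (σ.symm l))))
  simp only [← map_inv, LinearEquiv.mul_apply, pm_e, hc, map_smul, Pi.smul_apply, smul_eq_mul,
    Equiv.Perm.inv_def, e_self, e_apply] at h5
  by_contra h6
  simp [h6, hc0] at h5

end Cfsg.Agent.H8.C6
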