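import Cfsg.Agent.H8.C6a

/-! Transfer of the maximality of orthonormal frame stabilisers to extraspecial normalisers in dimension four. -/

set_option autoImplicit false
set_option linter.unusedSectionVars false

namespace Cfsg.Agent.H8.C6

open Module Finset Cfsg.Agent.H4 Cfsg.Agent.H4.E QuadraticMap
open Cfsg.Agent.H4.Fr hiding sg

variable {F A W : Type*} [Field F] [Ring A] [Algebra F A] [AddCommGroup W] [Module (ZMod 2) W]

/-- A frame `η (w k)` for the action `X ↦ g X τ(g)`. -/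
structure CD (D : ES F A W) (ι : Type*) [DecidableEq ι] where
  w : ι → W
  τ : A →ₗ[F] A
  τ_mul : ∀ a b, τ (a * b) = τ b * τ a
  τ_one : τ 1 = 1
  inj : Function.Injective w
  q1 : ∀ i j, i ≠ j → D.q (w i + w j) = 1
  act : ∀ i j, i ≠ j → ∀ k, D.η (w i + w j) * D.η (w k) * τ (D.η (w i + w j)) =
    (if k ∈ ({i, j} : Finset ι) then -1 else 1 : F) • D.η (w k)
  hs : ∀ i j, i ≠ j → D.q (w j) = D.f (w i) (w j) + 1 + D.q (w i)
  perp : ∀ v, (∀ i j, D.f (w i + w j) v = 0) → v = 0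

namespace CD
variable {D : ES F A W} {ι : Type*} [Fintype ι] [DecidableEq ι] (C : CD D ι) {E : Type*} [Field E] (φ : E →+* F)

/-- the vector with coordinates `v` -/
def Φ (v : ι → E) : A := ∑ k, φ (v k) • D.η (C.w k)

theorem Φ_add (u v : ι → E) : C.Φ φ (u + v) = C.Φ φ u + C.Φ φ v := by simp [Φ, add_smul, sum_add_distrib]
theorem Φ_smul (c : E) (v : ι → E) : C.Φ φ (c • v) = φ c • C.Φ φ v := by simp [Φ, smul_sum, smul_smul]
theorem Φ_neg (v : ι → E) : C.Φ φ (-v) = -C.Φ φ v := by simp [Φ]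
theorem Φ_zero : C.Φ φ 0 = 0 := by simp [Φ]
theorem Φ_e (k : ι) : C.Φ φ (e k) = D.η (C.w k) := by
  rw [Φ, sum_eq_single k (fun l _ h => by simp [e_ne h]) (by simp)]; simp
theorem Φ_sum (s : Finset ι) (v : ι → ι → E) : C.Φ φ (∑ k ∈ s, v k) = ∑ k ∈ s, C.Φ φ (v k) := by
  induction s using Finset.induction_on with
  | empty => simp [Φ_zero]
  | insert a s ha ih => rw [sum_insert ha, sum_insert ha, Φ_add, ih]

theorem Φ_inj : Function.Injective (C.Φ φ) := fun u v h => funext fun k =>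
  φ.injective (Fintype.linearIndependent_iffₛ.1 (D.linInd.comp C.w C.inj) (fun k => φ (u k)) (fun k => φ (v k)) h k)

/-- `g` acts as `y` up to a scalar -/
def Rel (g : A) (y : (ι → E) ≃ₗ[E] (ι → E)) : Prop :=
  ∃ a : F, a ≠ 0 ∧ ∀ v, C.Φ φ (y v) = a • (g * C.Φ φ v * C.τ g)

variable {C φ}

theorem lin_of_e {g : A} {a : F} {y : (ι → E) →ₗ[E] (ι → E)}
    (h : ∀ k, C.Φ φ (y (e k)) = a • (g * D.η (C.w k) * C.τ g)) (v : ι → E) :
    C.Φ φ (y v) = a • (g * C.Φ φ v * C.τ g) := by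
  have h1 : v = ∑ k, v k • e k := by ext l; simp [e_apply]
  conv_lhs => rw [h1]
  simp only [map_sum, map_smul, Φ_sum, Φ_smul, h]
  simp only [Φ, mul_sum, sum_mul, smul_sum, mul_smul_comm, smul_mul_assoc, smul_comm a]

theorem rel_of_e {g : A} {a : F} (ha : a ≠ 0) {y : (ι → E) ≃ₗ[E] (ι → E)}
    (h : ∀ k, C.Φ φ (y (e k)) = a • (g * D.η (C.w k) * C.τ g)) : C.Rel φ g y :=
  ⟨a, ha, lin_of_e (y := y.toLinearMap) h⟩

theorem exists_rel {g g' : A} (h1 : g * g' = 1) (h2 : g' * g = 1) {a : F} (ha : a ≠ 0)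
    (h : ∀ k, ∃ v, C.Φ φ v = a • (g * D.η (C.w k) * C.τ g)) :
    ∃ y : (ι → E) ≃ₗ[E] (ι → E), ∀ v, C.Φ φ (y v) = a • (g * C.Φ φ v * C.τ g) := by
  choose m hm using h
  have h3 := lin_of_e (C := C) (φ := φ) (g := g) (a := a) (y := (Pi.basisFun E ι).constr E m) fun k => by
    rw [← hm k, show (e k : ι → E) = Pi.basisFun E ι k by simp [e], Basis.constr_basis]
  refine ⟨LinearEquiv.ofInjectiveEndo ((Pi.basisFun E ι).constr E m)
    ((injective_iff_map_eq_zero _).2 fun v hv => C.Φ_inj φ ?_), h3⟩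
  have h4 := congrArg (fun x => g' * x * C.τ g') (h3 v)
  simp only [hv, Φ_zero, mul_zero, zero_mul, mul_smul_comm, smul_mul_assoc, mul_assoc, ← C.τ_mul, h2, C.τ_one,
    mul_one] at h4
  rw [← mul_assoc, h2, one_mul] at h4
  rw [Φ_zero, (smul_eq_zero.1 h4.symm).resolve_left ha]

theorem Rel.one : C.Rel φ 1 1 := ⟨1, one_ne_zero, fun v => by simp [C.τ_one]⟩

theorem Rel.mul {g g' : A} {y y' : (ι → E) ≃ₗ[E] (ι → E)} (h : C.Rel φ g y) (h' : C.Rel φ g' y') :
    C.Rel φ (g * g') (y * y') := by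
  obtain ⟨a, ha, h⟩ := h
  obtain ⟨b, hb, h'⟩ := h'
  exact ⟨a * b, mul_ne_zero ha hb, fun v => by
    simp only [LinearEquiv.mul_apply, h, h', C.τ_mul, mul_smul_comm, smul_mul_assoc, smul_smul, mul_assoc]⟩

theorem Rel.pow {g : A} {y : (ι → E) ≃ₗ[E] (ι → E)} (h : C.Rel φ g y) (n : ℕ) : C.Rel φ (g ^ n) (y ^ n) := by
  induction n with
  | zero => simpa using Rel.one
  | succ n ih => rw [pow_succ, pow_succ]; exact ih.mul h

theorem Rel.inv {g g' : A} {y : (ι → E) ≃ₗ[E] (ι → E)} (h : C.Rel φ g y) (h2 : g' * g = 1) :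
    C.Rel φ g' y⁻¹ := by
  obtain ⟨a, ha, h⟩ := h
  refine ⟨a⁻¹, inv_ne_zero ha, fun v => ?_⟩
  have := h (y⁻¹ v)
  rw [apply_inv_apply] at this
  simp only [this, mul_smul_comm, smul_mul_assoc, smul_smul, inv_mul_cancel₀ ha, one_smul, mul_assoc, ← C.τ_mul,
    h2, C.τ_one, mul_one]
  rw [← mul_assoc, h2, one_mul]

theorem rel_sg {i j : ι} (hij : i ≠ j) : C.Rel φ (D.η (C.w i + C.w j)) (Fr.sg {i, j}) :=
  rel_of_e one_ne_zero fun k => by rw [C.act i j hij, sg_e]; split_ifs <;> simp [Φ_neg, Φ_e]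

theorem mul_w {i j : ι} (hij : i ≠ j) :
    ∃ c : F, c * c = 1 ∧ D.η (C.w i + C.w j) * D.η (C.w i) = c • D.η (C.w j) := by
  obtain ⟨c, -, hc⟩ := D.mul (C.w i + C.w j) (C.w i)
  rw [add_comm (C.w i), aa'', add_comm (C.w j)] at hc
  refine ⟨c, ?_, hc⟩
  have h1 := congrArg₂ (· * ·) hc hc
  beta_reduce at h1
  rw [mul_assoc, ← mul_assoc (D.η (C.w i)), D.comm (C.w i)] at h1
  simp only [smul_mul_assoc, mul_smul_comm, mul_assoc, D.sq, smul_smul, mul_one, C.q1 i j hij, C.hs i j hij, map_add,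
    D.alt, zero_add, sg_add] at h1
  exact mul_right_cancel₀ (mul_ne_zero (mul_ne_zero (sg_ne (D.f (C.w i) (C.w j))) (sg_ne 1)) (sg_ne (D.q (C.w i))))
    (by linear_combination -D.smul_inj h1)

theorem rel_rot {i j : ι} (hij : i ≠ j) :
    ∃ a, C.Rel φ (1 + D.η (C.w i + C.w j)) (pm (Equiv.swap i j) * Fr.sg {a}) := by
  obtain ⟨c, hc, h1⟩ := C.mul_w hij
  set x := D.η (C.w i + C.w j) with hx
  have hxx : x * x = -1 := D.sq1 (C.q1 i j hij)
  have h2 : x * D.η (C.w j) = -c • D.η (C.w i) := by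
    have := congrArg (fun z => c • (x * z)) h1
    simp only [← mul_assoc, hxx, mul_smul_comm, smul_smul, hc, one_smul] at this
    rw [← this]; simp
  have h3 : ∀ k, (2 : F)⁻¹ • ((1 + x) * D.η (C.w k) * C.τ (1 + x)) =
      if k ∈ ({i, j} : Finset ι) then x * D.η (C.w k) else D.η (C.w k) := fun k => by
    have h4 := C.act i j hij k
    have h5 := congrArg (x * ·) h4
    simp only [← hx, ← mul_assoc, hxx, neg_mul, one_mul, neg_eq_iff_eq_neg] at h4 h5
    rw [inv_smul_eq_iff₀ D.two, map_add, C.τ_one, add_mul, add_mul, mul_add, mul_add, h4, one_mul, h5, two_smul]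
    split_ifs <;> simp only [neg_smul, one_smul, mul_neg, neg_neg, mul_one] <;> abel
  rcases mul_self_eq_one_iff.1 hc with rfl | rfl
  · refine ⟨j, rel_of_e (inv_ne_zero D.two) fun k => ?_⟩
    rw [h3, LinearEquiv.mul_apply, sg_e]
    by_cases hi : k = i
    · simp [hi, hij, pm_e, Φ_e, h1]
    by_cases hj : k = j
    · simp [hj, pm_e, Φ_e, Φ_neg, h2]
    · simp [hi, hj, pm_e, Φ_e, Equiv.swap_apply_of_ne_of_ne]
  · refine ⟨i, rel_of_e (inv_ne_zero D.two) fun k => ?_⟩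
    rw [h3, LinearEquiv.mul_apply, sg_e]
    by_cases hi : k = i
    · simp [hi, pm_e, Φ_e, Φ_neg, h1]
    by_cases hj : k = j
    · simp [hj, hij.symm, pm_e, Φ_e, h2]
    · simp [hi, hj, pm_e, Φ_e, Equiv.swap_apply_of_ne_of_ne]

theorem inner (C : CD D ι) {h : A} (l : W → ZMod 2) (H : ∀ i j, i ≠ j →
    D.η (C.w i + C.w j) * h = sg F (l (C.w i + C.w j)) • (h * D.η (C.w i + C.w j))) :
    ∃ v, (∀ i j, i ≠ j → D.f (C.w i + C.w j) v = l (C.w i + C.w j)) ∧ (∃ c : F, h = c • D.η v) ∨ h = 0 := by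
  classical
  have h1 := D.weight ((univ.filter fun p : ι × ι => p.1 ≠ p.2).image fun p => C.w p.1 + C.w p.2) l (a := h)
    (by simpa using fun u i j hij e => e ▸ H i j hij)
  by_cases e : ∃ v, ∀ i j, i ≠ j → D.f (C.w i + C.w j) v = l (C.w i + C.w j)
  · obtain ⟨v, hv⟩ := e
    obtain ⟨c, hc⟩ := Submodule.mem_span_singleton.1 (Submodule.span_mono (t := {D.η v}) (by
      rintro _ ⟨u, hu, rfl⟩
      rw [H4.E.add_eq_zero'.1 (C.perp (u + v) fun i j => ?_)]; rfl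
      by_cases hij : i = j
      · simp [hij]
      · rw [map_add, hv i j hij, hu _ (mem_image.2 ⟨(i, j), by simpa using hij, rfl⟩), z2_add]) h1)
    exact ⟨v, Or.inl ⟨hv, c, hc.symm⟩⟩
  · refine ⟨0, Or.inr (by
      rwa [Set.eq_empty_of_forall_notMem (s := {v | ∀ u ∈ _, D.f u v = l u}) fun v hv => e ⟨v, fun i j hij =>
        hv _ (mem_image.2 ⟨(i, j), by simpa using hij, rfl⟩)⟩, Set.image_empty, Submodule.span_empty,
        Submodule.mem_bot] at h1)⟩

theorem inner' (C : CD D ι) {h : A} (H : ∀ i j, i ≠ j → ∃ s : ZMod 2,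
    D.η (C.w i + C.w j) * h = sg F s • (h * D.η (C.w i + C.w j))) : ∃ v, ∃ c : F, h = c • D.η v := by
  classical
  obtain ⟨v, ⟨-, h1⟩ | h1⟩ := C.inner (h := h)
    (fun u => if e : ∃ s, D.η u * h = sg F s • (h * D.η u) then e.choose else 0)
    fun i j hij => by rw [dif_pos (H i j hij)]; exact (H i j hij).choose_spec
  exacts [⟨v, h1⟩, ⟨0, 0, by simp [h1]⟩]

theorem Rel.comm {h h' : A} (h1 : h' * h = 1) {y : (ι → E) ≃ₗ[E] (ι → E)} (H : C.Rel φ h y) {s : ι → E}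
    (hy : ∀ k, y (e k) = s k • e k) {i j : ι} (hij : i ≠ j) :
    φ (s j) • (D.η (C.w i + C.w j) * h) = φ (s i) • (h * D.η (C.w i + C.w j)) := by
  obtain ⟨a, ha, H⟩ := H
  obtain ⟨c, hc, h2⟩ := C.mul_w hij
  have h3 := fun k => H (e k)
  simp only [hy, Φ_smul, Φ_e] at h3
  have h4 : ∀ x : A, x = x * D.η (C.w i) * C.τ h * (C.τ h' * D.ι (C.w i)) := fun x => by
    rw [mul_assoc, ← mul_assoc (C.τ h), ← C.τ_mul, h1, C.τ_one, one_mul, mul_assoc, D.η_ι, mul_one]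
  have h5 : a • (D.η (C.w i + C.w j) * h * D.η (C.w i) * C.τ h) = (φ (s i) * c) • D.η (C.w j) := by
    rw [mul_assoc _ h, mul_assoc, ← mul_smul_comm, ← h3, mul_smul_comm, h2, smul_smul]
  have h6 : a • (h * D.η (C.w i + C.w j) * D.η (C.w i) * C.τ h) = (φ (s j) * c) • D.η (C.w j) := by
    rw [mul_assoc h, h2, mul_smul_comm, smul_mul_assoc, smul_comm, ← h3, smul_smul, mul_comm]
  refine smul_right_injective A ha ?_
  beta_reduce
  rw [h4 (a • _), h4 (a • φ (s i) • _)]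
  congr 1
  rw [smul_comm a, smul_comm a]
  simp only [smul_mul_assoc] at h5 h6 ⊢
  rw [h5, h6, smul_smul, smul_smul]
  congr 1; ring

theorem Rel.diag {h h' : A} (h1 : h' * h = 1) {y : (ι → E) ≃ₗ[E] (ι → E)} (H : C.Rel φ h y)
    (hy : ∀ k, ∃ s : E, y (e k) = s • e k) : ∃ v, ∃ c : F, h = c • D.η v := by
  choose s hs using hy
  have h0 : ∀ k, φ (s k) ≠ 0 := fun k => (map_ne_zero φ).2 fun e0 => by
    have := hs k
    rw [e0, zero_smul, LinearEquiv.map_eq_zero_iff] at this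
    simpa using congrFun this k
  refine C.inner' fun i j hij => ?_
  have h2 := (eq_inv_smul_iff₀ (h0 j)).2 (H.comm h1 hs hij)
  rw [smul_smul] at h2
  have h3 := congrArg (fun z => h' * (D.η (C.w i + C.w j) * z)) h2
  beta_reduce at h3
  rw [← mul_assoc (D.η _), D.sq1 (C.q1 i j hij), mul_smul_comm, ← mul_assoc (D.η _), h2] at h3
  simp only [mul_smul_comm, smul_mul_assoc, mul_assoc h, D.sq1 (C.q1 i j hij), smul_smul,
    neg_mul, mul_neg, one_mul, mul_one, h1, smul_neg, neg_inj] at h3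
  obtain ⟨t, ht⟩ := exists_sg (D.smul_inj (h3.symm.trans (one_smul F 1).symm))
  exact ⟨t, ht ▸ h2⟩

theorem Rel.scalar {h h' : A} (h1 : h' * h = 1) (H : C.Rel φ h 1) : ∃ c : F, c ≠ 0 ∧ h = c • 1 := by
  have h0 : h ≠ 0 := by rintro rfl; exact D.nt (by simpa using h1.symm)
  obtain ⟨v, ⟨h2, c, h3⟩ | h2⟩ := C.inner (h := h) 0 fun i j hij => by
    simpa using H.comm h1 (s := fun _ => 1) (by simp) hij
  · obtain rfl := C.perp v fun i j => by
      by_cases hij : i = j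
      · simp [hij]
      · exact h2 i j hij
    exact ⟨c, by rintro rfl; simp [h0] at h3, by rw [h3, D.η0]⟩
  · exact absurd h2 h0

variable (C φ) in
/-- the image of `M` -/
def im (M : Gp F A) : Subgroup ((ι → E) ≃ₗ[E] (ι → E)) where
  carrier := {y | ∃ g, M.mem g ∧ C.Rel φ g y}
  one_mem' := ⟨1, M.one, Rel.one⟩
  mul_mem' := fun ⟨g, hg, h⟩ ⟨g', hg', h'⟩ => ⟨_, M.mul hg hg', h.mul h'⟩
  inv_mem' := fun ⟨_, hg, h⟩ => let ⟨b, h1, _, h2⟩ := M.inv hg; ⟨b, h1, h.inv h2⟩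

theorem sg_mem_im {M : Gp F A} (hM : D.Over M) (i j : ι) : Fr.sg {i} * Fr.sg {j} ∈ C.im φ M := by
  by_cases hij : i = j
  · rw [hij, Fr.sg_mul_self]; exact one_mem _
  · rw [← sg_insert (by simpa using hij)]; exact ⟨_, hM.η _, rel_sg hij⟩

theorem pm_mem_im {M : Gp F A} (hM : D.Over M) (h5 : 5 ≤ Fintype.card ι) (σ : Equiv.Perm ι)
    (hσ : Equiv.Perm.sign σ = 1) : pm σ ∈ C.im φ M := by
  have h1 : ∀ i j k l, i ≠ j → k ≠ l → pm (Equiv.swap i j * Equiv.swap k l) ∈ C.im φ M := fun i j k l hij hkl => by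
    obtain ⟨a, ha⟩ := rel_rot (C := C) (φ := φ) hij
    obtain ⟨b, hb⟩ := rel_rot (C := C) (φ := φ) hkl
    have h2 : _ ∈ C.im φ M := ⟨_, hM.t _ _ (C.q1 i j hij) (C.q1 k l hkl), ha.mul hb⟩
    convert mul_mem h2 (sg_mem_im hM b (Equiv.swap k l a)) using 1
    have h3 : (pm (Equiv.swap k l) * Fr.sg {Equiv.swap k l a} : (ι → E) ≃ₗ[E] (ι → E)) =
        Fr.sg {a} * pm (Equiv.swap k l) := ext_e fun m => by
      simp only [LinearEquiv.mul_apply, sg_e, pm_e, mem_singleton, Equiv.swap_apply_eq_iff]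
      split_ifs <;> simp [pm_e]
    simp only [map_mul, mul_assoc]
    rw [← mul_assoc (Fr.sg {b}), Fr.sg_mul_self, one_mul, h3, ← mul_assoc (Fr.sg {a}), Fr.sg_mul_self, one_mul]
  obtain ⟨a, -, b, -, hab⟩ := one_lt_card.1 (show 1 < #(univ : Finset ι) by simp; omega)
  suffices (Equiv.Perm.sign σ = 1 → pm σ ∈ C.im φ M) ∧
    (Equiv.Perm.sign σ = -1 → pm (Equiv.swap a b * σ) ∈ C.im φ M) from this.1 hσ
  clear hσ
  induction σ using Equiv.Perm.swap_induction_on with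
  | one => exact ⟨fun _ => by simp, fun h => by simp at h⟩
  | swap_mul σ i j hij ih =>
    simp only [map_mul Equiv.Perm.sign, Equiv.Perm.sign_swap hij, neg_one_mul, neg_inj, neg_eq_iff_eq_neg]
    refine ⟨fun h => ?_, fun h => by rw [← mul_assoc, map_mul]; exact mul_mem (h1 _ _ _ _ hab hij) (ih.1 h)⟩
    convert mul_mem (h1 _ _ _ _ hij hab) (ih.2 h) using 1
    rw [← map_mul, mul_assoc, Equiv.swap_mul_self_mul]

theorem core [Finite E] (C : CD D ι) (φ : E →+* F) (hp : (Nat.card E).Prime)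
    (hn : Fintype.card ι = 5 ∨ Fintype.card ι = 6) {M : Gp F A} (hM : D.Over M)
    (hex : ∀ g, M.mem g → ∃ y, Sim y ∧ C.Rel φ g y) :
    (∀ g, M.mem g → D.Nrm g) ∨ ∀ N : A, N * N = 0 →
      (∃ y, Sim y ∧ C.Rel φ (1 + (-2 : F)⁻¹ • N) y) → M.mem (1 + N) := by
  have h5 : 5 ≤ Fintype.card ι := by omega
  have : Nonempty ι := Fintype.card_pos_iff.1 (by omega)
  have h2 : (2 : E) ≠ 0 := fun e => D.two (by rw [← map_ofNat φ 2, e, map_zero])
  have hN := nd_Q0 (ι := ι) h2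
  have h5' : 5 ≤ finrank E (ι → E) := by simpa using h5
  have hK : H8.Fr.B5 (C.im φ M ⊓ Om Q0) := ⟨h2, nat_of_prime hp, h5, inf_le_right, fun i j => ⟨sg_mem_im hM i j, by
    rw [← rf_e, ← rf_e]; exact refl_mul_refl_mem_Om hN h5' (by simp [Q0_apply])⟩, fun σ hσ =>
      ⟨pm_mem_im hM h5 σ hσ, by
    have : σ ∈ ⁅(⊤ : Subgroup (Equiv.Perm ι)), (⊤ : Subgroup (Equiv.Perm ι))⁆ := by
      rw [← commutator_def, alternatingGroup.commutator_perm_eq (by simpa using h5)]; exact hσ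
    have := Subgroup.mem_map_of_mem (pm (F := E)) this
    rw [Subgroup.map_commutator] at this
    exact Subgroup.commutator_mono (by rintro _ ⟨τ, -, rfl⟩; exact pm_mem_OG τ)
      (by rintro _ ⟨τ, -, rfl⟩; exact pm_mem_OG τ) this⟩⟩
  by_cases hMon : C.im φ M ⊓ Om Q0 ≤ Mon
  · refine Or.inl fun g hg u => ?_
    obtain ⟨g', hg', e1, e2⟩ := M.inv hg
    obtain ⟨y, hy, hr⟩ := hex g' hg'
    have hyK : y ∈ C.im φ M := ⟨g', hg', hr⟩
    obtain ⟨v, c, h⟩ := C.inner' (h := g * D.η u * g') fun i j hij => by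
      obtain ⟨v, c, h⟩ := ((hr.mul (rel_sg hij)).mul (hr.inv e1)).diag (h' := g' * D.ι (C.w i + C.w j) * g)
        (by simp only [mul_assoc]; rw [← mul_assoc g, e1, one_mul, ← mul_assoc (D.ι _), D.ι_η, one_mul, e2])
        (diag_of_norm hK hMon (fun k hk => Subgroup.mem_inf.2 ⟨mul_mem (mul_mem hyK hk.1) (inv_mem hyK), hy.conj hk.2⟩)
          (fun k hk => Subgroup.mem_inf.2 ⟨mul_mem (mul_mem (inv_mem hyK) hk.1) hyK,
            by simpa using hy.inv.conj hk.2⟩) hij)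
      have h3 : D.η (C.w i + C.w j) = c • (g * D.η v * g') := by
        rw [← smul_mul_assoc, ← mul_smul_comm, ← h]
        simp only [← mul_assoc, e1, one_mul]; rw [mul_assoc, e1, mul_one]
      refine ⟨D.f v u, ?_⟩
      simp only [h3, smul_mul_assoc, mul_smul_comm, mul_assoc, ← mul_assoc g' g, e2, one_mul]
      rw [← mul_assoc (D.η v), D.comm, smul_comm]; simp only [smul_mul_assoc, mul_smul_comm, mul_assoc]
    exact ⟨v, c, by rw [← smul_mul_assoc, ← h, mul_assoc, e2, mul_one]⟩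
  · refine Or.inr fun N hNN ⟨y, hy, hr⟩ => ?_
    have h3 : Om Q0 ≤ C.im φ M ⊓ Om Q0 :=
      hn.elim (fun h => hK.main_odd (by rw [h]; decide) hMon) fun h => hK.main_six h hMon
    obtain ⟨g, hg, h4⟩ := (h3 (hy.pow h2 h5)).1
    obtain ⟨g', hg', e1, e2⟩ := M.inv hg
    have h6 : ∀ n : ℕ, (1 + (-2 : F)⁻¹ • N) ^ n = 1 + ((n : F) * (-2 : F)⁻¹) • N := fun n => by
      induction n with
      | zero => simp
      | succ n ih =>
        rw [pow_succ, ih]
        simp only [add_mul, mul_add, smul_mul_assoc, mul_smul_comm, hNN, smul_zero, one_mul, mul_one, Nat.cast_succ,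
          add_smul]
        abel
    have h7 := hr.pow (2 * (Nat.card E - 1))
    have := Fintype.ofFinite E
    have h8 : ((Nat.card E : ℕ) : F) = 0 := by
      rw [← map_natCast φ, Nat.card_eq_fintype_card, FiniteField.cast_card_eq_zero, map_zero]
    rw [h6, Nat.cast_mul, Nat.cast_sub hp.one_le, h8, show ((2 : ℕ) : F) * (0 - ((1 : ℕ) : F)) * (-2)⁻¹ = 1 by
      have := D.two; field_simp; simp, one_smul] at h7
    obtain ⟨c, hc, h9⟩ := Rel.scalar (h' := (1 - N) * g) (h := g' * (1 + N)) (C := C) (φ := φ) (by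
      rw [mul_assoc, ← mul_assoc g, e1]; simp [sub_mul, mul_add, hNN]) (by simpa using (h4.inv e2).mul h7)
    convert M.smul hc hg using 1
    rw [← mul_one g, ← mul_smul_comm, ← h9, ← mul_assoc, e1, one_mul]

end CD

end Cfsg.Agent.H8.C6
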