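import Cfsg.Agent.H8.MS
import Cfsg.Agent.H8.Decomp

/-!
Projections, reflection classes, tori and correction lemmas.
-/

set_option autoImplicit false
set_option linter.unusedSectionVars false

namespace Cfsg.Agent.H8

open QuadraticMap Module

variable {F V : Type*} [Field F] [AddCommGroup V] [Module F V]

section Proj

open Classical in
/-- The orthogonal projection onto a non-degenerate subspace. -/
noncomputable def pr (Q : QuadraticForm F V) (X : Submodule F V) : V →ₗ[F] V :=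
  if h : IsCompl X (perp Q X) then X.subtype ∘ₗ X.linearProjOfIsCompl _ h else 0

variable {Q : QuadraticForm F V} [FiniteDimensional F V] {X : Submodule F V}

theorem pr_mem (X : Submodule F V) (v : V) : pr Q X v ∈ X := by
  unfold pr
  split_ifs with h
  · exact Submodule.coe_mem _
  · exact X.zero_mem

theorem NDOn.pr_of_mem (hX : NDOn Q X) {v : V} (hv : v ∈ X) : pr Q X v = v := by
  unfold pr
  rw [dif_pos hX.isCompl]
  exact congrArg Subtype.val (Submodule.linearProjOfIsCompl_apply_left hX.isCompl ⟨v, hv⟩)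

theorem NDOn.pr_of_perp (hX : NDOn Q X) {v : V} (hv : v ∈ H8.perp Q X) : pr Q X v = 0 := by
  unfold pr
  rw [dif_pos hX.isCompl]
  exact congrArg Subtype.val (Submodule.linearProjOfIsCompl_apply_right hX.isCompl ⟨v, hv⟩)

theorem NDOn.sub_pr_mem (hX : NDOn Q X) (v : V) : v - pr Q X v ∈ H8.perp Q X := by
  obtain ⟨x, hx, y, hy, rfl⟩ := hX.decomp v
  rw [map_add, hX.pr_of_mem hx, hX.pr_of_perp hy]
  simpa using hy

theorem NDOn.pol_pr (hX : NDOn Q X) {x : V} (hx : x ∈ X) (v : V) :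
    polar Q x (pr Q X v) = polar Q x v := by
  have := hX.sub_pr_mem v x hx
  change polar Q x _ = 0 at this
  rw [polar_sub_right] at this
  linear_combination -this

theorem NDOn.pol_pr_left (hX : NDOn Q X) {x : V} (hx : x ∈ X) (v : V) :
    polar Q (pr Q X v) x = polar Q v x := by
  rw [pol_comm, hX.pol_pr hx, pol_comm]

theorem NDOn.pr_eq_zero_iff (hX : NDOn Q X) {v : V} : pr Q X v = 0 ↔ v ∈ H8.perp Q X :=
  ⟨fun h => by simpa [h] using hX.sub_pr_mem v, hX.pr_of_perp⟩

theorem NDOn.Q_sub_pr (hX : NDOn Q X) (v : V) : Q (v - pr Q X v) = Q v - Q (pr Q X v) := by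
  rw [Q_sub, pol_comm, ← hX.pol_pr (pr_mem X v), pol_self]; ring

theorem NDOn.mem_of_sub_pr (hX : NDOn Q X) {v : V} (h : v - pr Q X v = 0) : v ∈ X := by
  rw [sub_eq_zero] at h; rw [h]; exact pr_mem X v

end Proj

/-- An orthogonal decomposition into non-degenerate subspaces. -/
structure OD0 (Q : QuadraticForm F V) {t : ℕ} (D : Fin t → Submodule F V) : Prop where
  nd : ∀ i, NDOn Q (D i)
  orth : ∀ i j, i ≠ j → ∀ x ∈ D i, ∀ y ∈ D j, polar Q x y = 0
  top : iSup D = ⊤

section OD0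

variable {Q : QuadraticForm F V} {t : ℕ} {D : Fin t → Submodule F V}

theorem OD.od0 {k : ℕ} (h : OD Q D k) : OD0 Q D := ⟨h.nd, h.orth, h.top⟩

theorem OD0.le_perp (h : OD0 Q D) {i j : Fin t} (hij : i ≠ j) {x : V} (hx : x ∈ D i) :
    x ∈ perp Q (D j) := fun y hy => h.orth j i hij.symm y hy x hx

theorem OD0.eq_of_mem (h : OD0 Q D) {i j : Fin t} {x : V} (hi : x ∈ D i) (hj : x ∈ D j)
    (h0 : x ≠ 0) : i = j := by
  by_contra hij
  exact h0 ((h.nd j).eq_zero hj (h.le_perp hij hi))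

theorem OD0.eq_zero (h : OD0 Q D) (hN : ND Q) {v : V} (hv : ∀ i, v ∈ perp Q (D i)) : v = 0 := by
  have : (⊤ : Submodule F V) ≤ perp Q (Submodule.span F {v}) := by
    rw [← h.top, iSup_le_iff]
    intro i x hx
    exact mem_perp_span.2 (by simpa [pol_comm Q v] using hv i x hx)
  exact hN v fun x => mem_perp_span.1 (this (Submodule.mem_top (x := x))) v rfl

variable [FiniteDimensional F V]

theorem OD0.pr_of_ne (h : OD0 Q D) {i j : Fin t} (hij : i ≠ j) {x : V} (hx : x ∈ D i) :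
    pr Q (D j) x = 0 := (h.nd j).pr_of_perp (h.le_perp hij hx)

theorem OD0.mem_of_perp (h : OD0 Q D) (hN : ND Q) {i : Fin t} {v : V}
    (hv : ∀ j, j ≠ i → v ∈ perp Q (D j)) : v ∈ D i := by
  refine (h.nd i).mem_of_sub_pr (h.eq_zero hN fun j => ?_)
  by_cases hj : j = i
  · subst hj; exact (h.nd j).sub_pr_mem v
  · exact Submodule.sub_mem _ (hv j hj) (h.le_perp (Ne.symm hj) (pr_mem _ _))

theorem OD0.sum_pr (h : OD0 Q D) (hN : ND Q) (v : V) : ∑ i, pr Q (D i) v = v := by
  rw [← sub_eq_zero]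
  refine h.eq_zero hN fun j x hx => ?_
  change polar Q x _ = 0
  rw [polar_sub_right, pol_sum_right, Finset.sum_eq_single j, (h.nd j).pol_pr hx, sub_self]
  · intro i _ hij; exact h.orth j i hij.symm x hx _ (pr_mem _ _)
  · simp

theorem Q_sum_orth {ι : Type*} (s : Finset ι) (g : ι → V)
    (hg : ∀ i ∈ s, ∀ j ∈ s, i ≠ j → polar Q (g i) (g j) = 0) :
    Q (∑ i ∈ s, g i) = ∑ i ∈ s, Q (g i) := by
  classical
  induction s using Finset.induction_on with
  | empty => simp
  | insert a s ha ih =>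
    rw [Finset.sum_insert ha, Finset.sum_insert ha, Q_add, ih fun i hi j hj =>
      hg i (Finset.mem_insert_of_mem hi) j (Finset.mem_insert_of_mem hj), pol_sum_right,
      Finset.sum_eq_zero (f := fun i => polar Q (g a) (g i)), add_zero]
    intro j hj
    exact hg a (Finset.mem_insert_self _ _) j (Finset.mem_insert_of_mem hj)
      (fun e => ha (e ▸ hj))

theorem OD0.Q_sum_pr (h : OD0 Q D) (hN : ND Q) (v : V) : ∑ i, Q (pr Q (D i) v) = Q v := by
  rw [← Q_sum_orth _ _ fun i _ j _ hij => h.orth i j hij _ (pr_mem _ _) _ (pr_mem _ _),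
    h.sum_pr hN]

theorem OD0.exists_nonsing_pr (h : OD0 Q D) (hN : ND Q) {v : V} (hv : Q v ≠ 0) :
    ∃ i, Q (pr Q (D i) v) ≠ 0 := by
  by_contra hc
  push Not at hc
  exact hv (by rw [← h.Q_sum_pr hN]; exact Finset.sum_eq_zero fun i _ => hc i)

theorem OD0.exists_other (h : OD0 Q D) (hN : ND Q) {v : V} {i : Fin t} (hv : v ∉ D i) :
    ∃ j, j ≠ i ∧ v ∉ perp Q (D j) := by
  by_contra hc
  push Not at hc
  exact hv (h.mem_of_perp hN hc)

theorem OD0.exists_two (h : OD0 Q D) (hN : ND Q) {v : V} (hv0 : v ≠ 0) (hv : ∀ i, v ∉ D i) :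
    ∃ i j, i ≠ j ∧ v ∉ perp Q (D i) ∧ v ∉ perp Q (D j) := by
  obtain ⟨i, hi⟩ : ∃ i, v ∉ perp Q (D i) := by
    by_contra hc; push Not at hc; exact hv0 (h.eq_zero hN hc)
  obtain ⟨j, hj, hj'⟩ := h.exists_other hN (hv i)
  exact ⟨i, j, hj.symm, hi, hj'⟩

theorem OD0.not_mem (h : OD0 Q D) {v : V} {i j : Fin t} (hij : i ≠ j) (hi : v ∉ perp Q (D i))
    (hj : v ∉ perp Q (D j)) (l : Fin t) : v ∉ D l := fun hl => by
  by_cases e : l = i
  · subst e; exact hj (h.le_perp hij hl)
  · exact hi (h.le_perp e hl)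

theorem mem_DStab_of_Stab {g : V ≃ₗ[F] V} (h : ∀ i, g ∈ Stab (D i)) : g ∈ DStab D :=
  ⟨1, fun i => mem_Stab_iff_map.1 (h i)⟩

theorem OD0.Stab_of_fix (h : OD0 Q D) (hN : ND Q) {g : V ≃ₗ[F] V} (hg : g ∈ OG Q) {i : Fin t}
    (hf : g ∈ Fix (perp Q (D i))) (j : Fin t) : g ∈ Stab (D j) := by
  by_cases e : j = i
  · subst e
    have := Stab_perp hg (Fix_le_Stab _ hf)
    rwa [hN.perp_perp] at this
  · exact Fix_le_Stab _ fun v hv => hf v (h.le_perp e hv)

theorem OD0.DStab_of_fix (h : OD0 Q D) (hN : ND Q) {g : V ≃ₗ[F] V} (hg : g ∈ OG Q) {i : Fin t}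
    (hf : g ∈ Fix (perp Q (D i))) : g ∈ DStab D :=
  mem_DStab_of_Stab (h.Stab_of_fix hN hg hf)

theorem refl_mem_Fix_perp {X : Submodule F V} {a : V} (ha : a ∈ X) :
    refl Q a ∈ Fix (perp Q X) := refl_mem_Fix (le_perp_perp X ha)

theorem siegel_mem_Fix_perp {X : Submodule F V} {u v : V} (hu : u ∈ X) (hv : v ∈ X) :
    siegel Q u v ∈ Fix (perp Q X) := siegel_mem_Fix (le_perp_perp X hu) (le_perp_perp X hv)

theorem OD0.refl_mem (h : OD0 Q D) (hN : ND Q) {i : Fin t} {a : V} (ha : a ∈ D i) :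
    refl Q a ∈ DStab D := h.DStab_of_fix hN (refl_mem_OG a) (refl_mem_Fix_perp ha)

theorem OD0.siegel_mem (h : OD0 Q D) (hN : ND Q) {i : Fin t} {u v : V} (hu : u ∈ D i)
    (hv : v ∈ D i) : siegel Q u v ∈ DStab D :=
  h.DStab_of_fix hN (siegel_mem_OG u v) (siegel_mem_Fix_perp hu hv)

/-- An element mapping each member into some member of the same dimension stabilises. -/
theorem OD0.mem_DStab [Finite F] (h : OD0 Q D) {g : V ≃ₗ[F] V} (hD : ∀ i, D i ≠ ⊥)
    (hg : ∀ i, ∃ j, finrank F (D j) ≤ finrank F (D i) ∧ ∀ x ∈ D i, g x ∈ D j) : g ∈ DStab D := by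
  choose σ hσ1 hσ2 using hg
  have hm : ∀ i, (D i).map (g : V →ₗ[F] V) = D (σ i) := fun i => map_eq_of_maps (hσ2 i) (hσ1 i)
  have hinj : Function.Injective σ := by
    intro i j hij
    obtain ⟨x, hx, hx0⟩ := (Submodule.ne_bot_iff _).1 (hD i)
    have h1 : g x ∈ (D j).map (g : V →ₗ[F] V) := by rw [hm, ← hij]; exact hσ2 i x hx
    obtain ⟨y, hy, hy'⟩ := h1
    have : y = x := g.injective hy'
    exact h.eq_of_mem hx (this ▸ hy) hx0
  exact ⟨Equiv.ofBijective σ (Finite.injective_iff_bijective.1 hinj), hm⟩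

/-- Swapping two isometric members. -/
theorem exists_swap_iso (hN : ND Q) {A B : Submodule F V} (hA : NDOn Q A) (hB : NDOn Q B)
    (hAB : ∀ x ∈ A, ∀ y ∈ B, polar Q x y = 0) (e : A ≃ₗ[F] B) (he : ∀ w : A, Q (e w : V) = Q (w : V)) :
    ∃ s ∈ OG Q, s * s = 1 ∧ (∀ x : A, s x = e x) ∧ (∀ x ∈ A, s x ∈ B) ∧ (∀ x ∈ B, s x ∈ A) ∧
      ∀ x ∈ perp Q A, x ∈ perp Q B → s x = x := by
  let pA : V →ₗ[F] A := (pr Q A).codRestrict A (pr_mem A)
  let pB : V →ₗ[F] B := (pr Q B).codRestrict B (pr_mem B)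
  let s : V →ₗ[F] V := LinearMap.id - pr Q A - pr Q B + B.subtype ∘ₗ (e : A →ₗ[F] B) ∘ₗ pA +
    A.subtype ∘ₗ (e.symm : B →ₗ[F] A) ∘ₗ pB
  have hBA : ∀ y ∈ B, y ∈ perp Q A := fun y hy x hx => hAB x hx y hy
  have hAB' : ∀ y ∈ A, y ∈ perp Q B := fun y hy x hx => by
    change polar Q x y = 0; rw [pol_comm]; exact hAB y hy x hx
  have s1 : ∀ x : A, s x = e x := fun x => by
    have h1 : pA x = x := Subtype.ext (hA.pr_of_mem x.2)
    have h2 : pB x = 0 := Subtype.ext (hB.pr_of_perp (hAB' _ x.2))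
    simp [s, h1, h2, hA.pr_of_mem x.2, hB.pr_of_perp (hAB' _ x.2)]
  have s2 : ∀ x : B, s x = e.symm x := fun x => by
    have h1 : pB x = x := Subtype.ext (hB.pr_of_mem x.2)
    have h2 : pA x = 0 := Subtype.ext (hA.pr_of_perp (hBA _ x.2))
    simp [s, h1, h2, hB.pr_of_mem x.2, hA.pr_of_perp (hBA _ x.2)]
  have s3 : ∀ x ∈ perp Q A, x ∈ perp Q B → s x = x := fun x h1 h2 => by
    have h3 : pA x = 0 := Subtype.ext (hA.pr_of_perp h1)
    have h4 : pB x = 0 := Subtype.ext (hB.pr_of_perp h2)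
    simp [s, h3, h4, hA.pr_of_perp h1, hB.pr_of_perp h2]
  have dec : ∀ v, ∃ (a : A) (b : B) (z : V), z ∈ perp Q A ∧ z ∈ perp Q B ∧ v = (a : V) + b + z := by
    intro v
    refine ⟨pA v, pB v, v - pr Q A v - pr Q B v,
      Submodule.sub_mem _ (hA.sub_pr_mem v) (hBA _ (pr_mem _ _)), ?_, by simp [pA, pB]⟩
    rw [sub_right_comm]
    exact Submodule.sub_mem _ (hB.sub_pr_mem v) (hAB' _ (pr_mem _ _))
  have hinv : Function.Involutive s := fun v => by
    obtain ⟨a, b, z, h1, h2, rfl⟩ := dec v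
    simp only [map_add, s1, s2, s3 z h1 h2, LinearEquiv.symm_apply_apply,
      LinearEquiv.apply_symm_apply]
  have hQ : ∀ (a : A) (b : B) (z : V), z ∈ perp Q A → z ∈ perp Q B →
      Q ((a : V) + b + z) = Q a + Q b + Q z := fun a b z h1 h2 => by
    rw [Q_add, Q_add, polar_add_left, hAB _ a.2 _ b.2, mem_perp.1 h1 _ a.2, mem_perp.1 h2 _ b.2]; ring
  refine ⟨LinearEquiv.ofInvolutive s hinv, fun v => ?_, LinearEquiv.ext hinv, s1,
    fun x hx => ?_, fun x hx => ?_, s3⟩
  · obtain ⟨a, b, z, h1, h2, rfl⟩ := dec v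
    change Q (s _) = _
    rw [map_add s, map_add s, s1, s2, s3 z h1 h2, add_comm (e a : V), hQ _ _ _ h1 h2, hQ _ _ _ h1 h2,
      he, ← he (e.symm b), LinearEquiv.apply_symm_apply]; ring
  · change s _ ∈ B
    rw [s1 ⟨x, hx⟩]; exact Submodule.coe_mem _
  · change s _ ∈ A
    rw [s2 ⟨x, hx⟩]; exact Submodule.coe_mem _

theorem OD.exists_swap [Finite F] {k : ℕ} (h : OD Q D k) (hN : ND Q) (hk : 0 < k) {i j : Fin t}
    (hij : i ≠ j) :
    ∃ s ∈ OG Q, s ∈ DStab D ∧ s * s = 1 ∧ (∀ x ∈ D i, s x ∈ D j) ∧ (∀ x ∈ D j, s x ∈ D i) ∧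
      ∀ x ∈ perp Q (D i), x ∈ perp Q (D j) → s x = x := by
  obtain ⟨e, he⟩ := h.iso i j
  obtain ⟨s, hs, h1, -, h2, h3, h4⟩ := exists_swap_iso hN (h.nd i) (h.nd j) (h.orth i j hij) e he
  refine ⟨s, hs, h.od0.mem_DStab (fun l hl => ?_) fun l => ?_, h1, h2, h3, h4⟩
  · have := h.dim l; rw [hl, finrank_bot] at this; omega
  · by_cases e1 : l = i
    · subst e1; exact ⟨j, by rw [h.dim, h.dim], h2⟩
    by_cases e2 : l = j
    · subst e2; exact ⟨i, by rw [h.dim, h.dim], h3⟩
    exact ⟨l, le_rfl, fun x hx => by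
      rw [h4 x (h.od0.le_perp e1 hx) (h.od0.le_perp e2 hx)]; exact hx⟩

end OD0

/-- `a` and `b` are related if the product of their reflections lies in `K`. -/
def Rel (Q : QuadraticForm F V) (K : Subgroup (V ≃ₗ[F] V)) (a b : V) : Prop :=
  refl Q a * refl Q b ∈ K

section Rel

variable {Q : QuadraticForm F V} {K : Subgroup (V ≃ₗ[F] V)}

theorem Rel.rfl' (a : V) : Rel Q K a a := by
  unfold Rel; rw [refl_mul_self]; exact K.one_mem

theorem Rel.symm {a b : V} (h : Rel Q K a b) : Rel Q K b a := by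
  have := K.inv_mem h
  rwa [mul_inv_rev, refl_inv, refl_inv] at this

theorem Rel.trans {a b c : V} (h : Rel Q K a b) (h' : Rel Q K b c) : Rel Q K a c := by
  have := K.mul_mem h h'
  rwa [mul_assoc, ← mul_assoc (refl Q b), refl_mul_self, one_mul] at this

theorem Rel.conj {g : V ≃ₗ[F] V} (hg : g ∈ OG Q) (hgK : g ∈ K) {a b : V} (h : Rel Q K a b) :
    Rel Q K (g a) (g b) := by
  unfold Rel
  rw [← refl_conj hg, ← refl_conj hg]
  have := K.mul_mem (K.mul_mem hgK h) (K.inv_mem hgK)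
  convert this using 1; group

theorem Rel.smul_left {c : F} (hc : c ≠ 0) {a b : V} (h : Rel Q K a b) : Rel Q K (c • a) b := by
  unfold Rel; rwa [refl_smul hc]

theorem Rel.of_smul_left {c : F} (hc : c ≠ 0) {a b : V} (h : Rel Q K (c • a) b) : Rel Q K a b := by
  unfold Rel at h; rwa [refl_smul hc] at h

theorem Rel.smul_right {c : F} (hc : c ≠ 0) {a b : V} (h : Rel Q K a b) : Rel Q K a (c • b) :=
  (h.symm.smul_left hc).symm

theorem Rel.refl_apply {a b : V} (h : Rel Q K a b) : Rel Q K (refl Q a b) a := by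
  unfold Rel
  rw [← refl_conj (refl_mem_OG a), refl_inv, mul_assoc, refl_mul_self, mul_one]; exact h

theorem Rel.refl_apply' {a b d : V} (h : Rel Q K a d) (h' : Rel Q K b d) :
    Rel Q K (refl Q a b) d := (h.trans h'.symm).refl_apply.trans h

theorem rel_add_iff {u v : V} (hu : Q u = 0) (huv : polar Q u v = 0) (hv : Q v ≠ 0) (κ : F) :
    Rel Q K v (v + κ • u) ↔ siegel Q u ((κ / Q v) • v) ∈ K := by
  rw [← siegel_smul hu huv, siegel_eq_refl_mul (by rw [Q_smul, hu, mul_zero])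
    (by rw [pol_smul_left, huv, mul_zero]) hv, smul_smul, mul_div_cancel₀ _ hv]
  rfl

theorem Rel.of_MS {u v : V} (hu : Q u = 0) (hv : Q v ≠ 0) (h : v ∈ MS Q K u) (κ : F) :
    Rel Q K v (v + κ • u) := (rel_add_iff hu h.1 hv κ).2 (h.2 _)

/-- The additive group of scalars `κ` with `v` related to `v + κ u`. -/
def relA (K : Subgroup (V ≃ₗ[F] V)) {u v : V} (hu : Q u = 0) (huv : polar Q u v = 0)
    (hv : Q v ≠ 0) : AddSubgroup F where
  carrier := {κ | Rel Q K v (v + κ • u)}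
  zero_mem' := by simpa using Rel.rfl' v
  add_mem' {a b} ha hb := by
    simp only [Set.mem_setOf_eq, rel_add_iff hu huv hv] at ha hb ⊢
    rw [add_div, add_smul]
    exact siegel_add_mem hu (by rw [pol_smul_right, huv, mul_zero])
      (by rw [pol_smul_right, huv, mul_zero]) ha hb
  neg_mem' {a} ha := by
    simp only [Set.mem_setOf_eq, rel_add_iff hu huv hv] at ha ⊢
    rw [neg_div, neg_smul]
    exact siegel_neg_mem ha

theorem MS_of_rel {u v : V} (hu : Q u = 0) (huv : polar Q u v = 0) (hv : Q v ≠ 0)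
    (h : ∀ κ : F, Rel Q K v (v + κ • u)) : v ∈ MS Q K u :=
  ⟨huv, fun c => by
    have := (rel_add_iff hu huv hv (c * Q v)).1 (h _)
    rwa [mul_div_cancel_right₀ _ hv] at this⟩

end Rel

section Add

theorem addSubgroup_top_of_sq [Finite F] {A : AddSubgroup F} (h : ∀ s : F, s * s ∈ A) (c : F) :
    c ∈ A := by
  have := Fintype.ofFinite F
  by_cases h2 : (2 : F) = 0
  · obtain ⟨s, rfl⟩ := exists_sq_of_char_two h2 c; exact h s
  · obtain ⟨a, b, hab⟩ := FiniteField.exists_root_sum_quadratic (R := F)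
      (f := Polynomial.X ^ 2) (g := Polynomial.X ^ 2 - Polynomial.C c) (by simp)
      (Polynomial.degree_X_pow_sub_C (by norm_num) c)
      (FiniteField.odd_card_of_char_ne_two fun e => h2 (by
        have := ringChar.spec F 2; rw [e] at this; exact_mod_cast this.2 dvd_rfl))
    have : c = a * a + b * b := by
      simp at hab; linear_combination -hab
    rw [this]; exact A.add_mem (h a) (h b)

theorem exists_not_mem_list [Finite F] (l : List F) (h : l.length < Nat.card F) : ∃ x : F, x ∉ l := by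
  classical
  have := Fintype.ofFinite F
  by_contra hc
  push Not at hc
  have h1 : (Finset.univ : Finset F) ⊆ l.toFinset := fun x _ => List.mem_toFinset.2 (hc x)
  have h2 := (Finset.card_le_card h1).trans l.toFinset_card_le
  rw [Finset.card_univ, ← Nat.card_eq_fintype_card] at h2
  omega

theorem addSubgroup_top_of_sq_sub_one [Finite F] {A : AddSubgroup F}
    (h : ∀ s : F, s ≠ 0 → s * s - 1 ∈ A) (h1 : 4 ≤ Nat.card F ∨ (-1 : F) ∈ A) (c : F) : c ∈ A := by
  have key : (-1 : F) ∈ A := by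
    rcases h1 with h1 | h1
    · by_cases h2 : (2 : F) = 0
      · obtain ⟨x, hx⟩ := exists_not_mem_list [(0 : F), -1] (by simp; omega)
        simp only [List.mem_cons, List.not_mem_nil, or_false, not_or] at hx
        have := A.sub_mem (h x hx.1) (h (x + 1) fun e => hx.2 (by linear_combination e))
        convert this using 1; linear_combination x * h2
      · have hall : ∀ y : F, y ≠ 1 → y ≠ -1 → y ∈ A := fun y h1 h2' => by
          have := A.sub_mem (h ((y + 1) / 2) (by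
            refine div_ne_zero (fun e => h2' (by linear_combination e)) h2))
            (h ((y - 1) / 2) (div_ne_zero (sub_ne_zero.2 h1) h2))
          convert this using 1; field_simp; ring
        have h5 : 5 ≤ Nat.card F := by
          rcases Nat.lt_or_ge 4 (Nat.card F) with h | h
          · exact h
          · exact absurd (two_eq_zero_of_even_card (F := F) (by
              rw [show Nat.card F = 4 by omega]; decide)) h2
        obtain ⟨x, hx⟩ := exists_not_mem_list [(1 : F), -1, 0, -2] (by simp; omega)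
        simp only [List.mem_cons, List.not_mem_nil, or_false, not_or] at hx
        have := A.sub_mem (hall x hx.1 hx.2.1) (hall (x + 1) (fun e => hx.2.2.1
          (by linear_combination e)) fun e => hx.2.2.2 (by linear_combination e))
        convert this using 1; ring
    · exact h1
  refine addSubgroup_top_of_sq (fun s => ?_) c
  by_cases hs : s = 0
  · simp [hs]
  · simpa using A.sub_mem (h s hs) key

end Add

/-- The torus element `u ↦ l u`, `w ↦ l⁻¹ w`. -/
def tor (Q : QuadraticForm F V) (u w : V) (l : F) : V ≃ₗ[F] V :=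
  refl Q (u - w) * refl Q (u - l • w)

section Tor

variable {Q : QuadraticForm F V} {K : Subgroup (V ≃ₗ[F] V)} {u w : V} {l : F}

theorem tor_mem_OG (u w : V) (l : F) : tor Q u w l ∈ OG Q :=
  (OG Q).mul_mem (refl_mem_OG _) (refl_mem_OG _)

theorem tor_apply (hu : Q u = 0) (hw : Q w = 0) (huw : polar Q u w = 1) (hl : l ≠ 0) (x : V) :
    tor Q u w l x = x + ((l - 1) * polar Q x w) • u + ((l⁻¹ - 1) * polar Q x u) • w := by
  have h1 : Q (u - w) = -1 := by rw [Q_sub, hu, hw, huw]; ring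
  have h2 : Q (u - l • w) = -l := by rw [Q_sub, Q_smul, pol_smul_right, hu, hw, huw]; ring
  have huu : polar Q u u = 0 := by rw [pol_self, hu, mul_zero]
  have hww : polar Q w w = 0 := by rw [pol_self, hw, mul_zero]
  have hwu : polar Q w u = 1 := by rw [pol_comm, huw]
  change refl Q (u - w) (refl Q (u - l • w) x) = _
  rw [refl_apply, refl_apply, h1, h2]
  simp only [polar_sub_left, polar_sub_right, pol_smul_left, pol_smul_right, huu, hww, huw, hwu]
  match_scalars <;> field_simp <;> ring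

theorem tor_left (hu : Q u = 0) (hw : Q w = 0) (huw : polar Q u w = 1) (hl : l ≠ 0) :
    tor Q u w l u = l • u := by
  rw [tor_apply hu hw huw hl, huw, pol_self, hu]; module

theorem tor_of_perp (hu : Q u = 0) (hw : Q w = 0) (huw : polar Q u w = 1) (hl : l ≠ 0) {x : V}
    (hx : polar Q x u = 0) : tor Q u w l x = x + ((l - 1) * polar Q x w) • u := by
  rw [tor_apply hu hw huw hl, hx]; simp

theorem tor_conj {g : V ≃ₗ[F] V} (hg : g ∈ OG Q) (u w : V) (l : F) :
    g * tor Q u w l * g⁻¹ = tor Q (g u) (g w) l := by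
  unfold tor
  rw [← _root_.map_smul, ← map_sub, ← map_sub, ← refl_conj hg, ← refl_conj hg]; group

theorem tor_mem_Fix {X : Submodule F V} (hu : u ∈ X) (hw : w ∈ X) :
    tor Q u w l ∈ Fix (perp Q X) :=
  (Fix _).mul_mem (refl_mem_Fix (le_perp_perp X (X.sub_mem hu hw)))
    (refl_mem_Fix (le_perp_perp X (X.sub_mem hu (X.smul_mem _ hw))))

theorem tor_mul_inv {w' : V} (hu : Q u = 0) (hw : Q w = 0) (huw : polar Q u w = 1)
    (hw' : Q w' = 0) (huw' : polar Q u w' = 1) (hl : l ≠ 0) :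
    tor Q u w' l * (tor Q u w l)⁻¹ = siegel Q u ((1 - l) • (w' - w)) := by
  set v := w' - w - polar Q w' w • u with hv
  have huu : polar Q u u = 0 := by rw [pol_self, hu, mul_zero]
  have hww : polar Q w w = 0 := by rw [pol_self, hw, mul_zero]
  have huv : polar Q u v = 0 := by
    rw [hv, polar_sub_right, polar_sub_right, pol_smul_right, huw, huw', huu]; ring
  have hvw : polar Q v w = 0 := by
    rw [hv, polar_sub_left, polar_sub_left, pol_smul_left, huw, hww]; ring
  have hQv : Q v = - polar Q w' w := by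
    rw [hv, Q_sub, Q_sub, Q_smul, pol_smul_right, polar_sub_left, pol_comm Q w' u, pol_comm Q w u,
      huw, huw', hu, hw, hw']; ring
  have e1 : siegel Q u v u = u := siegel_fix huu huv
  have e2 : siegel Q u v w = w' := by
    rw [siegel_apply hu huv, pol_comm Q w u, huw, pol_comm Q w v, hvw, hQv, hv]; module
  have e3 : tor Q u w l v = v := by
    rw [tor_of_perp hu hw huw hl (by rw [pol_comm, huv]), hvw]; simp
  have e4 := tor_conj (siegel_mem_OG (Q := Q) u v) u w l
  rw [e1, e2] at e4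
  have e5 := siegel_conj (tor_mem_OG (Q := Q) u w l) u (-v)
  rw [map_neg, e3, tor_left hu hw huw hl, siegel_smul hu (by rw [polar_neg_right, huv, neg_zero])]
    at e5
  have e6 : (1 - l) • (w' - w) = (v + l • -v) + ((1 - l) * polar Q w' w) • u := by
    rw [hv]; module
  have h7 : polar Q u (l • -v) = 0 := by rw [pol_smul_right, polar_neg_right, huv]; simp
  rw [e6, siegel_add_smul hu (by rw [polar_add_right, huv, h7, add_zero]), ← siegel_mul hu huv h7,
    ← e5, ← e4, siegel_inv]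
  group

variable [Finite F] [FiniteDimensional F V]

theorem refl_mul_refl_mem_Om' (hN : ND Q) (h5 : 5 ≤ finrank F V) {a b : V} {s : F} (hs : s ≠ 0)
    (h : Q a = s * s * Q b) : refl Q a * refl Q b ∈ Om Q := by
  rw [← refl_smul hs b]; exact refl_mul_refl_mem_Om hN h5 (by rw [Q_smul, h])

theorem tor_mem_Om (hN : ND Q) (h5 : 5 ≤ finrank F V) (hu : Q u = 0) (hw : Q w = 0)
    (huw : polar Q u w = 1) {s : F} (hs : s ≠ 0) : tor Q u w (s * s) ∈ Om Q := by
  refine refl_mul_refl_mem_Om' hN h5 (inv_ne_zero hs) ?_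
  rw [Q_sub, Q_sub, Q_smul, pol_smul_right, hu, hw, huw]; field_simp; ring

/-- If `K` contains the tori of two hyperbolic pairs on `u`, their difference is in `MS`. -/
theorem MS_of_tor {w' : V} (h4 : 4 ≤ Nat.card F) (hu : Q u = 0) (hw : Q w = 0)
    (huw : polar Q u w = 1) (hw' : Q w' = 0) (huw' : polar Q u w' = 1)
    (h1 : ∀ s, s ≠ 0 → tor Q u w (s * s) ∈ K) (h2 : ∀ s, s ≠ 0 → tor Q u w' (s * s) ∈ K) :
    w' - w ∈ MS Q K u := by
  have hp : polar Q u (w' - w) = 0 := by rw [polar_sub_right, huw, huw', sub_self]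
  have hp' : ∀ c : F, polar Q u (c • (w' - w)) = 0 := fun c => by rw [pol_smul_right, hp, mul_zero]
  let A : AddSubgroup F :=
    { carrier := {c | siegel Q u (c • (w' - w)) ∈ K}
      zero_mem' := by simp [siegel_zero]
      add_mem' := fun {a b} ha hb => by
        simp only [Set.mem_setOf_eq, add_smul] at ha hb ⊢
        exact siegel_add_mem hu (hp' _) (hp' _) ha hb
      neg_mem' := fun {a} ha => by
        simp only [Set.mem_setOf_eq, neg_smul] at ha ⊢
        exact siegel_neg_mem ha }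
  refine ⟨hp, fun c => addSubgroup_top_of_sq_sub_one (A := A) (fun s hs => ?_) (Or.inl h4) c⟩
  have := K.mul_mem (h2 s hs) (K.inv_mem (h1 s hs))
  rw [tor_mul_inv hu hw huw hw' huw' (mul_ne_zero hs hs)] at this
  have h3 : (1 - s * s) ∈ A := this
  simpa using A.neg_mem h3

/-- Correction lemma. -/
theorem exists_corr (hN : ND Q) (h5 : 5 ≤ finrank F V) {P : Subgroup (V ≃ₗ[F] V)}
    (hP : P ≤ OG Q) (h : ∀ ν : F, ν ≠ 0 → ∃ p ∈ P, ∃ a, Q a = ν ∧ p * refl Q a ∈ Om Q)
    {g : V ≃ₗ[F] V} (hg : g ∈ OG Q) : ∃ p ∈ P, p * g ∈ Om Q := by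
  let C : Subgroup (V ≃ₗ[F] V) :=
    { carrier := {g | g ∈ OG Q ∧ ∃ p ∈ P, p * g ∈ Om Q}
      one_mem' := ⟨(OG Q).one_mem, 1, P.one_mem, by simpa using (Om Q).one_mem⟩
      mul_mem' := by
        rintro a b ⟨ha, p, hp, hpa⟩ ⟨hb, r, hr, hrb⟩
        refine ⟨(OG Q).mul_mem ha hb, r * p, P.mul_mem hr hp, ?_⟩
        have := (Om Q).mul_mem (Om_conj (hP hr) hpa) hrb
        convert this using 1; group
      inv_mem' := by
        rintro a ⟨ha, p, hp, hpa⟩
        refine ⟨(OG Q).inv_mem ha, p⁻¹, P.inv_mem hp, ?_⟩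
        have := Om_conj ((OG Q).inv_mem (hP hp)) ((Om Q).inv_mem hpa)
        convert this using 1; group }
  refine (OG_gen_top hN C (fun a ha => ⟨refl_mem_OG a, ?_⟩)
    (fun u v _ _ _ => ⟨siegel_mem_OG u v, 1, P.one_mem, by
      simpa using siegel_mem_Om hN h5 u v⟩) hg).2
  obtain ⟨p, hp, b, hb, hpb⟩ := h (Q a) ha
  refine ⟨p, hp, ?_⟩
  have := (Om Q).mul_mem hpb (refl_mul_refl_mem_Om hN h5 hb)
  rwa [mul_assoc, ← mul_assoc (refl Q b), refl_mul_self, one_mul] at this

theorem Om_mul_comm {a b : V ≃ₗ[F] V} (ha : a ∈ OG Q) (h : a * b ∈ Om Q) : b * a ∈ Om Q := by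
  have := Om_conj ((OG Q).inv_mem ha) h
  convert this using 1; group

/-- Correction by an element supported on a subspace of dimension at least two. -/
theorem NDOn.exists_corr (hN : ND Q) (h5 : 5 ≤ finrank F V) {X : Submodule F V} (hX : NDOn Q X)
    (h2 : 2 ≤ finrank F X) {g : V ≃ₗ[F] V} (hg : g ∈ OG Q) :
    ∃ p ∈ OG Q ⊓ Fix (H8.perp Q X), p * g ∈ Om Q := by
  refine H8.exists_corr hN h5 inf_le_left (fun ν _ => ?_) hg
  obtain ⟨a, ha, hQa⟩ := hX.exists_value_two hN h2 ν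
  exact ⟨refl Q a, ⟨refl_mem_OG a, refl_mem_Fix_perp ha⟩, a, hQa, by
    rw [refl_mul_self]; exact (Om Q).one_mem⟩

/-- Correction by an element supported on `X` and fixing a singular point of `X`. -/
theorem NDOn.exists_corr_sing (hN : ND Q) (h5 : 5 ≤ finrank F V) {X : Submodule F V}
    (hX : NDOn Q X) (h3 : 3 ≤ finrank F X) (huX : u ∈ X) (hu : Q u = 0) (hu0 : u ≠ 0)
    {g : V ≃ₗ[F] V} (hg : g ∈ OG Q) :
    ∃ p ∈ OG Q ⊓ Fix (H8.perp Q X), (∃ c : F, c ≠ 0 ∧ p u = c • u) ∧ p * g ∈ Om Q := by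
  obtain ⟨w, hwX, hw, huw⟩ := hX.exists_partner huX hu0 hu
  have hT := hX.inf_perp_nd (T := sp F [u, w]) (sp_le.2 (by simp [huX, hwX]))
    (ndOn_pair hu hw (by rw [huw]; exact one_ne_zero))
  have hd := finrank_le_inf_perp_sp (Q := Q) X [u, w]
  simp only [List.length_cons, List.length_nil] at hd
  obtain ⟨d, hd, hQd⟩ := hT.exists_nonsing hN le_rfl (by omega)
  have hud : polar Q u d = 0 := mem_perp_sp.1 hd.2 u (by simp)
  have huu : polar Q u u = 0 := by rw [pol_self, hu, mul_zero]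
  have hww : polar Q w w = 0 := by rw [pol_self, hw, mul_zero]
  have hwu : polar Q w u = 1 := by rw [pol_comm, huw]
  have hQ : ∀ c : F, Q (u + c • w) = c := fun c => by
    rw [Q_add, Q_smul, pol_smul_right, hu, hw, huw]; ring
  obtain ⟨p, hp, hpg⟩ := H8.exists_corr hN h5
    (P := OG Q ⊓ Fix (H8.perp Q X) ⊓ Stab (sp F [u])) (inf_le_left.trans inf_le_left)
    (fun ν hν => by
      have m1 : ∀ c : F, u + c • w ∈ X := fun c => X.add_mem huX (X.smul_mem _ hwX)
      refine ⟨refl Q d * refl Q (u + Q d • w) * refl Q (u + ν • w), ⟨⟨?_, ?_⟩, ?_⟩,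
        u + ν • w, hQ ν, ?_⟩
      · exact (OG Q).mul_mem ((OG Q).mul_mem (refl_mem_OG _) (refl_mem_OG _)) (refl_mem_OG _)
      · exact (Fix _).mul_mem ((Fix _).mul_mem (refl_mem_Fix_perp hd.1) (refl_mem_Fix_perp (m1 _)))
          (refl_mem_Fix_perp (m1 _))
      · refine mem_Stab_of_maps fun x hx => ?_
        obtain ⟨c, rfl⟩ := mem_sp_one.1 hx
        rw [_root_.map_smul]
        refine Submodule.smul_mem _ _ (mem_sp_one.2 ⟨ν / Q d, ?_⟩)
        have e1 : refl Q (u + ν • w) u = -ν • w := by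
          rw [refl_apply, hQ, polar_add_right, pol_smul_right, huu, huw]
          match_scalars <;> field_simp <;> ring
        have e2 : refl Q (u + Q d • w) w = -(Q d)⁻¹ • u := by
          rw [refl_apply, hQ, polar_add_right, pol_smul_right, hww, hwu]
          match_scalars <;> field_simp <;> ring
        change refl Q d (refl Q (u + Q d • w) (refl Q (u + ν • w) u)) = _
        rw [e1, _root_.map_smul, e2, _root_.map_smul, _root_.map_smul, refl_of_perp hud, smul_smul]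
        congr 1; field_simp
      · rw [mul_assoc, refl_mul_self, mul_one]
        exact refl_mul_refl_mem_Om hN h5 (hQ _).symm) hg
  obtain ⟨c, hc⟩ := mem_sp_one.1 ((hp.2 u).1 (mem_sp_of_mem (by simp)))
  refine ⟨p, hp.1, ⟨c, fun e => hu0 ?_, hc⟩, hpg⟩
  rw [e, zero_smul] at hc
  exact p.map_eq_zero_iff.1 hc

theorem refl_four_mem_Om (hN : ND Q) (h5 : 5 ≤ finrank F V) {a b c d : V} {s : F}
    (ha : Q a ≠ 0) (hb : Q b ≠ 0) (hc : Q c ≠ 0) (hd : Q d ≠ 0)
    (h : Q a * Q b * Q c * Q d = s * s) :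
    refl Q a * refl Q b * refl Q c * refl Q d ∈ Om Q := by
  have hs : s ≠ 0 := fun e => by
    rw [e, mul_zero] at h; exact mul_ne_zero (mul_ne_zero (mul_ne_zero ha hb) hc) hd h
  obtain ⟨u, -, w, -, hu, hw, huw⟩ := hN.ndOn_top.exists_hyp (by rw [finrank_top]; omega)
  have hQ : ∀ c : F, Q (u - c • w) = -c := fun c => by
    rw [Q_sub, Q_smul, pol_smul_right, hu, hw, huw]; ring
  have key : ∀ x y : F, x ≠ 0 → y ≠ 0 → refl Q (u - x • w) * refl Q (u - y • w) =
      tor Q u w (y / x) := fun x y hx hy => by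
    have e : refl Q (u - x • w) * refl Q (u - y • w) =
        (tor Q u w x)⁻¹ * tor Q u w y := by
      unfold tor; rw [mul_inv_rev, refl_inv, refl_inv, mul_assoc, ← mul_assoc (refl Q (u - w)),
        refl_mul_self, one_mul]
    rw [e, inv_mul_eq_iff_eq_mul]
    ext v
    rw [LinearEquiv.mul_apply, tor_apply hu hw huw hx, tor_apply hu hw huw hy,
      tor_apply hu hw huw (div_ne_zero hy hx)]
    simp only [polar_add_left, pol_smul_left, pol_self, hu, hw, huw, pol_comm Q w u]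
    match_scalars <;> field_simp <;> ring
  have e : ∀ x, Q x ≠ 0 → refl Q x * refl Q (u - (-Q x) • w) ∈ Om Q := fun x _ =>
    refl_mul_refl_mem_Om hN h5 (by rw [hQ, neg_neg])
  have hT : refl Q (u - (-Q a) • w) * refl Q (u - (-Q b) • w) *
      (refl Q (u - (-Q c) • w) * refl Q (u - (-Q d) • w)) ∈ Om Q := by
    have e1 : refl Q (u - (-Q c) • w) * refl Q (u - (-Q d) • w) =
        refl Q (u - (-Q b) • w) * refl Q (u - (-Q b * Q d / Q c) • w) := by
      rw [key _ _ (neg_ne_zero.2 hc) (neg_ne_zero.2 hd), key _ _ (neg_ne_zero.2 hb)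
        (div_ne_zero (mul_ne_zero (neg_ne_zero.2 hb) hd) hc)]
      congr 1; field_simp
    rw [e1, mul_assoc, ← mul_assoc (refl Q (u - (-Q b) • w)), refl_mul_self, one_mul]
    refine refl_mul_refl_mem_Om' hN h5 (s := s / (Q b * Q d))
      (div_ne_zero hs (mul_ne_zero hb hd)) ?_
    rw [hQ, hQ, div_mul_div_comm, ← h]; field_simp
  have hN' : ∀ {x x' y : V ≃ₗ[F] V}, x' ∈ OG Q → x * x' ∈ Om Q → x'⁻¹ = x' → ∀ {y' : V ≃ₗ[F] V},
      y * y'⁻¹ ∈ Om Q → x * y * (x' * y')⁻¹ ∈ Om Q := fun {x x' y} hx' h1 h2 {y'} h3 => by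
    have := (Om Q).mul_mem h1 (Om_conj hx' h3)
    convert this using 1
    have h4 : x' * x' = 1 := by nth_rewrite 1 [← h2]; exact inv_mul_cancel _
    calc x * y * (x' * y')⁻¹ = x * (x' * x') * y * y'⁻¹ * x'⁻¹ := by rw [h4]; group
      _ = _ := by group
  have h0 : refl Q d * (refl Q (u - (-Q d) • w))⁻¹ ∈ Om Q := by rw [refl_inv]; exact e d hd
  have h1 := hN' (refl_mem_OG _) (e c hc) (refl_inv _) h0
  have h2 := hN' (refl_mem_OG _) (e b hb) (refl_inv _) h1
  have h3 := hN' (refl_mem_OG _) (e a ha) (refl_inv _) h2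
  have := (Om Q).mul_mem h3 hT
  convert this using 1; group

end Tor

end Cfsg.Agent.H8
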