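import Cfsg.Agent.H4.Fr3
import Cfsg.Agent.H8.Cls

/-! Reflections in overgroups of the monomial group, in dimension at least five
(adapted from the files `H4/Fr2`, `H4/Fr3`, which assume dimension at least seven). -/

set_option autoImplicit false
set_option linter.unusedSectionVars false

namespace Cfsg.Agent.H8.Fr

open QuadraticMap Module Finset Cfsg.Agent.H4 Cfsg.Agent.H4.Fr Cfsg.Agent.H4.Mob Cfsg.Agent.H4.MobCard
  Cfsg.Agent.H4.Bar Cfsg.Agent.H4.Pair Cfsg.Agent.H4.Dick Cfsg.Agent.H4.Quat Cfsg.Agent.H4.Max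

theorem Om_le_of_unit {F V : Type*} [Field F] [AddCommGroup V] [Module F V] [Finite F]
    [FiniteDimensional F V] {Q : QuadraticForm F V} (hN : ND Q) (h5 : 5 ≤ finrank F V) (h2 : (2 : F) ≠ 0)
    {c : F} (hc : c ≠ 0) {K : Subgroup (V ≃ₗ[F] V)} (h : ∀ a, Q a = c → refl Q a ∈ K) : Om Q ≤ K := by
  refine Om_le_of_siegel hN h5 fun u v hu huv => ?_
  by_cases hu0 : u = 0
  · rw [hu0, show siegel Q 0 v = 1 from LinearEquiv.ext fun x => by
      rw [siegel_apply (by simp) (by simp)]; simp]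
    exact K.one_mem
  have key : ∀ y, polar Q u y = 0 → Q y = c → y ∈ MS Q K u := fun y h1 h3 =>
    MS_of_rel hu h1 (h3 ▸ hc) fun κ => K.mul_mem (h y h3) (h _ (by
      rw [Q_add, Q_smul, hu, pol_smul_right, pol_comm, h1, h3]; ring))
  obtain ⟨w, -, hw, huw⟩ := hN.ndOn_top.exists_partner Submodule.mem_top hu0 hu
  have hP := (ndOn_pair hu hw (huw ▸ one_ne_zero)).perp hN
  have hd := hN.finrank_perp (sp F [u, w])
  have hd' := finrank_sp_le (F := F) [u, w]
  simp only [List.length_cons, List.length_nil] at hd'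
  obtain ⟨s, hs, s', hs', h1, h3, h4⟩ := hP.exists_hyp (by omega)
  have hu' : ∀ y ∈ perp Q (sp F [u, w]), polar Q u y = 0 := fun y hy => mem_perp_sp.1 hy u (by simp)
  have k2 : ∀ z ∈ perp Q (sp F [u, w]), polar Q s z = 0 → polar Q s' z = 0 →
      s + (c - Q z) • s' + z ∈ MS Q K u := fun z hz h6 h7 => key _ (hu' _ (by
        exact add_mem (add_mem hs (Submodule.smul_mem _ _ hs')) hz)) (by
      simp only [Q_add, Q_smul, polar_add_left, pol_smul_left, pol_smul_right, h1, h3, h4, h6, h7]; ring)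
  have k3 : ∀ z ∈ perp Q (sp F [u, w]), polar Q s z = 0 → polar Q s' z = 0 → z ∈ MS Q K u :=
    fun z hz h6 h7 => by
      have := Submodule.smul_mem _ (2 : F)⁻¹ (sub_mem (k2 z hz h6 h7) (k2 (-z) (neg_mem hz)
        (by simp [h6]) (by simp [h7])))
      convert this using 1
      rw [Q_neg]
      match_scalars <;> field_simp <;> ring
  have hH := (ndOn_pair h1 h3 (h4 ▸ one_ne_zero))
  obtain ⟨z, hz, hz0⟩ := (hP.inf_perp_nd (T := sp F [s, s']) (sp_le.2 (by simp [hs, hs'])) hH).exists_nonsing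
    hN le_rfl (by
      have := hP.finrank_inf_perp hN (T := sp F [s, s']) (sp_le.2 (by simp [hs, hs']))
      have := finrank_sp_le (F := F) [s, s']
      simp only [List.length_cons, List.length_nil] at this
      omega)
  have hz1 := mem_perp_sp.1 hz.2 s (by simp)
  have hz2 := mem_perp_sp.1 hz.2 s' (by simp)
  have k0 := k2 0 (zero_mem _) (by simp) (by simp)
  have k4 : s' ∈ MS Q K u := by
    have := Submodule.smul_mem _ (Q z)⁻¹ (sub_mem (add_mem k0 (k3 z hz.1 hz1 hz2)) (k2 z hz.1 hz1 hz2))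
    convert this using 1
    simp only [map_zero]
    match_scalars <;> field_simp <;> ring
  have k5 : s ∈ MS Q K u := by simpa using sub_mem k0 (Submodule.smul_mem _ c k4)
  refine MS_siegel ?_
  have h6 : v - polar Q v w • u ∈ perp Q (sp F [u, w]) := mem_perp_sp.2 (by
    simp [pol_smul_right, pol_self, hu, huv, pol_comm Q w, huw])
  generalize hy : v - polar Q v w • u = y at h6
  have := add_mem (add_mem (add_mem (k3 (y - polar Q y s' • s - polar Q y s • s')
    (sub_mem (sub_mem h6 (Submodule.smul_mem _ _ hs)) (Submodule.smul_mem _ _ hs'))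
    (by simp [pol_smul_right, pol_self, h1, h4, pol_comm Q y])
    (by
      rw [polar_sub_right, polar_sub_right, pol_smul_right, pol_smul_right, pol_self, h3, pol_comm Q s' s,
        h4, pol_comm Q s' y]; ring))
    (Submodule.smul_mem _ (polar Q y s') k5)) (Submodule.smul_mem _ (polar Q y s) k4))
    (Submodule.smul_mem _ (polar Q v w) (self_mem_MS hu))
  convert this using 1
  rw [← hy]; module

variable {ι : Type*} [Fintype ι] [DecidableEq ι] {F : Type*} [Field F] [Finite F]

/-- a group of isometries containing all sign changes and even permutations -/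
structure A5 (K : Subgroup ((ι → F) ≃ₗ[F] (ι → F))) : Prop where
  two : (2 : F) ≠ 0
  nat : ∀ t : F, ∃ n : ℕ, (n : F) = t
  five : 5 ≤ Fintype.card ι
  le : K ≤ OG Q0
  sg1 : ∀ i, sg {i} ∈ K
  pm : ∀ σ, Equiv.Perm.sign σ = 1 → pm σ ∈ K

variable {K : Subgroup ((ι → F) ≃ₗ[F] (ι → F))}

namespace A5

variable (h : A5 K)
include h

theorem sg (S : Finset ι) : sg S ∈ K := by
  induction S using Finset.induction_on with
  | empty => exact sg_empty (ι := ι) (F := F) ▸ K.one_mem
  | insert i S hi ih => exact sg_insert (F := F) hi ▸ K.mul_mem (h.sg1 i) ih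

theorem map {v : ι → F} (hv : X K v) {g : (ι → F) ≃ₗ[F] (ι → F)} (hg : g ∈ K) : X K (g v) :=
  ⟨by rw [OG_dot h.two (h.le hg)]; exact hv.1, by
    rw [rf, ← refl_conj (h.le hg)]; exact K.mul_mem (K.mul_mem hg hv.2) (K.inv_mem hg)⟩

theorem xe (i : ι) : X K (e i) := ⟨by simp, rf_e (F := F) i ▸ h.sg1 i⟩

theorem of_sq {x y : ι → F} (hx : X K x) (hy : ∀ l, y l * y l = x l * x l) : X K y := by
  classical
  convert h.map hx (h.sg (univ.filter fun l => y l ≠ x l))
  funext l
  rcases mul_self_eq_mul_self_iff.1 (hy l) with e | e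
  · simp [sg_apply, e]
  · by_cases h1 : y l = x l
    · simp [sg_apply, h1]
    · simpa [sg_apply, h1] using e

theorem perm_of_sq {x : ι → F} (hx : X K x) {i j : ι} (hij : i ≠ j) (hs : x i * x i = x j * x j)
    (σ : Equiv.Perm ι) : X K (H4.Fr.pm σ x) := by
  rcases exists_even hij σ with e | e
  · exact h.map hx (h.pm _ e)
  · refine h.of_sq (h.map hx (h.pm _ e)) fun l => ?_
    rw [map_mul, LinearEquiv.mul_apply, pm_apply, pm_apply, pm_apply, Equiv.symm_swap,
      Equiv.swap_apply_def]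
    split_ifs with h1 h2
    · rw [h1, hs]
    · rw [h2, hs]
    · rfl

theorem perm {x : ι → F} (hx : X K x) (h5 : #(supp x) ≤ 3) (σ : Equiv.Perm ι) :
    X K (H4.Fr.pm σ x) := by
  have := h.five
  obtain ⟨i, hi⟩ := H4.Fr.exists_not_mem (S := supp x) (by omega)
  obtain ⟨j, hj⟩ := H4.Fr.exists_not_mem (S := insert i (supp x)) (by rw [card_insert_of_notMem hi]; omega)
  simp only [mem_supp, mem_insert, not_or, not_not] at hi hj
  exact h.perm_of_sq hx hj.1 (by rw [hi, hj.2]) σ

theorem sing {v : ι → F} (hv : X K v) (S : Finset ι) (ha : res S v ⬝ᵥ res S v = 0) (t : F) :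
    X K (t • res S v + res Sᶜ v) := by
  have h0 := res_dot_res S v v
  have h1 := res_add_res S v
  have hN : res Sᶜ v ⬝ᵥ res Sᶜ v = v ⬝ᵥ v := by
    conv_rhs => rw [← h1]
    simp [ha, h0, dotProduct_comm (res Sᶜ v) (res S v)]
  have key : ∀ n : ℕ, X K ((1 + 2 * n : F) • res S v + res Sᶜ v) := by
    intro n
    induction n with
    | zero => simpa [h1] using hv
    | succ n ih =>
      have h2 : H4.Fr.sg S ((1 + 2 * n : F) • res S v + res Sᶜ v) = -(1 + 2 * n : F) • res S v + res Sᶜ v := by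
        funext l; by_cases hl : l ∈ S <;> simp [sg_apply, res, hl]; ring
      convert (h.map (h.map ih (h.sg S)) hv.2).neg using 1
      have h3 : (-(1 + 2 * n : F) • res S v + res Sᶜ v) ⬝ᵥ v = v ⬝ᵥ v := by
        conv_lhs => enter [2]; rw [← h1]
        simp only [add_dotProduct, dotProduct_add, smul_dotProduct, ha, h0, hN,
          dotProduct_comm (res Sᶜ v) (res S v)]; simp
      rw [h2, rf_apply, h3, mul_div_assoc, div_self hv.1]
      conv_rhs => enter [1, 2, 2]; rw [← h1]
      push_cast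
      module
  obtain ⟨n, hn⟩ := h.nat ((t - 1) / 2)
  convert key n
  rw [hn]; field_simp [h.two]; ring

theorem sing_e {v : ι → F} (hv : X K v) (S : Finset ι) (ha : res S v ⬝ᵥ res S v = 0) {j : ι}
    (hj : j ∉ S) (hj' : v j ≠ 0) (t : F) : X K (e j + t • res S v) := by
  have h0 := res_dot_res S v v
  have hb : X K (res Sᶜ v) := by simpa using h.sing hv S ha 0
  set N := res Sᶜ v ⬝ᵥ res Sᶜ v with hN
  have hN0 : N ≠ 0 := hb.1
  have h2 := h.two
  convert h.map (h.map (h.xe j) hb.2) (h.sing hv S ha (t * N / (2 * v j))).2 using 1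
  have h3 : res Sᶜ v j = v j := res_mem _ (by simpa using hj)
  have h4 : res S v j = 0 := res_not _ hj
  simp only [rf_apply, add_dotProduct, dotProduct_add, smul_dotProduct, dotProduct_smul, ha, h0,
    sub_dotProduct, dotProduct_comm (res Sᶜ v) (res S v), e_dot, h3, h4, ← hN, smul_eq_mul]
  match_scalars <;> field_simp <;> ring

theorem dih {v : ι → F} (hv : X K v) (S : Finset ι) (ha : res S v ⬝ᵥ res S v ≠ 0)
    (hb : res Sᶜ v ⬝ᵥ res Sᶜ v ≠ 0) :
    X K (res S v) ∨ X K (res Sᶜ v) ∨ rf (res S v) * rf (res Sᶜ v) ∈ K := by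
  have h0 := res_dot_res S v v
  have h1 := res_add_res S v
  have h2 := h.two
  have hsa : H4.Fr.sg S (res S v) = -res S v := by
    funext l; by_cases hl : l ∈ S <;> simp [sg_apply, res, hl]
  have hsb : H4.Fr.sg S (res Sᶜ v) = res Sᶜ v := by
    funext l; by_cases hl : l ∈ S <;> simp [sg_apply, res, hl]
  generalize res S v = a at *
  generalize res Sᶜ v = b at *
  subst h1
  have h0' : b ⬝ᵥ a = 0 := by rwa [dotProduct_comm]
  have neg : ∀ u : ι → F, u ⬝ᵥ u ≠ 0 → rf u u = -u := fun u hu => by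
    rw [rf_apply, mul_div_assoc, div_self hu]; module
  obtain ⟨d, hd⟩ : ∃ d : (ι → F) ≃ₗ[F] (ι → F), d = rf a * H4.Fr.sg S := ⟨_, rfl⟩
  obtain ⟨t, ht⟩ : ∃ t : (ι → F) ≃ₗ[F] (ι → F), t = rf (a + b) * rf a := ⟨_, rfl⟩
  have hdO : d ∈ OG Q0 := hd ▸ (OG Q0).mul_mem (refl_mem_OG a) (sg_mem_OG S)
  have hda : d a = a := by rw [hd, LinearEquiv.mul_apply, hsa, map_neg, neg a ha, neg_neg]
  have hdb : d b = b := by rw [hd, LinearEquiv.mul_apply, hsb, rf_perp h0']
  have c1 : Commute d (rf a) := mul_inv_eq_iff_eq_mul.1 (by rw [refl_conj hdO, hda])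
  have c2 : Commute d (rf (a + b)) := mul_inv_eq_iff_eq_mul.1 (by rw [refl_conj hdO, map_add, hda, hdb])
  have haa : rf a * rf a = 1 := refl_mul_self a
  have hvv : rf (a + b) * rf (a + b) = 1 := refl_mul_self _
  have hsd : H4.Fr.sg S = rf a * d := by rw [hd, ← mul_assoc, haa, one_mul]
  have dd : d * d = 1 := by
    have := sg_mul_self (F := F) S
    rwa [hsd, mul_assoc, ← mul_assoc d, c1.eq, mul_assoc, ← mul_assoc, haa, one_mul] at this
  have hK : ∀ k : ℕ, t ^ k * d ^ k ∈ K := fun k => by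
    rw [ht, ← (c2.mul_right c1).symm.mul_pow, mul_assoc, ← hsd]
    exact K.pow_mem (K.mul_mem hv.2 (h.sg S)) k
  have dp : ∀ k : ℕ, d ^ (2 * k) = 1 := fun k => by rw [pow_mul, pow_two, dd, one_pow]
  rcases Nat.even_or_odd' (orderOf t) with ⟨k, hk | hk⟩
  swap
  · have := hK (orderOf t)
    rw [pow_orderOf_eq_one, one_mul, hk, pow_succ, dp, one_mul] at this
    refine Or.inl ⟨ha, ?_⟩
    simpa [hd, mul_assoc, sg_mul_self] using K.mul_mem this (h.sg S)
  have hpos := orderOf_pos t
  obtain ⟨s, hs⟩ : ∃ s, s = t ^ k := ⟨_, rfl⟩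
  have s1 : s ≠ 1 := hs ▸ pow_ne_one_of_lt_orderOf (by omega) (by omega)
  have ss : s⁻¹ = s := inv_eq_of_mul_eq_one_right (by
    rw [hs, ← pow_add, ← two_mul, ← hk, pow_orderOf_eq_one])
  have key : ∀ u : ι → F, u ⬝ᵥ u ≠ 0 → rf u * t * (rf u)⁻¹ = t⁻¹ → ∃ c : F, s u = c • u := by
    intro u hu e
    have e1 : rf u * s * (rf u)⁻¹ = s := by rw [hs, ← conj_pow, e, inv_pow, ← hs, ss]
    have e2 : rf u (s u) = s (rf u u) := congrArg (fun g : (ι → F) ≃ₗ[F] (ι → F) => g u)
      (mul_inv_eq_iff_eq_mul.1 e1)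
    rw [neg u hu, map_neg, rf_apply] at e2
    refine ⟨s u ⬝ᵥ u / u ⬝ᵥ u, smul_right_injective _ h2 ?_⟩
    linear_combination (norm := skip) e2
    match_scalars <;> ring
  obtain ⟨c, hc⟩ := key a ha (by simp only [ht, mul_inv_rev, refl_inv, mul_assoc, haa, mul_one])
  obtain ⟨c', hc'⟩ := key (a + b) hv.1 (by
    simp only [ht, mul_inv_rev, refl_inv]; rw [← mul_assoc, hvv, one_mul])
  have hsO : s ∈ OG Q0 := by
    rw [hs, ht]; exact pow_mem (mul_mem (refl_mem_OG _) (refl_mem_OG a)) k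
  have hsb' : s b = (c' - c) • a + c' • b := by
    rw [map_add, hc] at hc'; linear_combination (norm := module) hc'
  have e1 := OG_dot h2 hsO a a
  have e2 := OG_dot h2 hsO a b
  simp only [hc, hsb', smul_dotProduct, dotProduct_smul, dotProduct_add, h0, smul_eq_mul] at e1 e2
  have hcc : c * c = 1 := mul_right_cancel₀ ha (by linear_combination e1)
  have hc0 : c' = c := mul_right_cancel₀ ha (by linear_combination c * e2 - (c' - c) * (a ⬝ᵥ a) * hcc)
  rw [hc0, sub_self, zero_smul, zero_add] at hsb'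
  have hfix : ∀ x, x ⬝ᵥ a = 0 → x ⬝ᵥ b = 0 → s x = x := fun x h3 h4 => by
    have : t x = x := by
      rw [ht, LinearEquiv.mul_apply, rf_perp h3, rf_perp (by simp [h3, h4])]
    rw [hs]
    exact (MulAction.stabilizer ((ι → F) ≃ₗ[F] (ι → F)) x).pow_mem this k
  have hall : ∀ x, s x = x + (c - 1) • ((x ⬝ᵥ a / a ⬝ᵥ a) • a + (x ⬝ᵥ b / b ⬝ᵥ b) • b) := fun x => by
    have := hfix (x - ((x ⬝ᵥ a / a ⬝ᵥ a) • a + (x ⬝ᵥ b / b ⬝ᵥ b) • b)) (by simp [h0', ha])
      (by simp [h0, hb])
    rw [map_sub, map_add, map_smul, map_smul, hc, hsb'] at this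
    linear_combination (norm := module) this
  rcases mul_self_eq_one_iff.1 hcc with rfl | rfl
  · exact absurd (LinearEquiv.ext fun x => by simpa using hall x) s1
  have hsab : s = rf a * rf b := LinearEquiv.ext fun x => by
    rw [hall, LinearEquiv.mul_apply, rf_apply, rf_apply]
    simp only [sub_dotProduct, smul_dotProduct, h0', smul_eq_mul]
    match_scalars <;> ring
  have := hK k
  rw [← hs, hsab] at this
  rcases Nat.even_or_odd' k with ⟨m, rfl | rfl⟩
  · rw [dp, mul_one] at this; exact Or.inr (Or.inr this)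
  · rw [pow_succ, dp, one_mul, hd, ← mul_assoc, K.mul_mem_cancel_right (h.sg S)] at this
    refine Or.inr (Or.inl ⟨hb, ?_⟩)
    have e := refl_conj (refl_mem_OG (Q := Q0) a) b
    rw [refl_inv, show refl Q0 a b = b from rf_perp h0'] at e
    rwa [e] at this

theorem exists_big (hK : ¬ K ≤ Mon) : ∃ v, X K v ∧ 3 ≤ #(supp v) := by
  by_contra h1
  have h1 : ∀ v, X K v → #(supp v) ≤ 2 := fun v hv => by
    by_contra e; exact h1 ⟨v, hv, by omega⟩
  obtain ⟨g, hg, hgM⟩ := SetLike.not_le_iff_exists.1 hK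
  have h3 := mt mem_Mon hgM
  push Not at h3
  obtain ⟨i, a, b, ha, hb, hab⟩ := h3
  have hf := h.map (h.xe i) hg
  have h4 : ∀ c, c ≠ a → c ≠ b → g (e i) c = 0 := fun c h5 h6 => by
    by_contra hc
    have := (card_le_card (show {c, a, b} ⊆ supp (g (e i)) by
      simp [insert_subset_iff, ha, hb, hc])).trans (h1 _ hf)
    rw [card_eq_three.2 ⟨c, a, b, h5, h6, hab, rfl⟩] at this
    omega
  have := h.five
  obtain ⟨k, hk⟩ := H4.Fr.exists_not_mem (S := supp (g⁻¹ (e a)) ∪ supp (g⁻¹ (e b))) (by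
    have := card_union_le (supp (g⁻¹ (e a))) (supp (g⁻¹ (e b)))
    have := h1 _ (h.map (h.xe a) (K.inv_mem hg))
    have := h1 _ (h.map (h.xe b) (K.inv_mem hg))
    omega)
  simp only [mem_union, mem_supp, not_or, not_not, inv_e h.two (h.le hg)] at hk
  have hik : i ≠ k := by rintro rfl; exact ha hk.1
  obtain ⟨σ, hσ⟩ := Equiv.Perm.exists_extending_pair ![a, b] ![i, k]
    (injective_pair_iff_ne.2 hab) (injective_pair_iff_ne.2 hik)
  have h5 : g (e i) = g (e i) a • e a + g (e i) b • e b := by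
    funext l
    by_cases h6 : l = a
    · simp [h6, e_ne hab]
    by_cases h7 : l = b
    · simp [h7, e_ne hab.symm]
    · simp [h4 l h6 h7, e_ne h6, e_ne h7]
  have h6 := h.map (h.perm hf ((h1 _ hf).trans (by omega)) σ) hg
  rw [h5, map_add, map_smul, map_smul, pm_e, pm_e, show σ a = i from hσ 0, show σ b = k from hσ 1,
    map_add, map_smul, map_smul] at h6
  obtain ⟨c, hc⟩ := map_e_ne g k
  have hca : c ≠ a := by rintro rfl; exact hc hk.1
  have hcb : c ≠ b := by rintro rfl; exact hc hk.2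
  have := (card_le_card (show {c, a, b} ⊆ supp _ by
    simp [insert_subset_iff, ha, hb, hc, h4 c hca hcb, hk.1, hk.2])).trans (h1 _ h6)
  rw [card_eq_three.2 ⟨c, a, b, hca, hcb, hab, rfl⟩] at this
  omega

end A5

namespace A5

variable (h : A5 K) (h3 : H3 K) (p3 : (3 : F) ≠ 0)
include h h3

theorem L0 {a b : ι → F} (ha : a ⬝ᵥ a ≠ 0) (hc : #(supp a) = 3) (hb : ∀ l, a l ≠ 0 → b l = 0) :
    rf a * rf b ∉ K := fun hK => by
  have h2 := h.two
  have key : ∀ i, a i ≠ 0 → a i * a i = a ⬝ᵥ a / 2 := fun i hi => by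
    have h4 := h.map (h.xe i) hK
    rw [LinearEquiv.mul_apply, rf_perp (u := b) (by simp [hb i hi]), rf_apply, e_dot] at h4
    by_contra h5
    have h6 : supp (e i - (2 * a i / a ⬝ᵥ a) • a) = supp a := by
      ext l
      by_cases hl : l = i
      · subst hl
        simp only [mem_supp, Pi.sub_apply, e_self, Pi.smul_apply, smul_eq_mul, ne_eq, hi,
          not_false_eq_true, iff_true]
        exact fun e => h5 (by field_simp at e ⊢; linear_combination -e)
      · simp [e_ne hl, h2, hi, ha]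
    have := (h3 _ h4 (by rw [h6, hc])).1
    rw [h6] at this; omega
  have := dot_const key
  rw [hc] at this
  field_simp at this; push_cast at this
  exact one_ne_zero (α := F) (by linear_combination -this)

include p3

theorem L1 {v : ι → F} (hv : X K v) {S : Finset ι} (hS : #(supp (res S v)) ≤ 3) (h0 : res S v ≠ 0) :
    res S v ⬝ᵥ res S v ≠ 0 := fun ha => by
  have h2 := h.two
  obtain ⟨j, hj, hj'⟩ : ∃ j, j ∉ S ∧ v j ≠ 0 := by
    by_contra e
    push Not at e
    refine hv.1 ?_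
    rwa [show res S v = v from funext fun l => by by_cases hl : l ∈ S <;> simp [res, hl, e]] at ha
  have hX := h.sing_e hv S ha hj hj'
  have haj : res S v j = 0 := res_not _ hj
  generalize res S v = a at *
  obtain ⟨l, hl⟩ := Function.ne_iff.1 h0
  have hl : a l ≠ 0 := hl
  have hne : ∀ l, a l ≠ 0 → l ≠ j := by rintro l hl rfl; exact hl haj
  have hc : #(supp a) = 3 := by
    by_contra e
    have key : ∀ t : F, t ≠ 0 → t * a l * (t * a l) = 1 := fun t ht => by
      have := (h3 _ (hX t) ((card_le_card (show _ ⊆ insert j (supp a) from fun m hm => by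
        by_cases hmj : m = j
        · simp [hmj]
        · simpa [e_ne hmj, hmj, ht] using hm)).trans ((card_insert_le _ _).trans (by omega)))).2 l j
        (by simp [e_ne (hne l hl), ht, hl]) (by simp [haj])
      simpa [e_ne (hne l hl), haj] using this
    exact p3 (by linear_combination key 2 h2 - 4 * key 1 one_ne_zero)
  have key : ∀ m, a m ≠ 0 → a m * a m = a l * a l := fun m hm => by
    obtain ⟨k, hk, hk'⟩ := exists_mem_notMem_of_card_lt_card (s := {m, l}) (t := supp a)
      (card_le_two.trans_lt (by omega))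
    simp only [mem_supp, mem_insert, mem_singleton, not_or] at hk hk'
    have h4 := h.map (h.map (hX (1 / (4 * a k))) (h.sg1 k)) (hX (1 / a k)).2
    have h5 : a ⬝ᵥ H4.Fr.sg {k} a = -2 * (a k * a k) := by
      rw [← rf_e, rf_apply]; simp [ha]; ring
    have h6 : rf (e j + (1 / a k) • a) (H4.Fr.sg {k} (e j + (1 / (4 * a k)) • a)) =
        (1 / (4 * a k)) • H4.Fr.sg {k} a - (1 / a k) • a := by
      rw [map_add, map_smul, sg_e, if_neg (by simpa using (hne k hk).symm), rf_apply]
      have : H4.Fr.sg {k} a j = 0 := by simp [sg_apply, haj]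
      simp only [add_dotProduct, dotProduct_add, smul_dotProduct, dotProduct_smul, ha, e_dot, dot_e,
        dotProduct_comm (H4.Fr.sg {k} a) a, h5, haj, this, e_self, smul_eq_mul, Pi.add_apply,
        Pi.smul_apply]
      have h4 : (4 : F) ≠ 0 := by rw [show (4 : F) = 2 * 2 by norm_num]; exact mul_ne_zero h2 h2
      match_scalars <;> field_simp <;> ring
    rw [h6] at h4
    have h7 : ∀ n, n ≠ k → ((1 / (4 * a k)) • H4.Fr.sg {k} a - (1 / a k) • a) n = -3 / (4 * a k) * a n :=
      fun n hn => by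
        have h4 : (4 : F) ≠ 0 := by rw [show (4 : F) = 2 * 2 by norm_num]; exact mul_ne_zero h2 h2
        simp [sg_apply, hn]; field_simp; ring
    have h8 : -3 / (4 * a k) ≠ 0 := by
      rw [show (4 : F) = 2 * 2 by norm_num]; simp [p3, h2, hk]
    have := (h3 _ h4 ((card_le_card (show _ ⊆ supp a from fun n hn => by
      by_contra e
      rw [mem_supp, not_not] at e
      simp [sg_apply, e] at hn)).trans hS)).2 m l (by rw [h7 m (Ne.symm hk'.1)]; exact mul_ne_zero h8 hm)
      (by rw [h7 l (Ne.symm hk'.2)]; exact mul_ne_zero h8 hl)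
    rw [h7 m (Ne.symm hk'.1), h7 l (Ne.symm hk'.2)] at this
    exact mul_left_cancel₀ (mul_ne_zero h8 h8) (by linear_combination this)
  rw [dot_const key, hc] at ha
  simp [p3, hl] at ha

theorem L2 {v : ι → F} (hv : X K v) {S : Finset ι} (hS : S ⊆ supp v) (hc : #S = 3) :
    X K (res Sᶜ v) := by
  have h1 : supp (res S v) = S := by rw [supp_res, inter_eq_right.2 hS]
  have h4 : ¬ X K (res S v) := fun e => by have := (h3 _ e (by rw [h1, hc])).1; rw [h1] at this; omega
  have ha := h.L1 h3 p3 hv (S := S) (by rw [h1, hc]) fun e => by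
    rw [e] at h1
    obtain ⟨l, hl⟩ := card_pos.1 (hc ▸ three_pos)
    simp [← h1] at hl
  by_cases hb : res Sᶜ v ⬝ᵥ res Sᶜ v = 0
  · exact absurd (by simpa using h.sing hv Sᶜ hb 0) h4
  refine ((h.dih hv S ha hb).resolve_left h4).resolve_right (h.L0 h3 ha (by rw [h1, hc]) ?_)
  exact fun l hl => res_not _ (by rw [mem_compl, not_not, ← h1]; exact mem_supp.2 hl)

theorem L5 {v : ι → F} (hv : X K v) : #(supp v) ≠ 5 := fun h5 => by
  have h2 := h.two
  have key : ∀ v, X K v → #(supp v) = 5 → ∀ a b, v a ≠ 0 → v b ≠ 0 → a ≠ b →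
      X K (res {a, b} v) ∧ v a * v a = v b * v b := fun v hv h5 a b ha hb hab => by
    have h6 : {a, b} ⊆ supp v := by simp [insert_subset_iff, ha, hb]
    have h7 := h.L2 h3 p3 hv (S := supp v \ {a, b}) sdiff_subset (by
      rw [card_sdiff_of_subset h6, card_pair hab, h5])
    rw [show res (supp v \ {a, b})ᶜ v = res {a, b} v from funext fun l => by
      by_cases hl : l ∈ ({a, b} : Finset ι) <;> by_cases hl' : v l = 0 <;> simp [res, hl, hl']] at h7
    refine ⟨h7, ?_⟩
    simpa [res] using (h3 _ h7 (by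
      rw [supp_res]; exact (card_le_card inter_subset_right).trans (card_le_two.trans (by omega)))).2
      a b (by simpa [res]) (by simpa [res])
  obtain ⟨a, ha, b, hb, c, hc, hab, hac, hbc⟩ := two_lt_card.1 (show 2 < #(supp v) by omega)
  rw [mem_supp] at ha hb hc
  have h6 : ∀ l, v l ≠ 0 → v l * v l = v a * v a := fun l hl => by
    by_cases e : l = a
    · rw [e]
    · exact (key v hv h5 l a hl ha e).2
  have h7 := dot_const h6
  rw [h5] at h7
  have p5 : (5 : F) ≠ 0 := fun e => hv.1 (by rw [h7]; simp [e])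
  have h8 := h.map (key v hv h5 a b ha hb hab).1 hv.2
  have h9 : res {a, b} v ⬝ᵥ v = 2 * (v a * v a) := by
    rw [dot_eq_sum (S := {a, b}) (by rw [supp_res]; exact inter_subset_right), sum_pair hab]
    simp [res, h6 b hb]; ring
  have h10 : ∀ l, rf v (res {a, b} v) l = (if l ∈ ({a, b} : Finset ι) then 1 else -4) / 5 * v l := by
    intro l
    rw [rf_apply, h9, h7]
    by_cases hl : l ∈ ({a, b} : Finset ι) <;> simp only [res, hl, Pi.sub_apply, Pi.smul_apply,
      smul_eq_mul, if_true, if_false] <;> push_cast <;> field_simp <;> ring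
  have h4 : (4 : F) ≠ 0 := by rw [show (4 : F) = 2 * 2 by norm_num]; exact mul_ne_zero h2 h2
  have h11 : supp (rf v (res {a, b} v)) = supp v := by
    ext l; rw [mem_supp, mem_supp, h10]; split_ifs <;> simp [p5, h4]
  have := (key _ h8 (h11 ▸ h5) a c (mem_supp.1 (h11 ▸ mem_supp.2 ha))
    (mem_supp.1 (h11 ▸ mem_supp.2 hc)) hac).2
  rw [h10, h10, if_pos (by simp), if_neg (by simp [hac.symm, hbc.symm])] at this
  have h12 := h6 c hc
  field_simp at this
  exact mul_ne_zero (mul_ne_zero p3 p5) (mul_ne_zero ha ha) (by linear_combination -this - 16 * h12)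

theorem perm_four {v : ι → F} (hv : X K v) (h4 : #(supp v) = 4) (σ : Equiv.Perm ι) :
    X K (H4.Fr.pm σ v) := by
  have h2 := h.two
  obtain ⟨a, ha, b, hb, hab⟩ := one_lt_card.1 (show 1 < #(supp v) by omega)
  by_cases hs : v a * v a = v b * v b
  · exact h.perm_of_sq hv hab hs σ
  have hS : ({a, b} : Finset ι) ⊆ supp v := by simp [insert_subset_iff, mem_supp.1 ha, mem_supp.1 hb]
  have h5 : supp (res {a, b} v) = {a, b} := by rw [supp_res, inter_eq_right.2 hS]
  have h6 : #(supp (res {a, b}ᶜ v)) = 2 := by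
    rw [supp_res, ← sdiff_eq_inter_compl, card_sdiff_of_subset hS, h4, card_pair hab]
  have hne : ∀ w : ι → F, #(supp w) = 2 → w ≠ 0 := fun w hw e => by
    rw [e, show supp (0 : ι → F) = ∅ by ext; simp] at hw; simp at hw
  have h7 := h.L1 h3 p3 hv (S := {a, b}) (by rw [h5, card_pair hab]; omega)
    (hne _ (by rw [h5, card_pair hab]))
  have h8 := h.L1 h3 p3 hv (S := {a, b}ᶜ) (by omega) (hne _ h6)
  obtain ⟨w, hw, hw2⟩ : ∃ w, X K w ∧ #(supp w) = 2 := by
    rcases h.dih hv {a, b} h7 h8 with e1 | e1 | e1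
    · exact ⟨_, e1, by rw [h5, card_pair hab]⟩
    · exact ⟨_, e1, h6⟩
    · refine ⟨_, h.map (h.xe a) e1, ?_⟩
      have h9 : res {a, b} v ⬝ᵥ res {a, b} v = v a * v a + v b * v b := by
        rw [dot_eq_sum h5.le, sum_pair hab]; simp [res]
      rw [← card_pair hab]
      congr 1
      ext l
      rw [LinearEquiv.mul_apply, rf_perp (u := res {a, b}ᶜ v) (by simp [res]), rf_apply, mem_supp, e_dot,
        res_mem v (by simp), h9]
      rw [h9] at h7
      by_cases hl : l = a
      · subst hl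
        simp only [Pi.sub_apply, e_self, Pi.smul_apply, smul_eq_mul, res_mem v (mem_insert_self l {b}),
          mem_insert_self, iff_true]
        exact fun e1 => hs (by
          rw [div_mul_eq_mul_div, sub_eq_zero, eq_div_iff h7] at e1; linear_combination -e1)
      by_cases hl' : l = b
      · subst hl'
        simp [e_ne hl, res, h2, h7, mem_supp.1 ha, mem_supp.1 hb]
      · simp [e_ne hl, res, hl, hl']
  obtain ⟨i, j, hij, hw3⟩ := card_eq_two.1 hw2
  have hi : w i ≠ 0 := mem_supp.1 (hw3 ▸ by simp)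
  have hj : w j ≠ 0 := mem_supp.1 (hw3 ▸ by simp)
  have h9 : X K (w i • (e i - e j)) := h.of_sq hw fun l => by
    by_cases hl : l = i
    · simp [hl, e_ne hij]
    by_cases hl' : l = j
    · simp [hl', e_ne hij.symm, (h3 w hw (by omega)).2 i j hi hj]
    · simp [e_ne hl, e_ne hl', not_not.1 (mt mem_supp.2 (show l ∉ supp w by simp [hw3, hl, hl']))]
  have h10 : H4.Fr.pm (Equiv.swap i j) ∈ K := by
    have := h9.2
    rwa [rf, refl_smul hi, ← rf, ← pm_swap h2 hij] at this
  rcases exists_even hij σ with e1 | e1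
  · exact h.map hv (h.pm _ e1)
  · refine h.map hv ?_
    simpa [mul_assoc, ← map_mul] using K.mul_mem (h.pm _ e1) h10

theorem L4 {v : ι → F} (hv : X K v) : #(supp v) ≠ 4 := fun h4 => by
  have h2 := h.two
  have := h.five
  have hN := hv.1
  obtain ⟨l, hl⟩ := H4.Fr.exists_not_mem (S := supp v) (by omega)
  have hl' : v l = 0 := by simpa using hl
  have key : ∀ d, v d ≠ 0 → v d * v d = v ⬝ᵥ v / 2 := fun d hd => by
    have hdl : d ≠ l := by rintro rfl; exact hd hl'
    have h5 := h.perm_four h3 p3 hv h4 (Equiv.swap d l)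
    have h6 : H4.Fr.pm (Equiv.swap d l) v = v - v d • (e d - e l) := by
      rw [pm_swap h2 hdl, rf_apply]
      simp [hl', e_ne hdl, e_ne hdl.symm, one_add_one_eq_two, h2]
    have h7 : res {d}ᶜ v = v - v d • e d := by
      funext m; by_cases hm : m = d <;> simp [res, hm, e_ne]
    have h8 : supp (res {d}ᶜ v) = (supp v).erase d := by ext m; simp [supp_res, and_comm]
    have h9 := h.L1 h3 p3 hv (S := {d}ᶜ) (by rw [h8, card_erase_of_mem (mem_supp.2 hd), h4]) fun e => by
      have := card_erase_of_mem (mem_supp.2 hd)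
      rw [← h8, e, show supp (0 : ι → F) = ∅ by ext; simp, card_empty] at this
      omega
    by_contra h10
    refine h.L5 h3 p3 (h.map hv h5.2) ?_
    rw [← show #(insert l (supp v)) = 5 by rw [card_insert_of_notMem hl, h4]]
    congr 1
    ext m
    rw [mem_supp, rf_apply, OG_dot h2 (pm_mem_OG _), h6]
    rw [h7] at h9
    simp only [sub_dotProduct, dotProduct_sub, smul_dotProduct, dotProduct_smul, e_dot, dot_e, hl',
      e_self, smul_eq_mul, Pi.sub_apply, Pi.smul_apply, mem_insert, mem_supp] at h9 ⊢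
    have h11 : v ⬝ᵥ v - v d * v d ≠ 0 := fun e => h9 (by linear_combination e)
    by_cases hm : m = l
    · simp [hm, hl', e_ne hdl.symm, h2, h11, hd, hN]
    by_cases hm' : m = d
    · simp [hm', e_ne hdl, hd, hdl]
    · simp only [e_ne hm, e_ne hm', hm, false_or, sub_zero, mul_zero]
      rw [← one_sub_mul, mul_ne_zero_iff, and_iff_right]
      exact fun e => h10 (by field_simp at e ⊢; linear_combination e)
  have := dot_const key
  rw [h4] at this
  field_simp at this; push_cast at this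
  exact h2 (by linear_combination -this)

theorem small : ∀ v, X K v → #(supp v) ≤ 2 := by
  intro v
  induction hn : #(supp v) using Nat.strong_induction_on generalizing v with
  | _ n ih =>
    intro hv
    by_contra h1
    have h4 := h.L4 h3 p3 hv
    have h5 := h.L5 h3 p3 hv
    obtain ⟨S, hS, hc⟩ := exists_subset_card_eq (s := supp v) (n := 3) (by omega)
    have h6 : #(supp (res Sᶜ v)) = n - 3 := by
      rw [supp_res, ← sdiff_eq_inter_compl, card_sdiff_of_subset hS, hn, hc]
    have := ih _ (by omega) _ h6 (h.L2 h3 p3 hv hS hc)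
    have := (h3 v hv (by omega)).1
    omega

end A5

namespace A5
variable (h : A5 K)
include h

theorem three {i j k : ι} (hij : i ≠ j) (hik : i ≠ k) (hjk : j ≠ k) {v : ι → F} (hv : X K v)
    (hs : supp v ⊆ {i, j, k}) (hn : ¬ (v i * v j * v k = 0 ∧ (v i ≠ 0 → v j ≠ 0 → v i * v i = v j * v j) ∧
      (v i ≠ 0 → v k ≠ 0 → v i * v i = v k * v k) ∧ (v j ≠ 0 → v k ≠ 0 → v j * v j = v k * v k)))
    {w : ι → F} {x y z : F} (hw : w i * w i + w j * w j + w k * w k ≠ 0)
    (hw' : w i * w i + w j * w j + w k * w k = x * x + y * y + z * z) :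
    ∃ g ∈ K, #(supp (g w) \ {i, j, k}) = #(supp w \ {i, j, k}) ∧ g w i = x ∧ g w j = y ∧ g w k = z := by
  have h2 := h.two
  obtain ⟨a, b, hab, -⟩ := exists_ab (F := F)
  let R : PG F → ((ι → F) ≃ₗ[F] (ι → F)) → Prop := fun m g => ∀ w,
    #(supp (g w) \ {i, j, k}) = #(supp w \ {i, j, k}) ∧
    g w i * g w i + g w j * g w j + g w k * g w k = w i * w i + w j * w j + w k * w k ∧
    (w i * w i + w j * w j + w k * w k ≠ 0 →
      io hab (g w i) (g w j) (g w k) = m * io hab (w i) (w j) (w k) * m⁻¹)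
  have Rmul : ∀ m g m' g', R m g → R m' g' → R (m * m') (g * g') := fun m g m' g' h1 h3 w =>
    ⟨(h1 _).1.trans (h3 w).1, (h1 _).2.1.trans (h3 w).2.1, fun hw => by
      rw [LinearEquiv.mul_apply, (h1 _).2.2 ((h3 w).2.1 ▸ hw), (h3 w).2.2 hw]; group⟩
  let M : Subgroup (PG F) :=
    { carrier := {m | ∃ g ∈ K, R m g}
      mul_mem' := fun ⟨g, hg, h1⟩ ⟨g', hg', h3⟩ => ⟨_, K.mul_mem hg hg', Rmul _ _ _ _ h1 h3⟩
      one_mem' := ⟨1, K.one_mem, fun w => ⟨rfl, rfl, fun _ => by simp⟩⟩
      inv_mem' := fun ⟨g, hg, h1⟩ => ⟨_, K.inv_mem hg, fun w => by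
        have := h1 (g⁻¹ w)
        rw [apply_inv_apply] at this
        exact ⟨this.1.symm, this.2.1.symm, fun hw => by rw [this.2.2 (this.2.1 ▸ hw)]; group⟩⟩ }
  have hdot : ∀ u : ι → F, supp u ⊆ {i, j, k} → ∀ w : ι → F, w ⬝ᵥ u = w i * u i + w j * u j + w k * u k :=
    fun u hu w => by
      rw [dotProduct_comm, dot_eq_sum hu, sum_insert (by simp [hij, hik]), sum_pair hjk]; ring
  have Rrf : ∀ u : ι → F, supp u ⊆ {i, j, k} → u ⬝ᵥ u ≠ 0 → R (io hab (u i) (u j) (u k)) (rf u) := by
    intro u hu hu0 w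
    have hc := div_mul_cancel₀ (2 * w ⬝ᵥ u) hu0
    rw [rf_apply]
    generalize 2 * w ⬝ᵥ u / u ⬝ᵥ u = c at hc
    rw [hdot u hu, hdot u hu] at hc
    refine ⟨congrArg card (Finset.ext fun l => ?_), by simp; linear_combination c * hc,
      fun hw => io_conj hab (hdot u hu u ▸ hu0) hw hc⟩
    simp only [mem_sdiff]
    exact and_congr_left fun hl => by simp [not_not.1 (mt (fun e => hu (mem_supp.2 e)) hl)]
  have hX : ∀ u, X K u → supp u ⊆ {i, j, k} → io hab (u i) (u j) (u k) ∈ M :=
    fun u hu hs => ⟨_, hu.2, Rrf u hs hu.1⟩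
  have hE : ∀ l, l ∈ ({i, j, k} : Finset ι) → io hab (e l i) (e l j) (e l k) ∈ M := fun l hl =>
    hX _ (h.xe l) fun m hm => by
      by_contra e
      exact mem_supp.1 hm (e_ne (by rintro rfl; exact e hl))
  have hS : ∀ l l', l ≠ l' → l ∈ ({i, j, k} : Finset ι) → l' ∈ ({i, j, k} : Finset ι) →
      io hab ((e l - e l' : ι → F) i) ((e l - e l' : ι → F) j) ((e l - e l' : ι → F) k) ∈ M := by
    intro l l' hll hl hl'
    have := h.five
    have h3 : #({i, j, k} : Finset ι) ≤ 3 := card_le_three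
    obtain ⟨m, hm⟩ := H4.Fr.exists_not_mem (S := {i, j, k}) (by omega)
    obtain ⟨m', hm'⟩ := H4.Fr.exists_not_mem (S := insert m {i, j, k}) (by
      rw [card_insert_of_notMem hm]; omega)
    rw [mem_insert, not_or] at hm'
    have hf : ∀ n ∈ ({i, j, k} : Finset ι), Equiv.swap m m' n = n := fun n hn =>
      Equiv.swap_apply_of_ne_of_ne (by rintro rfl; exact hm hn) (by rintro rfl; exact hm'.2 hn)
    refine ⟨_, h.pm (Equiv.swap l l' * Equiv.swap m m') (by simp [hll, Ne.symm hm'.1]), ?_⟩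
    rw [map_mul, pm_swap h2 hll, ← mul_one (io _ _ _ _)]
    refine Rmul _ _ _ _ (Rrf _ (fun n hn => ?_) (by simpa [e_ne hll, e_ne hll.symm, one_add_one_eq_two]))
      fun w => ⟨card_equiv (Equiv.swap m m') fun n => ?_, ?_⟩
    · by_contra e
      exact mem_supp.1 hn (by
        simp [e_ne (show n ≠ l by rintro rfl; exact e hl), e_ne (show n ≠ l' by rintro rfl; exact e hl')])
    · simp only [mem_sdiff, mem_supp, pm_apply, Equiv.symm_swap]
      refine and_congr_right fun _ => not_congr ⟨fun e => by rwa [hf n e], fun e => ?_⟩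
      rwa [← Equiv.swap_apply_self m m' n, hf _ e]
    · simp [pm_apply, hf]
  have e1 := hE i (by simp)
  have e2 := hE j (by simp)
  have e3 := hE k (by simp)
  have e4 := hS i j hij (by simp) (by simp)
  have e5 := hS j k hjk (by simp) (by simp)
  simp only [Pi.sub_apply, e_self, e_ne hij, e_ne hik, e_ne hjk, e_ne hij.symm, e_ne hik.symm,
    e_ne hjk.symm, sub_zero, zero_sub, sub_self] at e1 e2 e3 e4 e5
  have hL := LS_le_of_N0 h2 hab h.nat (N0_le h2 hab (io_i hab ▸ e1) (io_j hab ▸ e2)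
    (io_w hab h2 ▸ M.mul_mem e5 e4) (io_t hab h2 ▸ M.mul_mem e5 e3))
    fun e => hn (io_N0 hab h2 (hdot v hs v ▸ hv.1) (e (hX v hv hs)))
  obtain ⟨m, hm, e⟩ := io_trans hab h2 hw hw'
  obtain ⟨g, hg, hR⟩ := hL hm
  obtain ⟨r1, r2, r3⟩ := hR w
  obtain ⟨c, c1, c2, c3⟩ := io_inj hab h2 (hw' ▸ hw) (r2 ▸ hw) (e.symm.trans (r3 hw).symm)
  have hc : c * c = 1 := mul_right_cancel₀ (hw' ▸ hw) (by
    rw [c1, c2, c3] at r2; linear_combination r2 + hw')
  rcases mul_self_eq_one_iff.1 hc with rfl | rfl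
  · exact ⟨g, hg, r1, by simp [*]⟩
  · refine ⟨H4.Fr.sg univ * g, K.mul_mem (h.sg _) hg, ?_, by simp [sg_apply, *]⟩
    rw [← r1]; congr 2; ext l; simp [sg_apply]

theorem sq_three (p3 : (3 : F) = 0) (t : F) (ht : t ≠ 0) : t * t = 1 := by
  obtain ⟨n, rfl⟩ := h.nat t
  rw [← Nat.div_add_mod n 3] at ht ⊢
  have : n % 3 = 0 ∨ n % 3 = 1 ∨ n % 3 = 2 := by omega
  rcases this with e | e | e <;> rw [e] at ht ⊢ <;> push_cast at ht ⊢ <;> grind

theorem all_of_not_H3 (h3 : ¬ H3 K) (u : ι → F) (hu : u ⬝ᵥ u = 1) : X K u := by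
  have h7 := h.five
  have h2 := h.two
  obtain ⟨v, hv, hc, hn⟩ : ∃ v, X K v ∧ #(supp v) ≤ 3 ∧ ¬ (#(supp v) ≤ 2 ∧
      ∀ a b, v a ≠ 0 → v b ≠ 0 → v a * v a = v b * v b) := by
    by_contra e; push Not at e; exact h3 fun v h1 h4 => e v h1 h4
  obtain ⟨T, hT, hT'⟩ := exists_superset_card_eq hc (by omega)
  obtain ⟨i, j, k, hij, hik, hjk, rfl⟩ := card_eq_three.1 hT'
  have hn' : ¬ (v i * v j * v k = 0 ∧ (v i ≠ 0 → v j ≠ 0 → v i * v i = v j * v j) ∧
      (v i ≠ 0 → v k ≠ 0 → v i * v i = v k * v k) ∧ (v j ≠ 0 → v k ≠ 0 → v j * v j = v k * v k)) := by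
    rintro ⟨h4, h5, h6, h8⟩
    refine hn ⟨?_, fun a b ha hb => ?_⟩
    · by_contra e
      have h9 := eq_of_subset_of_card_le hT (by omega)
      exact mul_ne_zero (mul_ne_zero (mem_supp.1 (h9 ▸ by simp)) (mem_supp.1 (h9 ▸ by simp)))
        (mem_supp.1 (h9 ▸ by simp)) h4
    · have h9 := hT (mem_supp.2 ha)
      have h10 := hT (mem_supp.2 hb)
      simp only [mem_insert, mem_singleton] at h9 h10
      rcases h9 with rfl | rfl | rfl <;> rcases h10 with rfl | rfl | rfl <;> simp [*]
  have p3 : (3 : F) ≠ 0 := fun p3 => by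
    have key := h.sq_three p3
    refine hn' ⟨?_, fun a b => by rw [key _ a, key _ b], fun a b => by rw [key _ a, key _ b],
      fun a b => by rw [key _ a, key _ b]⟩
    by_contra e
    simp only [mul_eq_zero, not_or] at e
    refine hv.1 ?_
    rw [dot_eq_sum hT, sum_insert (by simp [hij, hik]), sum_pair hjk, key _ e.1.1, key _ e.1.2, key _ e.2]
    linear_combination p3
  have key : ∀ {i' j' k' : ι}, i' ≠ j' → i' ≠ k' → j' ≠ k' → ∀ {w : ι → F} {x y z : F},
      w i' * w i' + w j' * w j' + w k' * w k' ≠ 0 →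
      w i' * w i' + w j' * w j' + w k' * w k' = x * x + y * y + z * z →
      ∃ g ∈ K, #(supp (g w) \ {i', j', k'}) = #(supp w \ {i', j', k'}) ∧
        g w i' = x ∧ g w j' = y ∧ g w k' = z := by
    intro i' j' k' h4 h5 h6
    obtain ⟨σ, hσ⟩ := Equiv.Perm.exists_extending_pair ![i, j, k] ![i', j', k']
      (inj3 hij hik hjk) (inj3 h4 h5 h6)
    obtain rfl : σ i = i' := hσ 0
    obtain rfl : σ j = j' := hσ 1
    obtain rfl : σ k = k' := hσ 2
    refine h.three h4 h5 h6 (h.perm hv (by omega) σ) (fun l hl => ?_) (by simpa [pm_apply] using hn')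
    simpa [Equiv.symm_apply_eq] using hT (show σ.symm l ∈ supp v by simpa [pm_apply] using hl)
  induction hn : #(supp u) using Nat.strong_induction_on generalizing u with
  | _ n ih =>
    by_cases h4 : n ≤ 3
    · obtain ⟨T, hT, hT'⟩ := exists_superset_card_eq (hn ▸ h4) (by omega)
      obtain ⟨i, j, k, hij, hik, hjk, rfl⟩ := card_eq_three.1 hT'
      rw [dot_eq_sum hT, sum_insert (by simp [hij, hik]), sum_pair hjk] at hu
      obtain ⟨g, hg, r1, r2, r3, r4⟩ := key hij hik hjk (w := u) (x := 1) (y := 0) (z := 0)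
        (by rw [add_assoc, hu]; simp) (by rw [add_assoc, hu]; simp)
      rw [sdiff_eq_empty_iff_subset.2 hT, card_empty, card_eq_zero, sdiff_eq_empty_iff_subset] at r1
      have : g u = e i := funext fun l => by
        by_cases hl : l ∈ ({i, j, k} : Finset ι)
        · simp only [mem_insert, mem_singleton] at hl
          rcases hl with rfl | rfl | rfl <;> simp [*, e_ne, Ne.symm]
        · rw [not_not.1 (mt (fun e => r1 (mem_supp.2 e)) hl), e_ne (by rintro rfl; simp at hl)]
      simpa [← this, inv_apply_apply] using h.map (h.xe i) (K.inv_mem hg)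
    obtain ⟨i, j, k, hi, hj, hk, hij, hik, hjk, h5⟩ : ∃ i j k, u i ≠ 0 ∧ u j ≠ 0 ∧ u k ≠ 0 ∧ i ≠ j ∧
        i ≠ k ∧ j ≠ k ∧ u i * u i + u j * u j + u k * u k ≠ 0 := by
      obtain ⟨a, ha, b, hb, c, hc, d, hd, h5, h6, h8, h9, h10, h11⟩ :=
        three_lt_card.1 (show 3 < #(supp u) by omega)
      rw [mem_supp] at ha hb hc hd
      by_contra e
      push Not at e
      have e1 := e a b c ha hb hc h5 h6 h9
      have e2 := e a b d ha hb hd h5 h8 h10
      have e3 := e a c d ha hc hd h6 h8 h11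
      have e4 := e b c d hb hc hd h9 h10 h11
      exact mul_ne_zero p3 (mul_ne_zero ha ha) (by linear_combination e1 + e2 + e3 - 2 * e4)
    obtain ⟨x, y, hxy⟩ : ∃ x y : F, x ^ 2 + y ^ 2 = u i * u i + u j * u j + u k * u k := by
      obtain ⟨m, hm⟩ := h.nat (u i * u i + u j * u j + u k * u k)
      obtain ⟨p, hp⟩ := CharP.exists F
      have : NeZero p := ⟨CharP.char_ne_zero_of_finite F p⟩
      obtain ⟨a, b, h⟩ := CharP.sq_add_sq F p m
      exact ⟨a, b, by simpa [hm] using h⟩
    obtain ⟨g, hg, r1, r2, r3, r4⟩ := key hij hik hjk (x := x) (y := y) (z := 0) h5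
      (by linear_combination -hxy)
    have h6 : #(supp (g u)) < n := by
      have e1 := card_sdiff_add_card_inter (supp (g u)) {i, j, k}
      have e2 := card_sdiff_add_card_inter (supp u) {i, j, k}
      have e3 : #(supp (g u) ∩ {i, j, k}) ≤ 2 := (card_le_card (show supp (g u) ∩ {i, j, k} ⊆ {i, j} from fun l hl => by
        simp only [mem_inter, mem_supp, mem_insert, mem_singleton] at hl ⊢
        rcases hl with ⟨h8, rfl | rfl | rfl⟩ <;> simp_all)).trans card_le_two
      rw [inter_eq_right.2 (by simp [insert_subset_iff, *]),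
        card_eq_three.2 ⟨i, j, k, hij, hik, hjk, rfl⟩] at e2
      omega
    simpa [inv_apply_apply] using h.map (ih _ h6 (g u) (by rw [OG_dot h2 (h.le hg), hu]) rfl)
      (K.inv_mem hg)

theorem all_of_H3 (hK : ¬ K ≤ Mon) (h3 : H3 K) (u : ι → F) (hu : u ⬝ᵥ u = 1) : X K u := by
  obtain ⟨v, hv, hc⟩ := h.exists_big hK
  have p3 : (3 : F) = 0 := by
    by_contra p3
    have := h.small h3 p3 v hv
    omega
  have h2 := h.two
  have hd : ∀ w : ι → F, w ⬝ᵥ w = #(supp w) := fun w => by
    rw [dot_const fun l hl => h.sq_three p3 _ hl, mul_one]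
  obtain ⟨S, hS, hS'⟩ := exists_subset_card_eq hc
  obtain ⟨j, hj, hj'⟩ := exists_mem_notMem_of_card_lt_card (s := S) (t := supp v) (by
    have := mt (h3 v hv) (by omega)
    omega)
  have h1 : supp (res S v) = S := by rw [supp_res, inter_eq_right.2 hS]
  have h4 := h.sing_e hv S (by rw [hd, h1, hS']; exact_mod_cast p3) hj' (mem_supp.1 hj) 1
  have h5 : supp (e j + (1 : F) • res S v) = insert j S := by
    ext l
    by_cases hl : l = j
    · simp [hl, res_not v hj']
    · simpa [e_ne hl, hl] using mem_supp.symm.trans (Finset.ext_iff.1 h1 l)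
  have all4 : ∀ w : ι → F, #(supp w) = 4 → X K w := fun w hw => by
    obtain ⟨σ, hσ⟩ := Equiv.Perm.exists_map_finset_eq (insert j S) (supp w) (by
      rw [card_insert_of_notMem hj', hS', hw])
    obtain ⟨a, ha, b, hb, hab⟩ := one_lt_card.1 (show 1 < #(supp (e j + (1 : F) • res S v)) by
      rw [h5, card_insert_of_notMem hj']; omega)
    refine h.of_sq (h.perm_of_sq h4 hab (by
      rw [h.sq_three p3 _ (mem_supp.1 ha), h.sq_three p3 _ (mem_supp.1 hb)]) σ) fun l => ?_
    have : w l ≠ 0 ↔ H4.Fr.pm σ (e j + (1 : F) • res S v) l ≠ 0 := by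
      rw [pm_apply, ← mem_supp, ← mem_supp, h5, ← hσ, mem_map_equiv]
    by_cases hl : w l = 0
    · rw [hl, not_not.1 (mt this.2 (not_not.2 hl))]
    · rw [h.sq_three p3 _ hl, h.sq_three p3 _ (this.1 hl)]
  induction hn : #(supp u) using Nat.strong_induction_on generalizing u with
  | _ n ih =>
    by_cases h6 : n ≤ 3
    · rw [hd, hn] at hu
      have : n = 1 := by
        interval_cases n
        · simp at hu
        · rfl
        · exact absurd (show (1 : F) = 0 by push_cast at hu; linear_combination hu) one_ne_zero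
        · exact absurd (show (1 : F) = 0 by push_cast at hu; linear_combination p3 - hu) one_ne_zero
      obtain ⟨a, ha⟩ := card_eq_one.1 (hn.trans this)
      rw [eq_smul_e (x := u) (a := a) fun b hb => mem_singleton.1 (ha ▸ mem_supp.2 hb)]
      exact (h.xe a).smul (mem_supp.1 (ha ▸ mem_singleton_self a))
    obtain ⟨T, hT, hT'⟩ := exists_subset_card_eq (s := supp u) (n := 4) (by omega)
    obtain ⟨d, hdT⟩ := card_pos.1 (show 0 < #T by omega)
    obtain ⟨d', hd', hdd⟩ := exists_mem_notMem_of_card_lt_card (s := {d}) (t := T) (by simp [hT'])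
    have h7 : supp (res T u) = T := by rw [supp_res, inter_eq_right.2 hT]
    have h8 : supp (H4.Fr.sg {d} (res T u)) = T := by
      rw [← h7]; ext l; simp only [mem_supp, sg_apply]; split_ifs <;> simp [h7]
    have h9 := all4 _ (h8 ▸ hT')
    have h10 : rf (H4.Fr.sg {d} (res T u)) u = u - H4.Fr.sg {d} (res T u) := by
      have e1 : u ⬝ᵥ res T u = res T u ⬝ᵥ res T u := by
        conv_lhs => enter [1]; rw [← res_add_res T u]
        rw [add_dotProduct, dotProduct_comm (res Tᶜ u), res_dot_res, add_zero]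
      rw [rf_apply, hd, h8, ← rf_e, rf_apply, dotProduct_sub, e1, hd, h7, hT']
      simp only [dot_e, e_self, dotProduct_smul, res_mem u hdT, smul_eq_mul, div_one, mul_assoc,
        h.sq_three p3 _ (mem_supp.1 (hT hdT))]
      rw [show ((4 : ℕ) : F) = 1 by push_cast; linear_combination p3,
        show (2 : F) * (1 - 2 * 1) / 1 = 1 by linear_combination -p3, one_smul]
    have h11 : #(supp (rf (H4.Fr.sg {d} (res T u)) u)) < n := by
      refine hn ▸ card_lt_card ⟨fun l hl => ?_, fun e => ?_⟩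
      · by_contra e
        rw [mem_supp, not_not] at e
        simp [h10, sg_apply, res, e] at hl
      · simpa [h10, sg_apply, res, hd', hdd] using e (hT hd')
    simpa [← LinearEquiv.mul_apply, refl_mul_self] using
      h.map (ih _ h11 _ (by rw [OG_dot h2 (refl_mem_OG _), hu]) rfl) h9.2

theorem Om_le (hK : ¬ K ≤ Mon) : Om Q0 ≤ K :=
  Om_le_of_unit (nd_Q0 h.two) (by simpa using h.five) h.two one_ne_zero fun u hu =>
    ((em (H3 K)).elim (fun h3 => h.all_of_H3 hK h3 u hu) fun h3 => h.all_of_not_H3 h3 u hu).2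

end A5

end Cfsg.Agent.H8.Fr
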