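import Cfsg.Agent.H8.F5a
import Cfsg.Agent.H4.Fr4
import Cfsg.Agent.H5.Odd

/-! Overgroups of the monomial subgroup of `Ω` in dimensions five and six: first steps. -/

set_option autoImplicit false
set_option linter.unusedSectionVars false

namespace Cfsg.Agent.H8.Fr

open QuadraticMap Module Finset Cfsg.Agent.H4 Cfsg.Agent.H4.Fr

variable {ι : Type*} [Fintype ι] [DecidableEq ι] {F : Type*} [Field F] [Finite F]

/-- a subgroup of `Ω` containing all even sign changes and even permutations -/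
structure B5 (K : Subgroup ((ι → F) ≃ₗ[F] (ι → F))) : Prop where
  two : (2 : F) ≠ 0
  nat : ∀ t : F, ∃ n : ℕ, (n : F) = t
  five : 5 ≤ Fintype.card ι
  le : K ≤ Om Q0
  sg2 : ∀ i j, sg {i} * sg {j} ∈ K
  pm : ∀ σ, Equiv.Perm.sign σ = 1 → pm σ ∈ K

variable {K : Subgroup ((ι → F) ≃ₗ[F] (ι → F))}

theorem Mon.smul {g : (ι → F) ≃ₗ[F] (ι → F)} (hg : g ∈ Mon) {i a : ι} (ha : g (e i) a ≠ 0) :
    g (e i) = g (e i) a • e a := eq_smul_e fun _ hb => Mon.eq hg hb ha

theorem sg_pair {i j : ι} (h : i ≠ j) : (sg {i, j} : (ι → F) ≃ₗ[F] (ι → F)) = rf (e i) * rf (e j) := by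
  rw [sg_insert (by simpa using h), rf_e, rf_e]

theorem conj_sg_pair {g : (ι → F) ≃ₗ[F] (ι → F)} (hg : g ∈ OG Q0) {i j : ι} (h : i ≠ j) :
    g * sg {i, j} * g⁻¹ = rf (g (e i)) * rf (g (e j)) := by
  rw [sg_pair h, rf, rf, rf, rf, ← refl_conj hg, ← refl_conj hg]; group

theorem mon_conj_sg (h2 : (2 : F) ≠ 0) {g : (ι → F) ≃ₗ[F] (ι → F)} (hg : g ∈ OG Q0) {i j a b : ι}
    (h : i ≠ j) (hM : g ∈ Mon) (ha : g (e i) a ≠ 0) (hb : g (e j) b ≠ 0) :
    a ≠ b ∧ g * sg {i, j} * g⁻¹ = sg {a, b} := by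
  have hab : a ≠ b := by
    rintro rfl
    have := OG_dot h2 hg (e i) (e j)
    rw [Mon.smul hM ha, Mon.smul hM hb] at this
    simp [e_ne h.symm, ha, hb] at this
  refine ⟨hab, ?_⟩
  rw [conj_sg_pair hg h, Mon.smul hM ha, Mon.smul hM hb, rf, rf, refl_smul ha, refl_smul hb, sg_pair hab]

theorem exists_even_pair (h4 : 4 ≤ Fintype.card ι) {i j a b : ι} (h : i ≠ j) (hab : a ≠ b) :
    ∃ σ : Equiv.Perm ι, Equiv.Perm.sign σ = 1 ∧ σ i = a ∧ σ j = b := by
  obtain ⟨σ, hσ⟩ := Equiv.Perm.exists_extending_pair ![i, j] ![a, b]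
    (injective_pair_iff_ne.2 h) (injective_pair_iff_ne.2 hab)
  obtain ⟨k, hk⟩ := H4.Fr.exists_not_mem (S := {i, j}) (card_le_two.trans_lt (by omega))
  obtain ⟨l, hl⟩ := H4.Fr.exists_not_mem (S := {k, i, j}) (card_le_three.trans_lt (by omega))
  simp only [mem_insert, mem_singleton, not_or] at hk hl
  rcases exists_even hl.1 σ with e1 | e1
  · exact ⟨σ, e1, hσ 0, hσ 1⟩
  · refine ⟨_, e1, ?_, ?_⟩
    · rw [Equiv.Perm.mul_apply, Equiv.swap_apply_of_ne_of_ne (Ne.symm hl.2.1) (Ne.symm hk.1)]; exact hσ 0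
    · rw [Equiv.Perm.mul_apply, Equiv.swap_apply_of_ne_of_ne (Ne.symm hl.2.2) (Ne.symm hk.2)]; exact hσ 1

theorem supp_of_neg (h2 : (2 : F) ≠ 0) {T : Finset ι} {x : ι → F} (h : sg T x = -x) {l : ι}
    (hl : x l ≠ 0) : l ∈ T := by
  by_contra e1
  have := congrFun h l
  simp only [sg_apply, e1, if_false, Pi.neg_apply] at this
  exact mul_ne_zero h2 hl (by linear_combination this)

namespace B5

variable (h : B5 K)
include h

theorem sg (S : Finset ι) (hS : Even #S) : sg S ∈ K := by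
  obtain ⟨n, hn⟩ := hS
  induction n generalizing S with
  | zero => rw [card_eq_zero.1 hn, sg_empty]; exact K.one_mem
  | succ n ih =>
    obtain ⟨i, S, hi, rfl, h1⟩ := card_eq_succ.1 (show #S = (n + n + 1) + 1 by omega)
    obtain ⟨j, S, hj, rfl, h3⟩ := card_eq_succ.1 h1
    rw [sg_insert hi, sg_insert hj, ← mul_assoc]
    exact K.mul_mem (h.sg2 i j) (ih S h3)

theorem Om_le {g : (ι → F) ≃ₗ[F] (ι → F)} (hg : g ∈ K) (hM : g ∉ Mon) {i : ι}
    (hi : H4.Fr.sg {i} * g * H4.Fr.sg {i} ∈ K) : Om Q0 ≤ K := by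
  have rr := sg_mul_self (F := F) ({i} : Finset ι)
  have rr' : ∀ x : (ι → F) ≃ₗ[F] (ι → F), H4.Fr.sg {i} * (H4.Fr.sg {i} * x) = x := fun x => by
    rw [← mul_assoc, rr, one_mul]
  let K0 : Subgroup _ := K ⊓ K.comap (MulAut.conj (H4.Fr.sg {i})).toMonoidHom
  have m0 : ∀ x, x ∈ K0 ↔ x ∈ K ∧ H4.Fr.sg {i} * x * H4.Fr.sg {i} ∈ K := fun x => by
    simp [K0, sg_inv]
  have hc : ∀ x ∈ K0, H4.Fr.sg {i} * x * H4.Fr.sg {i} ∈ K0 := fun x hx => by
    rw [m0] at hx ⊢; simpa [mul_assoc, rr, rr'] using hx.symm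
  let K1 : Subgroup ((ι → F) ≃ₗ[F] (ι → F)) :=
    { carrier := {x | x ∈ K0 ∨ x * H4.Fr.sg {i} ∈ K0}
      mul_mem' := by
        rintro a b (ha | ha) (hb | hb)
        · exact Or.inl (K0.mul_mem ha hb)
        · exact Or.inr (by rw [mul_assoc]; exact K0.mul_mem ha hb)
        · exact Or.inr (by simpa [mul_assoc, rr'] using K0.mul_mem ha (hc _ hb))
        · exact Or.inl (by simpa [mul_assoc, rr', rr] using K0.mul_mem ha (hc _ hb))
      one_mem' := Or.inl K0.one_mem
      inv_mem' := by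
        rintro a (ha | ha)
        · exact Or.inl (K0.inv_mem ha)
        · exact Or.inr (by simpa [mul_assoc, rr', sg_inv] using hc _ (K0.inv_mem ha)) }
  have hA : A5 K1 := by
    refine ⟨h.two, h.nat, h.five, ?_, fun j => Or.inr ((m0 _).2 ⟨h.sg2 j i, ?_⟩),
      fun σ hσ => Or.inl ((m0 _).2 ⟨h.pm σ hσ, ?_⟩)⟩
    · rintro a (ha | ha)
      · exact Om_le_OG (h.le ha.1)
      · exact (mul_mem_cancel_right (sg_mem_OG _)).1 (Om_le_OG (h.le ha.1))
    · simpa [mul_assoc, rr] using h.sg2 i j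
    · have := refl_conj (pm_mem_OG (F := F) σ) (e i)
      rw [mul_inv_eq_iff_eq_mul, pm_e, refl_e, refl_e] at this
      rw [mul_assoc, this, ← mul_assoc]
      exact K.mul_mem (h.sg2 _ _) (h.pm σ hσ)
  intro x hx
  rcases hA.Om_le (fun e => hM (e (Or.inl ((m0 g).2 ⟨hg, hi⟩)))) hx with e1 | e1
  · exact e1.1
  · have := det_Om (h.le e1.1)
    rw [map_mul, det_Om hx, one_mul, det_of_line (m := e i) (fun e => by simpa using congrFun e i)
      (by simp [sg_e]) fun j => ⟨if j = i then -2 else 0, by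
        rw [sg_e]; split_ifs with h1 h3 h3 <;> simp_all; module⟩] at this
    exact absurd (by simpa using congrArg Units.val this : (-1 : F) = 1) fun e =>
      h.two (by linear_combination -e)

variable (h0 : ∀ g ∈ K, ∀ i, H4.Fr.sg {i} * g * H4.Fr.sg {i} ∈ K → g ∈ Mon)
include h0

theorem of_fix {g : (ι → F) ≃ₗ[F] (ι → F)} (hg : g ∈ K) {i j : ι} {c : F} (hc : g (e i) = c • e j) :
    g ∈ Mon := by
  have := h.five
  obtain ⟨σ, hσ, hj⟩ : ∃ σ : Equiv.Perm ι, Equiv.Perm.sign σ = 1 ∧ σ j = i := by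
    obtain ⟨k, hk⟩ := H4.Fr.exists_not_mem (S := {j}) (by simp; omega)
    obtain ⟨l, hl⟩ := H4.Fr.exists_not_mem (S := {k, j}) (card_le_two.trans_lt (by omega))
    simp only [mem_insert, mem_singleton, not_or] at hk hl
    rcases exists_even hl.1 (Equiv.swap j i) with e1 | e1
    · exact ⟨_, e1, by simp⟩
    · exact ⟨_, e1, by simp [Equiv.swap_apply_of_ne_of_ne (Ne.symm hl.2) (Ne.symm hk)]⟩
  have h1 := K.mul_mem (h.pm σ hσ) hg
  refine (mul_mem_cancel_left (pm_mem_Mon σ)).1 (h0 _ h1 i ?_)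
  have h3 := refl_conj (Om_le_OG (h.le h1)) (e i)
  have h4 : c ≠ 0 := by
    rintro rfl
    obtain ⟨l, hl⟩ := map_e_ne g i
    simp [hc] at hl
  rw [mul_inv_eq_iff_eq_mul, LinearEquiv.mul_apply, hc, map_smul, pm_e, hj, refl_smul h4,
    refl_e] at h3
  rwa [mul_assoc, h3, ← mul_assoc, sg_mul_self, one_mul]

omit h0 in
theorem main_odd (hn : Odd (Fintype.card ι)) (hK : ¬ K ≤ Mon) : Om Q0 ≤ K := by
  by_contra h1
  have := h.five
  refine hK fun g hg => ?_
  obtain ⟨i, -⟩ := H4.Fr.exists_not_mem (S := (∅ : Finset ι)) (by simp; omega)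
  have h3 := h.sg {i}ᶜ (by rw [card_compl, card_singleton]; exact Nat.Odd.sub_odd hn odd_one)
  have h4 : ∀ x : ι → F, H4.Fr.sg {i}ᶜ x = -H4.Fr.sg {i} x := fun x => by
    funext l; by_cases hl : l = i <;> simp [sg_apply, hl]
  by_contra hM
  refine h1 (h.Om_le hg hM (i := i) ?_)
  convert K.mul_mem (K.mul_mem h3 hg) h3 using 1
  ext x; simp [h4]

omit h0 in
theorem OG {g : (ι → F) ≃ₗ[F] (ι → F)} (hg : g ∈ K) : g ∈ OG Q0 := Om_le_OG (h.le hg)

omit h0 in
theorem pair (i j : ι) (hij : i ≠ j) : H4.Fr.sg {i, j} ∈ K := h.sg _ (by rw [card_pair hij]; decide)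

/-- the centraliser of a sign change on two coordinates is monomial -/
theorem star (h6 : 6 ≤ Fintype.card ι) {i j : ι} (hij : i ≠ j) {g : (ι → F) ≃ₗ[F] (ι → F)} (hg : g ∈ K)
    (hT : ∀ m l, g (e m) l ≠ 0 → (m ∈ ({i, j} : Finset ι) ↔ l ∈ ({i, j} : Finset ι))) : g ∈ Mon := by
  have h2 := h.two
  have hO := h.OG hg
  have hT' : ∀ m l, g⁻¹ (e m) l ≠ 0 → (m ∈ ({i, j} : Finset ι) ↔ l ∈ ({i, j} : Finset ι)) :=
    fun m l hl => (hT l m (inv_e h2 hO m l ▸ hl)).symm
  have hP : ∀ (g : (ι → F) ≃ₗ[F] (ι → F)), (∀ m l, g (e m) l ≠ 0 → (m ∈ ({i, j} : Finset ι) ↔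
      l ∈ ({i, j} : Finset ι))) → ∀ m ∈ ({i, j} : Finset ι),
      g (e m) = g (e m) i • e i + g (e m) j • e j := fun g hT m hm => by
    funext l
    by_cases h1 : l = i
    · simp [h1, e_ne hij]
    by_cases h3 : l = j
    · simp [h3, e_ne hij.symm]
    · simp [e_ne h1, e_ne h3, not_not.1 (mt (fun e => (hT m l e).1 hm) (by simp [h1, h3]))]
  have key : ∀ a b, a ≠ b → a ∉ ({i, j} : Finset ι) → b ∉ ({i, j} : Finset ι) → ∀ c l,
      c ∉ ({i, j, a, b} : Finset ι) → g (e c) l ≠ 0 → ∀ m, g⁻¹ (e l) m ≠ 0 →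
      m ∉ ({i, j, a, b} : Finset ι) := by
    intro a b hab ha hb c l hc hl
    simp only [mem_insert, mem_singleton, not_or] at ha hb hc
    obtain ⟨u, hu⟩ : ∃ u : (ι → F) ≃ₗ[F] (ι → F),
      u = H4.Fr.sg {i, a} * H4.Fr.pm (Equiv.swap i j * Equiv.swap a b) := ⟨_, rfl⟩
    have huK : u ∈ K := hu ▸ K.mul_mem (h.pair _ _ (Ne.symm ha.1)) (h.pm _ (by simp [hij, hab]))
    have hue : ∀ n, u (e n) = if n = i then e j else if n = j then -e i else if n = a then e b else
        if n = b then -e a else e n := fun n => by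
      rw [hu, LinearEquiv.mul_apply, pm_e, sg_e]
      simp only [Equiv.Perm.mul_apply, Equiv.swap_apply_def, mem_insert, mem_singleton]
      grind
    have huu : u * u = H4.Fr.sg {i, j, a, b} := ext_e fun n => by
      rw [LinearEquiv.mul_apply, hue n, sg_e]
      simp only [mem_insert, mem_singleton]
      split_ifs <;> simp only [map_neg, hue] <;> grind
    have hm : g * u * g⁻¹ ∈ K := K.mul_mem (K.mul_mem hg huK) (K.inv_mem hg)
    have hM : g * u * g⁻¹ ∈ Mon := by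
      refine h.of_fix h0 hm (i := i) (j := j) (c := (g * u * g⁻¹) (e i) j) ?_
      have h1 : (g * u * g⁻¹) (e i) = g⁻¹ (e i) i • g (e j) - g⁻¹ (e i) j • g (e i) := by
        rw [LinearEquiv.mul_apply, LinearEquiv.mul_apply, hP _ hT' i (by simp)]
        simp [hue, hij.symm, e_ne hij, e_ne hij.symm, sub_eq_add_neg]
      refine eq_smul_e fun n hn => ?_
      by_contra h3
      rw [h1, inv_e h2 hO, inv_e h2 hO] at hn
      by_cases h4 : n = i
      · subst h4; simp [mul_comm] at hn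
      · rw [hP g hT i (by simp), hP g hT j (by simp)] at hn; simp [e_ne h3, e_ne h4] at hn
    have hfix : ∀ x, (g * u * g⁻¹) (x + (g * u * g⁻¹) ((g * u * g⁻¹) x)) =
        x + (g * u * g⁻¹) ((g * u * g⁻¹) x) := fun x => by
      obtain ⟨x, rfl⟩ := g.surjective x
      simp only [LinearEquiv.mul_apply, inv_apply_apply, ← map_add, ← LinearEquiv.mul_apply u u, huu]
      congr 1
      have h1 : ∀ n ∈ ({i, j, a, b} : Finset ι), (x + H4.Fr.sg {i, j, a, b} x) n = 0 := fun n hn => by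
        simp only [Pi.add_apply, sg_apply, hn, if_true, add_neg_cancel]
      generalize x + H4.Fr.sg {i, j, a, b} x = z at h1
      have e1 := h1 i (by simp)
      have e2 := h1 j (by simp)
      have e3 := h1 a (by simp)
      have e4 := h1 b (by simp)
      funext n
      simp only [hu, LinearEquiv.mul_apply, sg_apply, pm_apply, map_mul, Equiv.symm_swap,
        Equiv.swap_apply_def, mem_insert, mem_singleton]
      grind
    have hsq : ∀ x, (g * u * g⁻¹) ((g * u * g⁻¹) x) = g (H4.Fr.sg {i, j, a, b} (g⁻¹ x)) := fun x => by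
      simp only [LinearEquiv.mul_apply, inv_apply_apply, ← huu]
    have hO' := h.OG hm
    generalize g * u * g⁻¹ = y at *
    obtain ⟨σ, hσ⟩ := hM
    choose d hd using hσ
    have hd0 : ∀ n, d n ≠ 0 := fun n e1 => by
      obtain ⟨l, hl⟩ := map_e_ne y n
      simp [hd, e1] at hl
    have h1 : σ (σ l) = l := by
      by_contra h1
      have h3 : σ l ≠ l := fun e1 => h1 (by rw [e1, e1])
      have := congrFun (hfix (e l)) (σ l)
      simp only [map_add, hd, map_smul, Pi.add_apply, Pi.smul_apply, e_self, smul_eq_mul, mul_one,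
        e_ne h3, e_ne (σ.injective.ne h3).symm, e_ne (σ.injective.ne h1).symm] at this
      exact hd0 l (by linear_combination this)
    have h3 : y (y (e l)) = e l := by
      have h4 : y (y (e l)) = (d l * d (σ l)) • e l := by rw [hd, map_smul, hd, h1, smul_smul]
      have h5 := OG_dot h2 (mul_mem hO' hO') (e l) (g (e c))
      rw [LinearEquiv.mul_apply, LinearEquiv.mul_apply, h4, hsq, inv_apply_apply, sg_e,
        if_neg (by simp [hc])] at h5
      simp only [smul_dotProduct, e_dot, smul_eq_mul] at h5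
      rw [h4, mul_right_cancel₀ hl (h5.trans (one_mul _).symm), one_smul]
    intro m hm' hm''
    have := congrFun (inv_apply_eq ((hsq _).symm.trans h3)) m
    rw [sg_apply, if_pos hm''] at this
    exact mul_ne_zero h2 hm' (by linear_combination this)
  obtain ⟨c, hc⟩ := H4.Fr.exists_not_mem (S := {i, j}) (card_le_two.trans_lt (by omega))
  obtain ⟨l, hl⟩ := map_e_ne g c
  refine (inv_mem_iff (H := Mon)).1 (h.of_fix h0 (K.inv_mem hg) (i := l) (j := c) (eq_smul_e fun m hm => ?_))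
  by_contra h1
  have hm' : m ∉ ({i, j} : Finset ι) := fun e1 => hc ((hT c l hl).2 ((hT' l m hm).2 e1))
  obtain ⟨b, hb⟩ := H4.Fr.exists_not_mem (S := {m, c, i, j}) (card_le_four.trans_lt (by omega))
  simp only [mem_insert, mem_singleton, not_or] at hb hc hm'
  exact key m b (Ne.symm hb.1) (by simp [hm']) (by simp [hb]) c l (by simp [hc, hb, Ne.symm h1, Ne.symm hb.2.1])
    hl m hm (by simp)

theorem star' (h6 : 6 ≤ Fintype.card ι) {i j a b : ι} (hij : i ≠ j) (hab : a ≠ b)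
    {g : (ι → F) ≃ₗ[F] (ι → F)} (hg : g ∈ K) (e1 : g * H4.Fr.sg {i, j} * g⁻¹ = H4.Fr.sg {a, b}) :
    g ∈ Mon := by
  obtain ⟨σ, hσ, rfl, rfl⟩ := exists_even_pair (by omega) hab hij
  refine (mul_mem_cancel_left (pm_mem_Mon σ)).1 (h.star h0 h6 hij (K.mul_mem (h.pm σ hσ) hg)
    fun m l hl => supp_of_comm h.two ?_ hl)
  have := conj_sg_pair (pm_mem_OG (F := F) σ) hab
  rw [pm_e, pm_e, ← sg_pair hij, ← e1] at this
  rw [← mul_inv_eq_iff_eq_mul, mul_inv_rev]
  simpa only [mul_assoc] using this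

/-- a diagonal conjugate of a sign change on two coordinates -/
theorem of_diag (h6 : 6 ≤ Fintype.card ι) {i j : ι} (hij : i ≠ j) {g : (ι → F) ≃ₗ[F] (ι → F)} (hg : g ∈ K)
    (hd : ∀ l, ∃ c : F, (g * H4.Fr.sg {i, j} * g⁻¹ : (ι → F) ≃ₗ[F] (ι → F)) (e l) = c • e l) : g ∈ Mon := by
  have h2 := h.two
  have hO := h.OG hg
  have hy := h.OG (K.mul_mem (K.mul_mem hg (h.pair i j hij)) (K.inv_mem hg))
  have key : ∀ m ∈ ({i, j} : Finset ι), ∀ l, g (e m) l ≠ 0 →
      ∀ n, g (e n) l ≠ 0 → n ∈ ({i, j} : Finset ι) := fun m hm l hl n hn => by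
    obtain ⟨c, hc⟩ := hd l
    have h1 := OG_dot h2 hy (e l) (g (e m))
    rw [hc, LinearEquiv.mul_apply, LinearEquiv.mul_apply, inv_apply_apply, sg_e, if_pos hm] at h1
    simp only [map_neg, smul_dotProduct, dotProduct_neg, e_dot, smul_eq_mul] at h1
    have h3 : c = -1 := mul_right_cancel₀ hl (by linear_combination -h1)
    refine supp_of_neg h2 (x := g⁻¹ (e l)) ?_ (by rwa [inv_e h2 hO])
    have := inv_apply_eq hc
    rw [h3, mul_inv_rev, mul_inv_rev, inv_inv, sg_inv] at this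
    refine g.injective ?_
    simpa using congrArg Neg.neg this
  obtain ⟨a, ha⟩ := map_e_ne g i
  by_contra hM
  obtain ⟨b, hb, hab⟩ : ∃ b, g (e i) b ≠ 0 ∧ b ≠ a := by
    by_contra e1
    push Not at e1
    exact hM (h.of_fix h0 hg (eq_smul_e e1))
  have hs : ∀ l, g (e i) l ≠ 0 → g⁻¹ (e l) = g (e i) l • e i + g (e j) l • e j := fun l hl => by
    funext n
    rw [inv_e h2 hO]
    by_cases h1 : n = i
    · simp [h1, e_ne hij]
    by_cases h3 : n = j
    · simp [h3, e_ne hij.symm]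
    · simp [e_ne h1, e_ne h3, not_not.1 (mt (key i (by simp) l hl n) (by simp [h1, h3]))]
  have hd : ∀ l l', g (e i) l ≠ 0 → g (e i) l' ≠ 0 →
      g (e i) l * g (e i) l' + g (e j) l * g (e j) l' = e l' l := fun l l' hl hl' => by
    have := OG_dot h2 (inv_mem hO) (e l') (e l)
    rw [hs l hl, hs l' hl'] at this
    simpa [e_ne hij, e_ne hij.symm] using this
  have e1 := hd a a ha ha
  have e2 := hd b b hb hb
  have e3 := hd b a hb ha
  rw [e_self] at e1 e2
  rw [e_ne hab] at e3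
  refine hM (h.star' h0 h6 hij hab.symm hg (ext_e fun l => ?_))
  rw [conj_sg_pair hO hij, ← sub_sub_cancel (e l) ((rf (g (e i)) * rf (g (e j))) (e l)), rf_rf_e (by
    rw [OG_dot h2 hO]; simp [e_ne hij.symm]), OG_dot h2 hO, OG_dot h2 hO, sg_e]
  have hz : ∀ n, n ≠ a → n ≠ b → g (e i) n = 0 ∧ g (e j) n = 0 := fun n h1 h3 => by
    have e4 := OG_dot h2 (inv_mem hO) (e a) (e n)
    have e5 := OG_dot h2 (inv_mem hO) (e b) (e n)
    rw [hs _ (by assumption)] at e4 e5
    simp only [add_dotProduct, smul_dotProduct, e_dot, inv_e h2 hO, smul_eq_mul, e_ne h1.symm,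
      e_ne h3.symm] at e4 e5
    constructor <;> grind
  have hk : ∀ l n, g (e i) l * g (e i) n + g (e j) l * g (e j) n =
      if l = n ∧ (l = a ∨ l = b) then 1 else 0 := fun l n => by
    by_cases h1 : l = a ∨ l = b
    · by_cases h3 : n = a ∨ n = b
      · rcases h1 with rfl | rfl <;> rcases h3 with rfl | rfl <;>
          simp only [hab, hab.symm, true_or, or_true, and_self, false_and, if_true, if_false] <;>
          first | exact e1 | exact e2 | linear_combination e3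
      · push Not at h3
        rw [(hz n h3.1 h3.2).1, (hz n h3.1 h3.2).2, if_neg (by rintro ⟨rfl, h4⟩; tauto)]; simp
    · rw [if_neg (by tauto)]
      push Not at h1
      rw [(hz l h1.1 h1.2).1, (hz l h1.1 h1.2).2]; simp
  funext n
  have := hk l n
  simp only [dot_e, e_self, div_one, Pi.sub_apply, Pi.add_apply, Pi.smul_apply, smul_eq_mul, mem_insert,
    mem_singleton, e_apply, ite_apply, Pi.neg_apply]
  clear hk hz hd hs key
  grind

end B5

end Cfsg.Agent.H8.Fr
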