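import Cfsg.Agent.H8.F5b

/-! The stabiliser of an orthonormal frame in `Ω₆(p)`: monomial conjugates of sign changes. -/

set_option autoImplicit false
set_option linter.unusedSectionVars false

namespace Cfsg.Agent.H8.Fr

open QuadraticMap Module Finset Cfsg.Agent.H4 Cfsg.Agent.H4.Fr

variable {ι : Type*} [Fintype ι] [DecidableEq ι] {F : Type*} [Field F] [Finite F]
variable {K : Subgroup ((ι → F) ≃ₗ[F] (ι → F))}

theorem eigen_sg (h2 : (2 : F) ≠ 0) {T : Finset ι} {x : ι → F} {c : F} (h : sg T x = c • x) :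
    (∀ l, x l ≠ 0 → l ∈ T) ∨ ∀ l ∈ T, x l = 0 := by
  by_contra e1
  push Not at e1
  obtain ⟨⟨l, h1, h3⟩, m, h4, h5⟩ := e1
  have e1 := congrFun h l
  have e2 := congrFun h m
  simp only [sg_apply, h3, h4, if_true, if_false, Pi.smul_apply, smul_eq_mul] at e1 e2
  have : c = 1 := mul_right_cancel₀ h1 (by linear_combination -e1)
  exact mul_ne_zero h2 h5 (by linear_combination -e2 - x m * this)

theorem diff_eq (h2 : (2 : F) ≠ 0) {g : (ι → F) ≃ₗ[F] (ι → F)} (hO : g ∈ OG Q0) {i j : ι} (hij : i ≠ j)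
    (l : ι) : e l - (g * sg {i, j} * g⁻¹ : (ι → F) ≃ₗ[F] (ι → F)) (e l) =
      (2 * g (e i) l) • g (e i) + (2 * g (e j) l) • g (e j) := by
  rw [conj_sg_pair hO hij, rf_rf_e (by rw [OG_dot h2 hO]; simp [e_ne hij.symm]), OG_dot h2 hO,
    OG_dot h2 hO]
  simp

theorem card_supp_smul {c : F} (hc : c ≠ 0) (x : ι → F) : #(supp (c • x)) = #(supp x) := by
  congr 1; ext l; simp [hc]

namespace B5

variable (h : B5 K) (h0 : ∀ g ∈ K, ∀ i, H4.Fr.sg {i} * g * H4.Fr.sg {i} ∈ K → g ∈ Mon)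
include h h0

/-- an element fixing a vector of the conjugate frame permutes that frame -/
theorem fix_frame {g x : (ι → F) ≃ₗ[F] (ι → F)} (hg : g ∈ K) (hx : x ∈ K) {i : ι}
    (hi : x (g (e i)) = g (e i)) : g⁻¹ * x * g ∈ Mon :=
  h.of_fix h0 (K.mul_mem (K.mul_mem (K.inv_mem hg) hx) hg) (i := i) (j := i) (c := 1) (by
    rw [LinearEquiv.mul_apply, LinearEquiv.mul_apply, hi, inv_apply_apply, one_smul])

omit h0 in
theorem frame_eq {g x : (ι → F) ≃ₗ[F] (ι → F)} (hg : g ∈ K) (hx : g⁻¹ * x * g ∈ Mon) {i j : ι}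
    (hi : x (g (e i)) ⬝ᵥ g (e j) ≠ 0) : x (g (e i)) = (x (g (e i)) ⬝ᵥ g (e j)) • g (e j) := by
  have h1 : (g⁻¹ * x * g) (e i) j = x (g (e i)) ⬝ᵥ g (e j) := by
    rw [← dot_e ((g⁻¹ * x * g) (e i)), ← OG_dot h.two (h.OG hg), LinearEquiv.mul_apply,
      LinearEquiv.mul_apply, apply_inv_apply]
  have := congrArg g (Mon.smul hx (h1 ▸ hi))
  rwa [h1, LinearEquiv.mul_apply, LinearEquiv.mul_apply, apply_inv_apply, map_smul] at this

theorem mix (h6 : 6 ≤ Fintype.card ι) {g : (ι → F) ≃ₗ[F] (ι → F)} (hg : g ∈ K) (hM : g ∉ Mon) {i j : ι}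
    (hij : i ≠ j) (hy : g * H4.Fr.sg {i, j} * g⁻¹ ∈ Mon) {a b : ι}
    (h1 : ∀ l, g (e i) l ≠ 0 → l ∈ ({a, b} : Finset ι)) (h3 : ∀ l ∈ ({a, b} : Finset ι), g (e j) l = 0) :
    False := by
  have h2 := h.two
  have hO := h.OG hg
  obtain ⟨c, hc⟩ := map_e_ne g j
  obtain ⟨d, hd, hcd⟩ : ∃ d, g (e j) d ≠ 0 ∧ d ≠ c := by
    by_contra e1
    push Not at e1
    exact hM (h.of_fix h0 hg (eq_smul_e e1))
  have h4 := (Mon.diff hy c).1
  rw [diff_eq h2 hO hij, not_not.1 (mt (h1 c) fun e1 => hc (h3 c e1)), mul_zero, zero_smul, zero_add,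
    card_supp_smul (mul_ne_zero h2 hc)] at h4
  have h5 : supp (g (e j)) = {c, d} := (eq_of_subset_of_card_le
    (by simp [insert_subset_iff, hc, hd]) (by rwa [card_pair hcd.symm])).symm
  have h7 : ∀ l, l ≠ c → l ≠ d → g (e j) l = 0 := fun l h8 h9 =>
    not_not.1 (mt mem_supp.2 (by simp [h5, h8, h9]))
  obtain ⟨k, hk⟩ := H4.Fr.exists_not_mem (S := {a, b, c, d}) (card_le_four.trans_lt (by omega))
  obtain ⟨k', hk'⟩ := H4.Fr.exists_not_mem (S := insert k {a, b, c, d})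
    ((card_insert_le _ _).trans_lt (by have := card_le_four (a := a) (b := b) (c := c) (d := d); omega))
  simp only [mem_insert, mem_singleton, not_or] at hk hk'
  have hda : d ≠ a := by rintro rfl; exact hd (h3 _ (by simp))
  have hdb : d ≠ b := by rintro rfl; exact hd (h3 _ (by simp))
  have hx := h.pm (Equiv.swap d k * Equiv.swap d k') (by simp [Ne.symm hk.2.2.2, Ne.symm hk'.2.2.2.2])
  have hz : ∀ l, l ≠ a → l ≠ b → g (e i) l = 0 := fun l h8 h9 => not_not.1 (mt (h1 l) (by simp [h8, h9]))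
  have h8 := h.fix_frame h0 hg hx (i := i) (funext fun l => by
    simp only [map_mul, LinearEquiv.mul_apply, pm_apply, Equiv.symm_swap, Equiv.swap_apply_def]
    grind)
  have e1 : H4.Fr.pm (Equiv.swap d k * Equiv.swap d k') (g (e j)) c = g (e j) c := by
    simp only [map_mul, LinearEquiv.mul_apply, pm_apply, Equiv.symm_swap, Equiv.swap_apply_def]
    grind
  have e2 : H4.Fr.pm (Equiv.swap d k * Equiv.swap d k') (g (e j)) d = 0 := by
    simp only [map_mul, LinearEquiv.mul_apply, pm_apply, Equiv.symm_swap, Equiv.swap_apply_def]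
    grind
  have e3 : H4.Fr.pm (Equiv.swap d k * Equiv.swap d k') (g (e j)) ⬝ᵥ g (e j) = g (e j) c * g (e j) c := by
    rw [dotProduct_comm, dot_eq_sum h5.le, sum_pair hcd.symm, e1, e2]; ring
  have := congrFun (h.frame_eq hg h8 (e3 ▸ mul_ne_zero hc hc)) d
  rw [e2, e3] at this
  exact mul_ne_zero (mul_ne_zero hc hc) hd this.symm

theorem A0 (h6 : 6 ≤ Fintype.card ι) {g : (ι → F) ≃ₗ[F] (ι → F)} (hg : g ∈ K) (hM : g ∉ Mon) {i j : ι}
    (hij : i ≠ j) (hy : g * H4.Fr.sg {i, j} * g⁻¹ ∈ Mon) : ∃ a b, a ≠ b ∧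
      (∃ c : F, g (e j) = c • H4.Fr.sg {a, b} (g (e i))) ∧ g⁻¹ * H4.Fr.sg {a, b} * g ∈ Mon ∧
      4 * (g (e i) a * g (e i) a) = 1 ∧ 4 * (g (e i) b * g (e i) b) = 1 ∧
      ((∃ c, c ≠ a ∧ c ≠ b ∧ 2 * (g (e i) c * g (e i) c) = 1 ∧ ∀ l, l ≠ a → l ≠ b → l ≠ c → g (e i) l = 0) ∨
        (#(supp (g (e i))) = 4 ∧ ∀ l, g (e i) l ≠ 0 → 4 * (g (e i) l * g (e i) l) = 1)) := by
  have h2 := h.two
  have hO := h.OG hg
  have hd := diff_eq h2 hO hij
  have hmix := fun a b => h.mix h0 h6 hg hM hij hy (a := a) (b := b)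
  have hmix' := fun a b => h.mix h0 h6 hg hM hij.symm (pair_comm i j ▸ hy) (a := a) (b := b)
  have hdiag := mt (h.of_diag h0 h6 hij hg) hM
  have yO := h.OG (K.mul_mem (K.mul_mem hg (h.pair i j hij)) (K.inv_mem hg))
  obtain ⟨y, hy'⟩ : ∃ y, y = g * H4.Fr.sg {i, j} * g⁻¹ := ⟨_, rfl⟩
  rw [← hy'] at hd hdiag yO hy
  have yy : ∀ x, y (y x) = x := fun x => by
    simp only [hy', LinearEquiv.mul_apply, inv_apply_apply]
    rw [← LinearEquiv.mul_apply (H4.Fr.sg _), sg_mul_self]; simp [apply_inv_apply]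
  obtain ⟨a, b, c, hab, hc⟩ : ∃ a b c, a ≠ b ∧ y (e a) = c • e b := by
    obtain ⟨σ, hσ⟩ := hy
    push Not at hdiag
    obtain ⟨a, ha⟩ := hdiag
    obtain ⟨c, hc⟩ := hσ a
    exact ⟨a, σ a, c, fun e1 => ha c (by rw [hc, ← e1]), hc⟩
  have hcc : c * c = 1 := by simpa [hc] using OG_dot h2 yO (e a) (e a)
  have hc' : y (e b) = c • e a := by
    have := congrArg (c • ·) (yy (e a))
    simpa [hc, smul_smul, hcc] using this
  have hcm : y * H4.Fr.sg {a, b} = H4.Fr.sg {a, b} * y := ext_e fun l => by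
    rw [LinearEquiv.mul_apply, LinearEquiv.mul_apply, sg_e]
    split_ifs with h1
    · simp only [mem_insert, mem_singleton] at h1
      rcases h1 with rfl | rfl <;> simp [hc, hc', sg_e]
    · simp only [mem_insert, mem_singleton, not_or] at h1
      have e1 := OG_dot h2 yO (y (e l)) (e a)
      have e2 := OG_dot h2 yO (y (e l)) (e b)
      simp only [yy, hc, hc', dotProduct_smul, dot_e, e_ne (Ne.symm h1.1), e_ne (Ne.symm h1.2),
        smul_zero] at e1 e2
      funext m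
      rw [sg_apply]
      split_ifs with h3
      · simp only [mem_insert, mem_singleton] at h3
        rcases h3 with rfl | rfl <;> simp [← e1, ← e2]
      · rfl
  have hK := K.mul_mem (K.mul_mem (K.inv_mem hg) (h.pair a b hab)) hg
  have hcm' : g⁻¹ * H4.Fr.sg {a, b} * g * H4.Fr.sg {i, j} = H4.Fr.sg {i, j} * (g⁻¹ * H4.Fr.sg {a, b} * g) := by
    have := congrArg (g⁻¹ * · * g) hcm
    simpa [hy', mul_assoc] using this.symm
  have hM' := h.star h0 h6 hij hK fun m l hl => supp_of_comm h2 hcm' hl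
  have dich : ∀ m ∈ ({i, j} : Finset ι), ∃ n ∈ ({i, j} : Finset ι), ∃ d : F,
      H4.Fr.sg {a, b} (g (e m)) = d • g (e n) := fun m hm => by
    obtain ⟨n, hn⟩ := map_e_ne (g⁻¹ * H4.Fr.sg {a, b} * g) m
    have := congrArg g (Mon.smul hM' hn)
    rw [LinearEquiv.mul_apply, LinearEquiv.mul_apply, apply_inv_apply, map_smul] at this
    exact ⟨n, (supp_of_comm h2 hcm' hn).1 hm, _, this⟩
  have n1 : g (e i) ⬝ᵥ g (e i) = 1 := by simp [OG_dot h2 hO]
  have n2 : g (e j) ⬝ᵥ g (e j) = 1 := by simp [OG_dot h2 hO]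
  have n3 : g (e i) ⬝ᵥ g (e j) = 0 := by simp [OG_dot h2 hO, e_ne hij.symm]
  have haa := congrFun (hd a) a
  have hab' := congrFun (hd a) b
  simp only [hc, Pi.sub_apply, Pi.add_apply, Pi.smul_apply, smul_eq_mul, e_self, e_ne hab,
    e_ne hab.symm] at haa hab'
  obtain ⟨d, hd'⟩ : ∃ d : F, H4.Fr.sg {a, b} (g (e i)) = d • g (e j) := by
    obtain ⟨n, hn, d, h1⟩ := dich i (by simp)
    obtain ⟨n', hn', d', h3⟩ := dich j (by simp)
    simp only [mem_insert, mem_singleton] at hn hn'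
    rcases hn with rfl | rfl
    swap
    · exact ⟨d, h1⟩
    exfalso
    rcases hn' with rfl | rfl
    · have e1 := OG_dot h2 (sg_mem_OG {a, b}) (g (e n')) (g (e j))
      have e2 := OG_dot h2 (sg_mem_OG {a, b}) (g (e n')) (g (e n'))
      have e3 := OG_dot h2 (sg_mem_OG {a, b}) (g (e j)) (g (e j))
      simp only [h1, h3, smul_dotProduct, dotProduct_smul, n1, n2, n3, smul_eq_mul] at e1 e2 e3
      exact one_ne_zero (α := F) (by linear_combination d * d' * e1 - d' * d' * e2 - e3)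
    rcases eigen_sg h2 h1 with e1 | e1 <;> rcases eigen_sg h2 h3 with e2 | e2
    · rw [dot_eq_sum (S := {a, b}) (fun l hl => by simp_all), sum_pair hab] at n1 n2 n3
      exact one_ne_zero (α := F) (by grind)
    · exact hmix a b e1 e2
    · exact hmix' a b e2 e1
    · rw [e1 a (by simp), e2 a (by simp)] at haa; simp at haa
  have hdd : d * d = 1 := by
    simpa [hd', n1, n2] using OG_dot h2 (sg_mem_OG {a, b}) (g (e i)) (g (e i))
  have hj : g (e j) = d • H4.Fr.sg {a, b} (g (e i)) := by rw [hd', smul_smul, hdd, one_smul]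
  have hja : ∀ l, g (e j) l = if l = a ∨ l = b then -(d * g (e i) l) else d * g (e i) l := fun l => by
    rw [hj]; simp only [Pi.smul_apply, sg_apply, mem_insert, mem_singleton]; split_ifs <;> simp
  have e1 : 4 * (g (e i) a * g (e i) a) = 1 := by
    rw [hja, if_pos (Or.inl rfl)] at haa; linear_combination -haa - 2 * g (e i) a * g (e i) a * hdd
  have e2 : 4 * (g (e i) b * g (e i) b) = 1 := by
    rw [hja, hja, if_pos (Or.inl rfl), if_pos (Or.inr rfl)] at hab'
    have h5 : 4 * g (e i) a * g (e i) b = -c := by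
      linear_combination -hab' - 2 * g (e i) a * g (e i) b * hdd
    linear_combination (4 * g (e i) a * g (e i) b - c) * h5 + hcc - 4 * g (e i) b * g (e i) b * e1
  refine ⟨a, b, hab, ⟨d, hj⟩, hM', e1, e2, ?_⟩
  obtain ⟨q, hq⟩ : ∃ q, q = res {a, b}ᶜ (g (e i)) := ⟨_, rfl⟩
  have hql : ∀ l, q l = if l = a ∨ l = b then 0 else g (e i) l := fun l => by
    simp only [hq, res, mem_compl, mem_insert, mem_singleton, ite_not]
  have hqq : 2 * q ⬝ᵥ q = 1 := by
    have h1 := res_dot_res {a, b} (g (e i)) (g (e i))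
    have h3 : res {a, b} (g (e i)) ⬝ᵥ res {a, b} (g (e i)) = g (e i) a * g (e i) a + g (e i) b * g (e i) b := by
      rw [dot_eq_sum (S := {a, b}) (by rw [supp_res]; exact inter_subset_right), sum_pair hab]; simp [res]
    rw [← res_add_res {a, b} (g (e i)), ← hq] at n1
    rw [← hq] at h1
    simp only [add_dotProduct, dotProduct_add, h1, h3, dotProduct_comm q (res {a, b} _)] at n1
    refine mul_left_cancel₀ h2 ?_
    linear_combination 4 * n1 - e1 - e2
  have hdq : ∀ l, q l ≠ 0 → e l - y (e l) = (4 * q l) • q := fun l hl => by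
    rw [hd]
    funext m
    have h1 : ¬ (l = a ∨ l = b) := fun e3 => hl (by rw [hql, if_pos e3])
    simp only [Pi.add_apply, Pi.smul_apply, smul_eq_mul, hja, hql, h1, if_false]
    split_ifs
    · linear_combination -2 * g (e i) l * g (e i) m * hdd
    · linear_combination 2 * g (e i) l * g (e i) m * hdd
  have h4 : (4 : F) ≠ 0 := fun e3 => by simp [e3] at e1
  obtain ⟨c0, hc0⟩ : ∃ c0, q c0 ≠ 0 := Function.ne_iff.1 fun e3 => by simp [e3] at hqq
  have hq0 : ∀ l, q l ≠ 0 → (l ≠ a ∧ l ≠ b) ∧ q l = g (e i) l := fun l hl => by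
    have h1 : ¬ (l = a ∨ l = b) := fun e3 => hl (by rw [hql, if_pos e3])
    exact ⟨not_or.1 h1, by rw [hql, if_neg h1]⟩
  by_cases h5 : ∀ l, q l ≠ 0 → l = c0
  · refine Or.inl ⟨c0, (hq0 c0 hc0).1.1, (hq0 c0 hc0).1.2, ?_, fun l h7 h8 h9 => ?_⟩
    · rw [eq_smul_e h5] at hqq; simpa [(hq0 c0 hc0).2] using hqq
    · simpa [hql, h7, h8] using mt (h5 l) h9
  push Not at h5
  obtain ⟨d0, hd0, hcd⟩ := h5
  have h7 := (Mon.diff hy c0).1
  rw [hdq c0 hc0, card_supp_smul (mul_ne_zero h4 hc0)] at h7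
  have h8 : supp q = {c0, d0} := (eq_of_subset_of_card_le
    (by simp [insert_subset_iff, hc0, hd0]) (by rwa [card_pair hcd.symm])).symm
  have h9 : ∀ l m, q l ≠ 0 → q m ≠ 0 → m ≠ l → 4 * (q l * q l) = 1 := fun l m hl hm hlm => by
    have e3 : y (e l) = e l - (4 * q l) • q := by rw [← hdq l hl, sub_sub_cancel]
    by_contra e4
    refine hlm (Mon.eq hy (i := l) ?_ ?_)
    · simp [e3, e_ne hlm, h4, hl, hm]
    · simp only [e3, Pi.sub_apply, e_self, Pi.smul_apply, smul_eq_mul]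
      exact fun e5 => e4 (by linear_combination -e5)
  have h10 : supp (g (e i)) = insert a (insert b (supp q)) := by
    ext l
    by_cases h11 : l = a
    · simpa [h11] using fun e3 => by simp [e3] at e1
    by_cases h12 : l = b
    · simpa [h12] using fun e3 => by simp [e3] at e2
    · simp [hql, h11, h12]
  refine Or.inr ⟨?_, fun l hl => ?_⟩
  · rw [h10, card_insert_of_notMem (by simp [hab, hql]), card_insert_of_notMem (by simp [hql]), h8,
      card_pair hcd.symm]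
  · have := h10 ▸ mem_supp.2 hl
    simp only [h8, mem_insert, mem_singleton] at this
    rcases this with rfl | rfl | rfl | rfl
    · exact e1
    · exact e2
    · exact (hq0 _ hc0).2 ▸ h9 _ _ hc0 hd0 hcd
    · exact (hq0 _ hd0).2 ▸ h9 _ _ hd0 hc0 hcd.symm

end B5

end Cfsg.Agent.H8.Fr
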