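import Cfsg.Agent.H8.F5c

/-! The stabiliser of an orthonormal frame is maximal in `Ω₅(p)` and `Ω₆(p)`. -/

set_option autoImplicit false
set_option linter.unusedSectionVars false

namespace Cfsg.Agent.H8.Fr

open QuadraticMap Module Finset Cfsg.Agent.H4 Cfsg.Agent.H4.Fr

variable {ι : Type*} [Fintype ι] [DecidableEq ι] {F : Type*} [Field F] [Finite F]
variable {K : Subgroup ((ι → F) ≃ₗ[F] (ι → F))}

/-- no set of permutations of six points is sharply transitive on pairs -/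
theorem not_sharp (h6 : Fintype.card ι = 6) {T : Type*} [Finite T] (σ : T → Equiv.Perm ι)
    (h : ∀ i k, i ≠ k → ∀ j m, j ≠ m →
      ∃! t, (σ t i = j ∧ σ t k = m) ∨ (σ t i = m ∧ σ t k = j)) : False := by
  classical
  have := Fintype.ofFinite T
  obtain ⟨i, -, k, -, l, -, hik, hil, hkl⟩ := two_lt_card.1 (show 2 < #(univ : Finset ι) by simp [h6])
  have key : ∀ a b, a ≠ b → #{t | σ t a = i} + #{t | σ t b = i} = 5 := fun a b hab => by
    rw [← card_union_of_disjoint (disjoint_filter.2 fun t _ h1 h2 => hab ((σ t).injective (h1.trans h2.symm))),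
      show 5 = #(univ.erase i) by simp [h6]]
    refine card_bij (fun t _ => if σ t a = i then σ t b else σ t a) (fun t ht => ?_)
      (fun t ht t' ht' e1 => ?_) fun m hm => ?_
    · have := (σ t).injective.ne hab
      simp only [mem_erase, mem_univ, and_true]; grind
    · have h1 := (σ t).injective.ne hab
      simp only [mem_union, mem_filter, mem_univ, true_and] at ht ht'
      refine (h a b hab i (if σ t a = i then σ t b else σ t a) (by grind)).unique (by grind) (by grind)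
    · obtain ⟨t, ht, -⟩ := h a b hab i m (mem_erase.1 hm).1.symm
      have := (mem_erase.1 hm).1
      exact ⟨t, by simp only [mem_union, mem_filter, mem_univ, true_and]; tauto, by grind⟩
  have := key i k hik
  have := key i l hil
  have := key k l hkl
  omega

theorem refl_conj_invol {G : Type*} [Group G] {x d : G} (hx : x * x = 1) (hd : d * d = 1) (k : ℕ) :
    ∃ m : ℕ, (x * d) ^ k * d = (x * d) ^ m * d * ((x * d) ^ m)⁻¹ ∨
      (x * d) ^ k * d = (x * d) ^ m * x * ((x * d) ^ m)⁻¹ := by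
  have h1 : ∀ m : ℕ, d * ((x * d) ^ m)⁻¹ = (x * d) ^ m * d := fun m => by
    rw [← H5.Odd.conj_pow_of_inverts (u := d) (by
      rw [mul_inv_rev, H5.Odd.inv_eq_of_sq hd, H5.Odd.inv_eq_of_sq hx, mul_assoc, mul_assoc, hd, mul_one]),
      H5.Odd.inv_eq_of_sq hd, ← mul_assoc, ← mul_assoc, hd, one_mul]
  rcases Nat.even_or_odd' k with ⟨m, rfl | rfl⟩
  · exact ⟨m, Or.inl (by rw [mul_assoc, h1, ← mul_assoc, ← pow_add, two_mul])⟩
  · refine ⟨m, Or.inr ?_⟩
    rw [show (x * d) ^ m * x * ((x * d) ^ m)⁻¹ = (x * d) ^ m * (x * d) * (d * ((x * d) ^ m)⁻¹) by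
      simp only [mul_assoc]; rw [← mul_assoc d d, hd, one_mul], h1, ← pow_succ, ← mul_assoc, ← pow_add]
    congr 2; omega

namespace B5

variable (h : B5 K) (h0 : ∀ g ∈ K, ∀ i, H4.Fr.sg {i} * g * H4.Fr.sg {i} ∈ K → g ∈ Mon)
include h h0

theorem typeI (h6 : Fintype.card ι = 6) {g : (ι → F) ≃ₗ[F] (ι → F)} (hg : g ∈ K) (hM : g ∉ Mon) {i j a b : ι}
    (hij : i ≠ j) (hab : a ≠ b) {c : F} (hc : g (e j) = c • H4.Fr.sg {a, b} (g (e i)))
    (ha : g (e i) a ≠ 0) (hb : g (e i) b ≠ 0) (h4 : #(supp (g (e i))) = 4)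
    (hs : ∀ l, g (e i) l ≠ 0 → 4 * (g (e i) l * g (e i) l) = 1) : False := by
  classical
  have h2 := h.two
  obtain ⟨k, l, hkl, hk⟩ := card_eq_two.1 (show #(supp (g (e i)))ᶜ = 2 by rw [card_compl]; omega)
  have hk0 : g (e i) k = 0 := by simpa using (hk ▸ by simp : k ∈ (supp (g (e i)))ᶜ)
  have hl0 : g (e i) l = 0 := by simpa using (hk ▸ by simp : l ∈ (supp (g (e i)))ᶜ)
  wlog hn : ∀ m, g (e i) m ≠ 0 → 2 * g (e i) m = 1 generalizing g
  · obtain ⟨S, hS, hS'⟩ : ∃ S : Finset ι, Even #S ∧ ∀ m, m ≠ k → (m ∈ S ↔ 2 * g (e i) m = -1) := by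
      rcases Nat.even_or_odd #{m | 2 * g (e i) m = -1} with e1 | e1
      · exact ⟨_, e1, fun m _ => by simp⟩
      · exact ⟨insert k (univ.filter fun m => 2 * g (e i) m = -1), by
          rw [card_insert_of_notMem (by simp [hk0])]; exact e1.add_one,
          fun m hm => by simp [hm]⟩
    have h1 : ∀ m, (H4.Fr.sg S * g : (ι → F) ≃ₗ[F] (ι → F)) (e i) m ≠ 0 ↔ g (e i) m ≠ 0 := fun m => by
      rw [LinearEquiv.mul_apply, sg_apply]; split_ifs <;> simp
    have h3 : supp ((H4.Fr.sg S * g : (ι → F) ≃ₗ[F] (ι → F)) (e i)) = supp (g (e i)) := by ext m; simp only [mem_supp, h1]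
    refine this (K.mul_mem (h.sg S hS) hg) (by rwa [mul_mem_cancel_left (sg_mem_Mon S)]) ?_ ((h1 a).2 ha)
      ((h1 b).2 hb) (h3 ▸ h4) (fun m hm => ?_) (h3 ▸ hk) (not_not.1 (mt (h1 k).1 (not_not.2 hk0)))
      (not_not.1 (mt (h1 l).1 (not_not.2 hl0))) fun m hm => ?_
    · rw [LinearEquiv.mul_apply, LinearEquiv.mul_apply, hc, map_smul, ← LinearEquiv.mul_apply, sg_comm]; rfl
    · have := hs m ((h1 m).1 hm)
      rw [LinearEquiv.mul_apply, sg_apply]; split_ifs <;> linear_combination this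
    · have h5 := (h1 m).1 hm
      have h7 := hS' m (by rintro rfl; exact h5 hk0)
      have := hs m h5
      rw [LinearEquiv.mul_apply, sg_apply]; grind
  have hO := h.OG hg
  obtain ⟨c', d', hcd, h5⟩ := card_eq_two.1 (show #(supp (g (e i)) \ {a, b}) = 2 by
    rw [card_sdiff_of_subset (by simp [insert_subset_iff, ha, hb]), card_pair hab, h4])
  have h7 := (h5 ▸ by simp : c' ∈ supp (g (e i)) \ {a, b})
  have h8 := (h5 ▸ by simp : d' ∈ supp (g (e i)) \ {a, b})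
  simp only [mem_sdiff, mem_supp, mem_insert, mem_singleton, not_or] at h7 h8
  have hc0 : c ≠ 0 := by
    rintro rfl
    obtain ⟨m, hm⟩ := map_e_ne g j
    simp [hc] at hm
  have key : ∀ n, g (e i) n ≠ 0 → n ≠ a → n ≠ b → ∃ m, ∃ s : F, s ≠ 0 ∧ g (e m) k = 0 ∧
      2 * s * g (e m) a = -c ∧ 2 * s * g (e m) b = c ∧ 2 * s * g (e m) n = -c ∧
      ∀ n', g (e i) n' ≠ 0 → n' ≠ a → n' ≠ b → n' ≠ n → 2 * s * g (e m) n' = c := fun n hn1 hn2 hn3 => by
    have hx := h.pm (Equiv.swap b n * Equiv.swap k l) (by simp [hkl, hn3.symm])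
    have e1 := hn b hb
    have e2 := hn n hn1
    have e3 := hn a ha
    have h9 := h.fix_frame h0 hg hx (i := i) (funext fun m => by
      simp only [map_mul, LinearEquiv.mul_apply, pm_apply, Equiv.symm_swap, Equiv.swap_apply_def]
      grind)
    obtain ⟨m, hm⟩ := map_e_ne (g⁻¹ * H4.Fr.pm (Equiv.swap b n * Equiv.swap k l) * g) j
    have h10 := congrArg g (Mon.smul h9 hm)
    rw [LinearEquiv.mul_apply, LinearEquiv.mul_apply, apply_inv_apply, map_smul, hc] at h10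
    have h11 := fun p => congrFun h10 p
    simp only [map_mul, LinearEquiv.mul_apply, pm_apply, Equiv.symm_swap, Equiv.swap_apply_def,
      Pi.smul_apply, sg_apply, smul_eq_mul, mem_insert, mem_singleton] at h11 hm
    refine ⟨m, _, hm, ?_, ?_, ?_, ?_, fun n' h12 h13 h14 h15 => ?_⟩
    · have := h11 k; grind
    · have := h11 a; grind
    · have := h11 b; grind
    · have := h11 n; grind
    · have := h11 n'; have := hn n' h12; grind
  obtain ⟨m, s, -, m1, m2, m3, m4, m5⟩ := key c' h7.1 h7.2.1 h7.2.2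
  obtain ⟨m', s', -, n1, n2, n3, n4, n5⟩ := key d' h8.1 h8.2.1 h8.2.2
  have m6 := n5 c' h7.1 h7.2.1 h7.2.2 hcd
  have e1 := hn b hb
  have e3 := hn a ha
  have e4 := congrFun hc a
  have e5 := congrFun hc b
  have e6 := congrFun hc k
  simp only [Pi.smul_apply, sg_apply, smul_eq_mul, mem_insert, mem_singleton, true_or, or_true, if_true,
    hk0, neg_zero, ite_self, mul_zero] at e4 e5 e6
  have hmi : m ≠ i := by rintro rfl; grind
  have hmj : m ≠ j := by rintro rfl; grind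
  have hmi' : m' ≠ i := by rintro rfl; grind
  have hmj' : m' ≠ j := by rintro rfl; grind
  have hmm : m ≠ m' := by rintro rfl; grind
  obtain ⟨a', b', hab', -, -, r1, r2, r3⟩ := h.A0 h0 h6.ge (K.inv_mem hg) (by rwa [inv_mem_iff]) hkl (by
    rw [inv_inv]
    exact h.fix_frame h0 hg (h.pair k l hkl) (i := i) (funext fun p => by
      simp only [sg_apply, mem_insert, mem_singleton]; grind))
  have h9 : #(supp (g⁻¹ (e k))) ≤ 2 := by
    have : supp (g⁻¹ (e k)) ⊆ ({i, j, m, m'} : Finset ι)ᶜ := fun p hp => by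
      rw [mem_supp, inv_e h2 hO] at hp
      simp only [mem_compl, mem_insert, mem_singleton]; grind
    refine (card_le_card this).trans ?_
    rw [card_compl, card_eq_four.2 ⟨i, j, m, m', hij, hmi.symm, hmi'.symm, hmj.symm, hmj'.symm, hmm, rfl⟩]
    omega
  rcases r3 with ⟨p, p1, p2, p3, -⟩ | ⟨p1, -⟩
  · have := (card_le_card (show {p, a', b'} ⊆ supp (g⁻¹ (e k)) by
      simp only [insert_subset_iff, singleton_subset_iff, mem_supp]; grind)).trans h9
    rw [card_eq_three.2 ⟨p, a', b', p1, p2, hab', rfl⟩] at this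
    omega
  · omega

/-- a conjugate of a sign change lying in the monomial group is a sign change -/
theorem strongly (h6 : Fintype.card ι = 6) {g : (ι → F) ≃ₗ[F] (ι → F)} (hg : g ∈ K) {i j : ι}
    (hij : i ≠ j) (hy : g * H4.Fr.sg {i, j} * g⁻¹ ∈ Mon) : g ∈ Mon := by
  by_contra hM
  have h2 := h.two
  have hO := h.OG hg
  have hI : ∀ {g : (ι → F) ≃ₗ[F] (ι → F)}, g ∈ K → g ∉ Mon → ∀ {i j : ι}, i ≠ j →
      g * H4.Fr.sg {i, j} * g⁻¹ ∈ Mon → ∃ a b c, a ≠ b ∧ c ≠ a ∧ c ≠ b ∧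
        (∃ d : F, g (e j) = d • H4.Fr.sg {a, b} (g (e i))) ∧
        4 * (g (e i) a * g (e i) a) = 1 ∧ 4 * (g (e i) b * g (e i) b) = 1 ∧ 2 * (g (e i) c * g (e i) c) = 1 ∧
        ∀ l, l ≠ a → l ≠ b → l ≠ c → g (e i) l = 0 := by
    intro g hg hM i j hij hy
    obtain ⟨a, b, hab, ⟨d, hd⟩, -, h1, h3, ⟨c, h4, h5, h7, h8⟩ | ⟨h4, h5⟩⟩ := h.A0 h0 h6.ge hg hM hij hy
    · exact ⟨a, b, c, hab, h4, h5, ⟨d, hd⟩, h1, h3, h7, h8⟩
    · exact (h.typeI h0 h6 hg hM hij hab hd (fun e1 => by simp [e1] at h1) (fun e1 => by simp [e1] at h3)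
        h4 h5).elim
  obtain ⟨a, b, c, hab, hca, hcb, -, -, -, -, h1⟩ := hI hg hM hij hy
  obtain ⟨k, l, n, hkl, hkn, hln, hk⟩ := card_eq_three.1 (show #({c, a, b} : Finset ι)ᶜ = 3 by
    rw [card_compl, card_eq_three.2 ⟨c, a, b, hca, hcb, hab, rfl⟩, h6])
  have h3 : ∀ p ∈ ({k, l, n} : Finset ι), g (e i) p = 0 := fun p hp => by
    rw [← hk] at hp
    simp only [mem_compl, mem_insert, mem_singleton, not_or] at hp
    exact h1 p hp.2.1 hp.2.2 hp.1
  have key := fun p (hp : p ∈ ({k, l, n} : Finset ι)) (hkp : k ≠ p) =>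
    hI (K.inv_mem hg) (by rwa [inv_mem_iff]) hkp (by
      rw [inv_inv]
      exact h.fix_frame h0 hg (h.pair k p hkp) (i := i) (funext fun q => by
        have := h3 k (by simp)
        have := h3 p hp
        simp only [sg_apply, mem_insert, mem_singleton]; grind))
  obtain ⟨a1, b1, c1, r1, r2, r3, ⟨d1, r4⟩, r5, r6, r7, r8⟩ := key l (by simp) hkl
  obtain ⟨a2, b2, c2, s1, s2, s3, ⟨d2, s4⟩, s5, s6, s7, s8⟩ := key n (by simp) hkn
  have h4 : ({a2, b2} : Finset ι) = {a1, b1} := by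
    have e1 : ∀ p, 4 * (g⁻¹ (e k) p * g⁻¹ (e k) p) = 1 → p ∈ ({a1, b1} : Finset ι) := fun p hp => by
      by_contra e1
      simp only [mem_insert, mem_singleton, not_or] at e1
      by_cases e2 : p = c1
      · rw [e2] at hp; exact one_ne_zero (α := F) (by linear_combination hp - 2 * r7)
      · simp [r8 p e1.1 e1.2 e2] at hp
    refine eq_of_subset_of_card_le ?_ (by rw [card_pair r1, card_pair s1])
    simp only [insert_subset_iff, singleton_subset_iff, e1 _ s5, e1 _ s6, and_self]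
  have e1 := OG_dot h2 (inv_mem hO) (e l) (e n)
  have e2 := OG_dot h2 (inv_mem hO) (e l) (e l)
  have e3 := OG_dot h2 (inv_mem hO) (e n) (e n)
  rw [h4] at s4
  simp only [r4, s4, smul_dotProduct, dotProduct_smul, smul_eq_mul, dot_e, e_self, e_ne hln.symm] at e1 e2 e3
  grind

theorem odd_order (h6 : Fintype.card ι = 6) {g : (ι → F) ≃ₗ[F] (ι → F)} (hg : g ∈ K) (hM : g ∉ Mon)
    {i j k l : ι} (hij : i ≠ j) (hkl : k ≠ l) :
    Odd (orderOf (g * H4.Fr.sg {i, j} * g⁻¹ * H4.Fr.sg {k, l})) := by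
  by_contra h1
  have h2 := h.two
  have dd := sg_mul_self (F := F) ({k, l} : Finset ι)
  have xx : g * H4.Fr.sg {i, j} * g⁻¹ * (g * H4.Fr.sg {i, j} * g⁻¹) = 1 := by
    simp [mul_assoc, ← mul_assoc (H4.Fr.sg _), sg_mul_self]
  have hx := K.mul_mem (K.mul_mem hg (h.pair i j hij)) (K.inv_mem hg)
  have hxM := mt (h.strongly h0 h6 hg hij) hM
  have hd := h.pair k l hkl
  obtain ⟨m, m1, -, m2, m3⟩ := H5.Odd.exists_central_involution xx dd h1
  have hp := fun n : ℕ => K.pow_mem (K.mul_mem hx hd) n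
  have h3 := mul_mem (h.star h0 h6.ge hkl (hp m) fun p q hq => supp_of_comm h2 m3.symm hq) (sg_mem_Mon {k, l})
  obtain ⟨a, b, hab, h4⟩ : ∃ a b, a ≠ b ∧
      (g * H4.Fr.sg {i, j} * g⁻¹ * H4.Fr.sg {k, l}) ^ m * H4.Fr.sg {k, l} = H4.Fr.sg {a, b} := by
    have key : ∀ u ∈ K, ∀ p q, p ≠ q → u * H4.Fr.sg {p, q} * u⁻¹ ∈ Mon →
        ∃ a b, a ≠ b ∧ u * H4.Fr.sg {p, q} * u⁻¹ = H4.Fr.sg {a, b} := fun u hu p q hpq hM => by
      obtain ⟨a, ha⟩ := map_e_ne u p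
      obtain ⟨b, hb⟩ := map_e_ne u q
      exact ⟨a, b, mon_conj_sg h2 (h.OG hu) hpq (h.strongly h0 h6 hu hpq hM) ha hb⟩
    obtain ⟨n, e1 | e1⟩ := refl_conj_invol xx dd m
    · rw [e1] at h3 ⊢; exact key _ (hp n) k l hkl h3
    · have e2 := e1.trans (show _ = (g * H4.Fr.sg {i, j} * g⁻¹ * H4.Fr.sg {k, l}) ^ n * g * H4.Fr.sg {i, j} *
        ((g * H4.Fr.sg {i, j} * g⁻¹ * H4.Fr.sg {k, l}) ^ n * g)⁻¹ by rw [mul_inv_rev]; simp only [mul_assoc])
      rw [e2] at h3 ⊢; exact key _ (K.mul_mem (hp n) hg) i j hij h3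
  rw [← eq_mul_inv_iff_mul_eq, sg_inv] at h4
  rw [h4] at m1 m2
  generalize g * H4.Fr.sg {i, j} * g⁻¹ = x at *
  have h5 : H4.Fr.sg {a, b} * H4.Fr.sg {k, l} =
      (H4.Fr.sg (symmDiff {a, b} {k, l}) : (ι → F) ≃ₗ[F] (ι → F)) := by
    ext v p; simp only [LinearEquiv.mul_apply, sg_apply, mem_symmDiff]; grind
  rw [h5] at m1 m2
  have h7 := fun p q (hq : x (e p) q ≠ 0) => supp_of_comm h2 m2 hq
  have h8 : #(symmDiff ({a, b} : Finset ι) {k, l}) = 2 ∨ #(symmDiff ({a, b} : Finset ι) {k, l})ᶜ = 2 := by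
    have e1 := card_sdiff_add_card_inter ({a, b} : Finset ι) {k, l}
    have e2 := card_sdiff_add_card_inter ({k, l} : Finset ι) {a, b}
    have e3 : #(symmDiff ({a, b} : Finset ι) {k, l}) ≠ 0 := fun e3 => m1 (by rw [card_eq_zero.1 e3, sg_empty])
    rw [card_compl, h6]
    rw [symmDiff_def, sup_eq_union, card_union_of_disjoint disjoint_sdiff_sdiff] at e3 ⊢
    rw [card_pair hab] at e1
    rw [card_pair hkl, inter_comm] at e2
    omega
  rcases h8 with e1 | e1 <;> obtain ⟨p, q, hpq, e2⟩ := card_eq_two.1 e1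
  · exact hxM (h.star h0 h6.ge hpq hx fun r s hs => e2 ▸ h7 r s hs)
  · exact hxM (h.star h0 h6.ge hpq hx fun r s hs => by simp only [← e2, mem_compl, h7 r s hs])

omit h0 in
theorem main_six (h6 : Fintype.card ι = 6) (hK : ¬ K ≤ Mon) : Om Q0 ≤ K := by
  by_contra h1
  have h0 : ∀ g ∈ K, ∀ i, H4.Fr.sg {i} * g * H4.Fr.sg {i} ∈ K → g ∈ Mon := fun g hg i hi => by
    by_contra hM; exact h1 (h.Om_le hg hM hi)
  have h2 := h.two
  obtain ⟨g, hg, hM⟩ := SetLike.not_le_iff_exists.1 hK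
  let T := {t : (ι → F) ≃ₗ[F] (ι → F) // g⁻¹ * t ∈ Mon ∧ ∃ u ∈ K, ∃ i j, i ≠ j ∧ t = u * H4.Fr.sg {i, j} * u⁻¹}
  choose σ hσ using fun t : T => t.2.1
  have hK : ∀ t : T, g⁻¹ * t.1 ∈ K := fun ⟨t, _, u, hu, i, j, hij, ht⟩ =>
    K.mul_mem (K.inv_mem hg) (ht ▸ K.mul_mem (K.mul_mem hu (h.pair i j hij)) (K.inv_mem hu))
  have hσ' : ∀ (t : T) i, (g⁻¹ * t.1) (e i) (σ t i) ≠ 0 := fun t i => by
    obtain ⟨c, hc⟩ := hσ t i
    obtain ⟨l, hl⟩ := map_e_ne (g⁻¹ * t.1) i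
    rw [hc] at hl ⊢
    simpa using left_ne_zero_of_smul (fun e1 => hl (by rw [e1]; rfl))
  have tt : ∀ t : T, t.1 * t.1 = 1 := fun ⟨t, _, u, hu, i, j, hij, ht⟩ => by
    simp [ht, mul_assoc, ← mul_assoc (H4.Fr.sg _), sg_mul_self]
  have hiff : ∀ (t : T) i k, i ≠ k → ∀ j m, j ≠ m → (((σ t i = j ∧ σ t k = m) ∨ (σ t i = m ∧ σ t k = j)) ↔
      t.1 * H4.Fr.sg {i, k} * t.1 = g * H4.Fr.sg {j, m} * g⁻¹) := fun t i k hik j m hjm => by
    have e1 := (mon_conj_sg h2 (h.OG (hK t)) hik t.2.1 (hσ' t i) (hσ' t k)).2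
    have e2 : t.1 * H4.Fr.sg {i, k} * t.1 = g * H4.Fr.sg {σ t i, σ t k} * g⁻¹ := by
      rw [← e1, mul_inv_rev, H5.Odd.inv_eq_of_sq (tt t)]; group
    rw [e2, mul_left_inj, mul_right_inj]
    refine ⟨?_, fun e3 => ?_⟩
    · rintro (⟨rfl, rfl⟩ | ⟨rfl, rfl⟩)
      · rfl
      · rw [pair_comm]
    · have e4 := supp_of_neg h2 (T := {j, m}) (x := e (σ t i)) (by rw [← e3, sg_e, if_pos (by simp)])
        (l := σ t i) (by simp)
      have e5 := supp_of_neg h2 (T := {j, m}) (x := e (σ t k)) (by rw [← e3, sg_e, if_pos (by simp)])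
        (l := σ t k) (by simp)
      have := (σ t).injective.ne hik
      simp only [mem_insert, mem_singleton] at e4 e5
      grind
  refine not_sharp h6 σ fun i k hik j m hjm => ?_
  simp only [hiff _ i k hik j m hjm]
  have dd := sg_mul_self (F := F) ({i, k} : Finset ι)
  have xx : g * H4.Fr.sg {j, m} * g⁻¹ * (g * H4.Fr.sg {j, m} * g⁻¹) = 1 := by
    simp [mul_assoc, ← mul_assoc (H4.Fr.sg _), sg_mul_self]
  have hp := fun n : ℕ => K.pow_mem (K.mul_mem (K.mul_mem (K.mul_mem hg (h.pair j m hjm)) (K.inv_mem hg))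
    (h.pair i k hik)) n
  obtain ⟨n, hn⟩ := h.odd_order h0 h6 hg hM hjm hik
  have e1 : (g * H4.Fr.sg {j, m} * g⁻¹ * H4.Fr.sg {i, k}) ^ (n + 1) * H4.Fr.sg {i, k} * H4.Fr.sg {i, k} *
      ((g * H4.Fr.sg {j, m} * g⁻¹ * H4.Fr.sg {i, k}) ^ (n + 1) * H4.Fr.sg {i, k}) =
      g * H4.Fr.sg {j, m} * g⁻¹ := by
    rw [mul_assoc _ (H4.Fr.sg _) (H4.Fr.sg _), dd, mul_one, ← mul_assoc, ← pow_add, show n + 1 + (n + 1) = 2 * n + 1 + 1 by ring,
      pow_succ, ← hn, pow_orderOf_eq_one, one_mul, mul_assoc, dd, mul_one]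
  have e2 : ∃ u ∈ K, ∃ p q, p ≠ q ∧ (g * H4.Fr.sg {j, m} * g⁻¹ * H4.Fr.sg {i, k}) ^ (n + 1) * H4.Fr.sg {i, k} =
      u * H4.Fr.sg {p, q} * u⁻¹ := by
    obtain ⟨r, e2 | e2⟩ := refl_conj_invol xx dd (n + 1)
    · exact ⟨_, hp r, i, k, hik, e2⟩
    · exact ⟨_, K.mul_mem (hp r) hg, j, m, hjm, e2.trans (by rw [mul_inv_rev]; simp only [mul_assoc])⟩
  have e3 := K.mul_mem (hp (n + 1)) (h.pair i k hik)
  generalize (g * H4.Fr.sg {j, m} * g⁻¹ * H4.Fr.sg {i, k}) ^ (n + 1) * H4.Fr.sg {i, k} = t at e1 e2 e3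
  have e4 : t * t = 1 := by
    obtain ⟨u, -, p, q, -, rfl⟩ := e2
    simp [mul_assoc, ← mul_assoc (H4.Fr.sg _), sg_mul_self]
  refine existsUnique_of_exists_of_unique ⟨⟨t, h.star' h0 h6.ge hik hjm (K.mul_mem (K.inv_mem hg) e3) ?_, e2⟩, e1⟩
    fun s s' hs hs' => Subtype.ext ?_
  · rw [mul_inv_rev, H5.Odd.inv_eq_of_sq e4, inv_inv, mul_assoc, mul_assoc, ← mul_assoc _ t g, ← mul_assoc t,
      ← mul_assoc t, e1]; group
  · have key : ∀ s : T, Odd (orderOf (s.1 * H4.Fr.sg {i, k})) := fun ⟨s, h3, u, hu, p, q, hpq, hs⟩ => by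
      subst hs
      refine h.odd_order h0 h6 hu (fun h4 => hM ?_) hpq hik
      have := mul_mem (mul_mem (mul_mem h4 (sg_mem_Mon {p, q})) (inv_mem h4)) (inv_mem h3)
      simpa [mul_assoc] using this
    refine mul_right_cancel (H5.Odd.eq_of_sq_eq_of_odd (key s) (key s') ?_)
    rw [← mul_assoc, ← mul_assoc, hs, hs']

end B5

end Cfsg.Agent.H8.Fr
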