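import Cfsg.Agent.H2.M4a

set_option autoImplicit false

/-! The reflection group `3[3]3[3]3[3]3` in `GL₄(K)`: generators in the basis of simple roots. -/

namespace Cfsg.Agent.H8.G32
open Cfsg Matrix Cfsg.Agent.Asch Cfsg.Agent.H2.M4

variable {K : Type*} [Field K]

/-- the four generating reflections of order three -/
def sg (ω : K) : Fin 4 → M4 K :=
  ![!![ω, 1, 0, 0; 0, 1, 0, 0; 0, 0, 1, 0; 0, 0, 0, 1],
    !![1, 0, 0, 0; -ω, ω, 1, 0; 0, 0, 1, 0; 0, 0, 0, 1],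
    !![1, 0, 0, 0; 0, 1, 0, 0; 0, -ω, ω, 1; 0, 0, 0, 1],
    !![1, 0, 0, 0; 0, 1, 0, 0; 0, 0, 1, 0; 0, 0, -ω, ω]]

/-- the group generated by the conjugates `Q * sg i * Q⁻¹` -/
def G (ω : K) (Q : G4 K) : Subgroup (G4 K) := Subgroup.closure {g | ∃ i, g.val = cj Q (sg ω i)}

/-- `P` is, modulo scalars, a conjugate of the reflection group -/
def IsG32 (P : Subgroup (G4 K)) : Prop :=
  (2 : K) ≠ 0 ∧ (3 : K) ≠ 0 ∧ ∃ ω : K, ω ^ 2 + ω + 1 = 0 ∧ ∃ Q : G4 K, bar P = bar (G ω Q)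

end Cfsg.Agent.H8.G32
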