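import Cfsg.Agent.H8.Cls
import Cfsg.Agent.H8.Subfield

/-!
Connectivity of the non-singular vectors of a given norm.
-/

set_option autoImplicit false
set_option linter.unusedSectionVars false

namespace Cfsg.Agent.H8

open QuadraticMap Module

variable {F V : Type*} [Field F] [AddCommGroup V] [Module F V]

theorem exists_roots_list {a b c : F} (h : a ≠ 0 ∨ b ≠ 0 ∨ c ≠ 0) :
    ∃ l : List F, l.length ≤ 2 ∧ ∀ s, a * s * s + b * s + c = 0 → s ∈ l := by
  by_cases h1 : ∃ r, a * r * r + b * r + c = 0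
  · obtain ⟨r, hr⟩ := h1
    by_cases ha : a = 0
    · refine ⟨[r], by simp, fun s hs => ?_⟩
      have hb : b ≠ 0 := by
        rintro rfl
        subst ha
        simp at h hr
        exact h hr
      have : b * (s - r) = 0 := by rw [ha] at hs hr; linear_combination hs - hr
      simpa [hb, sub_eq_zero] using this
    · refine ⟨[r, -b / a - r], by simp, fun s hs => ?_⟩
      have : (s - r) * (a * (s - (-b / a - r))) = 0 := by
        field_simp; linear_combination hs - hr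
      simpa [ha, sub_eq_zero] using this
  · push Not at h1
    exact ⟨[], by simp, fun s hs => absurd hs (h1 s)⟩

/-- Vectors of the same norm, not perpendicular to `c`, are not confined to a proper subspace. -/
def Good (Q : QuadraticForm F V) (X : Submodule F V) : Prop :=
  ∀ c ∈ X, Q c ≠ 0 → ∀ N : Submodule F V, c ∈ N → ¬ X ≤ N →
    ∃ a ∈ X, Q a = Q c ∧ a ∉ N ∧ polar Q a c ≠ 0

variable {Q : QuadraticForm F V} {X : Submodule F V}

theorem good_aux {c b : V} {N : Submodule F V} (hc : c ∈ X) (hcN : c ∈ N) (hb : b ∈ X)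
    (hbN : b ∉ N) (hQ : Q b ≠ 0) (h1 : polar Q b c ≠ 0)
    (h2 : polar Q b c * polar Q b c ≠ 2 * Q b * Q c) :
    ∃ a ∈ X, Q a = Q c ∧ a ∉ N ∧ polar Q a c ≠ 0 := by
  refine ⟨refl Q b c, (refl_mem_Stab hb c).1 hc, refl_mem_OG b c, fun h => hbN ?_, fun h => h2 ?_⟩
  · have := N.smul_mem (Q b / polar Q b c) (N.sub_mem hcN h)
    rw [refl_apply, sub_sub_cancel, smul_smul, pol_comm Q c b] at this
    convert this using 1
    rw [div_mul_div_cancel₀ h1, div_self hQ, one_smul]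
  · rw [refl_apply, polar_sub_left, pol_smul_left, pol_self, pol_comm Q c b] at h
    field_simp at h
    linear_combination -h

variable [Finite F] [FiniteDimensional F V]

theorem NDOn.exists_not_mem_pol (hX : NDOn Q X) {c : V} (hc : c ∈ X) (hc0 : c ≠ 0)
    {N : Submodule F V} (hN : ¬ X ≤ N) : ∃ b ∈ X, b ∉ N ∧ polar Q b c ≠ 0 := by
  obtain ⟨b, hb, h1, h2⟩ := exists_not_mem_two (B := H8.perp Q (sp F [c])) hN fun h =>
    hc0 (hX c hc fun x hx => mem_perp_sp.1 (h hx) c (by simp))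
  exact ⟨b, hb, h1, fun e => h2 (mem_perp_sp.2 (by simpa [pol_comm Q c] using e))⟩

theorem NDOn.good_of_card (hX : NDOn Q X)
    (h : 6 ≤ Nat.card F ∨ ((2 : F) = 0 ∧ 3 ≤ Nat.card F) ∨
      ((∀ x ∈ X, x ≠ 0 → Q x ≠ 0) ∧ ((2 : F) = 0 ∨ 4 ≤ Nat.card F))) : Good Q X := by
  intro c hc hQc N hcN hN
  obtain ⟨b, hb, hbN, hbc⟩ := hX.exists_not_mem_pol hc (fun e => hQc (by simp [e])) hN
  have m1 : ∀ s : F, b + s • c ∈ X := fun s => X.add_mem hb (X.smul_mem _ hc)
  have m2 : ∀ s : F, b + s • c ∉ N := fun s e => hbN (by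
    simpa using N.sub_mem e (N.smul_mem s hcN))
  have e1 : ∀ s : F, Q (b + s • c) = Q c * s * s + polar Q b c * s + Q b := fun s => by
    rw [Q_add, Q_smul, pol_smul_right]; ring
  have e2 : ∀ s : F, polar Q (b + s • c) c = polar Q b c + 2 * Q c * s := fun s => by
    rw [polar_add_left, pol_smul_left, pol_self]; ring
  obtain ⟨l1, hl1, hl1'⟩ := exists_roots_list (a := Q c) (b := polar Q b c) (c := Q b) (Or.inl hQc)
  have han : (∀ x ∈ X, x ≠ 0 → Q x ≠ 0) → ∀ s : F, Q (b + s • c) ≠ 0 := fun h s =>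
    h _ (m1 s) fun e => m2 s (by rw [e]; exact N.zero_mem)
  by_cases h2 : (2 : F) = 0
  · obtain ⟨s, hs⟩ : ∃ s : F, Q (b + s • c) ≠ 0 := by
      have : 3 ≤ Nat.card F ∨ ∀ x ∈ X, x ≠ 0 → Q x ≠ 0 := by
        rcases h with h | h | h
        · left; omega
        · exact Or.inl h.2
        · exact Or.inr h.1
      rcases this with h | h
      · obtain ⟨s, hs⟩ := exists_not_mem_list l1 (by omega)
        exact ⟨s, fun e => hs (hl1' s (by rw [← e1, e]))⟩
      · exact ⟨0, han h 0⟩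
    have e3 : polar Q (b + s • c) c = polar Q b c := by rw [e2, h2]; ring
    exact good_aux hc hcN (m1 s) (m2 s) hs (by rwa [e3]) (by
      rw [e3, h2, zero_mul, zero_mul]; exact mul_ne_zero hbc hbc)
  · have h2c : 2 * Q c ≠ 0 := mul_ne_zero h2 hQc
    obtain ⟨l2, hl2, hl2'⟩ := exists_roots_list (a := 2 * Q c * Q c) (b := 2 * Q c * polar Q b c)
      (c := polar Q b c * polar Q b c - 2 * Q c * Q b) (Or.inl (mul_ne_zero h2c hQc))
    obtain ⟨s, hs1, hs2, hs3⟩ : ∃ s : F, Q (b + s • c) ≠ 0 ∧ s ∉ l2 ∧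
        s ≠ -polar Q b c / (2 * Q c) := by
      rcases h with h | h | h
      · obtain ⟨s, hs⟩ := exists_not_mem_list ((-polar Q b c / (2 * Q c)) :: (l1 ++ l2))
          (by simp; omega)
        simp only [List.mem_cons, List.mem_append, not_or] at hs
        exact ⟨s, fun e => hs.2.1 (hl1' s (by rw [← e1, e])), hs.2.2, hs.1⟩
      · exact absurd h.1 h2
      · obtain ⟨s, hs⟩ := exists_not_mem_list ((-polar Q b c / (2 * Q c)) :: l2)
          (by have := h.2.resolve_left h2; simp; omega)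
        simp only [List.mem_cons, not_or] at hs
        exact ⟨s, han h.1 s, hs.2, hs.1⟩
    refine good_aux hc hcN (m1 s) (m2 s) hs1 (fun e => hs3 ?_) fun e => hs2 (hl2' s ?_)
    · rw [e2] at e; field_simp; linear_combination e
    · rw [e2, e1] at e; linear_combination e

theorem ndOn_one (h2 : (2 : F) ≠ 0) {c : V} (hc : Q c ≠ 0) : NDOn Q (sp F [c]) := by
  intro v hv h
  obtain ⟨s, rfl⟩ := mem_sp_one.1 hv
  have := h c (mem_sp_of_mem (by simp))
  rw [pol_smul_left, pol_self] at this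
  rw [(mul_eq_zero.1 this).resolve_right (mul_ne_zero h2 hc), zero_smul]

theorem not_inf_perp_le (h2 : (2 : F) ≠ 0) {c : V} (hc : c ∈ X) (hQc : Q c ≠ 0)
    {N : Submodule F V} (hcN : c ∈ N) (hN : ¬ X ≤ N) : ¬ X ⊓ perp Q (sp F [c]) ≤ N := by
  intro h
  refine hN fun x hx => ?_
  have : x - (polar Q c x / (2 * Q c)) • c ∈ N := h ⟨X.sub_mem hx (X.smul_mem _ hc),
    mem_perp_sp.2 (by
      simp only [List.mem_singleton, forall_eq, polar_sub_right, pol_smul_right, pol_self]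
      field_simp; ring)⟩
  simpa using N.add_mem this (N.smul_mem (polar Q c x / (2 * Q c)) hcN)

theorem good_aux_sing (h2 : (2 : F) ≠ 0) {c u : V} {N : Submodule F V} (hc : c ∈ X) (hQc : Q c ≠ 0)
    (hcN : c ∈ N) (hu : u ∈ X ⊓ perp Q (sp F [c])) (hQ : Q u = 0) (huN : u ∉ N) :
    ∃ a ∈ X, Q a = Q c ∧ a ∉ N ∧ polar Q a c ≠ 0 := by
  have hcu : polar Q c u = 0 := mem_perp_sp.1 hu.2 c (by simp)
  refine ⟨c + u, X.add_mem hc hu.1, by rw [Q_add, hQ, hcu]; ring, fun e => huN (by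
    simpa using N.sub_mem e hcN), ?_⟩
  rw [polar_add_left, pol_comm Q u, hcu, pol_self, add_zero]; exact mul_ne_zero h2 hQc

theorem NDOn.good_of_odd (hN : ND Q) (hX : NDOn Q X) (h2 : (2 : F) ≠ 0) (h4 : 4 ≤ finrank F X) :
    Good Q X := by
  intro c hc hQc N hcN hXN
  have hE := hX.inf_perp_nd (sp_le.2 (by simp [hc])) (ndOn_one h2 hQc)
  have hd := finrank_le_inf_perp_sp (Q := Q) X [c]
  simp only [List.length_cons, List.length_nil] at hd
  have := mt (hE.le_of_sing hN (T := N) (by omega)) (not_inf_perp_le h2 hc hQc hcN hXN)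
  push Not at this
  obtain ⟨u, hu, hQ, huN⟩ := this
  exact good_aux_sing h2 hc hQc hcN hu hQ huN

theorem NDOn.good_of_three (hN : ND Q) (hX : NDOn Q X) (h2 : (2 : F) ≠ 0) (h3 : finrank F X = 3)
    (hq : 4 ≤ Nat.card F) : Good Q X := by
  intro c hc hQc N hcN hXN
  have hE := hX.inf_perp_nd (sp_le.2 (by simp [hc])) (ndOn_one h2 hQc)
  have hd := hX.finrank_inf_perp hN (T := sp F [c]) (sp_le.2 (by simp [hc]))
  have hd1 : finrank F (sp F [c]) = 1 := by
    rw [sp_one]; exact finrank_span_singleton fun e => hQc (by simp [e])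
  have hEN := not_inf_perp_le h2 hc hQc hcN hXN
  by_cases han : ∀ x ∈ X ⊓ H8.perp Q (sp F [c]), x ≠ 0 → Q x ≠ 0
  · obtain ⟨x, hx⟩ := exists_not_mem_list [(0 : F), 1, -1] (by simp; omega)
    simp only [List.mem_cons, List.not_mem_nil, or_false, not_or] at hx
    have hx1 : (1 - x * x) * Q c ≠ 0 := mul_ne_zero (fun e => by
      have : (x - 1) * (x + 1) = 0 := by linear_combination -e
      rcases mul_eq_zero.1 this with e | e
      · exact hx.2.1 (by linear_combination e)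
      · exact hx.2.2 (by linear_combination e)) hQc
    obtain ⟨e, he, hQe, heN⟩ : ∃ e ∈ X ⊓ H8.perp Q (sp F [c]), Q e = (1 - x * x) * Q c ∧ e ∉ N := by
      obtain ⟨e, he, hQe⟩ := hE.exists_value_two hN (by omega) ((1 - x * x) * Q c)
      by_cases heN : e ∈ N
      · obtain ⟨a, ha, h1, h2, -⟩ := hE.good_of_card (Or.inr (Or.inr ⟨han, Or.inr hq⟩)) e he
          (by rwa [hQe]) N heN hEN
        exact ⟨a, ha, by rw [h1, hQe], h2⟩
      · exact ⟨e, he, hQe, heN⟩
    have hce : polar Q c e = 0 := mem_perp_sp.1 he.2 c (by simp)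
    refine ⟨x • c + e, X.add_mem (X.smul_mem _ hc) he.1, ?_, fun h => heN (by
      simpa using N.sub_mem h (N.smul_mem x hcN)), ?_⟩
    · rw [Q_add, Q_smul, pol_smul_left, hce, hQe]; ring
    · rw [polar_add_left, pol_smul_left, pol_self, pol_comm Q e, hce, add_zero]
      exact mul_ne_zero hx.1 (mul_ne_zero h2 hQc)
  · push Not at han
    obtain ⟨u, hu, hu0, hQu⟩ := han
    obtain ⟨w, hw, hQw, huw⟩ := hE.exists_partner hu hu0 hQu
    have hE2 := eq_sp_pair (by omega) hu hw hQw huw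
    by_cases huN : u ∈ N
    · exact good_aux_sing h2 hc hQc hcN hw hQw fun hwN => hEN (by
        rw [hE2]; exact sp_le.2 (by simp [huN, hwN]))
    · exact good_aux_sing h2 hc hQc hcN hu hQu huN

theorem ndOn_pair_two (h2 : (2 : F) = 0) {b c : V} (hbc : polar Q b c ≠ 0) :
    NDOn Q (sp F [b, c]) := by
  intro v hv h
  obtain ⟨r, s, rfl⟩ := mem_sp_two.1 hv
  have h1 := h c (mem_sp_of_mem (by simp))
  have h3 := h b (mem_sp_of_mem (by simp))
  rw [polar_add_left, pol_smul_left, pol_smul_left, pol_self, h2] at h1 h3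
  rw [pol_comm Q c b] at h3
  have hr : r = 0 := by simpa [hbc] using h1
  have hs : s = 0 := by simpa [hbc] using h3
  simp [hr, hs]

theorem NDOn.good_of_two (hN : ND Q) (hX : NDOn Q X) (hq : Nat.card F = 2) (h4 : 4 ≤ finrank F X)
    (hp : ¬ ∃ U, U ≤ X ∧ (∀ x ∈ U, Q x = 0) ∧ 2 * finrank F U = 4 ∧ finrank F X = 4) :
    Good Q X := by
  have h2 : (2 : F) = 0 := two_eq_zero_of_even_card (by rw [hq]; decide)
  have one : ∀ a : F, a ≠ 0 → a = 1 := fun a ha => (eq_of_card_two hq a).resolve_left ha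
  intro c hc hQc N hcN hXN
  obtain ⟨b, hb, hbN, hbc⟩ := hX.exists_not_mem_pol hc (fun e => hQc (by simp [e])) hXN
  by_cases hQb : Q b = 0
  swap
  · exact good_aux hc hcN hb hbN hQb hbc (by rw [h2, zero_mul, zero_mul]; exact mul_ne_zero hbc hbc)
  have hE := hX.inf_perp_nd (sp_le.2 (by simp [hb, hc])) (ndOn_pair_two h2 hbc)
  have hd := finrank_le_inf_perp_sp (Q := Q) X [b, c]
  simp only [List.length_cons, List.length_nil] at hd
  set E := X ⊓ H8.perp Q (sp F [b, c]) with hEdef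
  obtain ⟨e, he, e', he', h1, h1', h3⟩ : ∃ e ∈ E, ∃ e' ∈ E, Q e = 1 ∧ Q e' = 1 ∧
      polar Q e e' = 1 := by
    obtain ⟨e, he, hQe⟩ := hE.exists_value_two hN (by omega) 1
    obtain ⟨y, hy, hey⟩ := hE.exists_pol_eq_one he (fun h => by simp [h] at hQe)
    by_cases hQy : Q y = 0
    swap
    · exact ⟨e, he, y, hy, hQe, one _ hQy, hey⟩
    have hE' := hE.inf_perp_nd (sp_le.2 (by simp [he, hy])) (ndOn_pair_two h2 (b := e) (c := y)
      (by rw [hey]; exact one_ne_zero))
    have hd' := finrank_le_inf_perp_sp (Q := Q) E [e, y]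
    simp only [List.length_cons, List.length_nil] at hd'
    by_cases h4' : finrank F X = 4
    · refine absurd ⟨sp F [b, y], sp_le.2 (by simp [hb, show y ∈ X from hy.1]), fun x hx => ?_, ?_, h4'⟩ hp
      · obtain ⟨r, s, rfl⟩ := mem_sp_two.1 hx
        rw [Q_add, Q_smul, Q_smul, pol_smul_left, pol_smul_right, hQb, hQy,
          mem_perp_sp.1 hy.2 b (by simp)]; ring
      · have hle := finrank_sp_le (F := F) [b, y]
        simp only [List.length_cons, List.length_nil] at hle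
        have hlt : sp F [y] < sp F [b, y] := by
          refine lt_of_le_of_ne (sp_le.2 (by simp [mem_sp_of_mem])) fun h => hbc ?_
          have : b ∈ sp F [y] := by rw [h]; exact mem_sp_of_mem (by simp)
          obtain ⟨s, rfl⟩ := mem_sp_one.1 this
          rw [pol_smul_left, pol_comm, mem_perp_sp.1 hy.2 c (by simp), mul_zero]
        have h5 := Submodule.finrank_lt_finrank_of_lt hlt
        rw [sp_one, finrank_span_singleton (fun h => by simp [h] at hey)] at h5
        omega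
    · obtain ⟨z, hz, hQz⟩ : ∃ z ∈ E ⊓ H8.perp Q (sp F [e, y]), Q z = 1 := by
        obtain ⟨z, hz, hQz⟩ := hE'.exists_nonsing hN le_rfl (by omega)
        exact ⟨z, hz, one _ hQz⟩
      refine ⟨e, he, y + z, E.add_mem hy hz.1, hQe, ?_, ?_⟩
      · rw [Q_add, hQy, hQz, mem_perp_sp.1 hz.2 y (by simp)]; ring
      · rw [polar_add_right, hey, mem_perp_sp.1 hz.2 e (by simp), add_zero]
  have key : ∀ x ∈ E, Q x = 1 → b + x ∉ N → ∃ a ∈ X, Q a = Q c ∧ a ∉ N ∧ polar Q a c ≠ 0 :=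
    fun x hx hQx hxN => by
      have e1 : polar Q (b + x) c = polar Q b c := by
        rw [polar_add_left, pol_comm Q x, mem_perp_sp.1 hx.2 c (by simp), add_zero]
      refine good_aux hc hcN (X.add_mem hb hx.1) hxN ?_ (by rwa [e1])
        (by rw [e1, h2, zero_mul, zero_mul]; exact mul_ne_zero hbc hbc)
      rw [Q_add, hQb, hQx, mem_perp_sp.1 hx.2 b (by simp)]; simp
  by_cases m1 : b + e ∈ N
  · by_cases m2 : b + e' ∈ N
    · refine key (e + e') (E.add_mem he he') (by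
        rw [Q_add, h1, h1', h3]; linear_combination h2) fun m3 => hbN ?_
      convert N.sub_mem (N.add_mem m1 m2) m3 using 1; abel
    · exact key e' he' h1' m2
  · exact key e he h1 m1

theorem Good.exists_partner (hG : Good Q X) (h2 : 2 ≤ finrank F X) {c : V} (hc : c ∈ X)
    (hQc : Q c ≠ 0) : ∃ a ∈ X, Q a = Q c ∧ a ∉ sp F [c] ∧ polar Q a c ≠ 0 :=
  hG c hc hQc _ (mem_sp_of_mem (by simp)) fun h => by
    have h1 := Submodule.finrank_mono h
    have h3 := finrank_sp_le (F := F) [c]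
    simp only [List.length_cons, List.length_nil] at h3
    omega

theorem Good.exists_value_not_mem (hN : ND Q) (hX : NDOn Q X) (hG : Good Q X)
    (h2 : 2 ≤ finrank F X) {N : Submodule F V} (hXN : ¬ X ≤ N) {ν : F} (hν : ν ≠ 0) :
    ∃ a ∈ X, Q a = ν ∧ a ∉ N := by
  obtain ⟨e, he, hQe⟩ := hX.exists_value_two hN h2 ν
  by_cases heN : e ∈ N
  · obtain ⟨a, ha, h1, h2, -⟩ := hG e he (by rwa [hQe]) N heN hXN
    exact ⟨a, ha, by rw [h1, hQe], h2⟩
  · exact ⟨e, he, hQe, heN⟩

theorem Good.maps {t : ℕ} {D : Fin t → Submodule F V} (h : OD0 Q D) (hG : Good Q X) {x : V ≃ₗ[F] V}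
    (hx : x ∈ OG Q) {c : V} (hc : c ∈ X) (hQc : Q c ≠ 0)
    (hm : ∀ a ∈ X, Q a = Q c → ∃ l, x a ∈ D l) : ∃ l, ∀ a ∈ X, x a ∈ D l := by
  obtain ⟨l, hl⟩ := hm c hc rfl
  refine ⟨l, ?_⟩
  by_contra hc'
  obtain ⟨a, ha, h1, h2, h3⟩ := hG c hc hQc ((D l).comap (x : V →ₗ[F] V)) hl hc'
  obtain ⟨m, hm⟩ := hm a ha h1
  exact h3 (by rw [← OG_pol hx]; exact h.orth m l (fun e => h2 (e ▸ hm)) _ hm _ hl)

end Cfsg.Agent.H8
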