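import Cfsg.Agent.H2.M4a

set_option autoImplicit false

/-! Homologies and reflections in a linear group. -/

namespace Cfsg.Agent.H8.Ho
open Cfsg Matrix

variable {K : Type*} [Field K] {ι : Type*} [Fintype ι] [DecidableEq ι]

/-- the matrix `X` lies in `Γ` -/
def Mm (Γ : Subgroup (GL ι K)) (X : Matrix ι ι K) : Prop := ∃ g ∈ Γ, g.val = X

/-- the homology with ratio `l`, centre `a` and axis `φ` -/
def hm (l : K) (a φ : ι → K) : Matrix ι ι K := 1 + (l - 1) • vecMulVec a φ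

/-- the homology is in `Γ` -/
def Hm (Γ : Subgroup (GL ι K)) (l : K) (a φ : ι → K) : Prop := φ ⬝ᵥ a = 1 ∧ Mm Γ (hm l a φ)

/-- the reflection is in `Γ` -/
def Rf (Γ : Subgroup (GL ι K)) (a φ : ι → K) : Prop := Hm Γ (-1) a φ

/-- no transvections -/
def NoTv (Γ : Subgroup (GL ι K)) : Prop :=
  ∀ v φ : ι → K, φ ⬝ᵥ v = 0 → Mm Γ (1 + vecMulVec v φ) → v = 0 ∨ φ = 0

/-- the two cycles through three centre/axis pairs agree -/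
def Sy (a φ b ψ c χ : ι → K) : Prop :=
  (φ ⬝ᵥ b) * (ψ ⬝ᵥ c) * (χ ⬝ᵥ a) = (φ ⬝ᵥ c) * (χ ⬝ᵥ b) * (ψ ⬝ᵥ a)

/-- the determinant of the Cartan matrix of three centre/axis pairs -/
def cd3 (a φ b ψ c χ : ι → K) : K :=
  1 - (φ ⬝ᵥ b) * (ψ ⬝ᵥ a) - (ψ ⬝ᵥ c) * (χ ⬝ᵥ b) - (φ ⬝ᵥ c) * (χ ⬝ᵥ a) +
    (φ ⬝ᵥ b) * (ψ ⬝ᵥ c) * (χ ⬝ᵥ a) + (φ ⬝ᵥ c) * (χ ⬝ᵥ b) * (ψ ⬝ᵥ a)

/-- products of two reflections have order at most four -/
def G0 (Γ : Subgroup (GL ι K)) : Prop := ∀ a φ b ψ, Rf Γ a φ → Rf Γ b ψ → vecMulVec a φ = vecMulVec b ψ ∨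
  (φ ⬝ᵥ b) * (ψ ⬝ᵥ a) = 0 ∨ 4 * ((φ ⬝ᵥ b) * (ψ ⬝ᵥ a)) = 1 ∨ 2 * ((φ ⬝ᵥ b) * (ψ ⬝ᵥ a)) = 1

/-- the reflection is diagonal or swaps two coordinate lines -/
def Mo (a φ : ι → K) : Prop := (∃ i, ∀ j, j ≠ i → a j = 0 ∧ φ j = 0) ∨
  ∃ i j, i ≠ j ∧ (∀ k, k ≠ i → k ≠ j → a k = 0 ∧ φ k = 0) ∧ 2 * (a i * φ i) = 1

/-- change of basis -/
def cb (Q : GL ι K) (Γ : Subgroup (GL ι K)) : Subgroup (GL ι K) := Γ.comap (MulAut.conj Q).toMonoidHom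

variable {Γ : Subgroup (GL ι K)} {X Y : Matrix ι ι K} {a b c v w φ ψ χ : ι → K} {l m : K}

theorem mem_cb {Q g : GL ι K} : g ∈ cb Q Γ ↔ Q * g * Q⁻¹ ∈ Γ := Iff.rfl

theorem Mm.of_mem {g : GL ι K} (h : g ∈ Γ) : Mm Γ g.val := ⟨g, h, rfl⟩

theorem Mm.one : Mm Γ (1 : Matrix ι ι K) := ⟨1, one_mem _, rfl⟩

theorem Mm.mul (h : Mm Γ X) (h' : Mm Γ Y) : Mm Γ (X * Y) := by
  obtain ⟨g, hg, rfl⟩ := h
  obtain ⟨k, hk, rfl⟩ := h'
  exact ⟨g * k, mul_mem hg hk, rfl⟩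

theorem Mm.pow (h : Mm Γ X) (n : ℕ) : Mm Γ (X ^ n) := by
  obtain ⟨g, hg, rfl⟩ := h
  exact ⟨g ^ n, pow_mem hg n, by simp⟩

theorem Mm.congr (h : Mm Γ X) (e : Y = X) : Mm Γ Y := e ▸ h

theorem Mm.inv (h : Mm Γ X) (e : X * Y = 1) : Mm Γ Y := by
  obtain ⟨g, hg, rfl⟩ := h
  exact ⟨g⁻¹, inv_mem hg, by rw [← mul_one (g⁻¹).val, ← e, ← mul_assoc]; simp⟩

theorem Mm.exists_inv (h : Mm Γ X) : ∃ Y, Mm Γ Y ∧ X * Y = 1 ∧ Y * X = 1 := by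
  obtain ⟨g, hg, rfl⟩ := h
  exact ⟨_, Mm.of_mem (inv_mem hg), by simp, by simp⟩

theorem Mm.det (h : Mm Γ X) : X.det ≠ 0 := by
  obtain ⟨g, -, rfl⟩ := h
  exact g.det_ne_zero

theorem Mm.of_mul_left (h : Mm Γ X) (h' : Mm Γ (X * Y)) : Mm Γ Y := by
  obtain ⟨Z, hZ, -, e⟩ := h.exists_inv
  exact (hZ.mul h').congr (by rw [← mul_assoc, e, one_mul])

theorem Mm.of_mul_right (h : Mm Γ X) (h' : Mm Γ (Y * X)) : Mm Γ Y := by
  obtain ⟨Z, hZ, e, -⟩ := h.exists_inv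
  exact (h'.mul hZ).congr (by rw [mul_assoc, e, mul_one])

theorem Mm.mono {Δ : Subgroup (GL ι K)} (h : Mm Γ X) (hl : Γ ≤ Δ) : Mm Δ X := by
  obtain ⟨g, hg, rfl⟩ := h
  exact ⟨g, hl hg, rfl⟩

theorem mm_cb {Q : GL ι K} : Mm (cb Q Γ) X ↔ Mm Γ (Q.val * X * (Q⁻¹).val) := by
  constructor
  · rintro ⟨g, hg, rfl⟩
    exact ⟨_, hg, rfl⟩
  · rintro ⟨g, hg, e⟩
    refine ⟨Q⁻¹ * g * Q, by simpa [mem_cb, mul_assoc] using hg, ?_⟩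
    simp only [Units.val_mul, e]
    simp [mul_assoc]

theorem vmv_mul (a φ b ψ : ι → K) : vecMulVec a φ * vecMulVec b ψ = (φ ⬝ᵥ b) • vecMulVec a ψ := by
  rw [vecMulVec_mul_vecMulVec, vecMulVec_smul]

theorem conj_vmv (X Y : Matrix ι ι K) (a φ : ι → K) :
    X * vecMulVec a φ * Y = vecMulVec (X *ᵥ a) (φ ᵥ* Y) := by
  rw [mul_vecMulVec, vecMulVec_mul]

theorem dot_conj (e : Y * X = 1) (a φ : ι → K) : (φ ᵥ* Y) ⬝ᵥ (X *ᵥ a) = φ ⬝ᵥ a := by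
  rw [← dotProduct_mulVec, mulVec_mulVec, e, one_mulVec]

theorem conj_hm (e : X * Y = 1) (l : K) (a φ : ι → K) : X * hm l a φ * Y = hm l (X *ᵥ a) (φ ᵥ* Y) := by
  simp only [hm, mul_add, add_mul, mul_one, e, Matrix.mul_smul, Matrix.smul_mul, conj_vmv]

theorem hm_mulVec (l : K) (a φ v : ι → K) : hm l a φ *ᵥ v = v + ((l - 1) * (φ ⬝ᵥ v)) • a := by
  rw [hm, add_mulVec, one_mulVec, smul_mulVec, vecMulVec_mulVec, op_smul_eq_smul, smul_smul]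

theorem vecMul_hm (l : K) (a φ ψ : ι → K) : ψ ᵥ* hm l a φ = ψ + ((l - 1) * (ψ ⬝ᵥ a)) • φ := by
  rw [hm, vecMul_add, vecMul_one, vecMul_smul, vecMul_vecMulVec, smul_smul]

theorem hm_mul (h : φ ⬝ᵥ a = 1) (l m : K) : hm l a φ * hm m a φ = hm (l * m) a φ := by
  simp only [hm, mul_add, add_mul, mul_one, one_mul, Matrix.mul_smul, Matrix.smul_mul, vmv_mul, h, one_smul,
    smul_smul, add_assoc, ← add_smul]
  congr 2
  ring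

theorem hm_one (a φ : ι → K) : hm 1 a φ = 1 := by simp [hm]

theorem hm_smul (l : K) {u : K} (hu : u ≠ 0) (a φ : ι → K) : hm l (u • a) (u⁻¹ • φ) = hm l a φ := by
  simp [hm, smul_smul, hu]

theorem hm_pow (h : φ ⬝ᵥ a = 1) (l : K) (n : ℕ) : hm l a φ ^ n = hm (l ^ n) a φ := by
  induction n with
  | zero => simp [hm_one]
  | succ n ih => rw [pow_succ, ih, hm_mul h, pow_succ]

theorem Hm.ne (h : Hm Γ l a φ) : a ≠ 0 := by rintro rfl; simpa using h.1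

theorem Hm.ne' (h : Hm Γ l a φ) : φ ≠ 0 := by rintro rfl; simpa using h.1

theorem Hm.l_ne (h : Hm Γ l a φ) : l ≠ 0 := by
  rintro rfl
  obtain ⟨Y, -, -, e⟩ := h.2.exists_inv
  have := congrArg (· *ᵥ a) e
  simp only [← mulVec_mulVec, hm_mulVec, h.1, one_mulVec] at this
  exact h.ne (by simpa using this.symm)

theorem Hm.mul_inv (h : Hm Γ l a φ) : hm l a φ * hm l⁻¹ a φ = 1 := by
  rw [hm_mul h.1, mul_inv_cancel₀ h.l_ne, hm_one]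

theorem Hm.inv (h : Hm Γ l a φ) : Hm Γ l⁻¹ a φ := ⟨h.1, h.2.inv h.mul_inv⟩

theorem Hm.pow (h : Hm Γ l a φ) (n : ℕ) : Hm Γ (l ^ n) a φ := ⟨h.1, (h.2.pow n).congr (hm_pow h.1 l n).symm⟩

theorem Hm.smul (h : Hm Γ l a φ) {u : K} (hu : u ≠ 0) : Hm Γ l (u • a) (u⁻¹ • φ) :=
  ⟨by simp [h.1, hu], h.2.congr (hm_smul l hu a φ)⟩

theorem Hm.congr (h : Hm Γ l a φ) (e : b = a) (e' : ψ = φ) : Hm Γ l b ψ := by rw [e, e']; exact h

/-- rescale the centre -/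
theorem Hm.scale (h : Hm Γ l a φ) (u : K) (hu : u ≠ 0) (e : b = u • a) (e' : φ = u • ψ) : Hm Γ l b ψ :=
  (h.smul hu).congr e (by rw [e', smul_smul, inv_mul_cancel₀ hu, one_smul])

theorem Hm.conj (h : Hm Γ l a φ) (hX : Mm Γ X) (e : X * Y = 1) : Hm Γ l (X *ᵥ a) (φ ᵥ* Y) :=
  ⟨by rw [dot_conj (mul_eq_one_comm.1 e), h.1], ((hX.mul h.2).mul (hX.inv e)).congr (conj_hm e l a φ).symm⟩

theorem Hm.act (h : Hm Γ l a φ) (h' : Hm Γ m b ψ) :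
    Hm Γ m (b + ((l - 1) * (φ ⬝ᵥ b)) • a) (ψ + ((l⁻¹ - 1) * (ψ ⬝ᵥ a)) • φ) := by
  have := h'.conj h.2 h.mul_inv
  rwa [hm_mulVec, vecMul_hm] at this

theorem Rf.act (h : Rf Γ a φ) (h' : Hm Γ m b ψ) :
    Hm Γ m (b - (2 * (φ ⬝ᵥ b)) • a) (ψ - (2 * (ψ ⬝ᵥ a)) • φ) :=
  (Hm.act h h').congr (by rw [sub_eq_add_neg, ← neg_smul]; congr 2; ring)
    (by rw [sub_eq_add_neg, ← neg_smul, inv_neg, inv_one]; congr 2; ring)

theorem hm_cb {Q : GL ι K} : Hm (cb Q Γ) l a φ ↔ Hm Γ l (Q.val *ᵥ a) (φ ᵥ* (Q⁻¹).val) := by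
  rw [Hm, Hm, mm_cb, conj_hm (by simp), dot_conj (by simp)]

theorem hm_cb' {Q : GL ι K} : Hm (cb Q Γ) l ((Q⁻¹).val *ᵥ a) (φ ᵥ* Q.val) ↔ Hm Γ l a φ := by
  rw [hm_cb, mulVec_mulVec, vecMul_vecMul]; simp

theorem NoTv.cb (h : NoTv Γ) (Q : GL ι K) : NoTv (cb Q Γ) := fun v φ e hm => by
  rw [mm_cb, mul_add, add_mul, conj_vmv] at hm
  rw [mul_one, Units.mul_inv] at hm
  rcases h _ _ (by rw [dot_conj Q.inv_mul, e]) hm with k | k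
  · exact Or.inl (by simpa [mulVec_mulVec] using congrArg ((Q⁻¹).val *ᵥ ·) k)
  · exact Or.inr (by simpa [vecMul_vecMul] using congrArg (· ᵥ* Q.val) k)

theorem NoTv.mono {Δ : Subgroup (GL ι K)} (h : NoTv Δ) (hl : Γ ≤ Δ) : NoTv Γ := fun v φ e hm =>
  h v φ e (hm.mono hl)

/-- two homologies with the same ratio and centre agree -/
theorem NoTv.axis (h : NoTv Γ) (hl : l ≠ 1) (h1 : Hm Γ l a φ) (h2 : Hm Γ l a ψ) : ψ = φ := by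
  have := h a ((1 - l⁻¹) • (ψ - φ)) (by simp [h1.1, h2.1]) ((h1.inv.2.mul h2.2).congr (by
    have := h1.l_ne
    simp only [hm, mul_add, add_mul, mul_one, one_mul, Matrix.mul_smul, Matrix.smul_mul, vmv_mul, h1.1, one_smul,
      smul_smul, add_assoc, vecMulVec_smul, vecMulVec_sub, smul_sub]
    ext i j
    simp [vecMulVec]
    field_simp
    ring))
  rcases this with k | k
  · exact absurd k h1.ne
  · rw [smul_eq_zero, sub_eq_zero, sub_eq_zero, eq_comm, inv_eq_one] at k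
    exact k.resolve_left hl

/-- two homologies with the same ratio and axis agree -/
theorem NoTv.centre (h : NoTv Γ) (hl : l ≠ 1) (h1 : Hm Γ l a φ) (h2 : Hm Γ l b φ) : b = a := by
  have := h ((1 - l⁻¹) • (b - a)) φ (by simp [h1.1, h2.1]) ((h2.2.mul h1.inv.2).congr (by
    have := h1.l_ne
    simp only [hm, mul_add, add_mul, mul_one, one_mul, Matrix.mul_smul, Matrix.smul_mul, vmv_mul, h1.1, one_smul,
      smul_smul, add_assoc, smul_vecMulVec, sub_vecMulVec, smul_sub]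
    ext i j
    simp [vecMulVec]
    field_simp
    ring))
  rcases this with k | k
  · rw [smul_eq_zero, sub_eq_zero, sub_eq_zero, eq_comm, inv_eq_one] at k
    exact k.resolve_left hl
  · exact absurd k h1.ne'

/-- orthogonality is symmetric -/
theorem NoTv.orth (h : NoTv Γ) (hl : l ≠ 1) (hm : m ≠ 1) (h1 : Hm Γ l a φ) (h2 : Hm Γ m b ψ) (e : φ ⬝ᵥ b = 0) :
    ψ ⬝ᵥ a = 0 := by
  have := h1.act h2
  rw [e, mul_zero, zero_smul, add_zero] at this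
  have := h.axis hm h2 this
  rw [add_eq_left, smul_eq_zero, mul_eq_zero, sub_eq_zero, inv_eq_one] at this
  rcases this with (k | k) | k
  exacts [absurd k hl, k, absurd k h1.ne']

theorem neg_one_ne (h2 : (2 : K) ≠ 0) : (-1 : K) ≠ 1 := fun e => h2 (by linear_combination -e)

end Cfsg.Agent.H8.Ho
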