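import Cfsg.Agent.H8.Ho0
import Cfsg.Agent.H2.MiA

set_option autoImplicit false

/-! Reflections in a Sylow `2`-subgroup: the transfer argument. -/

namespace Cfsg.Agent.H8.Ho
open Cfsg Matrix Cfsg.Agent.H2.M4 Polynomial

variable {K : Type*} [Field K]

/-- rotations have order `1, 2, 3, 5` -/
def Rt (Γ : Subgroup (G4 K)) : Prop := ∀ (E : M4 K) (m : K), E * E = E → E.trace = 2 →
  Mm Γ (1 + (m - 1) • E) → m ^ 2 = 1 ∨ m ^ 3 = 1 ∨ m ^ 5 = 1

/-- the preimage of a Sylow `2`-subgroup containing a reflection -/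
structure SS (S : Subgroup (G4 K)) : Prop where
  two : (2 : K) ≠ 0
  sc : Sc K ≤ S
  pw : ∀ g ∈ S, ∃ n, g ^ 2 ^ n ∈ Sc K
  spl : ∀ g ∈ S, g.val.charpoly.Splits
  rt : Rt S
  ref : ∃ a φ, Rf S a φ
  tr : ∀ N : Subgroup (G4 K), Sc K ≤ N → (∀ a ∈ S, ∀ b ∈ S, a * b * a⁻¹ * b⁻¹ ∈ N) →
    (∀ a φ b ψ, Rf S a φ → Rf S b ψ → Mm N (hm (-1) a φ * hm (-1) b ψ)) → ∀ a φ, Rf S a φ → Rf N a φ

theorem sc_conj {g : G4 K} (Q : G4 K) (h : g ∈ Sc K) : Q * g * Q⁻¹ = g := by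
  rw [sc_central (pr_eq_one.2 h), mul_inv_cancel_right]

theorem sc_cb {S : Subgroup (G4 K)} (h : Sc K ≤ S) (Q : G4 K) : Sc K ≤ cb Q S := fun g hg => by
  rw [mem_cb, sc_conj Q hg]; exact h hg

theorem sc_of_conj {g Q : G4 K} (h : Q * g * Q⁻¹ ∈ Sc K) : g ∈ Sc K := by
  have := sc_conj Q⁻¹ h
  rw [show Q⁻¹ * (Q * g * Q⁻¹) * Q⁻¹⁻¹ = g by group] at this
  exact this ▸ h

theorem Rt.cb {Γ : Subgroup (G4 K)} (h : Rt Γ) (Q : G4 K) : Rt (cb Q Γ) := fun E m e1 e2 e3 => by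
  refine h (Q.val * E * (Q⁻¹).val) m ?_ ?_ ((mm_cb.1 e3).congr (by simp [mul_add, add_mul]))
  · calc _ = Q.val * E * ((Q⁻¹).val * Q.val) * E * (Q⁻¹).val := by simp only [mul_assoc]
      _ = _ := by rw [Units.inv_mul, mul_one, mul_assoc Q.val E E, e1]
  · rw [trace_mul_cycle, Units.inv_mul, one_mul, e2]

theorem Rt.mono {Γ Δ : Subgroup (G4 K)} (h : Rt Δ) (hl : Γ ≤ Δ) : Rt Γ := fun E m e1 e2 e3 =>
  h E m e1 e2 (e3.mono hl)

theorem spl_cb {S : Subgroup (G4 K)} (h : ∀ g ∈ S, g.val.charpoly.Splits) (Q : G4 K) :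
    ∀ g ∈ cb Q S, g.val.charpoly.Splits := fun g hg => by
  have := h _ (mem_cb.1 hg)
  rwa [Units.val_mul, Matrix.charpoly_mul_comm, Units.val_mul, ← mul_assoc, Units.inv_mul, one_mul] at this

theorem SS.cb {S : Subgroup (G4 K)} (h : SS S) (Q : G4 K) : SS (cb Q S) where
  two := h.two
  sc := sc_cb h.sc Q
  pw g hg := (h.pw _ (mem_cb.1 hg)).imp fun n hn => sc_of_conj (Q := Q) (by rwa [conj_pow] at hn)
  spl := spl_cb h.spl Q
  rt := h.rt.cb Q
  ref := by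
    obtain ⟨a, φ, h⟩ := h.ref
    exact ⟨_, _, hm_cb'.2 h⟩
  tr N h1 h2 h3 a φ h4 := by
    have := h.tr (Ho.cb Q⁻¹ N) (sc_cb h1 _) (fun a ha b hb => by
      have := h2 (Q⁻¹ * a * Q) (by simpa [mem_cb, mul_assoc] using ha) (Q⁻¹ * b * Q)
        (by simpa [mem_cb, mul_assoc] using hb)
      rw [mem_cb]; convert this using 1; group) (fun a φ b ψ k1 k2 => by
      rw [mm_cb]
      refine (h3 _ _ _ _ (hm_cb'.2 k1) (hm_cb'.2 k2)).congr ?_
      rw [← conj_hm Q.inv_mul, ← conj_hm Q.inv_mul, inv_inv]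
      simp only [mul_assoc, Units.mul_inv_cancel_left]) _ _ (hm_cb.1 h4)
    have := hm_cb.1 this
    simpa [mulVec_mulVec, vecMul_vecMul, Rf] using this

/-- a central involution modulo a normal subgroup -/
theorem cen [Finite K] {H N : Subgroup (G4 K)} (h1 : Sc K ≤ N) (pw : ∀ g ∈ H, ∃ n, g ^ 2 ^ n ∈ Sc K)
    (hn : ∀ g ∈ H, ∀ t ∈ N, g * t * g⁻¹ ∈ N) (ne : ¬ H ≤ N) :
    ∃ b ∈ H, b ∉ N ∧ b * b ∈ N ∧ ∀ g ∈ H, g * b * g⁻¹ * b⁻¹ ∈ N := by
  have : (N.subgroupOf H).Normal := ⟨fun n hn' g => hn g g.2 n hn'⟩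
  have : Fact (Nat.Prime 2) := ⟨Nat.prime_two⟩
  have hp : IsPGroup 2 (H ⧸ N.subgroupOf H) := fun g => by
    obtain ⟨g, rfl⟩ := QuotientGroup.mk_surjective g
    obtain ⟨n, hn⟩ := pw g g.2
    exact ⟨n, by rw [← QuotientGroup.mk_pow, QuotientGroup.eq_one_iff]; exact h1 hn⟩
  have : Nontrivial (H ⧸ N.subgroupOf H) := by
    obtain ⟨g, h2, h3⟩ := SetLike.not_le_iff_exists.1 ne
    exact ⟨⟨QuotientGroup.mk ⟨g, h2⟩, 1, fun e =>
      h3 ((QuotientGroup.eq_one_iff (N := N.subgroupOf H) _).1 e)⟩⟩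
  have := hp.center_nontrivial
  obtain ⟨n, h0, hc⟩ := (hp.to_subgroup (Subgroup.center _)).nontrivial_iff_card.1 this
  obtain ⟨⟨z, hz⟩, ho⟩ := exists_prime_orderOf_dvd_card' (G := Subgroup.center (H ⧸ N.subgroupOf H)) 2
    (hc ▸ dvd_pow_self 2 h0.ne')
  obtain ⟨z, rfl⟩ := QuotientGroup.mk_surjective z
  rw [← Subgroup.orderOf_coe, orderOf_eq_prime_iff] at ho
  refine ⟨z, z.2, fun e => ho.2 ((QuotientGroup.eq_one_iff _).2 e), ?_, fun g hg => ?_⟩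
  · have := ho.1
    rw [pow_two, ← QuotientGroup.mk_mul, QuotientGroup.eq_one_iff] at this
    exact this
  · have := Subgroup.mem_center_iff.1 hz (QuotientGroup.mk ⟨g, hg⟩)
    rw [← mul_inv_eq_one, ← QuotientGroup.mk_mul, ← QuotientGroup.mk_mul, ← QuotientGroup.mk_inv,
      ← QuotientGroup.mk_mul, QuotientGroup.eq_one_iff] at this
    simpa [Subgroup.mem_subgroupOf, mul_assoc] using this

/-- the transfer argument for a character of a subgroup of index at most two -/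
theorem SS.mu {S H : Subgroup (G4 K)} (h : SS S) (μ : G4 K → K) (w : G4 K) (hH : Sc K ≤ H)
    (hw : ∀ g ∈ S, g ∈ H ∨ ∃ k ∈ H, g = k * w) (hm' : ∀ g ∈ H, ∀ k ∈ H, μ (g * k) = μ g * μ k)
    (h1 : ∀ g ∈ Sc K, μ g = 1) (hc : ∀ g ∈ H, w * g * w⁻¹ ∈ H ∧ μ (w * g * w⁻¹) = μ g)
    (hr : ∀ g ∈ S, ∀ a φ, φ ⬝ᵥ a = 1 → g.val = hm (-1) a φ → g ∈ H ∧ μ g = -1) : False := by
  have hi : ∀ g ∈ H, μ g * μ g⁻¹ = 1 := fun g hg => by rw [← hm' g hg _ (inv_mem hg), mul_inv_cancel, h1 _ (one_mem _)]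
  let N : Subgroup (G4 K) :=
    { carrier := {g | g ∈ H ∧ μ g = 1}
      mul_mem' := fun a b => ⟨mul_mem a.1 b.1, by rw [hm' _ a.1 _ b.1, a.2, b.2, mul_one]⟩
      one_mem' := ⟨one_mem _, h1 _ (one_mem _)⟩
      inv_mem' := fun a => ⟨inv_mem a.1, by simpa [a.2] using hi _ a.1⟩ }
  have cj : ∀ g ∈ S, ∀ k ∈ H, g * k * g⁻¹ ∈ H ∧ μ (g * k * g⁻¹) = μ k := by
    have : ∀ g ∈ H, ∀ k ∈ H, g * k * g⁻¹ ∈ H ∧ μ (g * k * g⁻¹) = μ k := fun g hg k hk =>
      ⟨mul_mem (mul_mem hg hk) (inv_mem hg), by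
        rw [hm' _ (mul_mem hg hk) _ (inv_mem hg), hm' _ hg _ hk]; linear_combination μ k * hi g hg⟩
    intro g hg k hk
    rcases hw g hg with e | ⟨x, hx, rfl⟩
    · exact this g e k hk
    · rw [show x * w * k * (x * w)⁻¹ = x * (w * k * w⁻¹) * x⁻¹ by group, (this x hx _ (hc k hk).1).2]
      exact ⟨(this x hx _ (hc k hk).1).1, (hc k hk).2⟩
  obtain ⟨a, φ, hf⟩ := h.ref
  obtain ⟨-, g, hg, e⟩ := h.tr N (fun g hg => ⟨hH hg, h1 g hg⟩) (fun a ha b hb => by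
    rcases hw a ha with e | ⟨x, hx, rfl⟩
    · rw [show a * b * a⁻¹ * b⁻¹ = a * (b * a⁻¹ * b⁻¹) by group]
      obtain ⟨k1, k2⟩ := cj b hb _ (inv_mem e)
      exact ⟨mul_mem e k1, by rw [hm' _ e _ k1, k2, hi a e]⟩
    rcases hw b hb with e | ⟨y, hy, rfl⟩
    · obtain ⟨k1, k2⟩ := cj _ ha _ e
      exact ⟨mul_mem k1 (inv_mem e), by rw [hm' _ k1 _ (inv_mem e), k2, hi b e]⟩
    · rw [show x * w * (y * w) * (x * w)⁻¹ * (y * w)⁻¹ = x * (w * (y * x⁻¹) * w⁻¹) * y⁻¹ by group]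
      obtain ⟨k1, k2⟩ := hc _ (mul_mem hy (inv_mem hx))
      refine ⟨mul_mem (mul_mem hx k1) (inv_mem hy), ?_⟩
      rw [hm' _ (mul_mem hx k1) _ (inv_mem hy), hm' _ hx _ k1, k2, hm' _ hy _ (inv_mem hx)]
      linear_combination (μ y * μ y⁻¹) * hi x hx + hi y hy) (by
      rintro a φ b ψ ⟨e1, x, hx, e2⟩ ⟨e3, y, hy, e4⟩
      obtain ⟨k1, k2⟩ := hr x hx a φ e1 e2
      obtain ⟨k3, k4⟩ := hr y hy b ψ e3 e4
      exact ⟨x * y, ⟨mul_mem k1 k3, by rw [hm' _ k1 _ k3, k2, k4]; ring⟩, by rw [← e2, ← e4]; rfl⟩) a φ hf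
  obtain ⟨e1, x, hx, e2⟩ := hf
  obtain rfl : x = g := Units.ext (e2.trans e.symm)
  exact neg_one_ne h.two ((hr x hx a φ e1 e2).2.symm.trans hg.2)

theorem idem_det {E : M4 K} (hE : E * E = E) : ∃ a b, a + b = 4 ∧ (∀ c : K, (c • E + (1 - E)).det = c ^ a) ∧
    ∀ c : K, (c • (1 - E) + E).det = c ^ b := by
  have ev : ∀ (A B : M4 K) (c : K), ((X : K[X]) • A.map C + B.map C).det.eval c = (c • A + B).det := fun A B c => by
    rw [← coe_evalRingHom, RingHom.map_det]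
    congr 1
    ext i j
    simp only [RingHom.mapMatrix_apply, map_apply, Matrix.add_apply, Matrix.smul_apply, smul_eq_mul, coe_evalRingHom,
      eval_add, eval_mul, eval_X, eval_C]
  have e : ((X : K[X]) • E.map C + (1 - E).map C).det * ((X : K[X]) • (1 - E).map C + E.map C).det = X ^ 4 := by
    have e1 : E * (1 - E) = 0 := by rw [mul_sub, hE, mul_one, sub_self]
    have e2 : (1 - E) * E = 0 := by rw [sub_mul, hE, one_mul, sub_self]
    have e3 : (1 - E) * (1 - E) = 1 - E := by rw [mul_sub, e2, mul_one, sub_zero]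
    rw [← det_mul]
    simp only [mul_add, add_mul, Matrix.smul_mul, Matrix.mul_smul, ← Matrix.map_mul, e1, e2, e3, hE]
    rw [Matrix.map_zero _ (map_zero _), smul_zero, smul_zero, zero_add, add_zero, ← smul_add,
      ← Matrix.map_add _ (map_add _), sub_add_cancel, Matrix.map_one _ (map_zero _) (map_one _)]
    simp
  obtain ⟨a, ha, u, hu⟩ := (dvd_prime_pow prime_X 4).1 ⟨_, e.symm⟩
  obtain ⟨r, -, hr⟩ := Polynomial.isUnit_iff.1 u.isUnit
  have h1 := congrArg (eval 1) hu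
  rw [eval_mul, ev, ← hr] at h1
  simp only [one_smul, add_sub_cancel, det_one, eval_C, one_mul, eval_pow, eval_X, one_pow] at h1
  rw [← hr, h1, map_one, mul_one] at hu
  refine ⟨a, 4 - a, by omega, fun c => by rw [← ev, hu]; simp, fun c => ?_⟩
  rw [hu, show (X : K[X]) ^ 4 = X ^ a * X ^ (4 - a) by rw [← pow_add]; congr 1; omega] at e
  rw [← ev, mul_left_cancel₀ (pow_ne_zero a X_ne_zero) e]; simp

theorem det_hm {a φ : Fin 4 → K} (h : φ ⬝ᵥ a = 1) (l : K) : (hm l a φ).det = l := by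
  rw [hm, ← smul_vecMulVec, vecMulVec_eq Unit, det_one_add_replicateCol_mul_replicateRow]
  simp [h]

/-- an idempotent commuting with a reflection -/
theorem idem_refl (h2 : (2 : K) ≠ 0) {E : M4 K} (hE : E * E = E) {a φ : Fin 4 → K} (h : φ ⬝ᵥ a = 1)
    (e : hm (-1) a φ * E = E * hm (-1) a φ) : hm (-1) a φ * E = E ∨ hm (-1) a φ * (1 - E) = 1 - E := by
  have e1 : vecMulVec a φ * E = E * vecMulVec a φ := by
    simp only [hm, add_mul, mul_add, one_mul, mul_one, Matrix.smul_mul, Matrix.mul_smul, add_right_inj] at e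
    exact smul_right_injective _ (show (-1 - 1 : K) ≠ 0 from fun k => h2 (by linear_combination -k)) e
  have e2 : vecMulVec a φ * E = (φ ⬝ᵥ E *ᵥ a) • vecMulVec a φ := by
    calc _ = vecMulVec a φ * vecMulVec a φ * E := by rw [vmv_mul, h, one_smul]
      _ = _ := by rw [mul_assoc, e1, mul_vecMulVec, vmv_mul]
  have e3 : ((φ ⬝ᵥ E *ᵥ a) * (φ ⬝ᵥ E *ᵥ a)) • vecMulVec a φ = (φ ⬝ᵥ E *ᵥ a) • vecMulVec a φ := by
    rw [← smul_smul, ← e2, ← Matrix.smul_mul, ← e2, mul_assoc, hE]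
  have e4 := congrArg trace e3
  simp only [trace_smul, trace_vecMulVec, dotProduct_comm a φ, h, smul_eq_mul, mul_one] at e4
  rcases mul_eq_zero.1 (show (φ ⬝ᵥ E *ᵥ a) * (φ ⬝ᵥ E *ᵥ a - 1) = 0 by linear_combination e4) with k | k
  · left; simp [hm, add_mul, e2, k]
  · right; simp [hm, add_mul, mul_sub, e2, sub_eq_zero.1 k]

/-- no proper idempotent commutes with `S` -/
theorem SS.idem {S : Subgroup (G4 K)} (h : SS S) {E : M4 K} (hE : E * E = E) (h0 : E ≠ 0) (h1 : E ≠ 1)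
    (hc : ∀ g ∈ S, g.val * E = E * g.val) : False := by
  obtain ⟨a, b, hab, ha, hb⟩ := idem_det hE
  have e1 : E * (1 - E) = 0 := by rw [mul_sub, hE, mul_one, sub_self]
  have e2 : (1 - E) * E = 0 := by rw [sub_mul, hE, one_mul, sub_self]
  have e3 : (1 - E) * (1 - E) = 1 - E := by rw [mul_sub, e2, mul_one, sub_zero]
  have a0 : a ≠ 0 := by
    rintro rfl
    have := ha 0
    rw [zero_smul, zero_add, pow_zero] at this
    exact h0 (by simpa [e2, mul_assoc] using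
      (show (1 - E).adjugate * (1 - E) * E = E by rw [adjugate_mul, this]; simp).symm)
  have b0 : b ≠ 0 := by
    rintro rfl
    have := hb 0
    rw [zero_smul, zero_add, pow_zero] at this
    have k : E.adjugate * E * (1 - E) = 1 - E := by rw [adjugate_mul, this]; simp
    rw [mul_assoc, e1, mul_zero, eq_comm, sub_eq_zero] at k
    exact h1 k.symm
  obtain ⟨a', b', oa, ob, e⟩ : ∃ a' b', Odd a' ∧ Odd b' ∧ a * b' = b * a' := by
    have : a = 1 ∨ a = 2 ∨ a = 3 := by omega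
    rcases this with rfl | rfl | rfl
    exacts [⟨1, 3, by decide, by decide, by omega⟩, ⟨1, 1, by decide, by decide, by omega⟩,
      ⟨3, 1, by decide, by decide, by omega⟩]
  have m : ∀ {E F : M4 K}, E * E = E → F * F = F → E * F = 0 → F * E = 0 → (∀ g ∈ S, g.val * E = E * g.val) →
      ∀ g ∈ S, ∀ k ∈ S, ((g * k).val * E + F).det = (g.val * E + F).det * (k.val * E + F).det :=
    fun {E F} k1 k2 k3 k4 k5 g _ k hk => by
      rw [← det_mul]
      congr 1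
      calc _ = g.val * (k.val * E * E) + F * F + g.val * (E * F) + F * E * k.val := by
            rw [mul_assoc k.val, k1, k2, k3, k4]; simp [mul_assoc]
        _ = _ := by
            rw [k5 k hk]; simp only [mul_add, add_mul, mul_assoc]; rw [← k5 k hk]; abel
  have hc' : ∀ g ∈ S, g.val * (1 - E) = (1 - E) * g.val := fun g hg => by
    rw [mul_sub, sub_mul, hc g hg, mul_one, one_mul]
  refine h.mu (H := S) (fun g => (g.val * E + (1 - E)).det ^ b' / (g.val * (1 - E) + E).det ^ a') 1 h.sc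
    (fun g hg => .inl hg) (fun g hg k hk => ?_) (fun g hg => ?_) (fun g hg => by simpa using hg)
    fun g hg v φ k1 k2 => ⟨hg, ?_⟩
  · simp only [m hE e3 e1 e2 hc g hg k hk, m e3 hE e2 e1 hc' g hg k hk, mul_pow, mul_div_mul_comm]
  · obtain ⟨c, hc⟩ := mem_Sc.1 hg
    simp only [hc, Matrix.smul_mul, one_mul, ha, hb, ← pow_mul, e]
    exact div_self (pow_ne_zero _ (ne_zero_of_eq_smul hc))
  · have d := det_hm k1 (-1)
    rcases idem_refl h.two hE k1 (k2 ▸ hc g hg) with k | k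
    · have k' : hm (-1) v φ * (1 - E) + E = hm (-1) v φ := by rw [mul_sub, k]; simp
      simp only [k2, k, k', d, ob.neg_one_pow, oa.neg_one_pow]; simp
    · have k' : hm (-1) v φ * E + (1 - E) = hm (-1) v φ := by rw [← k, ← mul_add]; simp
      simp only [k2, k, k', d, ob.neg_one_pow, oa.neg_one_pow]; simp

/-- existence of the Sylow subgroup -/
theorem exists_SS [Finite K] {B : Subgroup (PG4 K)} (h2 : (2 : K) ≠ 0) (hp : commutator B = ⊤)
    (spl : ∀ g ∈ B.comap pr, g.val.charpoly.Splits) (rt : Rt (B.comap pr)) {a φ : Fin 4 → K}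
    (hr : Rf (B.comap pr) a φ) : ∃ S : Subgroup (G4 K), SS S := by
  have : Fact (Nat.Prime 2) := ⟨Nat.prime_two⟩
  have sq : ∀ {a φ : Fin 4 → K} {r : G4 K}, φ ⬝ᵥ a = 1 → r.val = hm (-1) a φ → r * r = 1 := fun k1 k2 =>
    Units.ext (by rw [Units.val_mul, k2, hm_mul k1]; simp [hm_one])
  obtain ⟨e1, r, hr, e2⟩ := hr
  obtain ⟨S, hS⟩ : ∃ S : Sylow 2 B, Subgroup.zpowers (⟨pr r, hr⟩ : B) ≤ S :=
    IsPGroup.exists_le_sylow (IsPGroup.of_card_dvd_pow (n := 1) (by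
      rw [Nat.card_zpowers, pow_one]
      exact orderOf_dvd_of_pow_eq_one (Subtype.ext (by simp [pow_two, ← map_mul, sq e1 e2]))))
  have le : ((S : Subgroup B).map B.subtype).comap pr ≤ B.comap pr :=
    Subgroup.comap_mono (Subgroup.map_subtype_le _)
  refine ⟨((S : Subgroup B).map B.subtype).comap pr, h2, fun g hg => ?_, ?_, fun g hg => spl g (le hg), rt.mono le,
    ⟨a, φ, e1, r, ⟨_, hS (Subgroup.mem_zpowers _), rfl⟩, e2⟩, ?_⟩
  · rw [Subgroup.mem_comap, pr_eq_one.2 hg]; exact one_mem _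
  · rintro g ⟨x, hx, e⟩
    obtain ⟨n, hn⟩ := S.isPGroup' ⟨x, hx⟩
    refine ⟨n, pr_eq_one.1 ?_⟩
    rw [map_pow, ← e, ← map_pow]
    simpa using congrArg (fun y => ((y : (S : Subgroup B)) : B).val) hn
  rintro N n1 n2 n3 b ψ ⟨k1, t, ⟨x, hx, e⟩, k2⟩
  have key : x ∈ (bar N).comap B.subtype := by
    refine H2.Mi.gt hp (S := S) (Nat.not_even_iff_odd.1 fun e => S.not_dvd_index (even_iff_two_dvd.1 e))
      (fun a ha b hb => ?_) hx (Subtype.ext ?_) fun g hg => ?_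
    · obtain ⟨a', ea⟩ := pr_surj a.val
      obtain ⟨b', eb⟩ := pr_surj b.val
      exact ⟨_, n2 a' ⟨a, ha, ea.symm⟩ b' ⟨b, hb, eb.symm⟩, by simp [ea, eb]⟩
    · change x.val * x.val = 1
      rw [show x.val = pr t from e, ← map_mul, sq k1 k2, map_one]
    · obtain ⟨g', eg⟩ := pr_surj g.val
      have ex : x.val = pr t := e
      obtain ⟨y, hy, ey⟩ := n3 (g'.val *ᵥ b) (ψ ᵥ* (g'⁻¹).val) b ψ
        ⟨by rw [dot_conj g'.inv_mul, k1], g' * t * g'⁻¹, ⟨_, hg, by simp [eg, ex]⟩, by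
          rw [← conj_hm g'.mul_inv, ← k2]; rfl⟩ ⟨k1, t, ⟨x, hx, e⟩, k2⟩
      refine ⟨y, hy, ?_⟩
      rw [show y = g' * t * g'⁻¹ * t from Units.ext (by rw [ey, ← conj_hm g'.mul_inv, ← k2]; rfl)]
      simp [eg, ex]
  exact ⟨k1, t, le_sup_of_bar le_rfl n1 (by rw [← e]; exact key), k2⟩

end Cfsg.Agent.H8.Ho
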