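import Cfsg.Agent.H8.Ho1

set_option autoImplicit false

/-! Reflections in a Sylow `2`-subgroup: the monomial case. -/

namespace Cfsg.Agent.H8.Ho
open Cfsg Matrix Cfsg.Agent.H2.M4

variable {K : Type*} [Field K]

theorem Mm.smul {Γ : Subgroup (G4 K)} (h1 : Sc K ≤ Γ) {X : M4 K} (h : Mm Γ X) {c : K} (hc : c ≠ 0) : Mm Γ (c • X) :=
  ((Mm.of_mem (h1 (sc_mem c hc))).mul h).congr (by simp [sc])

theorem idem_pow {E : M4 K} (hE : E * E = E) (m : K) (n : ℕ) : (1 + (m - 1) • E) ^ n = 1 + (m ^ n - 1) • E := by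
  induction n with
  | zero => simp
  | succ n ih =>
    simp only [pow_succ, ih, mul_add, add_mul, mul_one, one_mul, Matrix.mul_smul, Matrix.smul_mul, hE, smul_smul,
      add_assoc, ← add_smul]
    congr 2
    ring

theorem idem_scal (h2 : (2 : K) ≠ 0) {E : M4 K} (hE : E * E = E) (ht : E.trace = 2) {m c : K}
    (e : 1 + (m - 1) • E = c • (1 : M4 K)) : m = 1 := by
  have e1 := congrArg trace e
  have e2 := congrArg (fun X => trace (X * E)) e
  simp only [add_mul, one_mul, Matrix.smul_mul, hE, trace_add, trace_smul, ht, trace_one, Fintype.card_fin,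
    smul_eq_mul, Nat.cast_ofNat] at e1 e2
  exact mul_left_cancel₀ h2 (by linear_combination 2 * e2 - e1)

theorem SS.r4 {S : Subgroup (G4 K)} (h : SS S) {E : M4 K} {m : K} (hE : E * E = E) (ht : E.trace = 2)
    (e : Mm S (1 + (m - 1) • E)) : m ^ 2 = 1 := by
  obtain ⟨g, hg, e1⟩ := id e
  obtain ⟨n, hn⟩ := h.pw g hg
  obtain ⟨c, hc⟩ := mem_Sc.1 hn
  rw [Units.val_pow_eq_pow_val, e1, idem_pow hE] at hc
  have := idem_scal h.two hE ht hc
  have k : ∀ p, Odd p → m ^ p = 1 → m ^ 2 = 1 := fun p hp e => by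
    rw [(pow_eq_one_iff_of_coprime ((Nat.coprime_two_left.2 hp).pow_left n)).1 ⟨this, e⟩, one_pow]
  rcases h.rt E m hE ht e with e | e | e
  exacts [e, k 3 (by decide) e, k 5 (by decide) e]

/-- block monomial matrices -/
def el (s t : Bool) (x y z u : K) : M4 K :=
  !![if s then 0 else x, if s then x else 0, 0, 0; if s then y else 0, if s then 0 else y, 0, 0;
    0, 0, if t then 0 else z, if t then z else 0; 0, 0, if t then u else 0, if t then 0 else u]

/-- the element swapping the two blocks -/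
def sw (β : Bool) (b c : K) : M4 K :=
  !![0, 0, if β then 0 else b, if β then b else 0; 0, 0, if β then c else 0, if β then 0 else c;
    1, 0, 0, 0; 0, 1, 0, 0]

variable {s t s' t' β : Bool} {x y z u x' y' z' u' b c : K}

theorem el_mul : el s t x y z u * el s' t' x' y' z' u' = el (xor s s') (xor t t') (x * if s then y' else x')
    (y * if s then x' else y') (z * if t then u' else z') (u * if t then z' else u') := by
  cases s <;> cases t <;> cases s' <;> cases t' <;> simp [el]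

theorem sw_mul (hb : b ≠ 0) (hc : c ≠ 0) : sw β b c * el s t x y z u =
    el t s ((if β then u else z) * if t then b / c else 1) ((if β then z else u) * if t then c / b else 1) x y *
      sw β b c := by
  cases s <;> cases t <;> cases β <;> simp [el, sw, mul_comm] <;> field_simp <;> simp

theorem sw_sq : sw β b c * sw β b c = el β β b c b c := by cases β <;> simp [el, sw]

theorem el_sc (c : K) : c • (1 : M4 K) = el false false c c c c := by
  ext i j; fin_cases i <;> fin_cases j <;> simp [el]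

theorem el_ne {H : Subgroup (G4 K)} (h : Mm H (el s t x y z u)) : x ≠ 0 ∧ y ≠ 0 ∧ z ≠ 0 ∧ u ≠ 0 := by
  have k : ∀ i, (∀ j, el s t x y z u i j = 0) → False := fun i e => h.det (det_eq_zero_of_row_eq_zero i e)
  refine ⟨fun e => k 0 fun j => ?_, fun e => k 1 fun j => ?_, fun e => k 2 fun j => ?_, fun e => k 3 fun j => ?_⟩ <;>
    fin_cases j <;> simp [el, e]

/-- the shapes of reflections -/
def Rc (s t : Bool) (x y z u : K) : Prop :=
  (t = false ∧ z = 1 ∧ u = 1 ∧ (s = false ∧ y = -x ∧ x * x = 1 ∨ s = true ∧ x * y = 1)) ∨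
  (s = false ∧ x = 1 ∧ y = 1 ∧ (t = false ∧ u = -z ∧ z * z = 1 ∨ t = true ∧ z * u = 1))

theorem rc_of {a φ : Fin 4 → K} (h : φ ⬝ᵥ a = 1) (e : el s t x y z u = hm (-1) a φ) : Rc s t x y z u := by
  have m : ∀ i k, i ≠ k → (el s t x y z u i i - 1) * (el s t x y z u k k - 1) =
      el s t x y z u i k * el s t x y z u k i := fun i k hik => by
    simp [e, hm, vecMulVec, one_apply, hik, hik.symm]; ring
  have tr : (el s t x y z u).trace = 2 := by
    rw [e, hm, trace_add, trace_smul, trace_vecMulVec, dotProduct_comm, h]; simp; ring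
  have sq : el s t x y z u * el s t x y z u = 1 := by rw [e, hm_mul h]; simp [hm_one]
  have s0 := congrFun (congrFun sq 0) 0
  have s2 := congrFun (congrFun sq 2) 2
  have m1 := m 0 2 (by decide)
  have m2 := m 0 3 (by decide)
  have m3 := m 1 2 (by decide)
  have m4 := m 1 3 (by decide)
  rw [el_mul] at s0 s2
  cases s <;> cases t <;> simp [el, trace, Fin.sum_univ_four, sub_eq_zero] at s0 s2 m1 m2 m3 m4 tr
  · by_cases k : z = 1 ∧ u = 1
    · exact .inl ⟨rfl, k.1, k.2, .inl ⟨rfl, by linear_combination tr - k.1 - k.2, s0⟩⟩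
    · have : x = 1 ∧ y = 1 := by tauto
      exact .inr ⟨rfl, this.1, this.2, .inl ⟨rfl, by linear_combination tr - this.1 - this.2, s2⟩⟩
  · exact .inr ⟨rfl, m1.symm, m3.symm, .inr ⟨rfl, s2⟩⟩
  · exact .inl ⟨rfl, m1.symm, m2.symm, .inr ⟨rfl, s0⟩⟩

/-- the monomial configuration -/
structure MC (S H : Subgroup (G4 K)) (w : G4 K) (β : Bool) (b c : K) : Prop where
  ss : SS S
  le : H ≤ S
  sc : Sc K ≤ H
  ew : w.val = sw β b c
  b0 : b ≠ 0
  c0 : c ≠ 0
  hw : ∀ g ∈ S, g ∈ H ∨ ∃ k ∈ H, g = k * w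
  sq : w * w ∈ H
  cj : ∀ g ∈ H, w * g * w⁻¹ ∈ H
  mon : ∀ g ∈ H, ∃ s t x y z u, g.val = el s t x y z u
  ref : ∀ g ∈ S, ∀ a φ, φ ⬝ᵥ a = 1 → g.val = hm (-1) a φ → g ∈ H

variable {S H : Subgroup (G4 K)} {w : G4 K}

theorem MC.cj_val (h : MC S H w β b c) {g : G4 K} (e : g.val = el s t x y z u) : (w * g * w⁻¹).val =
    el t s ((if β then u else z) * if t then b / c else 1) ((if β then z else u) * if t then c / b else 1) x y := by
  rw [Units.val_mul, Units.val_mul, e, h.ew, sw_mul h.b0 h.c0, ← h.ew, mul_assoc, Units.mul_inv, mul_one]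

theorem MC.prod (h : MC S H w β b c) : ((if β then u else z) * if t then b / c else 1) *
    ((if β then z else u) * if t then c / b else 1) = z * u := by
  have := h.b0
  have := h.c0
  cases β <;> cases t <;> simp [mul_comm] <;> field_simp

theorem MC.conj (h : MC S H w β b c) (e : Mm H (el s t x y z u)) : ∃ z' u', z' * u' = z * u ∧ Mm H (el t s z' u' x y) := by
  obtain ⟨g, hg, e⟩ := e
  exact ⟨_, _, h.prod, _, h.cj g hg, h.cj_val e⟩

theorem MC.r4 (h : MC S H w β b c) {p q : K} (e : Mm H (el false false p p q q)) : p ^ 2 = q ^ 2 := by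
  have hq := (el_ne e).2.2.1
  have := h.ss.r4 (E := el false false 1 1 0 0) (m := p / q) (by simp [el_mul]) (by
    simp [el, trace, Fin.sum_univ_four]; norm_num) (((e.mono h.le).smul h.ss.sc (inv_ne_zero hq)).congr (by
    ext i j; fin_cases i <;> fin_cases j <;> simp [el, hq, div_eq_inv_mul]))
  field_simp at this
  exact this

theorem MC.mu (h : MC S H w β b c) (μ : M4 K → K) (f : Bool → Bool → K → K → K → K → K)
    (hf : ∀ s t x y z u, Mm H (el s t x y z u) → μ (el s t x y z u) = f s t x y z u)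
    (h1 : ∀ s t x y z u s' t' x' y' z' u', Mm H (el s t x y z u) → Mm H (el s' t' x' y' z' u') →
      f (xor s s') (xor t t') (x * if s then y' else x') (y * if s then x' else y') (z * if t then u' else z')
        (u * if t then z' else u') = f s t x y z u * f s' t' x' y' z' u')
    (h2 : ∀ c, c ≠ 0 → f false false c c c c = 1)
    (h3 : ∀ s t x y z u, Mm H (el s t x y z u) → f t s ((if β then u else z) * if t then b / c else 1)
      ((if β then z else u) * if t then c / b else 1) x y = f s t x y z u)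
    (h4 : ∀ s t x y z u, Mm H (el s t x y z u) → Rc s t x y z u → f s t x y z u = -1) : False := by
  refine h.ss.mu (H := H) (fun g => μ g.val) w h.sc h.hw (fun g hg k hk => ?_) (fun g hg => ?_)
    (fun g hg => ⟨h.cj g hg, ?_⟩) fun g hg a φ e1 e2 => ⟨h.ref g hg a φ e1 e2, ?_⟩
  · obtain ⟨s, t, x, y, z, u, e⟩ := h.mon g hg
    obtain ⟨s', t', x', y', z', u', e'⟩ := h.mon k hk
    have k1 : Mm H _ := ⟨g, hg, e⟩
    have k2 : Mm H _ := ⟨k, hk, e'⟩
    simp only [Units.val_mul, e, e', el_mul, hf _ _ _ _ _ _ k1, hf _ _ _ _ _ _ k2]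
    rw [hf _ _ _ _ _ _ ((k1.mul k2).congr el_mul.symm), h1 _ _ _ _ _ _ _ _ _ _ _ _ k1 k2]
  · obtain ⟨c, hc⟩ := mem_Sc.1 hg
    have := ne_zero_of_eq_smul hc
    rw [el_sc] at hc
    simp only [hc, hf _ _ _ _ _ _ ⟨g, h.sc hg, hc⟩, h2 c this]
  · obtain ⟨s, t, x, y, z, u, e⟩ := h.mon g hg
    simp only [h.cj_val e, e, hf _ _ _ _ _ _ ⟨g, hg, e⟩, hf _ _ _ _ _ _ ⟨_, h.cj g hg, h.cj_val e⟩,
      h3 _ _ _ _ _ _ ⟨g, hg, e⟩]
  · have hg' := h.ref g hg a φ e1 e2
    obtain ⟨s, t, x, y, z, u, e⟩ := h.mon g hg'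
    simp only [e, hf _ _ _ _ _ _ ⟨g, hg', e⟩, h4 _ _ _ _ _ _ ⟨g, hg', e⟩ (rc_of e1 (e.symm.trans e2))]

/-- the sign -/
def sn (s : Bool) : K := if s then -1 else 1

theorem MC.nu (h : MC S H w β b c) (hn : ∀ s t x y z u, Mm H (el s t x y z u) → (x * y) ^ 2 = (z * u) ^ 2) : False := by
  refine h.mu (fun X => (X 0 0 * X 1 1 - X 0 1 * X 1 0) / (X 2 2 * X 3 3 - X 2 3 * X 3 2))
    (fun s t x y z u => sn s * (x * y) / (sn t * (z * u))) (fun s t x y z u _ => ?_)
    (fun s t x y z u s' t' x' y' z' u' _ _ => ?_) (fun c hc => by simp [sn, hc]) (fun s t x y z u e => ?_)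
    fun s t x y z u e r => ?_
  · cases s <;> cases t <;> simp [el, sn]
  · rw [div_mul_div_comm]
    congr 1
    · cases s <;> cases s' <;> simp [sn] <;> ring
    · cases t <;> cases t' <;> simp [sn] <;> ring
  · obtain ⟨k1, k2, k3, k4⟩ := el_ne e
    have := hn _ _ _ _ _ _ e
    simp only [h.prod]
    cases s <;> cases t <;> simp [sn] <;> field_simp <;> first | linear_combination -this | linear_combination this
  · rcases r with ⟨rfl, rfl, rfl, ⟨rfl, rfl, r⟩ | ⟨rfl, r⟩⟩ | ⟨rfl, rfl, rfl, ⟨rfl, rfl, r⟩ | ⟨rfl, r⟩⟩ <;> simp [sn, r]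

theorem MC.fin (h : MC S H w β b c) : False := by
  by_cases ha : ∃ p q, p * q = 1 ∧ Mm H (el true false p q 1 1)
  · obtain ⟨p, q, hp, a1⟩ := ha
    obtain ⟨z', u', -, a2⟩ := h.conj a1
    have a2 : Mm H (el false true 1 1 p q) := by
      obtain ⟨g, hg, e⟩ := a1
      exact ⟨_, h.cj g hg, by simpa using h.cj_val e⟩
    have a3 := a1.mul a2
    refine h.nu fun s t x y z u e => h.r4 ?_
    have hq : q * p = 1 := by rw [mul_comm, hp]
    cases s <;> cases t
    · refine (((e.mul a3).mul e).mul a3).congr ?_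
      simp only [el_mul]; simp
      congr 1
      exacts [by linear_combination -(x * y) * hp, by linear_combination -(x * y) * hp,
        by linear_combination -(z * u) * hp, by linear_combination -(z * u) * hp]
    · refine (((e.mul a1).mul e).mul a1).congr ?_
      simp only [el_mul]; simp
      congr 1
      exacts [by linear_combination -(x * y) * hp, by linear_combination -(x * y) * hp, mul_comm _ _]
    · refine (((e.mul a2).mul e).mul a2).congr ?_
      simp only [el_mul]; simp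
      congr 1
      exacts [mul_comm _ _, by linear_combination -(z * u) * hp, by linear_combination -(z * u) * hp]
    · refine (e.mul e).congr ?_
      simp [el_mul, mul_comm]
  have hr : ∀ s t x y z u, Mm H (el s t x y z u) → Rc s t x y z u → s = false ∧ t = false ∧
      (z = 1 ∧ u = 1 ∧ y = -x ∧ x * x = 1 ∨ x = 1 ∧ y = 1 ∧ u = -z ∧ z * z = 1) := fun s t x y z u e r => by
    rcases r with ⟨rfl, rfl, rfl, ⟨rfl, r⟩ | ⟨rfl, r⟩⟩ | ⟨rfl, rfl, rfl, ⟨rfl, r⟩ | ⟨rfl, r⟩⟩
    · exact ⟨rfl, rfl, .inl ⟨rfl, rfl, r⟩⟩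
    · exact absurd ⟨_, _, r, e⟩ ha
    · exact ⟨rfl, rfl, .inr ⟨rfl, rfl, r⟩⟩
    · obtain ⟨z', u', k, e⟩ := h.conj e
      exact absurd ⟨_, _, k.trans r, e⟩ ha
  by_cases hd : ∃ x y z u, Mm H (el true true x y z u)
  swap
  · have hd : ∀ s t x y z u, Mm H (el s t x y z u) → s = false ∧ t = false := fun s t x y z u e => by
      obtain ⟨z', u', -, e'⟩ := h.conj e
      have := e.mul e'
      rw [el_mul] at this
      cases s <;> cases t
      exacts [⟨rfl, rfl⟩, absurd ⟨_, _, _, _, this⟩ hd, absurd ⟨_, _, _, _, this⟩ hd, absurd ⟨_, _, _, _, e⟩ hd]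
    obtain rfl : β = false := (hd _ _ _ _ _ _ ⟨_, h.sq, by rw [Units.val_mul, h.ew, sw_sq]⟩).1
    refine h.mu (fun X => X 0 0 * X 2 2 / (X 1 1 * X 3 3)) (fun _ _ x y z u => x * z / (y * u))
      (fun s t x y z u e => ?_) (fun s t x y z u s' t' x' y' z' u' e _ => ?_) (fun c hc => by simp [hc])
      (fun s t x y z u e => ?_) fun s t x y z u e r => ?_
    · obtain ⟨rfl, rfl⟩ := hd _ _ _ _ _ _ e; simp [el]
    · obtain ⟨rfl, rfl⟩ := hd _ _ _ _ _ _ e; simp; ring
    · obtain ⟨rfl, rfl⟩ := hd _ _ _ _ _ _ e; simp [mul_comm]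
    · obtain ⟨k1, k2, k3, k4⟩ := el_ne e
      obtain ⟨-, -, ⟨rfl, rfl, rfl, r⟩ | ⟨rfl, rfl, rfl, r⟩⟩ := hr _ _ _ _ _ _ e r <;> field_simp
  obtain ⟨p, q, p', q', hz⟩ := hd
  have tt : ∀ x y z u, Mm H (el true true x y z u) → (x * y) ^ 2 = (z * u) ^ 2 := fun x y z u e =>
    h.r4 ((e.mul e).congr (by simp [el_mul, mul_comm]))
  have ev : ∀ s x y z u, Mm H (el s s x y z u) → (x * y) ^ 2 = (z * u) ^ 2 := fun s x y z u e => by
    cases s
    · have k := tt (x * p) (y * q) (z * p') (u * q') ((e.mul hz).congr (by simp [el_mul]))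
      have k' := tt _ _ _ _ hz
      obtain ⟨k1, k2, -⟩ := el_ne hz
      exact mul_left_cancel₀ (pow_ne_zero 2 (mul_ne_zero k1 k2)) (by linear_combination k - (z * u) ^ 2 * k')
    · exact tt _ _ _ _ e
  by_cases hn : ∀ s t x y z u, Mm H (el s t x y z u) → (x * y) ^ 2 = (z * u) ^ 2
  · exact h.nu hn
  push Not at hn
  obtain ⟨s, t, x, y, z, u, e, hn⟩ := hn
  have pr : ∀ {s t x y z u s' t' x' y' z' u'}, Mm H (el s t x y z u) → Mm H (el s' t' x' y' z' u') →
      xor s s' = xor t t' → (x * y) ^ 2 * (x' * y') ^ 2 = (z * u) ^ 2 * (z' * u') ^ 2 :=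
    fun {s t x y z u s' t' x' y' z' u'} e e' k => by
      have := (e.mul e').congr el_mul.symm
      rw [k] at this
      have := ev _ _ _ _ _ this
      cases s <;> cases t <;> simp only [Bool.false_eq_true, if_false, if_true] at this <;> linear_combination this
  have st : s ≠ t := by rintro rfl; exact hn (ev _ _ _ _ _ e)
  have k0 : (x * y) ^ 2 = -(z * u) ^ 2 := by
    have := pr e e (by simp)
    exact eq_neg_of_add_eq_zero_left ((mul_eq_zero.1 (show ((x * y) ^ 2 - (z * u) ^ 2) * ((x * y) ^ 2 + (z * u) ^ 2) = 0 by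
      linear_combination this)).resolve_left (sub_ne_zero.2 hn))
  have od : ∀ s' t' x' y' z' u', Mm H (el s' t' x' y' z' u') → s' ≠ t' → (x' * y') ^ 2 = -(z' * u') ^ 2 :=
    fun s' t' x' y' z' u' e' k => by
      have := pr e e' (by revert st k; cases s <;> cases t <;> cases s' <;> cases t' <;> simp)
      obtain ⟨-, -, k1, k2⟩ := el_ne e
      exact mul_left_cancel₀ (pow_ne_zero 2 (mul_ne_zero k1 k2)) (by linear_combination (x' * y') ^ 2 * k0 - this)
  refine h.mu (fun X => (X 0 0 * X 1 1 - X 0 1 * X 1 0) / (X 2 2 * X 3 3 + X 2 3 * X 3 2))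
    (fun s _ x y z u => sn s * (x * y) / (z * u)) (fun s t x y z u _ => ?_)
    (fun s t x y z u s' t' x' y' z' u' _ _ => ?_) (fun c hc => by simp [sn, hc]) (fun s t x y z u e => ?_)
    fun s t x y z u e r => ?_
  · cases s <;> cases t <;> simp [el, sn]
  · rw [div_mul_div_comm]
    congr 1
    · cases s <;> cases s' <;> simp [sn] <;> ring
    · cases t <;> simp <;> ring
  · obtain ⟨k1, k2, k3, k4⟩ := el_ne e
    have a1 := od _ _ _ _ _ _ e
    have a2 : s = t → (x * y) ^ 2 = (z * u) ^ 2 := fun k => ev _ _ _ _ _ (k ▸ e)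
    simp only [h.prod]
    cases s <;> cases t <;> simp [sn] at a1 a2 ⊢ <;> field_simp
    all_goals first | linear_combination -a2 | linear_combination a2 | linear_combination -a1 | linear_combination a1
  · obtain ⟨k1, k2, k3, k4⟩ := el_ne e
    obtain ⟨rfl, -, ⟨rfl, rfl, rfl, r'⟩ | ⟨rfl, rfl, rfl, r'⟩⟩ := hr _ _ _ _ _ _ e r <;> simp [sn, r']

end Cfsg.Agent.H8.Ho
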