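import Cfsg.Agent.H8.Ho2
import Cfsg.Agent.H1.M4L1

set_option autoImplicit false

/-! There are no reflections. -/

namespace Cfsg.Agent.H8.Ho
open Cfsg Matrix Cfsg.Agent.H2.M4
open Cfsg.Agent.H1.Mit (col4 col4_mulVec mul_col4 col4_mul exists_eig eig mem_eig)

variable {K : Type*} [Field K]

theorem tr_anti (h2 : (2 : K) ≠ 0) {X Y Z : M4 K} (e : Z * X = 1) (h : X * Y = -(Y * X)) : Y.trace = 0 := by
  have : Y = -(Z * Y * X) := by rw [mul_assoc, ← mul_neg, ← h, ← mul_assoc, e, one_mul]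
  have k := congrArg trace this
  rw [trace_neg, trace_mul_cycle, mul_eq_one_comm.1 e, one_mul] at k
  exact mul_left_cancel₀ h2 (by linear_combination k)

theorem tr_hm {a φ : Fin 4 → K} (h : φ ⬝ᵥ a = 1) (l : K) : (hm l a φ).trace = 3 + l := by
  rw [hm, trace_add, trace_smul, trace_vecMulVec, dotProduct_comm, h]; simp; ring

/-- the centraliser of a matrix -/
def cz (S : Subgroup (G4 K)) (Z : M4 K) : Subgroup (G4 K) where
  carrier := {g | g ∈ S ∧ g.val * Z = Z * g.val}
  mul_mem' := fun {a b} ha hb => ⟨mul_mem ha.1 hb.1, by rw [Units.val_mul, mul_assoc, hb.2, ← mul_assoc, ha.2, mul_assoc]⟩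
  one_mem' := ⟨one_mem _, by simp⟩
  inv_mem' := fun {a} ha => ⟨inv_mem ha.1, by
    rw [Units.inv_mul_eq_iff_eq_mul, ← mul_assoc, ha.2, Units.mul_inv_cancel_right]⟩

theorem refl_cz (h2 : (2 : K) ≠ 0) {S : Subgroup (G4 K)} {Z : M4 K} (hZ : Z * Z = 1)
    (hz : ∀ g ∈ S, g.val * Z = Z * g.val ∨ g.val * Z = -(Z * g.val)) {g : G4 K} (hg : g ∈ S) {a φ : Fin 4 → K}
    (e1 : φ ⬝ᵥ a = 1) (e2 : g.val = hm (-1) a φ) : g ∈ cz S Z :=
  ⟨hg, (hz g hg).resolve_right fun k => h2 (by
    have := tr_anti h2 hZ (Y := g.val) (by rw [k, neg_neg])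
    rw [e2, tr_hm e1] at this
    linear_combination this)⟩

theorem coord {S : Subgroup (G4 K)} (h : SS S) {w : G4 K} (hw : w ∈ S) {D : M4 K} (hD : D = el false false 1 1 (-1) (-1))
    (hz : ∀ g ∈ S, g.val * D = D * g.val ∨ g.val * D = -(D * g.val)) (w1 : w.val * D = -(D * w.val))
    (w2 : w.val * el false false 1 1 0 0 = !![0, 0, 0, 0; 0, 0, 0, 0; 1, 0, 0, 0; 0, 1, 0, 0] * 1)
    (hy : ∀ g ∈ cz S D, ∃ c : K, g.val * el false false 1 (-1) 0 0 = c • (el false false 1 (-1) 0 0 * g.val)) : False := by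
  have h2 := h.two
  have z2 : ∀ {x : K}, x = -x → x = 0 := fun e => mul_left_cancel₀ h2 (by linear_combination e)
  have bl : ∀ g ∈ cz S D, ∀ i j : Fin 4, (i.val < 2 ∧ 2 ≤ j.val) ∨ (j.val < 2 ∧ 2 ≤ i.val) → g.val i j = 0 :=
    fun g hg i j k => by
      have := congrFun (congrFun hg.2 i) j
      fin_cases i <;> fin_cases j <;> simp [hD, el, mul_apply, Fin.sum_univ_four] at this k ⊢ <;>
        first | exact z2 this | exact z2 this.symm
  have pl : ∀ g ∈ cz S D, (g.val 0 1 = 0 ∧ g.val 1 0 = 0) ∨ (g.val 0 0 = 0 ∧ g.val 1 1 = 0) := fun g hg => by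
    obtain ⟨c, e⟩ := hy g hg
    have e0 := congrFun (congrFun e 0) 0
    have e1 := congrFun (congrFun e 0) 1
    have e2 := congrFun (congrFun e 1) 0
    have e3 := congrFun (congrFun e 1) 1
    simp [el, mul_apply, Fin.sum_univ_four, vecMul, dotProduct] at e0 e1 e2 e3
    by_cases k : c = 1
    · subst k
      exact .inl ⟨z2 (by linear_combination -e1), z2 (by linear_combination e2)⟩
    · exact .inr ⟨mul_left_cancel₀ (sub_ne_zero.2 k) (by linear_combination -e0),
        mul_left_cancel₀ (sub_ne_zero.2 k) (by linear_combination -e3)⟩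
  have ew : w.val = !![0, 0, w.val 0 2, w.val 0 3; 0, 0, w.val 1 2, w.val 1 3; 1, 0, 0, 0; 0, 1, 0, 0] := by
    ext i j
    have a := congrFun (congrFun w1 i) j
    have b := congrFun (congrFun w2 i) j
    fin_cases i <;> fin_cases j <;> simp [hD, el, mul_apply, Fin.sum_univ_four, vecMul, dotProduct] at a b ⊢ <;>
      first | exact b | exact z2 a.symm | exact z2 a | exact z2 (by linear_combination -a)
  have an : ∀ {g k : G4 K}, g ∈ S → k ∈ S → g.val * D = -(D * g.val) → k.val * D = -(D * k.val) → g * k ∈ cz S D :=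
    fun hg hk e1 e2 => ⟨mul_mem hg hk, by
      rw [Units.val_mul, mul_assoc, e2, mul_neg, ← mul_assoc, e1, neg_mul, neg_neg, mul_assoc]⟩
  have w3 : (w⁻¹).val * D = -(D * (w⁻¹).val) := by
    rw [Units.inv_mul_eq_iff_eq_mul, mul_neg, ← mul_assoc, w1, neg_mul, neg_neg, Units.mul_inv_cancel_right]
  have an' : ∀ {g k : G4 K}, g.val * D = -(D * g.val) → k.val * D = D * k.val → (g * k).val * D = -(D * (g * k).val) :=
    fun e1 e2 => by rw [Units.val_mul, mul_assoc, e2, ← mul_assoc, e1, neg_mul, mul_assoc]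
  have sq := an hw hw w1 w1
  have mon : ∀ g ∈ cz S D, ∃ s t x y z u, g.val = el s t x y z u := fun g hg => by
    have hk := an (mul_mem (inv_mem hw) hg.1) hw (an' w3 hg.2) w1
    have e : w.val * (w⁻¹ * g * w).val = g.val * w.val := by simp [mul_assoc]
    generalize w⁻¹ * g * w = k at hk e
    rw [ew] at e
    have e0 := congrFun (congrFun e 2) 0
    have e1 := congrFun (congrFun e 2) 1
    have e2 := congrFun (congrFun e 3) 0
    have e3 := congrFun (congrFun e 3) 1
    simp [mul_apply, Fin.sum_univ_four] at e0 e1 e2 e3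
    have b := bl g hg
    have p := pl k hk
    rw [e0, e1, e2, e3] at p
    rcases pl g hg with ⟨a1, a2⟩ | ⟨a1, a2⟩ <;> rcases p with ⟨a3, a4⟩ | ⟨a3, a4⟩
    · exact ⟨false, false, g.val 0 0, g.val 1 1, g.val 2 2, g.val 3 3, by
        ext i j; fin_cases i <;> fin_cases j <;> simp [el, *]⟩
    · exact ⟨false, true, g.val 0 0, g.val 1 1, g.val 2 3, g.val 3 2, by
        ext i j; fin_cases i <;> fin_cases j <;> simp [el, *]⟩
    · exact ⟨true, false, g.val 0 1, g.val 1 0, g.val 2 2, g.val 3 3, by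
        ext i j; fin_cases i <;> fin_cases j <;> simp [el, *]⟩
    · exact ⟨true, true, g.val 0 1, g.val 1 0, g.val 2 3, g.val 3 2, by
        ext i j; fin_cases i <;> fin_cases j <;> simp [el, *]⟩
  obtain ⟨s, t, x, y, z, u, e⟩ := mon _ sq
  obtain ⟨x0, y0, -⟩ := el_ne (H := cz S D) ⟨_, sq, e⟩
  refine MC.fin (S := S) (H := cz S D) (w := w) (β := s) (b := x) (c := y) ⟨h, fun g hg => hg.1,
    fun g hg => ⟨h.sc hg, by obtain ⟨c, e⟩ := mem_Sc.1 hg; simp [e]⟩, ?_, x0, y0, fun g hg => ?_, sq,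
    fun g hg => an (mul_mem hw hg.1) (inv_mem hw) (an' w1 hg.2) w3, mon,
    fun g hg a φ => refl_cz h2 (by rw [hD, el_mul, ← one_smul K (1 : M4 K), el_sc]; simp) hz hg⟩
  · rw [Units.val_mul, ew] at e
    have e0 := congrFun (congrFun e 0) 0
    have e1 := congrFun (congrFun e 0) 1
    have e2 := congrFun (congrFun e 1) 0
    have e3 := congrFun (congrFun e 1) 1
    simp [el, mul_apply, Fin.sum_univ_four] at e0 e1 e2 e3
    rw [ew, sw, e0, e1, e2, e3]
  · rcases hz g hg with k | k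
    exacts [.inl ⟨hg, k⟩, .inr ⟨_, an hg (inv_mem hw) k w3, by simp⟩]

theorem cj_comm {Q g : G4 K} {A A' : M4 K} {c : K} (h : (Q * g * Q⁻¹).val * A = c • (A * (Q * g * Q⁻¹).val))
    (e : A * Q.val = Q.val * A') : g.val * A' = c • (A' * g.val) := by
  have := congrArg (fun X => (Q⁻¹).val * X * Q.val) h
  simp only [Units.val_mul, mul_assoc, e, Units.inv_mul_cancel_left, Matrix.mul_smul, Matrix.smul_mul, Units.inv_mul,
    mul_one] at this
  rwa [← mul_assoc A, e, mul_assoc, Units.inv_mul_cancel_left] at this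

theorem cj_comm' {Q g : G4 K} {A A' : M4 K} (h : g.val * A' = A' * g.val)
    (e : A * Q.val = Q.val * A') : (Q * g * Q⁻¹).val * A = A * (Q * g * Q⁻¹).val := by
  have e' : (Q⁻¹).val * A = A' * (Q⁻¹).val := by
    rw [Units.inv_mul_eq_iff_eq_mul, ← mul_assoc, ← e, Units.mul_inv_cancel_right]
  simp only [Units.val_mul, mul_assoc, e']
  rw [← mul_assoc g.val, h, ← mul_assoc A, e]
  simp only [mul_assoc]

theorem hm_ne_sc {a φ : Fin 4 → K} {l c : K} (h : φ ⬝ᵥ a = 1) (e : hm l a φ = c • (1 : M4 K)) : l = 1 := by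
  have e0 := congrFun (congrFun e 0) 0
  have e1 := congrFun (congrFun e 0) 1
  have e2 := congrFun (congrFun e 1) 0
  have e3 := congrFun (congrFun e 1) 1
  have e4 := congrArg trace e
  rw [tr_hm h] at e4
  simp only [hm, vecMulVec, Matrix.add_apply, Matrix.smul_apply, of_apply, smul_eq_mul, one_apply_eq, trace_smul,
    trace_one, Fintype.card_fin, Nat.cast_ofNat, one_apply_ne (show (0 : Fin 4) ≠ 1 by decide),
    one_apply_ne (show (1 : Fin 4) ≠ 0 by decide)] at e0 e1 e2 e3 e4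
  have : c - 1 = 0 := (pow_eq_zero_iff two_ne_zero).1 (by
    linear_combination (-(c - 1)) * e0 - ((l - 1) * (a 0 * φ 0)) * e3 + ((l - 1) * (a 1 * φ 0)) * e1)
  linear_combination e4 + 4 * this

theorem SS.fin [Finite K] {S : Subgroup (G4 K)} (h : SS S) : False := by
  have h2 := h.two
  obtain ⟨a, φ, e1, r, hr, e2⟩ := h.ref
  obtain ⟨z, hz, z1, z2, z3⟩ := cen le_rfl h.pw (fun g _ t ht => by rwa [sc_conj g ht]) (fun k => by
    obtain ⟨c, hc⟩ := mem_Sc.1 (k hr)
    exact neg_one_ne h2 (hm_ne_sc e1 (e2.symm.trans hc)))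
  obtain ⟨Z, hZ, zS, zn, zc⟩ : ∃ Z : M4 K, Z * Z = 1 ∧ Mm S Z ∧ (∀ c : K, Z ≠ c • 1) ∧
      ∀ g ∈ S, g.val * Z = Z * g.val ∨ g.val * Z = -(Z * g.val) := by
    obtain ⟨c, hc⟩ := mem_Sc.1 z2
    obtain ⟨m, v, -, v0, e⟩ := exists_eig (h.spl z hz) (U := ⊤) (fun _ _ => trivial) top_ne_bot
    have c0 := ne_zero_of_eq_smul hc
    have em : m * m = c := smul_left_injective K v0 (by
      have := congrArg (· *ᵥ v) hc
      simpa [← mulVec_mulVec, e, mulVec_smul, smul_smul, smul_mulVec] using this)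
    have m0 : m ≠ 0 := by rintro rfl; exact c0 (by simpa using em.symm)
    rw [Units.val_mul] at hc
    refine ⟨m⁻¹ • z.val, by rw [Matrix.smul_mul, Matrix.mul_smul, hc, ← em]; simp [smul_smul, m0],
      (Mm.of_mem hz).smul h.sc (inv_ne_zero m0), fun d e => z1 (mem_Sc.2 ⟨m * d, by
        rw [← smul_smul, ← e, smul_smul, mul_inv_cancel₀ m0, one_smul]⟩), fun g hg => ?_⟩
    obtain ⟨d, hd⟩ := mem_Sc.1 (z3 g hg)
    have e3 : g.val * z.val = d • (z.val * g.val) := by
      have := congrArg (· * (z.val * g.val)) hd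
      simpa [mul_assoc] using this
    have e4 : d * d = 1 := by
      have : g.val * (z.val * z.val) = (d * d) • (z.val * z.val * g.val) := by
        rw [← mul_assoc, e3, Matrix.smul_mul, mul_assoc, e3, Matrix.mul_smul, smul_smul, mul_assoc]
      rw [hc, Matrix.mul_smul, Matrix.smul_mul, mul_one, one_mul, smul_smul] at this
      exact (mul_right_cancel₀ c0 ((one_mul c).trans (smul_left_injective K g.ne_zero this))).symm
    rw [Matrix.mul_smul, Matrix.smul_mul, e3]
    rcases mul_self_eq_one_iff.1 e4 with rfl | rfl <;> simp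
  obtain ⟨E, hE⟩ : ∃ E : M4 K, Z = (2 : K) • E - 1 := ⟨(2 : K)⁻¹ • (Z + 1), by simp [smul_smul, h2]⟩
  have ee : E * E = E := smul_right_injective _ (mul_ne_zero h2 h2) (by
    rw [hE] at hZ
    simp only [mul_sub, sub_mul, Matrix.smul_mul, Matrix.mul_smul, mul_one, one_mul, smul_smul] at hZ
    linear_combination (norm := module) hZ)
  have cE : ∀ {g : M4 K}, g * Z = Z * g → g * E = E * g := fun k => smul_right_injective _ h2 (by
    simp only [hE, mul_sub, sub_mul, Matrix.smul_mul, Matrix.mul_smul, mul_one, one_mul] at k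
    linear_combination (norm := module) k)
  have aE : ∀ {g : M4 K}, g * Z = -(Z * g) → g * E = (1 - E) * g := fun k => smul_right_injective _ h2 (by
    simp only [hE, mul_sub, sub_mul, Matrix.smul_mul, Matrix.mul_smul, mul_one, one_mul] at k ⊢
    linear_combination (norm := module) k)
  have E0 : E ≠ 0 := fun k => zn (-1) (by simp [hE, k])
  obtain ⟨w, hw, w1⟩ : ∃ w ∈ S, w.val * Z = -(Z * w.val) := by
    by_contra hn
    push Not at hn
    exact h.idem ee E0 (fun k => zn 1 (by rw [hE, k]; module)) fun g hg => cE ((zc g hg).resolve_right (hn g hg))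
  have tE : E.trace = 2 := by
    have := tr_anti h2 w.inv_mul w1
    simp only [hE, trace_sub, trace_smul, trace_one, Fintype.card_fin, smul_eq_mul, Nat.cast_ofNat] at this
    exact mul_left_cancel₀ h2 (by linear_combination this)
  have wE := aE w1
  have wE' : w.val * (1 - E) = E * w.val := by rw [mul_sub, wE, sub_mul]; simp
  let N : Subgroup (G4 K) :=
    { carrier := {g | ∃ c : K, g.val * E = c • E}
      mul_mem' := by
        rintro x y ⟨c, hc⟩ ⟨d, hd⟩
        exact ⟨d * c, by rw [Units.val_mul, mul_assoc, hd, Matrix.mul_smul, hc, smul_smul]⟩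
      one_mem' := ⟨1, by simp⟩
      inv_mem' := by
        rintro x ⟨c, hc⟩
        have c0 : c ≠ 0 := by rintro rfl; exact E0 (by simpa using hc)
        exact ⟨c⁻¹, by rw [Units.inv_mul_eq_iff_eq_mul, Matrix.mul_smul, hc, smul_smul, inv_mul_cancel₀ c0, one_smul]⟩ }
  obtain ⟨y, hy, y1, ⟨m, y2⟩, y3⟩ := cen (H := cz S Z) (N := N) (fun g hg => by
      obtain ⟨c, e⟩ := mem_Sc.1 hg; exact ⟨c, by simp [e]⟩) (fun g hg => h.pw g hg.1) (by
      rintro g hg t ⟨c, hc⟩
      refine ⟨c, ?_⟩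
      rw [Units.val_mul, Units.val_mul, mul_assoc, cE (inv_mem hg).2, mul_assoc, ← mul_assoc t.val, hc, Matrix.smul_mul,
        Matrix.mul_smul, ← mul_assoc, cE hg.2, Units.mul_inv_cancel_right]) (fun k => by
      have key : ∀ {E F : M4 K} {c : K}, E.trace = 2 → F.trace = 2 → E + F = 1 → r.val * E = c • E → r.val * F = F →
          False := fun {E F c} k1 k2 k3 k4 k5 => by
        have := tr_hm e1 (-1)
        rw [← e2, ← mul_one r.val, ← k3, mul_add, k4, k5, trace_add, trace_smul, k1, k2, smul_eq_mul] at this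
        rw [show c = 0 from mul_left_cancel₀ h2 (by linear_combination this), zero_smul, Units.mul_right_eq_zero] at k4
        exact h2 (by rw [← k1, k4, trace_zero])
      have t' : (1 - E).trace = 2 := by simp [tE]; norm_num
      have r1 := refl_cz h2 hZ zc hr e1 e2
      rcases idem_refl h2 ee e1 (e2 ▸ cE r1.2) with k' | k'
      · obtain ⟨c, hc⟩ := k (refl_cz h2 hZ zc (mul_mem (mul_mem hw hr) (inv_mem hw)) ((dot_conj w.inv_mul a φ).trans e1)
          (by rw [← conj_hm w.mul_inv, ← e2]; rfl))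
        refine key (c := c) t' tE (by simp) (mul_cancel_g w ?_) (e2 ▸ k')
        have := congrArg (· * w.val) hc
        simp only [Units.val_mul, mul_assoc, Matrix.smul_mul, ← wE', Units.inv_mul_cancel_left] at this
        rw [this, Matrix.mul_smul]
      · obtain ⟨c, hc⟩ := k r1
        exact key tE t' (by simp) hc (e2 ▸ k'))
  have yE := cE hy.2
  obtain ⟨l, f, hf, f0, ef⟩ := exists_eig (h.spl y hy.1) (U := eig E 1) (fun v hv => H1.Mit.eig_inv yE.symm hv) (by
    obtain ⟨i, hi⟩ : ∃ i, E *ᵥ Pi.single i 1 ≠ 0 := by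
      by_contra hn
      push Not at hn
      exact E0 (by ext i j; simpa using congrFun (hn j) i)
    exact (Submodule.ne_bot_iff _).2 ⟨_, by rw [mem_eig, mulVec_mulVec, ee, one_smul], hi⟩)
  rw [mem_eig, one_smul] at hf
  have lm : l * l = m := smul_left_injective K f0 (by
    have := congrArg (· *ᵥ f) y2
    simpa [← mulVec_mulVec, hf, ef, mulVec_smul, smul_smul, smul_mulVec] using this)
  have l0 : l ≠ 0 := by
    rintro rfl
    exact f0 (by simpa [mulVec_mulVec] using congrArg ((y⁻¹).val *ᵥ ·) ef)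
  obtain ⟨f', f1, hf', ef'⟩ : ∃ f', f' ≠ 0 ∧ E *ᵥ f' = f' ∧ y.val *ᵥ f' = -l • f' := by
    obtain ⟨i, hi⟩ : ∃ i, (y.val * E - l • E) *ᵥ Pi.single i 1 ≠ 0 := by
      by_contra hn
      push Not at hn
      exact y1 ⟨l, sub_eq_zero.1 (by ext i j; simpa using congrFun (hn j) i)⟩
    refine ⟨_, hi, ?_, ?_⟩
    · rw [mulVec_mulVec, mul_sub, ← mul_assoc, ← yE, mul_assoc, Matrix.mul_smul, ee]
    · rw [mulVec_mulVec, ← smul_mulVec, mul_sub, ← mul_assoc, ← Units.val_mul, y2, ← lm, Matrix.mul_smul]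
      congr 1
      module
  have wf : ∀ {v}, E *ᵥ v = v → E *ᵥ w.val *ᵥ v = 0 := fun {v} k => by
    rw [mulVec_mulVec, ← wE', ← mulVec_mulVec, sub_mulVec, one_mulVec, k, sub_self, mulVec_zero]
  have ind : ∀ p q : K, p • f + q • f' = 0 → p = 0 ∧ q = 0 := fun p q k => by
    have k' := congrArg (y.val *ᵥ ·) k
    simp only [mulVec_add, mulVec_smul, ef, ef', mulVec_zero] at k'
    have k1 : (2 * l * p) • f = 0 := by linear_combination (norm := module) k' + l • k
    have k2 : (2 * l * q) • f' = 0 := by linear_combination (norm := module) l • k - k'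
    simpa [h2, l0, f0, f1] using And.intro k1 k2
  have hQ : (col4 f f' (w.val *ᵥ f) (w.val *ᵥ f')).det ≠ 0 := fun k => by
    obtain ⟨v, v0, e⟩ := exists_mulVec_eq_zero_iff.2 k
    rw [col4_mulVec] at e
    have e' := congrArg (E *ᵥ ·) e
    simp only [mulVec_add, mulVec_smul, hf, hf', wf hf, wf hf', smul_zero, add_zero, mulVec_zero] at e'
    rw [e', zero_add] at e
    have e'' := congrArg ((w⁻¹).val *ᵥ ·) e
    simp only [mulVec_add, mulVec_smul, mulVec_mulVec, Units.inv_mul, one_mulVec, mulVec_zero] at e''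
    exact v0 (by ext i; fin_cases i; exacts [(ind _ _ e').1, (ind _ _ e').2, (ind _ _ e'').1, (ind _ _ e'').2])
  obtain ⟨Q, hQ⟩ : ∃ Q : G4 K, Q.val = col4 f f' (w.val *ᵥ f) (w.val *ᵥ f') := ⟨GeneralLinearGroup.mkOfDetNeZero _ hQ, rfl⟩
  have q1 : E * Q.val = Q.val * el false false 1 1 0 0 := by
    rw [hQ, mul_col4, col4_mul, hf, hf', wf hf, wf hf']; simp [el]
  have q2 : Z * Q.val = Q.val * el false false 1 1 (-1) (-1) := by
    rw [hE, sub_mul, Matrix.smul_mul, q1, ← Matrix.mul_smul, one_mul, ← mul_one Q.val, mul_assoc, ← mul_sub, mul_one]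
    congr 1
    ext i j; fin_cases i <;> fin_cases j <;> simp [el] <;> norm_num
  have q3 : l⁻¹ • (y.val * E) * Q.val = Q.val * el false false 1 (-1) 0 0 := by
    rw [hQ, mul_col4, col4_mul]
    simp [smul_mulVec, ← mulVec_mulVec, hf, hf', wf hf, wf hf', ef, ef', el, smul_smul, l0]
  refine coord (h.cb Q) (w := Q⁻¹ * w * Q) (by simpa [mem_cb, mul_assoc] using hw) rfl (fun g hg => ?_) ?_ ?_
    fun g hg => ?_
  · rcases zc _ (mem_cb.1 hg) with k | k
    · exact .inl (by simpa using cj_comm (c := 1) (by simpa using k) q2)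
    · exact .inr (by simpa using cj_comm (c := -1) (by simpa using k) q2)
  · simpa using cj_comm (Q := Q) (g := Q⁻¹ * w * Q) (c := -1) (by simpa [mul_assoc] using w1) q2
  · rw [Units.val_mul, Units.val_mul, mul_assoc, ← q1, mul_assoc, Units.inv_mul_eq_iff_eq_mul, mul_one, hQ,
      mul_col4, mul_col4, col4_mul, hf, hf', wf hf, wf hf']
    simp
  · have k : Q * g * Q⁻¹ ∈ cz S Z := ⟨hg.1, cj_comm' hg.2 q2⟩
    obtain ⟨c, hc⟩ := y3 _ k
    refine ⟨c, cj_comm ?_ q3⟩
    generalize Q * g * Q⁻¹ = x at k hc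
    have := congrArg (· * (y.val * x.val)) hc
    simp only [Units.val_mul, mul_assoc, Matrix.smul_mul] at this
    rw [← mul_assoc E, ← yE, mul_assoc y.val, Units.inv_mul_cancel_left, ← cE k.2, Units.inv_mul_cancel_left] at this
    rw [Matrix.mul_smul, this, Matrix.smul_mul, smul_comm, mul_assoc, ← cE k.2]

end Cfsg.Agent.H8.Ho
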