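import Cfsg.Agent.H8.Ho3
import Cfsg.Agent.MH.Hom

set_option autoImplicit false

/-! Pairs of homologies of odd order. -/

namespace Cfsg.Agent.H8.Ho
open Cfsg Matrix MulAction Cfsg.Agent.H2.M4 Cfsg.Agent.H4 Cfsg.Agent.H4.Mob Cfsg.Agent.H4.Bar Cfsg.Agent.H4.Pair
  Cfsg.Agent.H4.Dick commutatorElement
open Cfsg.Agent.H1.Mit (col4 col4_mulVec mul_col4 col4_mul)
open Cfsg.Agent.MH (mob_pow2 mob_pow3 mob_pow4 mob_pow3' small_facts range_perfect pow_card_sub_one cast_card_sub_one)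

variable {K : Type*} [Field K] {Γ : Subgroup (G4 K)} {a b c d a' b' c' d' l : K}

/-- acts on a plane only -/
def bk (a b c d : K) : M4 K := !![a, b, 0, 0; c, d, 0, 0; 0, 0, 1, 0; 0, 0, 0, 1]

theorem bk_mul : bk a b c d * bk a' b' c' d' = bk (a * a' + b * c') (a * b' + b * d') (c * a' + d * c') (c * b' + d * d') := by
  simp [bk]

theorem bk_one : bk (1 : K) 0 0 1 = 1 := by ext i j; fin_cases i <;> fin_cases j <;> simp [bk]

theorem bk_det (h : Mm Γ (bk a b c d)) : a * d - b * c ≠ 0 := by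
  have := h.det
  simp [bk, det_succ_row_zero, Fin.sum_univ_succ, Fin.succAbove] at this
  intro e; apply this; linear_combination e

theorem Mm.bmul (h : Mm Γ (bk a b c d)) (h' : Mm Γ (bk a' b' c' d')) :
    Mm Γ (bk (a * a' + b * c') (a * b' + b * d') (c * a' + d * c') (c * b' + d * d')) := (h.mul h').congr bk_mul.symm

theorem Mm.bcongr (h : Mm Γ (bk a b c d)) (e1 : a' = a) (e2 : b' = b) (e3 : c' = c) (e4 : d' = d) :
    Mm Γ (bk a' b' c' d') := by rw [e1, e2, e3, e4]; exact h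

theorem Mm.binv (h : Mm Γ (bk a b c d)) : Mm Γ (bk ((a * d - b * c)⁻¹ * d) ((a * d - b * c)⁻¹ * -b)
    ((a * d - b * c)⁻¹ * -c) ((a * d - b * c)⁻¹ * a)) := h.inv (by
  have := mul_inv_cancel₀ (bk_det h)
  rw [bk_mul, ← bk_one]
  congr 1
  exacts [by linear_combination this, by ring, by ring, by linear_combination this])

/-- the action on the plane; for `o = true` only the elements of determinant one -/
def bM (Γ : Subgroup (G4 K)) (o : Bool) : Subgroup (PG K) where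
  carrier := {g | ∃ a b c d, ∃ h : Mm Γ (bk a b c d), g = mob a b c d (bk_det h) ∧ (o → a * d - b * c = 1)}
  mul_mem' := by
    rintro _ _ ⟨a, b, c, d, h, rfl, e⟩ ⟨a', b', c', d', h', rfl, e'⟩
    exact ⟨_, _, _, _, h.bmul h', mob_mul _ _, fun k => by linear_combination (a' * d' - b' * c') * e k + e' k⟩
  one_mem' := ⟨1, 0, 0, 1, Mm.one.congr bk_one, one_eq_mob, by simp⟩
  inv_mem' := by
    rintro _ ⟨a, b, c, d, h, rfl, e⟩
    exact ⟨_, _, _, _, h.binv, by rw [mob_inv, mob_eq_mob]; exact ⟨_, rfl, rfl, rfl, rfl⟩, fun k => by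
      rw [e k]; linear_combination e k⟩

theorem bM_mem (h : Mm Γ (bk a b c d)) : mob a b c d (bk_det h) ∈ bM Γ false := ⟨_, _, _, _, h, rfl, by simp⟩

theorem bM_comm : ⁅bM Γ false, bM Γ false⁆ ≤ bM Γ true := by
  rw [Subgroup.commutator_le]
  rintro _ ⟨a, b, c, d, h, rfl, -⟩ _ ⟨a', b', c', d', h', rfl, -⟩
  refine ⟨_, _, _, _, ((h.bmul h').bmul h.binv).bmul h'.binv, ?_, fun _ => ?_⟩
  · simp only [commutatorElement_def, mob_inv, mob_mul, mob_eq_mob]
    exact ⟨(a * d - b * c)⁻¹ * (a' * d' - b' * c')⁻¹, by ring, by ring, by ring, by ring⟩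
  · have := mul_inv_cancel₀ (bk_det h)
    have := mul_inv_cancel₀ (bk_det h')
    generalize (a * d - b * c)⁻¹ = x at *
    generalize (a' * d' - b' * c')⁻¹ = y at *
    grind

theorem Rt.bk (h : Rt Γ) {m : K} (e : Mm Γ (bk m 0 0 m)) : m ^ 2 = 1 ∨ m ^ 3 = 1 ∨ m ^ 5 = 1 :=
  h (el false false 1 1 0 0) m (by simp [el_mul]) (by simp [el, trace, Fin.sum_univ_four]; norm_num)
    (e.congr (by ext i j; fin_cases i <;> fin_cases j <;> simp [el, Ho.bk]))

theorem NoTv.pow [Finite K] (h : NoTv Γ) {D : M4 K} {v φ : Fin 4 → K} (e : φ ⬝ᵥ v = 0)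
    (hD : D ^ (Nat.card K - 1) = 1) (hc : Commute D (vecMulVec v φ)) (hm : Mm Γ (D * (1 + vecMulVec v φ))) :
    v = 0 ∨ φ = 0 := by
  have k : ∀ n : ℕ, (1 + vecMulVec v φ) ^ n = 1 + (n : K) • vecMulVec v φ := fun n => by
    induction n with
    | zero => simp
    | succ n ih => simp [pow_succ, ih, mul_add, add_mul, vmv_mul, e, add_smul]; abel
  have := hm.pow (Nat.card K - 1)
  rw [((Commute.one_right D).add_right hc).mul_pow, hD, one_mul, k, cast_card_sub_one, ← vecMulVec_smul] at this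
  simpa using h v _ (by simp [e]) this

theorem pair_bk [Finite K] (h2 : (2 : K) ≠ 0) (hT : NoTv Γ) (rt : Rt Γ) (hs : Mm Γ (bk l a 0 1)) (hs' : Mm Γ (bk 1 0 b l))
    (ha : a ≠ 0) (hb : b ≠ 0) (hab : a * b ≠ (l - 1) ^ 2) (h1 : l ≠ 1) (hn : ∀ n : ℕ, l ^ n ≠ -1) :
    l ^ 2 + l + 1 = 0 ∧ a * b = -l := by
  have m1 := bM_mem hs
  have m2 := bM_mem hs'
  have l1 : l + 1 ≠ 0 := fun e => hn 1 (by linear_combination e)
  have q1 : mob l a 0 1 (bk_det hs) ^ 2 ≠ 1 := fun e => by simpa [ha, l1] using mob_pow2 e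
  have q2 : mob 1 0 b l (bk_det hs') ^ 2 ≠ 1 := fun e => by simpa [hb, l1, add_comm] using mob_pow2 e
  rcases dickson (bM Γ false) with ⟨x, k⟩ | ⟨x, y, hxy, k⟩ | ⟨-, -, k⟩ | ⟨-, -, -, ⟨k⟩⟩ | ⟨g, E, -, hl, -⟩
  · exfalso
    have e1 : _ • x = x := k m1
    have e2 : _ • x = x := k m2
    rcases P1_cases x with rfl | ⟨t, rfl⟩
    · exact hb (mob_smul_inf_eq_inf.1 e2)
    · rw [mob_smul_pt_eq_pt] at e1 e2
      have : t ≠ 0 := by rintro rfl; exact ha (by simpa using e1)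
      apply hab
      have e3 : b * t + l = 1 := mul_right_cancel₀ this (by linear_combination -e2)
      linear_combination b * e1 + (1 - l) * e3
  · exfalso
    have t : ∀ g ∈ bM Γ false, g ^ 2 ≠ 1 → g ∈ Tor x y := fun g hg h2 =>
      by_contra fun hn => h2 (by rw [pow_two]; exact mul_self_eq_one hxy.ne (k hg) hn)
    have := Tor_comm hxy.ne (t _ m1 q1) (t _ m2 q2)
    simp only [mob_mul, mob_eq_mob] at this
    obtain ⟨u, -, e2, e3, -⟩ := this
    have e4 : u * l = 1 := mul_left_cancel₀ ha (by linear_combination -e2)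
    have e5 : u = l := mul_left_cancel₀ hb (by linear_combination -e3)
    exact mul_ne_zero (sub_ne_zero.2 h1) l1 (by linear_combination e4 - l * e5)
  · obtain ⟨k1, k2⟩ := small_facts k
    have c3 : mob l a 0 1 (bk_det hs) ^ 3 = 1 := congrArg Subtype.val ((k1 ⟨_, m1⟩).resolve_right fun e => by
      have := (mob_pow4 (congrArg Subtype.val e)).resolve_left (by simp [ha])
      exact hn 2 (by linear_combination (mul_eq_zero.1 this).resolve_left l1))
    have hl : l ^ 2 + l + 1 = 0 := by linear_combination (mob_pow3 c3).resolve_left (by simp [ha])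
    refine ⟨hl, ?_⟩
    have m3 := hs.bmul hs'
    rcases k2 ⟨_, m1⟩ ⟨_, m2⟩ (fun e => q1 (congrArg Subtype.val e)) (fun e => q2 (congrArg Subtype.val e))
      (iff_of_true (Subtype.ext c3) (Subtype.ext (mob_pow3' (by linear_combination hl)))) with e | e
    · exfalso
      have := congrArg Subtype.val e
      simp only [Subgroup.coe_pow, Subgroup.coe_mul, mob_mul] at this
      have e := (mob_pow2 this).resolve_left (by simp [hb])
      rcases rt.bk (m := -l ^ 2) ((m3.bmul m3).bcongr (by linear_combination -(l + a * b) * e)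
        (by linear_combination -(a * l) * e) (by linear_combination -b * e) (by linear_combination -l * e)) with k | k | k
      exacts [h1 (by linear_combination k - (l ^ 2 - l) * hl), hn 6 (by linear_combination -k),
        hn 10 (by linear_combination -k)]
    · have := congrArg Subtype.val e
      simp only [Subgroup.coe_pow, Subgroup.coe_mul, mob_mul] at this
      have e := (mob_pow3 this).resolve_left (by simp [hb])
      exact eq_neg_of_add_eq_zero_left ((mul_eq_zero.1 (show (a * b + l) * (a * b - (l - 1) ^ 2) = 0 by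
        linear_combination e - (a * b + l) * hl)).resolve_right (sub_ne_zero.2 hab))
  · exfalso
    have hp : ⁅bM Γ false, bM Γ false⁆ = bM Γ false := by
      have := range_perfect (Γ := alternatingGroup (Fin 5)) (commutator_alternatingGroup_eq_top (by simp))
        ((bM Γ false).subtype.comp k.symm)
      rwa [MonoidHom.range_comp, MonoidHom.range_eq_top.2 k.symm.surjective, ← MonoidHom.range_eq_map,
        Subgroup.range_subtype] at this
    have hj : Mm Γ (bk (-1) 0 0 (-1)) := by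
      obtain ⟨i, -, i1, -, -, i2, -⟩ := Small.A5_facts
      obtain ⟨p, q, r, s, h, e2, e1⟩ := bM_comm (hp.ge (k.symm i).2)
      have := (mob_pow2 (h := bk_det h) (by
        rw [← e2, ← Subgroup.coe_pow, ← map_pow, pow_two, i2, map_one, Subgroup.coe_one])).resolve_left fun k' => i1 (by
          rw [← map_eq_one_iff _ k.symm.injective, Subtype.ext_iff, e2]
          exact mob_eq_one.2 k')
      have e1 := e1 rfl
      exact (h.bmul h).bcongr (by linear_combination e1 - p * this) (by linear_combination -q * this)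
        (by linear_combination -r * this) (by linear_combination e1 - s * this)
    obtain ⟨p, q, r, s, h, e2, e1⟩ := bM_comm (hp.ge m1)
    obtain ⟨u, rfl, rfl, rfl, rfl⟩ := mob_eq_mob.1 e2
    have e1 : u ^ 2 * l = 1 := by linear_combination e1 rfl
    have l0 : l ≠ 0 := by rintro rfl; simp at e1
    have k1 : Mm Γ (bk u 0 0 u) := (h.bmul hs.binv).bcongr (by simp [l0]) (by ring) (by ring) (by simp [l0])
    have k2 : Mm Γ (bk (-u) 0 0 (-u)) := (k1.bmul hj).bcongr (by ring) (by ring) (by ring) (by ring)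
    have k3 : u ^ 2 ≠ 1 := fun e => h1 (by linear_combination e1 - l * e)
    have k4 : u ^ 2 ≠ -1 := fun e => l1 (by linear_combination l * e - e1)
    rcases (rt.bk k1).resolve_left k3 with a1 | a1 <;>
      rcases (rt.bk k2).resolve_left (by simpa using k3) with a2 | a2
    exacts [h2 (by linear_combination -a1 - a2), k4 (by linear_combination -a2 - u ^ 2 * a1),
      k4 (by linear_combination -u ^ 2 * a2 - a1), h2 (by linear_combination -a1 - a2)]
  · exfalso
    obtain ⟨p, q, r, s, hδ, rfl⟩ := exists_mob g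
    have := mem_cj.1 (hl (tr_mem_PSsub E.one_mem))
    simp only [Mob.tr, aff, mob_inv, mob_mul] at this
    obtain ⟨_, _, _, _, h, e, -⟩ := this
    obtain ⟨u, rfl, rfl, rfl, rfl⟩ := mob_eq_mob.1 e
    have u0 : u ≠ 0 := by rintro rfl; simpa using bk_det h
    rcases hT.pow (D := diagonal ![u * (p * s - q * r), u * (p * s - q * r), 1, 1]) (v := ![s, -r, 0, 0])
      (φ := (p * s - q * r)⁻¹ • ![r, s, 0, 0]) (by simp; ring) (by
        rw [diagonal_pow, ← diagonal_one]; congr 1; ext i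
        fin_cases i <;> simp [-mul_eq_zero, pow_card_sub_one (mul_ne_zero u0 hδ)]) (by
        change _ * _ = _ * _
        ext i j; fin_cases i <;> fin_cases j <;> simp [vecMulVec, mul_comm]) (h.congr (by
        ext i j; fin_cases i <;> fin_cases j <;> simp [bk, vecMulVec, one_apply] <;> field_simp <;> ring)) with k | k
    · exact hδ (by simp at k; simp [k])
    · exact hδ (by simp [hδ] at k; simp [k])

variable {v w φ ψ χ : Fin 4 → K}

theorem NoTv.one (hT : NoTv Γ) (h1 : l ≠ 1) (h2 : l ≠ -1) (hv : Hm Γ l v φ) (hw : Hm Γ l w ψ) (e1 : φ ⬝ᵥ w = 1)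
    (e2 : ψ ⬝ᵥ v = 1) : w = v := by
  obtain ⟨O, rfl⟩ : ∃ O, w = v + O := ⟨w - v, by simp⟩
  obtain ⟨θ, rfl⟩ : ∃ θ, ψ = φ + θ := ⟨ψ - φ, by simp⟩
  have l0 := hv.l_ne
  have a0 := hv.1
  have a1 : φ ⬝ᵥ O = 0 := by simpa [a0] using e1
  have a2 : θ ⬝ᵥ v = 0 := by simpa [a0] using e2
  have a3 : θ ⬝ᵥ O = 0 := by simpa [a0, a1, a2] using hw.1
  let U : K → K → K → M4 K := fun x y z => 1 + x • vecMulVec v θ + y • vecMulVec O φ + z • vecMulVec O θ
  have m : ∀ x y z x' y' z', U x y z * U x' y' z' = U (x + x') (y + y') (z + z' + y * x') := fun x y z x' y' z' => by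
    simp only [U, mul_add, add_mul, mul_one, one_mul, Matrix.mul_smul, Matrix.smul_mul, vmv_mul, a0, a1, a2, a3]
    module
  have u1 : Mm Γ (U (l - 1) (1 - l⁻¹) (l - 1)) := (hw.2.mul hv.inv.2).congr (by
    simp only [U, hm, add_vecMulVec, vecMulVec_add, mul_add, add_mul, mul_one, one_mul, Matrix.mul_smul,
      Matrix.smul_mul, vmv_mul, a0, a1, a2, a3, smul_add]
    match_scalars <;> field_simp <;> ring)
  have u2 : Mm Γ (U (l * (l - 1)) (l⁻¹ * (1 - l⁻¹)) (l - 1)) := ((hv.2.mul u1).mul hv.inv.2).congr (by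
    simp only [U, hm, mul_add, add_mul, mul_one, one_mul, Matrix.mul_smul, Matrix.smul_mul, vmv_mul, a0, a1, a2, a3,
      smul_add]
    match_scalars <;> field_simp <;> ring)
  have u3 : Mm Γ (U 0 0 ((l - 1) * (1 - l⁻¹) * (l - l⁻¹))) := (u2.mul u1).of_mul_left ((u1.mul u2).congr (by
    rw [m, m, m]; congr 1 <;> ring))
  rcases hT O (((l - 1) * (1 - l⁻¹) * (l - l⁻¹)) • θ) (by simp [a3]) (u3.congr (by simp [U])) with k | k
  · simp [k]
  · have : θ = 0 := (smul_eq_zero.1 k).resolve_left (mul_ne_zero (mul_ne_zero (sub_ne_zero.2 h1)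
      (sub_ne_zero.2 (inv_ne_one.2 h1).symm)) fun e => by
        field_simp at e
        exact mul_ne_zero (sub_ne_zero.2 h1) (sub_ne_zero.2 h2) (by linear_combination e))
    exact hT.centre h1 hv (by simpa [this] using hw)

theorem exists_ker (φ ψ χ : Fin 4 → K) : ∃ u : Fin 4 → K, u ≠ 0 ∧ φ ⬝ᵥ u = 0 ∧ ψ ⬝ᵥ u = 0 ∧ χ ⬝ᵥ u = 0 := by
  have : (Matrix.of ![φ, ψ, χ, 0]).det = 0 := det_eq_zero_of_row_eq_zero 3 (by simp)
  obtain ⟨u, hu, e⟩ := exists_mulVec_eq_zero_iff.2 this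
  exact ⟨u, hu, by simpa [mulVec] using congrFun e 0, by simpa [mulVec] using congrFun e 1,
    by simpa [mulVec] using congrFun e 2⟩

theorem exists_col {a b c d : Fin 4 → K}
    (h : ∀ p q r s : K, p • a + q • b + r • c + s • d = 0 → p = 0 ∧ q = 0 ∧ r = 0 ∧ s = 0) :
    ∃ Q : G4 K, Q.val = col4 a b c d := ⟨GeneralLinearGroup.mkOfDetNeZero (col4 a b c d) fun k => by
  obtain ⟨v, v0, e⟩ := exists_mulVec_eq_zero_iff.2 k
  rw [col4_mulVec] at e
  obtain ⟨h0, h1, h2, h3⟩ := h _ _ _ _ e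
  exact v0 (by ext i; fin_cases i; exacts [h0, h1, h2, h3]), rfl⟩

theorem Hm.col {Q : G4 K} {a b c d : Fin 4 → K} (hQ : Q.val = col4 a b c d) (h : Hm Γ l v φ) (x : Fin 4 → K)
    (e : v = x 0 • a + x 1 • b + x 2 • c + x 3 • d) : Hm (cb Q Γ) l x ![φ ⬝ᵥ a, φ ⬝ᵥ b, φ ⬝ᵥ c, φ ⬝ᵥ d] := by
  have := (hm_cb' (Q := Q)).2 h
  rw [e, ← col4_mulVec, ← hQ, mulVec_mulVec, Units.inv_mul, one_mulVec] at this
  refine this.congr rfl ?_
  rw [hQ]
  ext i; fin_cases i <;> simp [col4, vecMul, dotProduct]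

/-- two homologies with the same ratio -/
def Tri (Γ : Subgroup (G4 K)) (l : K) : Prop := ∀ v φ w ψ, Hm Γ l v φ → Hm Γ l w ψ →
  (∃ u : K, u ≠ 0 ∧ w = u • v ∧ φ = u • ψ) ∨ (φ ⬝ᵥ w = 0 ∧ ψ ⬝ᵥ v = 0) ∨
    (l ^ 2 + l + 1 = 0 ∧ 3 * ((φ ⬝ᵥ w) * (ψ ⬝ᵥ v)) = 1)

theorem tri [Finite K] (h2 : (2 : K) ≠ 0) (hT : NoTv Γ) (rt : Rt Γ) (nr : ∀ a φ, ¬ Rf Γ a φ) (h1 : l ≠ 1) : Tri Γ l := by
  intro v φ w ψ hv hw
  have hn : ∀ n : ℕ, l ^ n ≠ -1 := fun n e => nr v φ (by rw [Rf, ← e]; exact hv.pow n)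
  by_cases ha : φ ⬝ᵥ w = 0
  · exact .inr (.inl ⟨ha, hT.orth h1 h1 hv hw ha⟩)
  have hb : ψ ⬝ᵥ v ≠ 0 := fun e => ha (hT.orth h1 h1 hw hv e)
  by_cases e : (φ ⬝ᵥ w) * (ψ ⬝ᵥ v) = 1
  · have k := hv.smul ha
    have := hT.one h1 (by simpa using hn 1) k hw (by simp [ha]) (by simp [e])
    refine .inl ⟨_, ha, this, ?_⟩
    rw [hT.axis h1 k (hw.congr this.symm rfl), smul_smul, mul_inv_cancel₀ ha, one_smul]
  obtain ⟨O, o0, o1, o2, -⟩ := exists_ker φ ψ 0
  obtain ⟨i, hi⟩ := Function.ne_iff.1 o0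
  obtain ⟨O', p0, p1, p2, p3⟩ := exists_ker φ ψ (Pi.single i 1)
  obtain ⟨Q, hQ⟩ := exists_col (a := v) (b := w) (c := O) (d := O') fun p q r s k => by
    have e1 := congrArg (φ ⬝ᵥ ·) k
    have e2 := congrArg (ψ ⬝ᵥ ·) k
    simp only [dotProduct_add, dotProduct_smul, hv.1, hw.1, o1, o2, p1, p2, smul_eq_mul, dotProduct_zero] at e1 e2
    obtain rfl : p = 0 := mul_left_cancel₀ (sub_ne_zero.2 e) (by linear_combination (φ ⬝ᵥ w) * e2 - e1)
    obtain rfl : q = 0 := mul_left_cancel₀ (sub_ne_zero.2 e) (by linear_combination (ψ ⬝ᵥ v) * e1 - e2)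
    obtain rfl : r = 0 := by
      have := congrFun k i
      simp at p3
      simpa [p3, show O i ≠ 0 from hi] using this
    exact ⟨rfl, rfl, rfl, by simpa [p0] using k⟩
  have l1 := sub_ne_zero.2 h1
  obtain ⟨k1, k2⟩ := pair_bk (l := l) (a := (l - 1) * (φ ⬝ᵥ w)) (b := (l - 1) * (ψ ⬝ᵥ v)) h2 (hT.cb Q) (rt.cb Q)
    ((hv.col hQ ![1, 0, 0, 0] (by simp)).2.congr (by
      ext i j; fin_cases i <;> fin_cases j <;> simp [bk, hm, vecMulVec, hv.1, o1, p1]))
    ((hw.col hQ ![0, 1, 0, 0] (by simp)).2.congr (by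
      ext i j; fin_cases i <;> fin_cases j <;> simp [bk, hm, vecMulVec, hw.1, o2, p2]))
    (mul_ne_zero l1 ha) (mul_ne_zero l1 hb) (fun k => e (mul_left_cancel₀ (pow_ne_zero 2 l1) (by linear_combination k)))
    h1 hn
  exact .inr (.inr ⟨k1, mul_left_cancel₀ hv.l_ne (by linear_combination -k2 + (φ ⬝ᵥ w) * (ψ ⬝ᵥ v) * k1)⟩)

end Cfsg.Agent.H8.Ho
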