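import Cfsg.Agent.H8.Ho4
import Cfsg.Agent.H8.G32

set_option autoImplicit false

/-! The root system of homologies of order three. -/

namespace Cfsg.Agent.H8.Ho
open Cfsg Matrix Cfsg.Agent.H2.M4 Cfsg.Agent.Asch
open Cfsg.Agent.H1.Mit (col4 col4_mulVec mul_col4 col4_mul)

variable {K : Type*} [Field K] {Γ Δ : Subgroup (G4 K)} {ω l t : K} {a b c v w φ ψ χ α : Fin 4 → K}

/-- standing hypotheses -/
structure St (Γ : Subgroup (G4 K)) : Prop where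
  two : (2 : K) ≠ 0
  sc : Sc K ≤ Γ
  ntv : NoTv Γ
  rt : Rt Γ
  nr : ∀ a φ, ¬ Rf Γ a φ

theorem St.cb (h : St Γ) (Q : G4 K) : St (cb Q Γ) :=
  ⟨h.two, sc_cb h.sc Q, h.ntv.cb Q, h.rt.cb Q, fun _ _ e => h.nr _ _ (hm_cb.1 e)⟩

theorem St.tri [Finite K] (h : St Γ) (h1 : l ≠ 1) (hv : Hm Γ l v φ) (hw : Hm Γ l w ψ) :
    (∃ u : K, u ≠ 0 ∧ w = u • v ∧ φ = u • ψ) ∨ (φ ⬝ᵥ w = 0 ∧ ψ ⬝ᵥ v = 0) ∨ 3 * ((φ ⬝ᵥ w) * (ψ ⬝ᵥ v)) = 1 :=
  (Ho.tri h.two h.ntv h.rt h.nr h1 v φ w ψ hv hw).imp_right (Or.imp_right And.right)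

/-- the homologies with ratio `l` act irreducibly -/
def IR (Γ : Subgroup (G4 K)) (l : K) : Prop := ∀ U : Submodule K (Fin 4 → K), (∃ v ∈ U, v ≠ 0) → (∃ v, v ∉ U) →
  ∃ a φ, Hm Γ l a φ ∧ a ∉ U ∧ ∃ v ∈ U, φ ⬝ᵥ v ≠ 0

theorem IR.cb (h : IR Γ l) (Q : G4 K) : IR (cb Q Γ) l := by
  rintro U ⟨v, hv, v0⟩ ⟨w, hw⟩
  obtain ⟨a, φ, h1, h2, u, h3, h4⟩ := h (U.comap (Q⁻¹).val.mulVecLin)
    ⟨Q.val *ᵥ v, by simpa [mulVec_mulVec] using hv, fun e => v0 (by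
      simpa [mulVec_mulVec] using congrArg ((Q⁻¹).val *ᵥ ·) e)⟩ ⟨Q.val *ᵥ w, by simpa [mulVec_mulVec] using hw⟩
  exact ⟨_, _, hm_cb'.2 h1, h2, _, h3, by rwa [mulVecLin_apply, dot_conj Q.mul_inv]⟩

theorem exists_not_mem (a b : Fin 4 → K) : ∃ v, v ∉ Submodule.span K {a, b} := by
  obtain ⟨u, u0, h1, h2, -⟩ := exists_ker a b 0
  obtain ⟨i, hi⟩ := Function.ne_iff.1 u0
  refine ⟨Pi.single i 1, fun e => ?_⟩
  obtain ⟨x, y, e⟩ := Submodule.mem_span_pair.1 e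
  have := congrArg (· ⬝ᵥ u) e
  simp only [add_dotProduct, smul_dotProduct, h1, h2, single_dotProduct] at this
  exact hi (by simpa using this.symm)

theorem exists_pair [Finite K] (h : St Γ) (hI : IR Γ l) (h1 : l ≠ 1) (ha : Hm Γ l a φ) :
    l ^ 2 + l + 1 = 0 ∧ ∃ b ψ, Hm Γ l b ψ ∧ 3 * ((φ ⬝ᵥ b) * (ψ ⬝ᵥ a)) = 1 := by
  obtain ⟨b, ψ, hb, k1, v, k2, k3⟩ := hI (Submodule.span K {a, a}) ⟨a, Submodule.subset_span (by simp), ha.ne⟩
    (exists_not_mem a a)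
  rcases Ho.tri h.two h.ntv h.rt h.nr h1 _ _ _ _ ha hb with ⟨u, -, rfl, -⟩ | k | k
  · exact absurd (Submodule.smul_mem _ _ (Submodule.subset_span (by simp))) k1
  · obtain ⟨x, y, rfl⟩ := Submodule.mem_span_pair.1 k2
    simp [k.2] at k3
  · exact ⟨k.1, b, ψ, hb, k.2⟩

theorem om_inv (hω : ω ^ 2 + ω + 1 = 0) : ω⁻¹ = ω ^ 2 :=
  (eq_inv_of_mul_eq_one_left (by linear_combination (ω - 1) * hω)).symm

theorem exists_path [Finite K] (h : St Γ) (hI : IR Γ ω) (h1 : ω ≠ 1) (hω : ω ^ 2 + ω + 1 = 0) (ha : Hm Γ ω a φ)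
    (hb : Hm Γ ω b ψ) (e : 3 * ((φ ⬝ᵥ b) * (ψ ⬝ᵥ a)) = 1) : ∃ a φ b ψ c χ, Hm Γ ω a φ ∧ Hm Γ ω b ψ ∧ Hm Γ ω c χ ∧
      φ ⬝ᵥ b = 0 ∧ ψ ⬝ᵥ a = 0 ∧ 3 * ((φ ⬝ᵥ c) * (χ ⬝ᵥ a)) = 1 ∧ 3 * ((ψ ⬝ᵥ c) * (χ ⬝ᵥ b)) = 1 := by
  have ma : a ∈ Submodule.span K {a, b} := Submodule.subset_span (by simp)
  have mb : b ∈ Submodule.span K {a, b} := Submodule.subset_span (by simp)
  obtain ⟨c, χ, hc, k1, v, k2, k3⟩ := hI (Submodule.span K {a, b}) ⟨a, ma, ha.ne⟩ (exists_not_mem a b)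
  obtain ⟨x, y, rfl⟩ := Submodule.mem_span_pair.1 k2
  have key : ∀ {d θ}, Hm Γ ω d θ → d ∈ Submodule.span K {a, b} →
      (θ ⬝ᵥ c = 0 ∧ χ ⬝ᵥ d = 0) ∨ 3 * ((θ ⬝ᵥ c) * (χ ⬝ᵥ d)) = 1 := fun hd md =>
    (h.tri h1 hd hc).resolve_left fun ⟨u, _, e, _⟩ => k1 (e ▸ Submodule.smul_mem _ _ md)
  simp only [dotProduct_add, dotProduct_smul, smul_eq_mul] at k3
  rcases key ha ma with a1 | a1
  · exact ⟨a, φ, c, χ, b, ψ, ha, hc, hb, a1.1, a1.2, e, by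
      rw [mul_comm (χ ⬝ᵥ b)]; exact (key hb mb).resolve_left fun k => by simp [k.2, a1.2] at k3⟩
  rcases key hb mb with a2 | a2
  · exact ⟨b, ψ, c, χ, a, φ, hb, hc, ha, a2.1, a2.2, by rwa [mul_comm (ψ ⬝ᵥ a)], by rwa [mul_comm (χ ⬝ᵥ a)]⟩
  have w0 := ha.l_ne
  have nx : ∀ {m : K}, Hm Γ m a φ → (∃ a φ b ψ c χ, Hm Γ ω a φ ∧ Hm Γ ω b ψ ∧ Hm Γ ω c χ ∧
      φ ⬝ᵥ b = 0 ∧ ψ ⬝ᵥ a = 0 ∧ 3 * ((φ ⬝ᵥ c) * (χ ⬝ᵥ a)) = 1 ∧ 3 * ((ψ ⬝ᵥ c) * (χ ⬝ᵥ b)) = 1) ∨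
      3 * ((ψ ⬝ᵥ c + (m⁻¹ - 1) * (ψ ⬝ᵥ a) * (φ ⬝ᵥ c)) * (χ ⬝ᵥ b + (m - 1) * (φ ⬝ᵥ b) * (χ ⬝ᵥ a))) = 1 := fun {m} hm => by
    have hd := hm.act hb
    have m0 := hm.l_ne
    rcases key hd (add_mem mb (Submodule.smul_mem _ _ ma)) with a3 | a3
    · refine .inl ⟨_, _, c, χ, a, φ, hd, hc, ha, a3.1, a3.2, ?_, by rwa [mul_comm (χ ⬝ᵥ a)]⟩
      simp only [dotProduct_add, add_dotProduct, dotProduct_smul, smul_dotProduct, smul_eq_mul, ha.1]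
      field_simp
      linear_combination m * e
    · exact .inr (by simpa only [dotProduct_add, add_dotProduct, dotProduct_smul, smul_dotProduct, smul_eq_mul] using a3)
  rcases nx ha with k | a3
  · exact k
  rcases nx ha.inv with k | a4
  · exact k
  exfalso
  rw [inv_inv] at a4
  rw [om_inv hω] at a3 a4
  have h2 := h.two
  have := sub_ne_zero.2 h1
  generalize φ ⬝ᵥ b = p1 at *
  generalize ψ ⬝ᵥ a = p2 at *
  generalize φ ⬝ᵥ c = p3 at *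
  generalize χ ⬝ᵥ a = p4 at *
  generalize ψ ⬝ᵥ c = p5 at *
  generalize χ ⬝ᵥ b = p6 at *
  have b3 : 3 * ((ω ^ 2 - 1) * (p2 * p3 * p6) + (ω - 1) * (p1 * p5 * p4)) + 1 = 0 := by
    linear_combination a3 - a2 - 3 * p3 * p4 * e - a1 - 3 * (ω - 2) * (p1 * p2 * p3 * p4) * hω
  have b4 : 3 * ((ω - 1) * (p2 * p3 * p6) + (ω ^ 2 - 1) * (p1 * p5 * p4)) + 1 = 0 := by
    linear_combination a4 - a2 - 3 * p3 * p4 * e - a1 - 3 * (ω - 2) * (p1 * p2 * p3 * p4) * hω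
  have b5 : 27 * ((p2 * p3 * p6) * (p1 * p5 * p4)) = 1 := by grind
  generalize p2 * p3 * p6 = C at *
  generalize p1 * p5 * p4 = C' at *
  have b6 : 3 * (C - C') = 0 := mul_left_cancel₀ (mul_ne_zero w0 this) (by linear_combination b3 - b4)
  exact h2 (by grind)

theorem third (h1 : ω ≠ 1) (hω : ω ^ 2 + ω + 1 = 0) (ha : Hm Δ ω a φ) (hb : Hm Δ ω b ψ) (hc : Hm Δ ω c χ)
    (e1 : φ ⬝ᵥ b = 0) (e2 : ψ ⬝ᵥ a = 0) (e3 : φ ⬝ᵥ c = 1) (e4 : ψ ⬝ᵥ c = 1) (e5 : 3 * (χ ⬝ᵥ a) = 1)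
    (e6 : 3 * (χ ⬝ᵥ b) = 1) : Hm Δ ω (c - a - b) ((3 : K) • χ - φ - ψ) := by
  have h3 : (3 : K) ≠ 0 := fun e => by simp [e] at e5
  have := (hc.inv.act (ha.act (hb.act hc))).smul (inv_ne_zero (sub_ne_zero.2 h1.symm))
  have k := mul_inv_cancel₀ (sub_ne_zero.2 h1.symm)
  simp only [inv_inv, om_inv hω, dotProduct_add, add_dotProduct, dotProduct_smul, smul_dotProduct, smul_eq_mul, hc.1,
    e1, e2, e3, e4] at this
  generalize (1 - ω)⁻¹ = u at *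
  generalize χ ⬝ᵥ a = p at *
  generalize χ ⬝ᵥ b = q at *
  refine this.congr ?_ ?_
  · match_scalars <;> grind
  · match_scalars <;> grind

/-- the standard basis -/
def EE (i : Fin 4) : Fin 4 → K := Pi.single i 1

theorem EE0 : (EE 0 : Fin 4 → K) = ![1, 0, 0, 0] := by ext i; fin_cases i <;> simp [EE]
theorem EE1 : (EE 1 : Fin 4 → K) = ![0, 1, 0, 0] := by ext i; fin_cases i <;> simp [EE]
theorem EE2 : (EE 2 : Fin 4 → K) = ![0, 0, 1, 0] := by ext i; fin_cases i <;> simp [EE]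
theorem EE3 : (EE 3 : Fin 4 → K) = ![0, 0, 0, 1] := by ext i; fin_cases i <;> simp [EE]

/-- the four diagonal homologies -/
def Fr (Δ : Subgroup (G4 K)) (ω : K) : Prop := ∀ i, Hm Δ ω (EE i) (EE i)

theorem fourth (hω : ω ^ 2 + ω + 1 = 0) (sc : Sc K ≤ Δ) (h0 : Hm Δ ω (EE 0) (EE 0)) (h1 : Hm Δ ω (EE 1) (EE 1))
    (h2 : Hm Δ ω (EE 2) (EE 2)) : Fr Δ ω := fun i => by
  fin_cases i
  exacts [h0, h1, h2, ⟨by simp [EE], ((((h0.2.mul h1.2).mul h2.2).pow 2).smul sc h0.l_ne).congr (by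
    have e : hm ω (EE 0) (EE 0) * hm ω (EE 1) (EE 1) * hm ω (EE 2) (EE 2) = diagonal ![ω, ω, ω, 1] := by
      ext i j; fin_cases i <;> fin_cases j <;> simp [hm, EE, vecMulVec, mul_apply, Fin.sum_univ_four, one_apply]
    rw [e]
    ext i j; fin_cases i <;> fin_cases j <;> simp [hm, EE, vecMulVec, pow_two] <;> grind)⟩]

/-- `b` is the centre of a homology -/
def Ro (Δ : Subgroup (G4 K)) (ω : K) (b : Fin 4 → K) : Prop := ∃ ψ, Hm Δ ω b ψ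

theorem Ro.sc (h : Ro Δ ω b) (u : K) (hu : u ≠ 0) (e : c = u • b) : Ro Δ ω c := by
  obtain ⟨ψ, h⟩ := h
  exact ⟨_, (h.smul hu).congr e rfl⟩

theorem Ro.act (h : Ro Δ ω b) (h' : Hm Δ l a φ) : Ro Δ ω (b + ((l - 1) * (φ ⬝ᵥ b)) • a) := by
  obtain ⟨ψ, h⟩ := h
  exact ⟨_, h'.act h⟩

theorem Ro.dg (hf : Fr Δ ω) (h : Ro Δ ω b) (k : Fin 4 → ℕ) : Ro Δ ω fun i => ω ^ k i * b i := by
  obtain ⟨ψ, h⟩ := h
  have : Mm Δ (diagonal fun i => ω ^ k i) := (((((hf 0).pow (k 0)).2.mul ((hf 1).pow (k 1)).2).mul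
    ((hf 2).pow (k 2)).2).mul ((hf 3).pow (k 3)).2).congr (by
      ext i j; fin_cases i <;> fin_cases j <;> simp [hm, EE, vecMulVec, mul_apply, Fin.sum_univ_four, one_apply])
  obtain ⟨Y, -, e, -⟩ := this.exists_inv
  exact ⟨_, (h.conj this e).congr (by ext i; simp [mulVec_diagonal]) rfl⟩

/-- the tetracode -/
def TT : Fin 4 → Fin 4 → K := ![![0, 1, -1, 1], ![1, 0, -1, -1], ![1, -1, 0, 1], ![1, 1, 1, 0]]

theorem gens (h1 : ω ≠ 1) (hω : ω ^ 2 + ω + 1 = 0) (ht : 3 * t = 1) (sc : Sc K ≤ Δ) (h0 : Hm Δ ω (EE 0) (EE 0))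
    (h2 : Hm Δ ω (EE 1) (EE 1)) (h3 : Hm Δ ω (TT 3) (t • TT 3)) (h4 : Ro Δ ω (TT 0)) : Fr Δ ω ∧ ∀ m, Ro Δ ω (TT m) := by
  have hf : Fr Δ ω := fourth hω sc h0 h2 ((third h1 hω h0 h2 h3 (by simp [EE]) (by simp [EE]) (by simp [EE, TT])
    (by simp [EE, TT]) (by simp [EE, TT, ht]) (by simp [EE, TT, ht])).congr
    (by simp [EE0, EE1, EE2, TT]) (by simp [EE0, EE1, EE2, TT, ht]))
  have k := h4.dg hf ![0, 0, 1, 0]
  refine ⟨hf, fun m => ?_⟩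
  fin_cases m
  · exact h4
  · refine (((k.act h3.inv).dg hf ![0, 0, 1, 0]).sc (-1) (by simp) ?_)
    ext i; fin_cases i <;> simp [TT, om_inv hω, dotProduct, Fin.sum_univ_four] <;> grind
  · refine (((k.act h3).dg hf ![2, 1, 0, 0]).sc 1 (by simp) ?_)
    ext i; fin_cases i <;> simp [TT, dotProduct, Fin.sum_univ_four] <;> grind
  · exact ⟨_, h3⟩

section
variable [Finite K]

theorem supp (h : St Γ) (h1 : ω ≠ 1) (hf : Fr Γ ω) (hb : Hm Γ ω b ψ) : (∃ i, ∃ u : K, u ≠ 0 ∧ b = u • EE i ∧ EE i = u • ψ) ∨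
    ((∀ k, (b k = 0 ∧ ψ k = 0) ∨ 3 * (b k * ψ k) = 1) ∧ ∃ m, b m = 0 ∧ ∀ k, k ≠ m → b k ≠ 0) := by
  by_cases k : ∃ i, ∃ u : K, u ≠ 0 ∧ b = u • EE i ∧ EE i = u • ψ
  · exact .inl k
  have key : ∀ k, (b k = 0 ∧ ψ k = 0) ∨ 3 * (b k * ψ k) = 1 := fun i => by
    simpa [EE] using (h.tri h1 (hf i) hb).resolve_left fun e => k ⟨i, e⟩
  refine .inr ⟨key, ?_⟩
  have e := hb.1
  have h2 := h.two
  simp only [dotProduct, Fin.sum_univ_four] at e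
  have nz : ∀ {k}, 3 * (b k * ψ k) = 1 → b k ≠ 0 := fun e e' => by simp [e'] at e
  have h3 : (3 : K) ≠ 0 := fun e => by
    have : ∀ k, b k = 0 := fun k => ((key k).resolve_right (by simp [e])).1
    exact hb.ne (funext this)
  rcases key 0 with a0 | a0 <;> rcases key 1 with a1 | a1 <;> rcases key 2 with a2 | a2 <;> rcases key 3 with a3 | a3
  all_goals first
    | exact ⟨0, a0.1, fun k hk => by fin_cases k; exacts [absurd rfl hk, nz a1, nz a2, nz a3]⟩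
    | exact ⟨1, a1.1, fun k hk => by fin_cases k; exacts [nz a0, absurd rfl hk, nz a2, nz a3]⟩
    | exact ⟨2, a2.1, fun k hk => by fin_cases k; exacts [nz a0, nz a1, absurd rfl hk, nz a3]⟩
    | exact ⟨3, a3.1, fun k hk => by fin_cases k; exacts [nz a0, nz a1, nz a2, absurd rfl hk]⟩
    | (exfalso; grind)

theorem supp' (h : St Γ) (h1 : ω ≠ 1) (hf : Fr Γ ω) (hb : Hm Γ ω b ψ) {i j : Fin 4} (hij : i ≠ j) (hi : b i ≠ 0)
    (hj : b j ≠ 0) (k : Fin 4) : (b k = 0 → ψ k = 0) ∧ (b k ≠ 0 → 3 * (b k * ψ k) = 1) := by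
  rcases supp h h1 hf hb with ⟨m, u, -, rfl, -⟩ | ⟨e, -⟩
  · simp only [EE, Pi.smul_apply, Pi.single_apply] at hi hj
    exact absurd (by split_ifs at hi hj <;> simp_all) hij
  · exact ⟨fun e' => ((e k).resolve_right (by simp [e'])).2, fun e' => (e k).resolve_left fun k => e' k.1⟩

theorem rat (h : St Γ) (h1 : ω ≠ 1) (hf : Fr Γ ω) (hb : Ro Γ ω b) (hc : Ro Γ ω c) (i j m m' : Fin 4) (hij : i ≠ j)
    (hs : ∀ f : Fin 4 → K, f m = 0 → f m' = 0 → ∑ k, f k = f i + f j) (b0 : b m = 0) (c0 : c m' = 0) (c1 : c m ≠ 0)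
    (bi : b i ≠ 0) (bj : b j ≠ 0) (ci : c i ≠ 0) (cj : c j ≠ 0) : (b i * c j) ^ 3 = -(b j * c i) ^ 3 := by
  obtain ⟨ψ, hb⟩ := hb
  obtain ⟨χ, hc⟩ := hc
  have s := supp' h h1 hf hb hij bi bj
  have s' := supp' h h1 hf hc hij ci cj
  have a1 := (s i).2 bi
  have a2 := (s j).2 bj
  have a3 := (s' i).2 ci
  have a4 := (s' j).2 cj
  have := (h.tri h1 hb hc).resolve_left fun ⟨u, _, e, _⟩ => c1 (by simp [e, b0])
  rw [dotProduct, dotProduct, hs _ (by simp [(s m).1 b0]) (by simp [c0]), hs _ (by simp [b0]) (by simp [(s' m').1 c0])] at this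
  have e1 : (ψ i * c i + ψ j * c j) * (3 * (b i * b j)) = b j * c i + b i * c j := by
    linear_combination (b j * c i) * a1 + (b i * c j) * a2
  have e2 : (χ i * b i + χ j * b j) * (3 * (c i * c j)) = b j * c i + b i * c j := by
    linear_combination (b i * c j) * a3 + (b j * c i) * a4
  rcases this with k | k
  · rw [k.1, zero_mul] at e1
    rw [show b i * c j = -(b j * c i) by linear_combination -e1]; ring
  · have : (b j * c i + b i * c j) ^ 2 = 3 * (b i * b j * (c i * c j)) := by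
      rw [pow_two]
      nth_rewrite 1 [← e1]
      rw [← e2]
      linear_combination (3 * (b i * b j * (c i * c j))) * k
    linear_combination (b j * c i + b i * c j) * this

theorem cube (hω : ω ^ 2 + ω + 1 = 0) {x y : K} (h : x ^ 3 = y ^ 3) : ∃ k : ℕ, x = ω ^ k * y := by
  have : (x - y) * ((x - ω * y) * (x - ω ^ 2 * y)) = 0 := by
    linear_combination h + ((x - y) * (-(x * y) + (ω - 1) * y ^ 2)) * hω
  rcases mul_eq_zero.1 this with e | e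
  · exact ⟨0, by linear_combination e⟩
  rcases mul_eq_zero.1 e with e | e
  exacts [⟨1, by linear_combination e⟩, ⟨2, by linear_combination e⟩]

theorem all_roots (h : St Γ) (h1 : ω ≠ 1) (hω : ω ^ 2 + ω + 1 = 0) (le : Δ ≤ Γ) (hf : Fr Δ ω) (hT : ∀ m, Ro Δ ω (TT m))
    (hb : Hm Γ ω b ψ) : Hm Δ ω b ψ := by
  have mo : ∀ {b ψ}, Hm Δ ω b ψ → Hm Γ ω b ψ := fun e => ⟨e.1, e.2.mono le⟩
  have hf' : Fr Γ ω := fun i => mo (hf i)
  rcases supp h h1 hf' hb with ⟨i, u, u0, e1, e2⟩ | ⟨-, m, b0, b1⟩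
  · exact (hf i).scale u u0 e1 e2
  suffices k : Ro Δ ω b by
    obtain ⟨χ, k⟩ := k
    exact h.ntv.axis h1 (mo k) hb ▸ k
  have r := fun m' => rat h h1 hf' ⟨_, hb⟩ ((hT m').imp fun _ => mo)
  have fs : ∀ (i j m m' : Fin 4), (∀ k, k = i ∨ k = j ∨ k = m ∨ k = m') → i ≠ j →
      ∀ f : Fin 4 → K, f m = 0 → f m' = 0 → ∑ k, f k = f i + f j := fun i j m m' k1 k2 f k3 k4 =>
    Finset.sum_eq_add i j k2 (fun c _ hc => by rcases k1 c with rfl | rfl | rfl | rfl <;> simp_all) (by simp) (by simp)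
  fin_cases m
  · obtain ⟨k1, e1⟩ := cube hω (x := b 2) (y := -b 1) (by
      have := r 3 1 2 0 3 (by decide) (fs _ _ _ _ (by decide) (by decide)) b0 rfl (by simp [TT]) (b1 _ (by decide))
        (b1 _ (by decide)) (by simp [TT]) (by simp [TT])
      simp [TT] at this; linear_combination this)
    obtain ⟨k2, e2⟩ := cube hω (x := b 3) (y := b 1) (by
      have := r 2 1 3 0 2 (by decide) (fs _ _ _ _ (by decide) (by decide)) b0 rfl (by simp [TT]) (b1 _ (by decide))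
        (b1 _ (by decide)) (by simp [TT]) (by simp [TT])
      simp [TT] at this; linear_combination -this)
    refine ((hT 0).dg hf ![0, 0, k1, k2]).sc (b 1) (b1 _ (by decide)) ?_
    ext i; fin_cases i <;> simp [TT, e1, e2, mul_comm]; exact b0
  · obtain ⟨k1, e1⟩ := cube hω (x := b 2) (y := -b 0) (by
      have := r 3 0 2 1 3 (by decide) (fs _ _ _ _ (by decide) (by decide)) b0 rfl (by simp [TT]) (b1 _ (by decide))
        (b1 _ (by decide)) (by simp [TT]) (by simp [TT])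
      simp [TT] at this; linear_combination this)
    obtain ⟨k2, e2⟩ := cube hω (x := b 3) (y := -b 0) (by
      have := r 2 0 3 1 2 (by decide) (fs _ _ _ _ (by decide) (by decide)) b0 rfl (by simp [TT]) (b1 _ (by decide))
        (b1 _ (by decide)) (by simp [TT]) (by simp [TT])
      simp [TT] at this; linear_combination this)
    refine ((hT 1).dg hf ![0, 0, k1, k2]).sc (b 0) (b1 _ (by decide)) ?_
    ext i; fin_cases i <;> simp [TT, e1, e2, mul_comm]; exact b0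
  · obtain ⟨k1, e1⟩ := cube hω (x := b 1) (y := -b 0) (by
      have := r 3 0 1 2 3 (by decide) (fs _ _ _ _ (by decide) (by decide)) b0 rfl (by simp [TT]) (b1 _ (by decide))
        (b1 _ (by decide)) (by simp [TT]) (by simp [TT])
      simp [TT] at this; linear_combination this)
    obtain ⟨k2, e2⟩ := cube hω (x := b 3) (y := b 0) (by
      have := r 1 0 3 2 1 (by decide) (fs _ _ _ _ (by decide) (by decide)) b0 rfl (by simp [TT]) (b1 _ (by decide))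
        (b1 _ (by decide)) (by simp [TT]) (by simp [TT])
      simp [TT] at this; linear_combination this)
    refine ((hT 2).dg hf ![0, k1, 0, k2]).sc (b 0) (b1 _ (by decide)) ?_
    ext i; fin_cases i <;> simp [TT, e1, e2, mul_comm]; exact b0
  · obtain ⟨k1, e1⟩ := cube hω (x := b 1) (y := b 0) (by
      have := r 2 0 1 3 2 (by decide) (fs _ _ _ _ (by decide) (by decide)) b0 rfl (by simp [TT]) (b1 _ (by decide))
        (b1 _ (by decide)) (by simp [TT]) (by simp [TT])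
      simp [TT] at this; linear_combination this)
    obtain ⟨k2, e2⟩ := cube hω (x := b 2) (y := b 0) (by
      have := r 1 0 2 3 1 (by decide) (fs _ _ _ _ (by decide) (by decide)) b0 rfl (by simp [TT]) (b1 _ (by decide))
        (b1 _ (by decide)) (by simp [TT]) (by simp [TT])
      simp [TT] at this; linear_combination this)
    refine ((hT 3).dg hf ![0, k1, k2, 0]).sc (b 0) (b1 _ (by decide)) ?_
    ext i; fin_cases i <;> simp [TT, e1, e2, mul_comm]; exact b0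

end

end Cfsg.Agent.H8.Ho
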