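import Cfsg.Agent.H8.Imp2

/-!
Maximality of stabilisers of orthogonal decompositions into members of dimension at least two.
-/

set_option autoImplicit false
set_option linter.unusedSectionVars false

namespace Cfsg.Agent.H8

open QuadraticMap Module

variable {F V : Type*} [Field F] [AddCommGroup V] [Module F V] {Q : QuadraticForm F V}
variable [Finite F] [FiniteDimensional F V] {t : ℕ} {D : Fin t → Submodule F V}

theorem card_ne_six : Nat.card F ≠ 6 := by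
  have := Fintype.ofFinite F
  intro h
  have h1 := FiniteField.isPrimePow_card F
  rw [← Nat.card_eq_fintype_card, h] at h1
  exact absurd h1 (by decide)

theorem OD.plus_transfer {k : ℕ} (h : OD Q D k) (hN : ND Q) (hk : 0 < k) (i j : Fin t)
    (hp : ∃ U, U ≤ D i ∧ (∀ x ∈ U, Q x = 0) ∧ 2 * finrank F U = finrank F (D i)) :
    ∃ U, U ≤ D j ∧ (∀ x ∈ U, Q x = 0) ∧ 2 * finrank F U = finrank F (D j) := by
  by_cases e : i = j
  · rwa [← e]
  obtain ⟨s, hs, -, -, h1, -, -⟩ := h.exists_swap hN hk e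
  obtain ⟨U, u1, u2, u3⟩ := hp
  refine ⟨U.map (s : V →ₗ[F] V), ?_, ?_, by rw [LinearEquiv.finrank_map_eq, u3, h.dim, h.dim]⟩
  · rintro _ ⟨x, hx, rfl⟩; exact h1 x (u1 hx)
  · rintro _ ⟨x, hx, rfl⟩; exact (hs x).trans (u2 x hx)

theorem OD.aniso_transfer {k : ℕ} (h : OD Q D k) {i : Fin t} (hi : ∀ x ∈ D i, x ≠ 0 → Q x ≠ 0)
    (j : Fin t) : ∀ x ∈ D j, x ≠ 0 → Q x ≠ 0 := fun x hx hx0 => by
  obtain ⟨e, he⟩ := h.iso j i
  rw [← he ⟨x, hx⟩]
  exact hi _ (Submodule.coe_mem _) fun e' => hx0 (by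
    have := e.map_eq_zero_iff.1 (Subtype.ext e')
    exact congrArg Subtype.val this)

theorem OD.max_general {k : ℕ} (h : OD Q D k) (hN : ND Q) (hk : 2 ≤ k) (ht : 2 ≤ t)
    (h2 : k = 2 → 5 ≤ t ∧ Nat.card F ≠ 3 ∧
      (6 ≤ Nat.card F ∨ ∃ i, ¬ ∃ x ∈ D i, x ≠ 0 ∧ Q x = 0))
    (h3 : k = 3 → (2 : F) ≠ 0 ∧ Nat.card F ≠ 3)
    (h4 : k = 4 → Nat.card F = 2 →
      ∃ i, ¬ ∃ U, U ≤ D i ∧ (∀ x ∈ U, Q x = 0) ∧ 2 * finrank F U = finrank F (D i)) :
    Geo.IsMaximalIn (Om Q) (DStab D ⊓ Om Q) := by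
  have h1 := Finite.one_lt_card (α := F)
  have h6 := card_ne_six (F := F)
  by_cases e2 : k = 2
  · subst e2
    obtain ⟨a, b, c⟩ := h2 rfl
    refine h.max_two hN a fun j => ?_
    rcases c with c | ⟨i, c⟩
    · left; omega
    · refine Or.inr ⟨h.aniso_transfer (i := i) (fun x h1 h2 h3 => c ⟨x, h1, h2, h3⟩) j, ?_⟩
      by_cases e : Nat.card F = 2
      · exact Or.inl (two_eq_zero_of_even_card (by rw [e]; decide))
      · right; omega
  by_cases e3 : k = 3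
  · subst e3
    obtain ⟨a, b⟩ := h3 rfl
    have : Nat.card F ≠ 2 := fun e => a (two_eq_zero_of_even_card (by rw [e]; decide))
    exact h.max_three hN ht a (by omega)
  refine h.max_four hN (by omega) ht fun j => (h.nd j).good_of_four hN (by rw [h.dim]; omega) ?_
  rintro ⟨hq, U, u1, u2, u3, u4⟩
  obtain ⟨i, hi⟩ := h4 (by rw [← u4, h.dim]) hq
  exact hi (h.plus_transfer hN (by omega) j i ⟨U, u1, u2, by rw [u3, u4]⟩)

end Cfsg.Agent.H8
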