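import Cfsg.Agent.H8.Good

/-!
Overgroups of stabilisers of orthogonal decompositions: general lemmas.
-/

set_option autoImplicit false
set_option linter.unusedSectionVars false

namespace Cfsg.Agent.H8

open QuadraticMap Module

variable {F V : Type*} [Field F] [AddCommGroup V] [Module F V] {Q : QuadraticForm F V}

theorem refl_refl_apply (a a' x : V) : (refl Q a * refl Q a') x =
    x - (polar Q x a' / Q a') • a' -
      ((polar Q x a - polar Q x a' / Q a' * polar Q a' a) / Q a) • a := by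
  rw [LinearEquiv.mul_apply, refl_apply, refl_apply, polar_sub_left, pol_smul_left]

theorem indep_of_span [FiniteDimensional F V] {X : Submodule F V} {p q : V} (h : X ≤ sp F [p, q])
    (h2 : 2 ≤ finrank F X) {r s : F} (hrs : r • p + s • q = 0) : r = 0 ∧ s = 0 := by
  have key : ∀ {p q : V} {r s : F}, X ≤ sp F [p, q] → r • p + s • q = 0 → r = 0 := by
    intro p q r s h hrs
    by_contra hr
    have h1 : sp F [p, q] ≤ sp F [q] := sp_le.2 (by
      simp only [List.mem_cons, List.not_mem_nil, or_false, forall_eq_or_imp, forall_eq]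
      refine ⟨mem_sp_one.2 ⟨-(s / r), ?_⟩, mem_sp_of_mem (by simp)⟩
      have : p = r⁻¹ • (r • p) := by rw [smul_smul, inv_mul_cancel₀ hr, one_smul]
      rw [this, eq_neg_of_add_eq_zero_left hrs]; match_scalars; field_simp)
    have h3 := Submodule.finrank_mono (h.trans h1)
    have h4 := finrank_sp_le (F := F) [q]
    simp only [List.length_cons, List.length_nil] at h4
    omega
  exact ⟨key h hrs, key (p := q) (q := p) (h.trans (sp_le.2 (by simp [mem_sp_of_mem])))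
    (by rw [add_comm]; exact hrs)⟩

variable [Finite F] [FiniteDimensional F V] {t : ℕ} {D : Fin t → Submodule F V}

theorem NDOn.exists_nonsing_pol (hN : ND Q) {X : Submodule F V} (hX : NDOn Q X) {v : V}
    (hv : v ∉ H8.perp Q X)
    (hex : ¬ (Nat.card F ≤ 3 ∧ finrank F X = 2 ∧ ∃ x ∈ X, x ≠ 0 ∧ Q x = 0)) :
    ∃ a ∈ X, Q a ≠ 0 ∧ polar Q v a ≠ 0 := by
  by_contra hc
  have hc' : ∀ a ∈ X, polar Q v a ≠ 0 → Q a = 0 := fun a ha h => by
    by_contra e; exact hc ⟨a, ha, e, h⟩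
  obtain ⟨x, hx, hvx⟩ := H8.exists_pol_eq_one hv
  have hx0 : x ≠ 0 := fun e => by simp [e] at hvx
  have hQx : Q x = 0 := hc' x hx (by rw [hvx]; exact one_ne_zero)
  have key : ∀ y ∈ X ⊓ H8.perp Q (sp F [v]), polar Q x y = -Q y := fun y hy => by
    have := hc' (x + y) (X.add_mem hx hy.1) (by
      rw [polar_add_right, hvx, mem_perp_sp.1 hy.2 v (by simp), add_zero]; exact one_ne_zero)
    rw [Q_add, hQx] at this; linear_combination this
  by_cases h3 : 3 ≤ Nat.card F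
  · obtain ⟨s, hs⟩ := exists_not_mem_list [(0 : F), 1] (by simp; omega)
    simp only [List.mem_cons, List.not_mem_nil, or_false, not_or] at hs
    refine hx0 (hX x hx fun z hz => ?_)
    have hy : z - polar Q v z • x ∈ X ⊓ H8.perp Q (sp F [v]) :=
      ⟨X.sub_mem hz (X.smul_mem _ hx), mem_perp_sp.2 (by
        simp [polar_sub_right, pol_smul_right, hvx])⟩
    have k1 := key _ hy
    have k2 := key _ (Submodule.smul_mem _ s hy)
    rw [pol_smul_right, Q_smul, k1] at k2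
    have k3 : s * (s - 1) * Q (z - polar Q v z • x) = 0 := by linear_combination k2
    rw [(mul_eq_zero.1 k3).resolve_left (mul_ne_zero hs.1 (sub_ne_zero.2 hs.2)), polar_sub_right,
      pol_smul_right, pol_self, hQx] at k1
    simpa using k1
  · have h1 := hX.two_mul_finrank_le hN (T := X ⊓ H8.perp Q (sp F [v])) inf_le_left
      fun y hy z hz => by
        have k1 := key _ (Submodule.add_mem _ hz hy)
        rw [polar_add_right, key _ hy, key _ hz, Q_add] at k1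
        change polar Q z y = 0
        linear_combination k1
    have hd := finrank_le_inf_perp_sp (Q := Q) X [v]
    simp only [List.length_cons, List.length_nil] at hd
    by_cases h2 : finrank F X = 2
    · exact hex ⟨by omega, h2, x, hx, hx0, hQx⟩
    · have := hX.two_mul_finrank_le hN (T := sp F [x]) (sp_le.2 (by simp [hx]))
        (le_perp_of_sing fun y hy => by
          obtain ⟨s, rfl⟩ := mem_sp_one.1 hy; rw [Q_smul, hQx, mul_zero])
      rw [sp_one, finrank_span_singleton hx0] at this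
      omega

theorem OD0.move_case (h : OD0 Q D) {a a' : V} (ha : Q a ≠ 0) (ha' : Q a' ≠ 0) {i l : Fin t}
    (hil : i ≠ l) (h2 : 2 ≤ finrank F (D i))
    (hy : ∀ x ∈ D i, (refl Q a * refl Q a') x ∈ D l) :
    polar Q a' a = 0 ∧ ∀ m, m ≠ i → m ≠ l → a ∈ perp Q (D m) := by
  have e1 : ∀ x ∈ D i, x = (polar Q x a' / Q a') • pr Q (D i) a' +
      ((polar Q x a - polar Q x a' / Q a' * polar Q a' a) / Q a) • pr Q (D i) a := fun x hx => by
    have := h.pr_of_ne hil.symm (hy x hx)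
    rw [refl_refl_apply, map_sub, map_sub, _root_.map_smul, _root_.map_smul,
      (h.nd i).pr_of_mem hx, sub_sub, sub_eq_zero] at this
    exact this
  have hle : D i ≤ sp F [pr Q (D i) a', pr Q (D i) a] := fun x hx =>
    mem_sp_two.2 ⟨_, _, e1 x hx⟩
  have k1 := indep_of_span hle h2 (r := polar Q (pr Q (D i) a') a' / Q a' - 1)
    (s := (polar Q (pr Q (D i) a') a - polar Q (pr Q (D i) a') a' / Q a' * polar Q a' a) / Q a)
    (by rw [sub_smul, one_smul, sub_add_eq_add_sub, ← e1 _ (pr_mem _ _), sub_self])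
  have k2 := indep_of_span hle h2 (r := polar Q (pr Q (D i) a) a' / Q a')
    (s := (polar Q (pr Q (D i) a) a - polar Q (pr Q (D i) a) a' / Q a' * polar Q a' a) / Q a - 1)
    (by rw [sub_smul, one_smul, ← add_sub_assoc, ← e1 _ (pr_mem _ _), sub_self])
  have k3 : polar Q (pr Q (D i) a') a = 0 := by
    have := k2.1
    rw [div_eq_zero_iff, or_iff_left ha', ← (h.nd i).pol_pr (pr_mem _ _), pol_comm,
      (h.nd i).pol_pr (pr_mem _ _)] at this
    exact this
  refine ⟨?_, fun m h1 h3 => ?_⟩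
  · have k4 := k1.2
    rw [sub_eq_zero.1 k1.1, k3, div_eq_zero_iff, or_iff_left ha] at k4
    linear_combination -k4
  · have := h.pr_of_ne h3.symm (hy _ (pr_mem (Q := Q) (D i) a))
    rw [refl_refl_apply, map_sub, map_sub, _root_.map_smul, _root_.map_smul,
      h.pr_of_ne h1.symm (pr_mem _ _), sub_eq_zero.1 k2.2, k2.1] at this
    exact (h.nd m).pr_eq_zero_iff.1 (by simpa using this)

theorem OD0.stab_case (h : OD0 Q D) {a a' : V} (ha : Q a ≠ 0) (ha' : Q a' ≠ 0) {i j : Fin t}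
    (hij : i ≠ j) (hi : a ∉ perp Q (D i)) (hj : a ∉ perp Q (D j))
    (hy : ∀ x ∈ D i, (refl Q a * refl Q a') x ∈ D i) :
    ∃ κ : F, (∀ m, m ≠ i → pr Q (D m) a' = κ • pr Q (D m) a) ∧
      ∀ x ∈ D i, κ * polar Q x a' * Q a + polar Q x a * Q a' - polar Q x a' * polar Q a' a = 0 := by
  have e1 : ∀ x ∈ D i, ∀ m, m ≠ i → (polar Q x a' / Q a') • pr Q (D m) a' +
      ((polar Q x a - polar Q x a' / Q a' * polar Q a' a) / Q a) • pr Q (D m) a = 0 :=
    fun x hx m hm => by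
      have := h.pr_of_ne hm.symm (hy x hx)
      rw [refl_refl_apply, map_sub, map_sub, _root_.map_smul, _root_.map_smul,
        h.pr_of_ne hm.symm hx, sub_sub, zero_sub, neg_eq_zero] at this
      exact this
  have hj0 : pr Q (D j) a ≠ 0 := fun e => hj ((h.nd j).pr_eq_zero_iff.1 e)
  obtain ⟨x, hx, hxa⟩ := exists_pol_eq_one hi
  rw [pol_comm] at hxa
  have hα : polar Q x a' / Q a' ≠ 0 := fun e => by
    have := e1 x hx j hij.symm
    rw [e, hxa, zero_smul, zero_add, zero_mul, sub_zero] at this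
    exact smul_ne_zero (one_div_ne_zero ha) hj0 this
  set κ := -((polar Q x a - polar Q x a' / Q a' * polar Q a' a) / Q a) / (polar Q x a' / Q a')
    with hκ
  have e2 : ∀ m, m ≠ i → pr Q (D m) a' = κ • pr Q (D m) a := fun m hm => by
    have h1 := eq_neg_of_add_eq_zero_left (e1 x hx m hm)
    rw [hκ, div_eq_inv_mul, mul_smul, neg_smul, ← h1, smul_smul, inv_mul_cancel₀ hα, one_smul]
  refine ⟨κ, e2, fun z hz => ?_⟩
  have := e1 z hz j hij.symm
  rw [e2 j hij.symm, smul_smul, ← add_smul, smul_eq_zero, or_iff_left hj0] at this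
  field_simp at this
  linear_combination this

/-- Products of two reflections which stabilise the decomposition. -/
theorem OD0.lemmaR (h : OD0 Q D) (hN : ND Q)
    (hdim : ∀ i l, i ≠ l → finrank F (D i) = finrank F (D l) → 2 ≤ finrank F (D i))
    {a a' : V} (ha : Q a ≠ 0) (ha' : Q a' ≠ 0) (hind : a' ∉ sp F [a])
    (hy : refl Q a * refl Q a' ∈ DStab D) {i j : Fin t}
    (hij : i ≠ j) (hi : a ∉ perp Q (D i)) (hj : a ∉ perp Q (D j)) :
    polar Q a' a = 0 ∧ ∀ m, m ≠ i → m ≠ j → a ∈ perp Q (D m) := by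
  obtain ⟨σ, hσ⟩ := hy
  have hm : ∀ i, ∀ x ∈ D i, (refl Q a * refl Q a') x ∈ D (σ i) := fun i x hx => by
    rw [← hσ]; exact ⟨x, hx, rfl⟩
  have hd : ∀ i, finrank F (D i) = finrank F (D (σ i)) := fun i => by
    rw [← hσ, LinearEquiv.finrank_map_eq]
  have mv : ∀ {i j : Fin t}, i ≠ j → a ∉ perp Q (D j) → σ i ≠ i →
      polar Q a' a = 0 ∧ ∀ m, m ≠ i → m ≠ j → a ∈ perp Q (D m) := fun {i j} hij hj hσi => by
    obtain ⟨h1, h2⟩ := h.move_case ha ha' hσi.symm (hdim _ _ hσi.symm (hd i)) (hm i)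
    have : j = σ i := by
      by_contra e; exact hj (h2 j hij.symm e)
    exact ⟨h1, fun m h3 h4 => h2 m h3 (this ▸ h4)⟩
  by_cases e1 : σ i = i
  swap
  · exact mv hij hj e1
  by_cases e2 : σ j = j
  swap
  · obtain ⟨h1, h2⟩ := mv hij.symm hi e2
    exact ⟨h1, fun m h3 h4 => h2 m h4 h3⟩
  obtain ⟨κ, k1, k2⟩ := h.stab_case ha ha' hij hi hj (by simpa [e1] using hm i)
  obtain ⟨κ', k1', k2'⟩ := h.stab_case ha ha' hij.symm hj hi (by simpa [e2] using hm j)
  have hne : κ - κ' ≠ 0 := fun e => hind (mem_sp_one.2 ⟨κ, by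
    rw [← sub_eq_zero]
    refine h.eq_zero hN fun m => (h.nd m).pr_eq_zero_iff.1 ?_
    rw [map_sub, _root_.map_smul, sub_eq_zero]
    by_cases e3 : m = i
    · rw [sub_eq_zero.1 e]; exact k1' m (e3 ▸ hij)
    · exact k1 m e3⟩)
  refine ⟨?_, fun m h1 h2 => (h.nd m).pr_eq_zero_iff.1 ?_⟩
  · obtain ⟨x, hx, hxa⟩ := exists_pol_eq_one hi
    obtain ⟨z, hz, hza⟩ := exists_pol_eq_one hj
    rw [pol_comm] at hxa hza
    have f1 : polar Q x a' = κ' := by
      rw [← (h.nd i).pol_pr hx, k1' i hij, pol_smul_right, (h.nd i).pol_pr hx, hxa, mul_one]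
    have f2 : polar Q z a' = κ := by
      rw [← (h.nd j).pol_pr hz, k1 j hij.symm, pol_smul_right, (h.nd j).pol_pr hz, hza, mul_one]
    have g1 := k2 x hx
    have g2 := k2' z hz
    rw [f1, hxa] at g1
    rw [f2, hza] at g2
    have : (κ - κ') * polar Q a' a = 0 := by linear_combination g1 - g2
    exact (mul_eq_zero.1 this).resolve_left hne
  · have := (k1 m h1).symm.trans (k1' m h2)
    rw [← sub_eq_zero, ← sub_smul] at this
    exact (smul_eq_zero.1 this).resolve_left hne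

/-- The standing hypotheses on an overgroup. -/
structure Over (Q : QuadraticForm F V) (D : Fin t → Submodule F V) (K : Subgroup (V ≃ₗ[F] V)) :
    Prop where
  od : OD0 Q D
  nd : ND Q
  h5 : 5 ≤ finrank F V
  le : K ≤ OG Q
  ge : ∀ g ∈ DStab D, g ∈ Om Q → g ∈ K

namespace Over

variable {K : Subgroup (V ≃ₗ[F] V)} (h : Over Q D K)
include h

theorem rel_of_norm {i j : Fin t} {a b : V} (ha : a ∈ D i) (hb : b ∈ D j) (hab : Q a = Q b) :
    Rel Q K a b :=
  h.ge _ ((DStab D).mul_mem (h.od.refl_mem h.nd ha) (h.od.refl_mem h.nd hb))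
    (refl_mul_refl_mem_Om h.nd h.h5 hab)

theorem rel_map {g : V ≃ₗ[F] V} (hg : g ∈ DStab D) (hg' : g ∈ Om Q) {i : Fin t} {c d : V}
    (hd : d ∈ D i) (hc : Rel Q K c d) : Rel Q K (g c) d := by
  obtain ⟨j, hj⟩ := DStab_maps hg i
  exact (hc.conj (Om_le_OG hg') (h.ge g hg hg')).trans
    (h.rel_of_norm (hj d hd) hd (Om_le_OG hg' d))

theorem siegel_mem {i : Fin t} {u v : V} (hu : u ∈ D i) (hv : v ∈ D i) : siegel Q u v ∈ K :=
  h.ge _ (h.od.siegel_mem h.nd hu hv) (siegel_mem_Om h.nd h.h5 u v)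

theorem mem_MS {i : Fin t} {u v : V} (hu : u ∈ D i) (hv : v ∈ D i) (huv : polar Q u v = 0) :
    v ∈ MS Q K u := ⟨huv, fun _ => h.siegel_mem hu ((D i).smul_mem _ hv)⟩

theorem tor_DStab {i : Fin t} {u w : V} (hu : u ∈ D i) (hw : w ∈ D i) (l : F) :
    tor Q u w l ∈ DStab D := h.od.DStab_of_fix h.nd (tor_mem_OG u w l) (tor_mem_Fix hu hw)

/-- A new class element orthogonal to a singular vector of some member. -/
theorem MS_of_perp {i j : Fin t} {c d u : V} (hd : d ∈ D i) (hc : Rel Q K c d) (hQc : Q c ≠ 0)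
    (hu : u ∈ D j) (hQu : Q u = 0) (huc : polar Q u c = 0) (hcu : pr Q (D j) c ∉ sp F [u]) :
    c ∈ MS Q K u := by
  obtain ⟨w, hw, h1, h2⟩ := (h.od.nd j).exists_dual h.nd (S := sp F [u]) (sp_le.2 (by simp [hu]))
    (pr_mem (D j) c) hcu
  rw [(h.od.nd j).pol_pr_left hw] at h1
  have h3 : polar Q u w = 0 := h2 u (mem_sp_of_mem (by simp))
  refine MS_of_rel hQu huc hQc fun κ => hc.trans (Rel.symm ?_)
  have := h.rel_map (h.od.siegel_mem h.nd hu ((D j).smul_mem (-κ) hw))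
    (siegel_mem_Om h.nd h.h5 _ _) hd hc
  rwa [siegel_apply_of_perp hQu (by rw [pol_smul_right, h3, mul_zero]) (by rw [pol_comm, huc]),
    pol_smul_right, h1, mul_one, neg_smul, sub_neg_eq_add] at this

/-- A class element with a singular component. -/
theorem MS_of_sing {i j : Fin t} {c d : V} (hd : d ∈ D i) (hc : Rel Q K c d) (hQc : Q c ≠ 0)
    (hj : c ∉ perp Q (D j)) (hQu : Q (pr Q (D j) c) = 0)
    (h4 : 4 ≤ Nat.card F ∨ Rel Q K c (c - pr Q (D j) c)) : c ∈ MS Q K (pr Q (D j) c) := by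
  set u := pr Q (D j) c with hu
  have hu0 : u ≠ 0 := fun e => hj ((h.od.nd j).pr_eq_zero_iff.1 e)
  have huD : u ∈ D j := pr_mem _ _
  obtain ⟨w, hw, hQw, huw⟩ := (h.od.nd j).exists_partner huD hu0 hQu
  have huc : polar Q u c = 0 := by
    rw [← (h.od.nd j).pol_pr huD, pol_self, hQu, mul_zero]
  refine MS_of_rel hQu huc hQc fun κ => addSubgroup_top_of_sq_sub_one
    (A := relA K hQu huc hQc) (fun s hs => hc.trans (Rel.symm ?_)) (h4.imp id fun h4 => ?_) κ
  · have := h.rel_map (h.tor_DStab huD hw (s * s)) (tor_mem_Om h.nd h.h5 hQu hQw huw hs) hd hc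
    rwa [tor_of_perp hQu hQw huw (mul_ne_zero hs hs) (by rw [pol_comm, huc]),
      ← (h.od.nd j).pol_pr_left hw, huw, mul_one] at this
  · change Rel Q K c _
    rwa [neg_smul, one_smul, ← sub_eq_add_neg]

/-- The final step, once `MS u` contains all other members. -/
theorem fin_core {j : Fin t} {u : V} (hu : u ∈ D j) (hQu : Q u = 0)
    (hall : ∀ l, l ≠ j → D l ≤ MS Q K u) {g : V ≃ₗ[F] V} (hg : g ∈ K)
    (hgu : polar Q u (g u) ≠ 0) : Om Q ≤ K := by
  refine Om_le_of_one h.nd h.h5 hQu (siegel_all_of_MS fun y hy => ?_) (h.le hg) hg hgu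
  rw [← h.od.sum_pr h.nd y]
  refine Submodule.sum_mem _ fun l _ => ?_
  by_cases e : l = j
  · subst e
    exact h.mem_MS hu (pr_mem _ _) (by rw [(h.od.nd l).pol_pr hu, hy])
  · exact hall l e (pr_mem _ _)

theorem exists_perp_part {j : Fin t} {u v : V} (hu : u ∈ D j) (hv : v ∈ MS Q K u) (hvj : v ∉ D j) :
    ∃ v' ∈ MS Q K u, v' ∈ perp Q (D j) ∧ ∃ l, l ≠ j ∧ v' ∉ perp Q (D l) := by
  obtain ⟨l, hl, hvl⟩ := h.od.exists_other h.nd hvj
  refine ⟨v - pr Q (D j) v, Submodule.sub_mem _ hv (h.mem_MS hu (pr_mem _ _)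
    (by rw [(h.od.nd j).pol_pr hu, hv.1])), (h.od.nd j).sub_pr_mem v, l, hl, fun e => hvl ?_⟩
  simpa using Submodule.add_mem _ e (h.od.le_perp hl.symm (pr_mem (Q := Q) (D j) v))

theorem le_MS_of_refl {j l : Fin t} (hl : l ≠ j) {u : V} (hu : u ∈ D j)
    (h0 : ∃ x ∈ D l, x ≠ 0 ∧ x ∈ MS Q K u)
    (hr : ∀ a ∈ D l, Q a ≠ 0 → ∃ p ∈ K, (∃ c : F, c ≠ 0 ∧ p u = c • u) ∧
      ∀ x ∈ D l, p x = refl Q a x)
    (hex : ¬ (Nat.card F ≤ 3 ∧ finrank F (D l) = 2 ∧ ∃ x ∈ D l, x ≠ 0 ∧ Q x = 0)) :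
    D l ≤ MS Q K u := by
  have := irred_of_refl_siegel h.nd (h.od.nd l) (N := MS Q K u ⊓ D l) inf_le_right
    (by obtain ⟨x, h1, h2, h3⟩ := h0; exact (Submodule.ne_bot_iff _).2 ⟨x, ⟨h3, h1⟩, h2⟩)
    (fun a ha hQa x hx => by
      obtain ⟨p, hp, ⟨c, hc, hpu⟩, hpx⟩ := hr a ha hQa
      exact ⟨by rw [← hpx x hx.2]; exact MS_eigen (h.le hp) hp hc hpu hx.1,
        (refl_mem_Stab ha x).1 hx.2⟩)
    (fun a ha b hb x hx => ⟨MS_fix (siegel_mem_OG a b) (h.siegel_mem ha hb)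
      (siegel_fix (h.od.orth j l hl.symm u hu a ha) (h.od.orth j l hl.symm u hu b hb)) hx.1,
      (siegel_mem_Stab ha hb x).1 hx.2⟩) hex
  rw [← this]; exact inf_le_left

/-- Corrected elements acting on the complement of a member of dimension at least three. -/
theorem exists_lift {j : Fin t} (h3 : 3 ≤ finrank F (D j)) {u : V} (hu : u ∈ D j) (hQu : Q u = 0)
    (hu0 : u ≠ 0) {g : V ≃ₗ[F] V} (hg : g ∈ OG Q) (hgD : g ∈ DStab D) :
    ∃ p ∈ OG Q ⊓ Fix (perp Q (D j)), (∃ c : F, c ≠ 0 ∧ p u = c • u) ∧ g * p ∈ K := by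
  obtain ⟨p, hp, h1, h2⟩ := (h.od.nd j).exists_corr_sing h.nd h.h5 h3 hu hQu hu0 hg
  exact ⟨p, hp, h1, h.ge _ ((DStab D).mul_mem hgD (h.od.DStab_of_fix h.nd hp.1 hp.2))
    (Om_mul_comm hp.1 h2)⟩

/-- Finishing lemma for a member of dimension at least three. -/
theorem fin_three {j : Fin t} (h3 : 3 ≤ finrank F (D j)) {u v : V} (hu : u ∈ D j) (hQu : Q u = 0)
    (hu0 : u ≠ 0) (hv : v ∈ MS Q K u) (hvj : v ∉ D j)
    (hex : ∀ l, l ≠ j →
      ¬ (Nat.card F ≤ 3 ∧ finrank F (D l) = 2 ∧ ∃ x ∈ D l, x ≠ 0 ∧ Q x = 0))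
    (hsw : ∀ l m, l ≠ j → m ≠ j → l ≠ m → ∃ s ∈ OG Q, s ∈ DStab D ∧ s u = u ∧
      ∀ x ∈ D m, ∃ y ∈ D l, s y = x) : Om Q ≤ K := by
  obtain ⟨v', hv', hv'j, l, hl, hv'l⟩ := h.exists_perp_part hu hv hvj
  have hr : ∀ a ∈ D l, ∃ p ∈ K, (∃ c : F, c ≠ 0 ∧ p u = c • u) ∧
      ∀ x ∈ perp Q (D j), p x = refl Q a x := fun a ha => by
    obtain ⟨p, hp, ⟨c, hc, hpu⟩, hK⟩ := h.exists_lift h3 hu hQu hu0 (refl_mem_OG a)
      (h.od.refl_mem h.nd ha)
    refine ⟨_, hK, ⟨c, hc, ?_⟩, fun x hx => ?_⟩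
    · rw [LinearEquiv.mul_apply, hpu, _root_.map_smul, refl_of_perp (h.od.orth j l hl.symm u hu a ha)]
    · rw [LinearEquiv.mul_apply, hp.2 x hx]
  have hl0 : ∃ x ∈ D l, x ≠ 0 ∧ x ∈ MS Q K u := by
    obtain ⟨a, ha, hQa, hva⟩ := (h.od.nd l).exists_nonsing_pol h.nd hv'l (hex l hl)
    obtain ⟨p, hp, ⟨c, hc, hpu⟩, hpx⟩ := hr a ha
    have h1 := Submodule.sub_mem _ hv' (MS_eigen (h.le hp) hp hc hpu hv')
    rw [hpx v' hv'j, refl_apply, sub_sub_cancel] at h1
    exact ⟨_, (D l).smul_mem _ ha, smul_ne_zero (div_ne_zero hva hQa) (fun e => hQa (by simp [e])),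
      h1⟩
  have hlM : D l ≤ MS Q K u := h.le_MS_of_refl hl hu hl0 (fun a ha _ => by
    obtain ⟨p, hp, h1, h2⟩ := hr a ha
    exact ⟨p, hp, h1, fun x hx => h2 x (h.od.le_perp hl hx)⟩) (hex l hl)
  obtain ⟨w, hw, hQw, huw⟩ := (h.od.nd j).exists_partner hu hu0 hQu
  obtain ⟨p, -, ⟨c, hc, hpu⟩, hK⟩ := h.exists_lift h3 hu hQu hu0 (refl_mem_OG (u - w))
    (h.od.refl_mem h.nd ((D j).sub_mem hu hw))
  refine h.fin_core hu hQu (fun m hm => ?_) hK ?_
  · by_cases e : l = m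
    · rw [← e]; exact hlM
    obtain ⟨s, hs, hsD, hsu, hsx⟩ := hsw l m hl hm e
    obtain ⟨p, hp, ⟨c, hc, hpu⟩, hK⟩ := h.exists_lift h3 hu hQu hu0 hs hsD
    intro x hx
    obtain ⟨y, hy, rfl⟩ := hsx x hx
    have := MS_eigen (h.le hK) hK hc (by rw [LinearEquiv.mul_apply, hpu, _root_.map_smul, hsu])
      (hlM hy)
    rwa [LinearEquiv.mul_apply, hp.2 y (h.od.le_perp hl hy)] at this
  · rw [LinearEquiv.mul_apply, hpu, _root_.map_smul, refl_swap (hQu.trans hQw.symm) (by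
      rw [Q_sub, hQu, hQw, huw]; simp), pol_smul_right, huw, mul_one]
    exact hc

end Over

/-- The class of every non-singular vector of a member stays inside the union of the members. -/
def Bad (Q : QuadraticForm F V) (D : Fin t → Submodule F V) (K : Subgroup (V ≃ₗ[F] V)) : Prop :=
  ∀ i, ∀ d ∈ D i, Q d ≠ 0 → ∀ c, Q c = Q d → Rel Q K c d → ∃ l, c ∈ D l

/-- An isometry mapping vectors of a given norm into the union stabilises the decomposition. -/
def Rigid (Q : QuadraticForm F V) (D : Fin t → Submodule F V) : Prop :=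
  ∀ x ∈ OG Q, ∀ i, ∀ d ∈ D i, Q d ≠ 0 → (∀ j, ∀ c ∈ D j, Q c = Q d → ∃ l, x c ∈ D l) → x ∈ DStab D

namespace Over

variable {K : Subgroup (V ≃ₗ[F] V)} (h : Over Q D K)
include h

theorem mem_of_bad (hB : Bad Q D K) (hS : Rigid Q D) {x : V ≃ₗ[F] V} (hx : x ∈ K) {i l : Fin t}
    {c : V} (hc : c ∈ D i) (hQc : Q c ≠ 0) (hxc : x c ∈ D l) : x ∈ DStab D :=
  hS x (h.le hx) i c hc hQc fun _ a ha hQa => hB l (x c) hxc (by rwa [h.le hx]) (x a)
    (by rw [h.le hx, h.le hx, hQa]) ((h.rel_of_norm ha hc hQa).conj (h.le hx) hx)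

theorem bad_three (hB : Bad Q D K) (hS : Rigid Q D)
    (hdim : ∀ i l, i ≠ l → finrank F (D i) = finrank F (D l) → 2 ≤ finrank F (D i))
    {j : Fin t} (h3 : 3 ≤ finrank F (D j)) (hG : Good Q (D j))
    (hM : ∀ u ∈ D j, u ≠ 0 → Q u = 0 → MS Q K u ≤ D j) : K ≤ DStab D := by
  intro g hg
  have hgO := h.le hg
  obtain ⟨c, hc, -, hQc⟩ := (h.od.nd j).exists_value h3 1
  have hQc0 : Q c ≠ 0 := by rw [hQc]; exact one_ne_zero
  obtain ⟨c', hc', hQc', hind, hp⟩ := hG.exists_partner (by omega) hc hQc0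
  have hy : refl Q (g c) * refl Q (g c') ∈ K :=
    (h.rel_of_norm hc hc' hQc'.symm).conj hgO hg
  have hyD : refl Q (g c) * refl Q (g c') ∈ DStab D := by
    have hd := finrank_le_inf_perp_sp (Q := Q) (D j) [g c, g c']
    simp only [List.length_cons, List.length_nil] at hd
    obtain ⟨x, hx, hx0⟩ := exists_not_mem (T := D j ⊓ perp Q (sp F [g c, g c'])) (S := ⊥)
      (by rw [finrank_bot]; omega)
    have hyx : (refl Q (g c) * refl Q (g c')) x = x := by
      rw [LinearEquiv.mul_apply, refl_of_perp (x := x) (by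
        rw [pol_comm]; exact mem_perp_sp.1 hx.2 _ (by simp)), refl_of_perp (by
        rw [pol_comm]; exact mem_perp_sp.1 hx.2 _ (by simp))]
    by_cases hQx : Q x = 0
    · have hd := finrank_le_inf_perp_sp (Q := Q) (D j) [x]
      simp only [List.length_cons, List.length_nil] at hd
      obtain ⟨v, hv, hQv⟩ := (h.od.nd j).exists_nonsing h.nd (T := D j ⊓ perp Q (sp F [x]))
        inf_le_left (by omega)
      exact h.mem_of_bad hB hS hy hv.1 hQv (hM x hx.1 hx0 hQx (MS_fix (h.le hy) hy hyx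
        (h.mem_MS hx.1 hv.1 (mem_perp_sp.1 hv.2 x (by simp)))))
    · exact h.mem_of_bad hB hS hy hx.1 hQx (by rw [hyx]; exact hx.1)
  by_cases hgc : ∃ l, g c ∈ D l
  · obtain ⟨l, hl⟩ := hgc
    exact h.mem_of_bad hB hS hg hc hQc0 hl
  · push Not at hgc
    obtain ⟨i, l, hil, hi, hl⟩ := h.od.exists_two h.nd
      (fun e => hQc0 (by rw [← hgO c, e, _root_.map_zero])) hgc
    have := (h.od.lemmaR h.nd hdim (by rwa [hgO]) (by rw [hgO, hQc']; exact hQc0) (fun e => by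
      obtain ⟨s, hs⟩ := mem_sp_one.1 e
      exact hind (mem_sp_one.2 ⟨s, g.injective (by rw [hs, _root_.map_smul])⟩)) hyD hil hi hl).1
    rw [OG_pol hgO] at this
    exact absurd this hp

end Over

end Cfsg.Agent.H8
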