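import Cfsg.Agent.H8.Pl

/-!
Maximality of stabilisers of orthogonal decompositions into planes.
-/

set_option autoImplicit false
set_option linter.unusedSectionVars false

namespace Cfsg.Agent.H8

open QuadraticMap Module

variable {F V : Type*} [Field F] [AddCommGroup V] [Module F V] {Q : QuadraticForm F V}
variable [Finite F] [FiniteDimensional F V] {t : ℕ} {D : Fin t → Submodule F V}

theorem OD.exists_perm {k : ℕ} (h : OD Q D k) (hN : ND Q) (hk : 0 < k) (σ : Equiv.Perm (Fin t)) :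
    ∃ g ∈ OG Q, g ∈ DStab D ∧ ∀ i, ∀ x ∈ D i, g x ∈ D (σ i) := by
  induction σ using Equiv.Perm.swap_induction_on with
  | one => exact ⟨1, Subgroup.one_mem _, Subgroup.one_mem _, fun i x hx => hx⟩
  | swap_mul f i j hij ih =>
    obtain ⟨g, hg, hgD, hg'⟩ := ih
    obtain ⟨s, hs, hsD, -, h1, h2, h3⟩ := h.exists_swap hN hk hij
    refine ⟨s * g, (OG Q).mul_mem hs hg, (DStab D).mul_mem hsD hgD, fun l x hx => ?_⟩
    have := hg' l x hx
    rw [LinearEquiv.mul_apply, Equiv.Perm.mul_apply]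
    by_cases e1 : f l = i
    · rw [e1, Equiv.swap_apply_left]; exact h1 _ (e1 ▸ this)
    by_cases e2 : f l = j
    · rw [e2, Equiv.swap_apply_right]; exact h2 _ (e2 ▸ this)
    rw [Equiv.swap_apply_of_ne_of_ne e1 e2,
      h3 _ (h.od0.le_perp e1 this) (h.od0.le_perp e2 this)]
    exact this

theorem exists_perm_three {i j l i' j' l' : Fin t} (h1 : i ≠ j) (h2 : i ≠ l) (h3 : j ≠ l)
    (h1' : i' ≠ j') (h2' : i' ≠ l') (h3' : j' ≠ l') :
    ∃ σ : Equiv.Perm (Fin t), σ i = i' ∧ σ j = j' ∧ σ l = l' := by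
  obtain ⟨σ, hσ⟩ := Equiv.Perm.exists_extending_pair (f := ![i, j, l]) (g := ![i', j', l'])
    (by intro a b; fin_cases a <;> fin_cases b <;> simp_all [eq_comm])
    (by intro a b; fin_cases a <;> fin_cases b <;> simp_all [eq_comm])
  exact ⟨σ, hσ 0, hσ 1, hσ 2⟩

/-- Hypotheses for decompositions into planes. -/
structure Two (Q : QuadraticForm F V) (D : Fin t → Submodule F V) (K : Subgroup (V ≃ₗ[F] V)) :
    Prop extends Over Q D K where
  od2 : OD Q D 2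
  ht : 5 ≤ t
  pl : ∀ i, PlOK Q (D i)

/-- Singular vectors all of whose Siegel transformations along `D m` lie in `K`. -/
def ZZ (Q : QuadraticForm F V) (D : Fin t → Submodule F V) (K : Subgroup (V ≃ₗ[F] V)) (m : Fin t)
    (z : V) : Prop := Q z = 0 ∧ D m ≤ MS Q K z

namespace Two

variable {K : Subgroup (V ≃ₗ[F] V)} (h : Two Q D K)
include h

theorem good (i : Fin t) : Good Q (D i) := (h.pl i).good (h.od.nd i)

theorem dim (i : Fin t) : finrank F (D i) = 2 := h.od2.dim i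

theorem fin (l : List (Fin t)) (hl : l.length ≤ 4) : ∃ x : Fin t, x ∉ l :=
  exists_fin_not_mem l (by have := h.ht; omega)

theorem lift (m : Fin t) {g : V ≃ₗ[F] V} (hg : g ∈ OG Q) (hgD : g ∈ DStab D) :
    ∃ p ∈ OG Q ⊓ Fix (perp Q (D m)), g * p ∈ DStab D ∧ g * p ∈ Om Q := by
  obtain ⟨p, hp, h2⟩ := (h.od.nd m).exists_corr h.nd h.h5 (h.dim m).ge hg
  exact ⟨p, hp, (DStab D).mul_mem hgD (h.od.DStab_of_fix h.nd hp.1 hp.2), Om_mul_comm hp.1 h2⟩

theorem exists_rot (i : Fin t) : ∃ b ∈ D i, ∃ b' ∈ D i, Q b ≠ 0 ∧ Q b' = Q b ∧ b' ∉ sp F [b] ∧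
    polar Q b' b ≠ 0 := by
  obtain ⟨b, hb, hQb⟩ := (h.od.nd i).exists_nonsing h.nd le_rfl (by rw [h.dim]; omega)
  obtain ⟨b', hb', h1⟩ := (h.good i).exists_partner (h.dim i).ge hb hQb
  exact ⟨b, hb, b', hb', hQb, h1⟩

theorem rot_sub {i : Fin t} {v : V} (hv : v ∉ perp Q (D i)) :
    ∃ y ∈ K, y ∈ Fix (perp Q (D i)) ∧ y v - v ∈ D i ∧ y v - v ≠ 0 := by
  obtain ⟨b, hb, b', hb', h1, h2, h3, -⟩ := h.exists_rot i
  exact ⟨_, h.rel_of_norm hb hb' h2.symm, (Fix _).mul_mem (refl_mem_Fix_perp hb)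
    (refl_mem_Fix_perp hb'), refl_refl_sub_mem hb hb' v,
    sub_ne_zero.2 (rot_ne (h.dim i) hb hb' h1 (by rwa [h2]) h3 hv)⟩

theorem MS_move {l m : Fin t} {z : V} (hz : D l ≤ MS Q K z) {g : V ≃ₗ[F] V} (hg : g ∈ OG Q)
    (hgD : g ∈ DStab D) (hlm : ∀ x ∈ D l, g x ∈ D m) : D m ≤ MS Q K (g z) := by
  obtain ⟨p, hp, h1, h2⟩ := h.lift l hg hgD
  have hK := h.ge _ h1 h2
  have hpz : p z = z := hp.2 z fun x hx => by
    have := (hz hx).1; rw [pol_comm] at this; exact this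
  intro x hx
  rw [← map_eq_of_maps hlm (by rw [h.dim, h.dim])] at hx
  obtain ⟨y, hy, rfl⟩ := hx
  have := MS_conj (h.le hK) hK (hz ((Stab_of_Fix_perp h.nd ((OG Q ⊓ Fix _).inv_mem hp) y).1 hy))
  rwa [LinearEquiv.mul_apply, LinearEquiv.mul_apply, hpz, apply_inv_apply] at this

theorem fin_two {j : Fin t} (hS : NewS Q D K j) : Om Q ≤ K := by
  obtain ⟨u, hu, hu0, hQu, v, hv, hvj⟩ := hS
  obtain ⟨v', hv', -, l, hl, hv'l⟩ := h.exists_perp_part hu hv hvj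
  obtain ⟨m, hm⟩ := h.fin [j, l] (by simp)
  simp only [List.mem_cons, List.not_mem_nil, or_false, not_or] at hm
  have hlM : D l ≤ MS Q K u := by
    refine h.le_MS_of_refl hl hu ?_ (fun a ha _ => ?_) (h.pl l).hex
    · obtain ⟨y, hy, h1, h2, h3⟩ := h.rot_sub hv'l
      exact ⟨_, h2, h3, Submodule.sub_mem _
        (MS_fix (h.le hy) hy (h1 u (h.od.le_perp hl.symm hu)) hv') hv'⟩
    · obtain ⟨p, hp, h1, h2⟩ := h.lift m (refl_mem_OG a) (h.od.refl_mem h.nd ha)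
      refine ⟨_, h.ge _ h1 h2, ⟨1, one_ne_zero, ?_⟩, fun x hx => ?_⟩
      · rw [LinearEquiv.mul_apply, hp.2 u (h.od.le_perp (Ne.symm hm.1) hu),
          refl_of_perp (h.od.orth j l hl.symm u hu a ha), one_smul]
      · rw [LinearEquiv.mul_apply, hp.2 x (h.od.le_perp (Ne.symm hm.2) hx)]
  obtain ⟨w, hw, hQw, huw⟩ := (h.od.nd j).exists_partner hu hu0 hQu
  obtain ⟨p, hp, h1, h2⟩ := h.lift l (refl_mem_OG (u - w))
    (h.od.refl_mem h.nd ((D j).sub_mem hu hw))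
  refine h.fin_core hu hQu (fun m hm => ?_) (h.ge _ h1 h2) ?_
  · by_cases e : l = m
    · rw [← e]; exact hlM
    obtain ⟨s, hs, hsD, -, h1, -, h3⟩ := h.od2.exists_swap h.nd (by omega) e
    have := h.MS_move hlM hs hsD h1
    rwa [h3 u (h.od.le_perp hl.symm hu) (h.od.le_perp hm.symm hu)] at this
  · rw [LinearEquiv.mul_apply, hp.2 u (h.od.le_perp hl.symm hu), refl_swap (hQu.trans hQw.symm) (by
      rw [Q_sub, hQu, hQw, huw]; simp), huw]
    exact one_ne_zero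

theorem rigid : Rigid Q D := h.od2.rigid h.nd le_rfl h.good

theorem mem_of_fix (hB : Bad Q D K) (hS : ∀ j, ¬ NewS Q D K j) {y : V ≃ₗ[F] V} (hy : y ∈ K)
    {j : Fin t} {u : V} (hu : u ∈ D j) (hu0 : u ≠ 0) (hyu : y u = u) : y ∈ DStab D := by
  by_cases hQu : Q u = 0
  swap
  · exact h.mem_of_bad hB h.rigid hy hu hQu (by rw [hyu]; exact hu)
  have h7 := (h.pl j).card hu hu0 hQu
  obtain ⟨w, hw, hQw, huw⟩ := (h.od.nd j).exists_partner hu hu0 hQu
  have hT : ∀ s : F, s ≠ 0 → tor Q u w (s * s) ∈ K := fun s hs =>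
    h.ge _ (h.tor_DStab hu hw _) (tor_mem_Om h.nd h.h5 hQu hQw huw hs)
  have := MS_of_tor (K := K) (w' := y w) (by omega) hQu hQw huw (by rw [h.le hy, hQw])
    (by rw [← huw, ← OG_pol (h.le hy) u w, hyu]) hT fun s hs => by
      have := K.mul_mem (K.mul_mem hy (hT s hs)) (K.inv_mem hy)
      rwa [tor_conj (h.le hy), hyu] at this
  have h1 : y w ∈ D j := by simpa using (D j).add_mem (not_NewS (hS j) u hu hu0 hQu this) hw
  exact h.mem_of_bad hB h.rigid hy ((D j).add_mem hu hw)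
    (by rw [Q_add, hQu, hQw, huw]; simp) (by rw [map_add, hyu]; exact (D j).add_mem hu h1)

theorem pair_mem (hB : Bad Q D K) (hS : ∀ j, ¬ NewS Q D K j) {a a' : V} (ha : Rel Q K a a')
    {j : Fin t} {z : V} (hz : z ∈ D j) (hz0 : z ≠ 0) (h1 : polar Q z a = 0)
    (h2 : polar Q z a' = 0) : refl Q a * refl Q a' ∈ DStab D :=
  h.mem_of_fix hB hS ha hz hz0 (by rw [LinearEquiv.mul_apply, refl_of_perp h2, refl_of_perp h1])

theorem exists_perp (j : Fin t) (a : V) : ∃ z ∈ D j, z ≠ 0 ∧ polar Q z a = 0 := by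
  have hd := finrank_le_inf_perp_sp (Q := Q) (D j) [a]
  simp only [List.length_cons, List.length_nil, h.dim] at hd
  obtain ⟨x, hx, hx0⟩ := exists_not_mem (T := D j ⊓ perp Q (sp F [a])) (S := ⊥)
    (by rw [finrank_bot]; omega)
  exact ⟨x, hx.1, hx0, by rw [pol_comm]; exact mem_perp_sp.1 hx.2 a (by simp)⟩

theorem hdim : ∀ i l, i ≠ l → finrank F (D i) = finrank F (D l) → 2 ≤ finrank F (D i) :=
  fun i _ _ _ => (h.dim i).ge

theorem claimA (hB : Bad Q D K) (hS : ∀ j, ¬ NewS Q D K j) {g : V ≃ₗ[F] V} (hg : g ∈ K)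
    (hgD : g ∉ DStab D) {i : Fin t} {x : V} (hx : x ∈ D i) (hx0 : x ≠ 0) (j : Fin t) :
    g x ∉ perp Q (D j) := by
  intro hj
  have hgO := h.le hg
  obtain ⟨c, hc, c', hc', hQc, hQc', hind, hp⟩ := h.exists_rot i
  have hX := eq_sp_of_indep (h.dim i) hc hc' (fun e => hQc (by simp [e])) hind
  rw [hX] at hx
  obtain ⟨α, β, rfl⟩ := mem_sp_two.1 hx
  obtain ⟨z, hz, hz0, h1, h2⟩ : ∃ z ∈ D j, z ≠ 0 ∧ polar Q z (g c) = 0 ∧ polar Q z (g c') = 0 := by
    have key : ∀ z ∈ D j, α * polar Q z (g c) + β * polar Q z (g c') = 0 := fun z hz => by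
      have := mem_perp.1 hj z hz
      rwa [map_add, _root_.map_smul, _root_.map_smul, polar_add_right, pol_smul_right,
        pol_smul_right] at this
    by_cases hβ : β = 0
    · obtain ⟨z, hz, hz0, h1⟩ := h.exists_perp j (g c')
      have hα : α ≠ 0 := fun e => hx0 (by simp [e, hβ])
      exact ⟨z, hz, hz0, by simpa [h1, hα] using key z hz, h1⟩
    · obtain ⟨z, hz, hz0, h1⟩ := h.exists_perp j (g c)
      exact ⟨z, hz, hz0, h1, by simpa [h1, hβ] using key z hz⟩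
  have hyD := h.pair_mem hB hS ((h.rel_of_norm hc hc' hQc'.symm).conj hgO hg) hz hz0 h1 h2
  obtain ⟨i, l, hil, hi, hl⟩ := h.od.exists_two h.nd (v := g c)
    (fun e => hQc (by rw [← hgO c, e, _root_.map_zero]))
    fun l hl => hgD (h.mem_of_bad hB h.rigid hg hc hQc hl)
  have := (h.od.lemmaR h.nd h.hdim (by rwa [hgO]) (by rw [hgO, hQc']; exact hQc) (fun e => by
    obtain ⟨s, hs⟩ := mem_sp_one.1 e
    exact hind (mem_sp_one.2 ⟨s, g.injective (by rw [hs, _root_.map_smul])⟩)) hyD hil hi hl).1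
  rw [OG_pol hgO] at this
  exact hp this

theorem bad_two (hB : Bad Q D K) (hS : ∀ j, ¬ NewS Q D K j) : K ≤ DStab D := by
  intro g hg
  by_contra hgD
  have hgO := h.le hg
  have ht := h.ht
  let i0 : Fin t := ⟨0, by omega⟩
  let i1 : Fin t := ⟨1, by omega⟩
  let i2 : Fin t := ⟨2, by omega⟩
  have hA := fun {i : Fin t} {x : V} => h.claimA hB hS hg hgD (i := i) (x := x)
  have hA' := fun {i : Fin t} {x : V} => h.claimA hB hS (K.inv_mem hg)
    (fun e => hgD ((DStab D).inv_mem_iff.1 e)) (i := i) (x := x)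
  obtain ⟨z, hz, hz0, hQ⟩ : ∃ z ∈ D i0, z ≠ 0 ∧ ∀ i ∈ [i0, i1, i2], Q (pr Q (D i) (g⁻¹ z)) ≠ 0 := by
    obtain ⟨b, hb, b', hb', hQb, -, hind, -⟩ := h.exists_rot i0
    have hb0 : b ≠ 0 := fun e => hQb (by simp [e])
    rcases em (7 ≤ Nat.card F) with h7 | h7
    · have hX := eq_sp_of_indep (h.dim i0) hb hb' hb0 hind
      have key : ∀ i, ∃ l : List F, l.length ≤ 2 ∧
          ∀ s, Q (pr Q (D i) (g⁻¹ (b + s • b'))) = 0 → s ∈ l := fun i => by
        obtain ⟨l, h1, h2⟩ := exists_roots_list (a := Q (pr Q (D i) (g⁻¹ b')))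
          (b := polar Q (pr Q (D i) (g⁻¹ b)) (pr Q (D i) (g⁻¹ b'))) (c := Q (pr Q (D i) (g⁻¹ b)))
          (by
            by_contra hc
            push Not at hc
            obtain ⟨r, s, h1, h2⟩ := (h.od.nd i).plane_dep (h.dim i) (pr_mem _ _) (pr_mem _ _)
              hc.2.2 hc.2.1
            refine hA' ((D i0).add_mem ((D i0).smul_mem r hb) ((D i0).smul_mem s hb'))
              (fun e => ?_) i ((h.od.nd i).pr_eq_zero_iff.1 (by simpa using h2))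
            obtain ⟨h3, h4⟩ := indep_of_span hX.le (h.dim i0).ge e
            exact h1.elim (fun e => e h3) fun e => e h4)
        refine ⟨l, h1, fun s hs => h2 s ?_⟩
        rw [map_add, map_add, _root_.map_smul, _root_.map_smul, Q_add, Q_smul, pol_smul_right] at hs
        linear_combination hs
      choose l hl hl' using key
      obtain ⟨s, hs⟩ := exists_not_mem_list (l i0 ++ l i1 ++ l i2) (by
        have := hl i0; have := hl i1; have := hl i2; simp; omega)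
      simp only [List.mem_append, not_or] at hs
      refine ⟨b + s • b', (D i0).add_mem hb ((D i0).smul_mem _ hb'), fun e => ?_, ?_⟩
      · exact one_ne_zero (indep_of_span hX.le (h.dim i0).ge (r := 1) (s := s) (by simpa using e)).1
      · simp only [List.mem_cons, List.not_mem_nil, or_false, forall_eq_or_imp, forall_eq]
        exact ⟨mt (hl' _ s) hs.1.1, mt (hl' _ s) hs.1.2, mt (hl' _ s) hs.2⟩
    · exact ⟨b, hb, hb0, fun i _ => ((h.pl i).resolve_left h7).1 _ (pr_mem _ _) fun e =>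
        hA' hb hb0 i ((h.od.nd i).pr_eq_zero_iff.1 e)⟩
  have key : ∀ i ∈ [i0, i1, i2], ∃ c ∈ D i, Q c ≠ 0 ∧ polar Q z (g c) = 0 := fun i hi => by
    obtain ⟨c, hc, h1, h2⟩ := (h.od.nd i).exists_star (h.dim i) (pr_mem _ _) (hQ i hi)
    exact ⟨c, hc, h2, by rwa [(h.od.nd i).pol_pr_left hc, OG_pol_inv hgO] at h1⟩
  have fin : ∀ {i l : Fin t}, i ≠ l → ∀ {c c' : V} {s : F}, c ∈ D i → c' ∈ D l → Q c ≠ 0 → s ≠ 0 →
      Q c = s * s * Q c' → polar Q z (g c) = 0 → polar Q z (g c') = 0 → False :=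
    fun {i l} hil {c c' s} hc hc' hQc hs h1 h2 h3 => by
      have hc0 : c ≠ 0 := fun e => hQc (by simp [e])
      have hQc' : Q c' ≠ 0 := fun e => hQc (by rw [h1, e, mul_zero])
      have hr : Rel Q K c c' := (h.rel_of_norm hc ((D l).smul_mem s hc')
        (by rw [Q_smul, h1])).symm.of_smul_left hs |>.symm
      refine hA hc hc0 i2 ((h.od.lemmaR h.nd h.hdim (by rwa [hgO]) (by rwa [hgO]) (fun e => ?_)
        (h.pair_mem hB hS (hr.conj hgO hg) hz hz0 h2 h3) (i := i0) (j := i1) (by simp [i0, i1])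
        (hA hc hc0 _) (hA hc hc0 _)).2 i2 (by simp [i0, i2]) (by simp [i1, i2]))
      obtain ⟨r, hr⟩ := mem_sp_one.1 e
      have : c' = r • c := g.injective (by rw [hr, _root_.map_smul])
      exact hil (h.od.eq_of_mem (this ▸ (D i).smul_mem r hc) hc' fun e => hQc' (by simp [e]))
  obtain ⟨c0, h0, q0, p0⟩ := key i0 (by simp)
  obtain ⟨c1, h1, q1, p1⟩ := key i1 (by simp)
  obtain ⟨c2, h2, q2, p2⟩ := key i2 (by simp)
  obtain ⟨s, hs, e | e | e⟩ := two_same_class q0 q1 q2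
  · exact fin (by simp [i0, i1]) h0 h1 q0 hs e p0 p1
  · exact fin (by simp [i0, i2]) h0 h2 q0 hs e p0 p2
  · exact fin (by simp [i1, i2]) h1 h2 q1 hs e p1 p2

theorem ZZ_perp {m : Fin t} {z : V} (hz : ZZ Q D K m z) : z ∈ perp Q (D m) := fun x hx => by
  have := (hz.2 hx).1; rw [pol_comm] at this; exact this

theorem ZZ_zero (m : Fin t) : ZZ Q D K m 0 := ⟨by simp, fun x _ => ⟨by simp, fun c => by
  have : siegel Q 0 (c • x) = 1 := by ext v; rw [siegel_apply (by simp) (by simp)]; simp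
  rw [this]; exact K.one_mem⟩⟩

theorem ZZ_smul {m : Fin t} {z : V} (hz : ZZ Q D K m z) (c : F) : ZZ Q D K m (c • z) :=
  ⟨by rw [Q_smul, hz.1, mul_zero], fun _ hx => MS_smul c (hz.2 hx)⟩

theorem ZZ_MS {m : Fin t} {z z' : V} (hz : ZZ Q D K m z) (hz' : ZZ Q D K m z')
    (hp : polar Q z z' = 0) : z' ∈ MS Q K z := by
  obtain ⟨x, hx, hQx⟩ := (h.od.nd m).exists_nonsing h.nd le_rfl (by rw [h.dim]; omega)
  obtain ⟨v, hv, hxv⟩ := (h.od.nd m).exists_pol_eq_one hx (fun e => hQx (by simp [e]))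
  have := MS_fix (siegel_mem_OG z' v) (MS_siegel (hz'.2 hv)) (siegel_fix hp (hz.2 hv).1) (hz.2 hx)
  rw [siegel_apply_of_perp hz'.1 (hz'.2 hv).1 (by rw [pol_comm]; exact (hz'.2 hx).1), hxv,
    one_smul] at this
  simpa using Submodule.sub_mem _ (hz.2 hx) this

theorem ZZ_add {m : Fin t} {z z' : V} (hz : ZZ Q D K m z) (hz' : ZZ Q D K m z')
    (hp : polar Q z z' = 0) : ZZ Q D K m (z + z') := by
  have hQ : Q (z + z') = 0 := by rw [Q_add, hz.1, hz'.1, hp]; simp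
  refine ⟨hQ, ?_⟩
  by_contra hc
  obtain ⟨x, hx, hQx, hxN⟩ := (h.good m).exists_value_not_mem h.nd (h.od.nd m) (h.dim m).ge hc
    one_ne_zero
  have hQx0 : Q x ≠ 0 := by rw [hQx]; exact one_ne_zero
  refine hxN (MS_of_rel hQ (by rw [polar_add_left, (hz.2 hx).1, (hz'.2 hx).1, add_zero]) hQx0
    fun κ => ?_)
  have h1 : x + κ • z ∈ MS Q K z' := Submodule.add_mem _ (hz'.2 hx)
    (Submodule.smul_mem _ _ (h.ZZ_MS hz' hz (by rwa [pol_comm])))
  have := (Rel.of_MS hz.1 hQx0 (hz.2 hx) κ).trans (Rel.of_MS hz'.1 (by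
    rw [Q_add, Q_smul, pol_smul_right, pol_comm, (hz.2 hx).1, hz.1]; simpa using hQx0) h1 κ)
  rwa [smul_add, ← add_assoc]

theorem ZZ_sub {m : Fin t} {z z' : V} (hz : ZZ Q D K m z) (hz' : ZZ Q D K m z')
    (hp : Q (z - z') = 0) : ZZ Q D K m (z - z') := by
  rw [Q_sub, hz.1, hz'.1] at hp
  have := h.ZZ_add hz (h.ZZ_smul hz' (-1)) (by rw [pol_smul_right]; linear_combination hp)
  rwa [neg_smul, one_smul, ← sub_eq_add_neg] at this

theorem ZZ_move {l m : Fin t} {z : V} (hz : ZZ Q D K l z) {g : V ≃ₗ[F] V} (hg : g ∈ OG Q)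
    (hgD : g ∈ DStab D) (hlm : ∀ x ∈ D l, g x ∈ D m) : ZZ Q D K m (g z) :=
  ⟨by rw [hg, hz.1], h.MS_move hz.2 hg hgD hlm⟩

theorem ZZ_fix {i m : Fin t} {z : V} (hz : ZZ Q D K m z) {g : V ≃ₗ[F] V}
    (hg : g ∈ OG Q ⊓ Fix (perp Q (D i))) : ZZ Q D K m (g z) :=
  h.ZZ_move hz hg.1 (h.od.DStab_of_fix h.nd hg.1 hg.2)
    fun x hx => (h.od.Stab_of_fix h.nd hg.1 hg.2 m x).1 hx

theorem conic {i l : Fin t} (hil : i ≠ l) {c : V} (h1 : Q (pr Q (D i) c) ≠ 0)
    (h2 : Q (pr Q (D l) c) ≠ 0) : ∃ z₁ ∈ D i, ∃ z₂ ∈ D l, Q z₁ ≠ 0 ∧ Q z₁ + Q z₂ = 0 ∧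
      refl Q z₁ (refl Q z₂ c) = c - (z₁ + z₂) := by
  obtain ⟨s, hs, -, hss, s1, s2, -⟩ := h.od2.exists_swap h.nd (by omega) hil
  obtain ⟨b, hb, b', hb', e1, e2, e3, e4⟩ := plane_conic h.nd (h.od.nd i) (h.dim i) (h.pl i)
    (pr_mem (D i) c) (s2 _ (pr_mem (D l) c)) h1 (by rwa [hs])
  have e5 : Q b' ≠ 0 := fun e => e4 (by rwa [e, add_zero] at e3)
  have e6 : polar Q c (s b') = 1 := by
    rw [← e2, ← OG_pol hs b', ← LinearEquiv.mul_apply, hss, pol_comm Q (s b')]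
    exact ((h.od.nd l).pol_pr_left (s1 _ hb') c).symm
  rw [(h.od.nd i).pol_pr hb] at e1
  refine ⟨(Q b)⁻¹ • b, (D i).smul_mem _ hb, (Q b')⁻¹ • s b', (D l).smul_mem _ (s1 _ hb'), ?_, ?_, ?_⟩
  · rw [Q_smul]; exact mul_ne_zero (mul_ne_zero (inv_ne_zero e4) (inv_ne_zero e4)) e4
  · rw [Q_smul, Q_smul, hs]; field_simp; linear_combination e3
  · rw [refl_smul (inv_ne_zero e4), refl_smul (inv_ne_zero e5), refl_apply, refl_apply, hs,
      polar_sub_left, pol_smul_left, e6, pol_comm Q c, e1,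
      h.od.orth l i hil.symm _ (s1 _ hb') _ hb]
    match_scalars <;> simp

/-- All sums of two vectors of norms `α` and `-α` are good. -/
def PP (Q : QuadraticForm F V) (D : Fin t → Submodule F V) (K : Subgroup (V ≃ₗ[F] V)) (α : F) :
    Prop := ∀ i l m, i ≠ l → i ≠ m → l ≠ m → ∀ b ∈ D i, ∀ b' ∈ D l, Q b = α → Q b' = -α →
      ZZ Q D K m (b + b')

theorem PP_of_std {i l m : Fin t} (h1 : i ≠ l) (h2 : i ≠ m) (h3 : l ≠ m) {a a' : V} (ha : a ∈ D i)
    (ha' : a' ∈ D l) (hQ : Q a ≠ 0) (hz : ZZ Q D K m (a + a')) : PP Q D K (Q a) := by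
  intro i' l' m' h1' h2' h3' b hb b' hb' hQb hQb'
  have hQa' : Q a' = -Q a := by
    have := hz.1
    rw [Q_add, h.od.orth i l h1 a ha a' ha'] at this; linear_combination this
  obtain ⟨σ, e1, e2, e3⟩ := exists_perm_three h1 h2 h3 h1' h2' h3'
  obtain ⟨g, hg, hgD, hg'⟩ := h.od2.exists_perm h.nd (by omega) σ
  have k1 := e1 ▸ hg' i a ha
  have k2 := e2 ▸ hg' l a' ha'
  obtain ⟨r, hr, hr1, -⟩ := (h.od.nd i').plane_swap (h.dim _) k1 hb (by rwa [hg]) (by rw [hg, hQb])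
  obtain ⟨r', hr', hr1', -⟩ := (h.od.nd l').plane_swap (h.dim _) k2 hb'
    (by rw [hg, hQa']; exact neg_ne_zero.2 hQ) (by rw [hg, hQb', hQa'])
  have := h.ZZ_fix (h.ZZ_fix (h.ZZ_move hz hg hgD (e3 ▸ hg' m)) hr) hr'
  rwa [map_add, map_add, map_add, hr1, hr.2 _ (h.od.le_perp h1'.symm k2), hr1',
    hr'.2 _ (h.od.le_perp h1' hb)] at this

theorem PP_smul {α s : F} (hs : s ≠ 0) (hP : PP Q D K α) : PP Q D K (s * s * α) := by
  intro i l m h1 h2 h3 b hb b' hb' e1 e2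
  have := h.ZZ_smul (hP i l m h1 h2 h3 _ ((D i).smul_mem s⁻¹ hb) _ ((D l).smul_mem s⁻¹ hb')
    (by rw [Q_smul, e1]; field_simp) (by rw [Q_smul, e2]; field_simp)) s
  rwa [← smul_add, smul_smul, mul_inv_cancel₀ hs, one_smul] at this

theorem PP_neg {α : F} (hP : PP Q D K α) : PP Q D K (-α) := by
  intro i l m h1 h2 h3 b hb b' hb' e1 e2
  rw [add_comm]
  exact hP l i m h1.symm h3 h2 b' hb' b hb (by rw [e2, neg_neg]) e1

theorem PP_all {α : F} (hα : α ≠ 0) (hP : PP Q D K α) {γ : F} (hγ : γ ≠ 0) : PP Q D K γ := by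
  obtain ⟨s, hs, e | e | e⟩ := two_same_class hγ hα (neg_ne_zero.2 hα)
  · rw [e]; exact h.PP_smul hs hP
  · rw [e]; exact h.PP_smul hs (h.PP_neg hP)
  have hι : s * s = -1 := mul_right_cancel₀ hα (by linear_combination e)
  obtain ⟨i, -⟩ := h.fin [] (by simp)
  obtain ⟨l, hl⟩ := h.fin [i] (by simp)
  obtain ⟨m, hm⟩ := h.fin [i, l] (by simp)
  simp only [List.mem_cons, List.not_mem_nil, or_false, not_or] at hl hm
  obtain ⟨z, hz, hQz⟩ := (h.od.nd i).exists_value_two h.nd (h.dim i).ge α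
  obtain ⟨b, hb, hQb, hbN⟩ := (h.good i).exists_value_not_mem h.nd (h.od.nd i) (h.dim i).ge
    (N := perp Q (sp F [z])) (fun e => hα (by
      rw [← hQz, h.od.nd i z hz fun x hx => mem_perp_sp.1 (e hx) z (by simp), _root_.map_zero])) hγ
  have hzb : polar Q z b ≠ 0 := fun e => hbN (mem_perp_sp.2 (by simpa using e))
  obtain ⟨σ, hσ, -, -, s1, -, -⟩ := h.od2.exists_swap h.nd (by omega) (Ne.symm hl)
  have ha := (D l).smul_mem s (s1 z hz)
  have hQa : Q (s • σ z) = -α := by rw [Q_smul, hσ, hQz, hι]; ring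
  have y1 := hP i l m (Ne.symm hl) (Ne.symm hm.1) (Ne.symm hm.2) z hz _ ha hQz hQa
  have y2 := hP i l m (Ne.symm hl) (Ne.symm hm.1) (Ne.symm hm.2) _ ((refl_mem_Stab hb z).1 hz) _
    ((refl_mem_Stab (s1 b hb) _).1 ha) (by rw [refl_mem_OG, hQz]) (by rw [refl_mem_OG, hQa])
  have e1 : z + s • σ z - (refl Q b z + refl Q (σ b) (s • σ z)) =
      (polar Q z b / γ) • b + (s * (polar Q z b / γ)) • σ b := by
    rw [refl_apply, refl_apply, pol_smul_left, OG_pol hσ, hσ, hQb]; match_scalars <;> ring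
  have hκ : polar Q z b / γ ≠ 0 := div_ne_zero hzb hγ
  have y3 := h.ZZ_sub y1 y2 (by
    rw [e1, Q_add, Q_smul, Q_smul, hσ, h.od.orth i l (Ne.symm hl) _ ((D i).smul_mem _ hb) _
      ((D l).smul_mem _ (s1 b hb))]
    linear_combination (polar Q z b / γ * (polar Q z b / γ) * Q b) * hι)
  rw [e1] at y3
  have := h.PP_smul (inv_ne_zero hκ) (h.PP_of_std (Ne.symm hl) (Ne.symm hm.1) (Ne.symm hm.2)
    ((D i).smul_mem _ hb) ((D l).smul_mem _ (s1 b hb))
    (by rw [Q_smul, hQb]; exact mul_ne_zero (mul_ne_zero hκ hκ) hγ) y3)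
  rw [Q_smul, hQb] at this
  convert this using 1; field_simp

theorem fin_PP (hP : ∀ γ, γ ≠ 0 → PP Q D K γ) : Om Q ≤ K := by
  obtain ⟨i, -⟩ := h.fin [] (by simp)
  obtain ⟨l, hl⟩ := h.fin [i] (by simp)
  obtain ⟨m, hm⟩ := h.fin [i, l] (by simp)
  obtain ⟨n, hn⟩ := h.fin [i, l, m] (by simp)
  obtain ⟨o, ho⟩ := h.fin [i, l, m, n] (by simp)
  simp only [List.mem_cons, List.not_mem_nil, or_false, not_or] at hl hm hn ho
  have hil : i ≠ l := Ne.symm hl
  obtain ⟨a, ha, hQa⟩ := (h.od.nd i).exists_value_two h.nd (h.dim i).ge 1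
  obtain ⟨a', ha', hQa'⟩ := (h.od.nd l).exists_value_two h.nd (h.dim l).ge (-1)
  have hz : ∀ m, m ≠ i → m ≠ l → ZZ Q D K m (a + a') := fun m h1 h2 =>
    hP 1 one_ne_zero i l m hil h1.symm h2.symm a ha a' ha' hQa hQa'
  have hQz := (hz m hm.1 hm.2).1
  have k1 : ∀ {i m : Fin t}, i ≠ m → o ≠ i → o ≠ m → ∀ x ∈ D i, (x = 0 ∨ Q x ≠ 0) →
      ∃ y ∈ D m, ZZ Q D K o (x + y) := fun {i m} h1 h2 h3 x hx h4 => by
    rcases h4 with rfl | h4
    · exact ⟨0, (D m).zero_mem, by simpa using h.ZZ_zero o⟩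
    · obtain ⟨y, hy, hQy⟩ := (h.od.nd m).exists_value_two h.nd (h.dim m).ge (-Q x)
      exact ⟨y, hy, hP _ h4 i m o h1 h2.symm h3.symm x hx y hy rfl hQy⟩
  have k2 : ∀ x ∈ D i, ∀ x' ∈ D l, (x = 0 ∨ Q x ≠ 0) → (x' = 0 ∨ Q x' ≠ 0) →
      polar Q (a + a') (x + x') = 0 → x + x' ∈ MS Q K (a + a') := fun x hx x' hx' h1 h2 h3 => by
    obtain ⟨y, hy, hy'⟩ := k1 (Ne.symm hm.1) ho.1 ho.2.2.1 x hx h1
    obtain ⟨y', hy2, hy2'⟩ := k1 (Ne.symm hn.2.1) ho.2.1 ho.2.2.2 x' hx' h2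
    have m1 := (hz m hm.1 hm.2).2 hy
    have m2 := (hz n hn.1 hn.2.1).2 hy2
    have := h.ZZ_MS (hz o ho.1 ho.2.1) (h.ZZ_add hy' hy2' (by
      rw [polar_add_left, polar_add_right, polar_add_right, h.od.orth _ _ hil x hx x' hx',
        h.od.orth _ _ (Ne.symm hn.1) x hx y' hy2, h.od.orth _ _ hm.2 y hy x' hx',
        h.od.orth _ _ (Ne.symm hn.2.2) y hy y' hy2]; simp)) (by
      rw [add_add_add_comm, polar_add_right, h3, polar_add_right, m1.1, m2.1]; simp)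
    rw [add_add_add_comm] at this
    simpa using Submodule.sub_mem _ this (Submodule.add_mem _ m1 m2)
  have k3 : ∀ x ∈ D i, ∀ x' ∈ D l, polar Q (a + a') (x + x') = 0 → x + x' ∈ MS Q K (a + a') :=
    fun x hx x' hx' h3 => by
      rcases em (7 ≤ Nat.card F) with h7 | h7
      · obtain ⟨l1, hl1, hl1'⟩ := exists_roots_list (a := Q a) (b := polar Q x a) (c := Q x)
          (Or.inl (by rw [hQa]; exact one_ne_zero))
        obtain ⟨l2, hl2, hl2'⟩ := exists_roots_list (a := Q a') (b := polar Q x' a') (c := Q x')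
          (Or.inl (by rw [hQa']; exact neg_ne_zero.2 one_ne_zero))
        obtain ⟨s, hs⟩ := exists_not_mem_list (l1 ++ l2) (by simp; omega)
        simp only [List.mem_append, not_or] at hs
        have := k2 _ ((D i).add_mem hx ((D i).smul_mem s ha)) _
          ((D l).add_mem hx' ((D l).smul_mem s ha'))
          (Or.inr fun e => hs.1 (hl1' s (by rw [Q_add, Q_smul, pol_smul_right] at e
                                            linear_combination e)))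
          (Or.inr fun e => hs.2 (hl2' s (by rw [Q_add, Q_smul, pol_smul_right] at e
                                            linear_combination e)))
          (by rw [add_add_add_comm, ← smul_add, polar_add_right, h3, pol_smul_right, pol_self, hQz]
              simp)
        rw [add_add_add_comm, ← smul_add] at this
        simpa using Submodule.sub_mem _ this (Submodule.smul_mem _ s (self_mem_MS hQz))
      · exact k2 x hx x' hx' ((em _).imp id (((h.pl i).resolve_left h7).1 x hx))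
          ((em _).imp id (((h.pl l).resolve_left h7).1 x' hx')) h3
  obtain ⟨b, hb, hQb, hab⟩ := (h.od.nd i).exists_nonsing_pol h.nd (v := a) (fun e => by
    rw [(h.od.nd i).eq_zero ha e] at hQa; simp at hQa) (h.pl i).hex
  obtain ⟨p, hp, p1, p2⟩ := h.lift m (refl_mem_OG b) (h.od.refl_mem h.nd hb)
  refine Om_le_of_one h.nd h.h5 hQz (siegel_all_of_MS fun y hy => ?_) (Om_le_OG p2) (h.ge _ p1 p2) ?_
  · have e : y = (pr Q (D i) y + pr Q (D l) y) + ∑ j ∈ (Finset.univ.erase i).erase l, pr Q (D j) y := by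
      rw [add_assoc, Finset.add_sum_erase _ (fun j => pr Q (D j) y) (by simpa using hl),
        Finset.add_sum_erase _ (fun j => pr Q (D j) y) (Finset.mem_univ i), h.od.sum_pr h.nd]
    have m1 : ∑ j ∈ (Finset.univ.erase i).erase l, pr Q (D j) y ∈ MS Q K (a + a') :=
      Submodule.sum_mem _ fun j hj => by
        simp only [Finset.mem_erase, Finset.mem_univ, and_true] at hj
        exact (hz j hj.2 hj.1).2 (pr_mem _ _)
    rw [e] at hy ⊢
    rw [polar_add_right, m1.1, add_zero] at hy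
    exact Submodule.add_mem _ (k3 _ (pr_mem _ _) _ (pr_mem _ _) hy) m1
  · rw [LinearEquiv.mul_apply, hp.2 _ (h.ZZ_perp (hz m hm.1 hm.2)), refl_apply, polar_sub_right,
      pol_self, hQz, pol_smul_right, polar_add_left, h.od.orth l i hl a' ha' b hb]
    simpa using ⟨⟨hab, hQb⟩, hab⟩

theorem fin_ZZ {m : Fin t} {z : V} (hz : ZZ Q D K m z) (hz0 : z ≠ 0) : Om Q ≤ K := by
  have hm := h.ZZ_perp hz
  by_cases hs : ∃ i, z ∉ perp Q (D i) ∧ Q (pr Q (D i) z) = 0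
  · obtain ⟨i, hi, hQu⟩ := hs
    set u := pr Q (D i) z with hu
    have hu0 : u ≠ 0 := fun e => hi ((h.od.nd i).pr_eq_zero_iff.1 e)
    have huD : u ∈ D i := pr_mem _ _
    have h7 := (h.pl i).card huD hu0 hQu
    obtain ⟨w, hw, hQw, huw⟩ := (h.od.nd i).exists_partner huD hu0 hQu
    obtain ⟨l, hl⟩ := exists_not_mem_list [(0 : F), 1] (by simp; omega)
    simp only [List.mem_cons, List.not_mem_nil, or_false, not_or] at hl
    have k1 := h.ZZ_fix hz ⟨tor_mem_OG u w l, tor_mem_Fix huD hw⟩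
    rw [tor_of_perp hQu hQw huw hl.1 (by
      rw [← (h.od.nd i).pol_pr_left huD, pol_self, hQu, mul_zero]),
      ← (h.od.nd i).pol_pr_left hw, huw, mul_one] at k1
    have k2 := h.ZZ_smul (h.ZZ_sub k1 hz (by rw [add_sub_cancel_left, Q_smul, hQu, mul_zero]))
      (l - 1)⁻¹
    rw [add_sub_cancel_left, smul_smul, inv_mul_cancel₀ (sub_ne_zero.2 hl.2), one_smul] at k2
    obtain ⟨x, hx, hQx⟩ := (h.od.nd m).exists_nonsing h.nd le_rfl (by rw [h.dim]; omega)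
    refine h.fin_two ⟨u, huD, hu0, hQu, x, k2.2 hx, fun e => hi ?_⟩
    rw [← h.od.eq_of_mem hx e fun e => hQx (by simp [e])]; exact hm
  · push Not at hs
    obtain ⟨i, l, hil, hi, hl⟩ := h.od.exists_two h.nd hz0 fun i hi => hs i
      (fun e => hz0 ((h.od.nd i).eq_zero hi e)) (by rw [(h.od.nd i).pr_of_mem hi, hz.1])
    obtain ⟨a, ha, a', ha', h1, h2, h3⟩ := h.conic hil (hs i hi) (hs l hl)
    have k1 := h.ZZ_fix (h.ZZ_fix hz ⟨refl_mem_OG a', refl_mem_Fix_perp ha'⟩)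
      ⟨refl_mem_OG a, refl_mem_Fix_perp ha⟩
    rw [h3] at k1
    have k2 := h.ZZ_sub hz k1 (by
      rw [sub_sub_cancel, Q_add, h2, h.od.orth i l hil a ha a' ha', add_zero])
    rw [sub_sub_cancel] at k2
    exact h.fin_PP fun γ hγ => h.PP_all h1 (h.PP_of_std hil (fun e => hi (e ▸ hm))
      (fun e => hl (e ▸ hm)) ha ha' h1 k2) hγ

/-- A degenerate pair of class elements. -/
theorem fin_pair {m m' : Fin t} (hmm : m ≠ m') {c z : V} (hQc : Q c ≠ 0) (hQz : Q z = 0)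
    (hz0 : z ≠ 0) (hcz : Q (c - z) = Q c) (hr : Rel Q K c (c - z)) (hm : z ∈ perp Q (D m))
    (hm' : z ∈ perp Q (D m')) (hc : c ∉ perp Q (D m)) : Om Q ≤ K := by
  have hzc : polar Q z c = 0 := by rw [Q_sub, hQz, pol_comm] at hcz; linear_combination -hcz
  have hp : ∀ x ∈ D m, polar Q z x = 0 := fun x hx => mem_perp'.1 hm x hx
  let M : AddSubgroup V :=
    { carrier := {x | x ∈ D m ∧ siegel Q z x ∈ K}
      zero_mem' := ⟨(D m).zero_mem, by rw [siegel_zero]; exact K.one_mem⟩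
      add_mem' := fun {a b} ha hb => ⟨(D m).add_mem ha.1 hb.1,
        siegel_add_mem hQz (hp a ha.1) (hp b hb.1) ha.2 hb.2⟩
      neg_mem' := fun {a} ha => ⟨(D m).neg_mem ha.1, siegel_neg_mem ha.2⟩ }
  have hM := plane_add_top h.nd (h.od.nd m) (h.dim m) (h.pl m) (M := M) (fun x hx => hx.1)
    (fun b hb _ x hx => by
      obtain ⟨p, hp', p1, p2⟩ := h.lift m' (refl_mem_OG b) (h.od.refl_mem h.nd hb)
      have := siegel_conj_mem (Om_le_OG p2) (h.ge _ p1 p2) hx.2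
      rw [LinearEquiv.mul_apply, LinearEquiv.mul_apply, hp'.2 z hm',
        hp'.2 x (h.od.le_perp hmm hx.1), refl_of_perp (hp b hb)] at this
      exact ⟨(refl_mem_Stab hb x).1 hx.1, this⟩) (by
      have k1 := (rel_add_iff hQz hzc hQc (-1)).1 (by rwa [neg_smul, one_smul, ← sub_eq_add_neg])
      obtain ⟨y, hy, y1, y2, y3⟩ := h.rot_sub (v := (-1 / Q c) • c) (i := m) fun e => hc (by
        have := Submodule.smul_mem _ (-Q c) e
        rwa [smul_smul, show -Q c * (-1 / Q c) = 1 by field_simp, one_smul] at this)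
      have k2 := siegel_conj_mem (h.le hy) hy k1
      rw [y1 z hm] at k2
      have k3 : polar Q z ((-1 / Q c) • c) = 0 := by rw [pol_smul_right, hzc, mul_zero]
      exact ⟨_, ⟨y2, siegel_sub_mem hQz (by rw [← y1 z hm, OG_pol (h.le hy), k3]) k3 k2 k1⟩, y3⟩)
  exact h.fin_ZZ (m := m) ⟨hQz, fun x hx => ⟨hp x hx, fun s => (hM _ ((D m).smul_mem s hx)).2⟩⟩ hz0

theorem fin_conic {i j l m : Fin t} (hjl : j ≠ l) (hjm : j ≠ m) (hlm : l ≠ m) {c d : V}
    (hd : d ∈ D i) (hc : Rel Q K c d) (hQc : Q c ≠ 0) (h1 : Q (pr Q (D j) c) ≠ 0)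
    (h2 : Q (pr Q (D l) c) ≠ 0) (h3 : c ∉ perp Q (D m))
    (h4 : (∃ s : F, s * s = -1) ∨ ∃ n, c ∈ perp Q (D n)) : Om Q ≤ K := by
  obtain ⟨a, ha, a', ha', e1, e2, e3⟩ := h.conic hjl h1 h2
  obtain ⟨m', hm'⟩ := h.fin [j, l, m] (by simp)
  simp only [List.mem_cons, List.not_mem_nil, or_false, not_or] at hm'
  have hD := (DStab D).mul_mem (h.od.refl_mem h.nd ha) (h.od.refl_mem h.nd ha')
  refine h.fin_pair (Ne.symm hm'.2.2) hQc (z := a + a')
    (by rw [Q_add, e2, h.od.orth j l hjl a ha a' ha', add_zero]) (fun e => ?_)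
    (by rw [← e3, refl_mem_OG, refl_mem_OG]) (hc.trans (Rel.symm ?_))
    (Submodule.add_mem _ (h.od.le_perp hjm ha) (h.od.le_perp hlm ha'))
    (Submodule.add_mem _ (h.od.le_perp (Ne.symm hm'.1) ha) (h.od.le_perp (Ne.symm hm'.2.1) ha')) h3
  · have : a ∈ D l := by rw [eq_neg_of_add_eq_zero_left e]; exact (D l).neg_mem ha'
    exact hjl (h.od.eq_of_mem ha this fun e => e1 (by simp [e]))
  · rw [← e3]
    rcases h4 with ⟨s, hs⟩ | ⟨n, hn⟩
    · exact h.rel_map hD (refl_mul_refl_mem_Om' h.nd h.h5 (s := s) (fun e => by simp [e] at hs)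
        (by rw [hs]; linear_combination e2)) hd hc
    · obtain ⟨p, hp, p1, p2⟩ := h.lift n ((OG Q).mul_mem (refl_mem_OG a) (refl_mem_OG a')) hD
      have := h.rel_map p1 p2 hd hc
      rwa [LinearEquiv.mul_apply, hp.2 c hn] at this

theorem fin_swap (h1 : ∀ s : F, s * s ≠ -1) {i j l n : Fin t} (hjl : j ≠ l) (hjn : j ≠ n)
    (hln : l ≠ n) {c d : V} (hd : d ∈ D i) (hc : Rel Q K c d) (hQc : Q c ≠ 0)
    (hall : ∀ m, Q (pr Q (D m) c) ≠ 0) {x : F} (hx : x ≠ 0)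
    (hcl : Q (pr Q (D l) c) = x * x * Q (pr Q (D j) c))
    (hw : Q (pr Q (D j) c) + Q (pr Q (D l) c) + 2 * Q (pr Q (D n) c) ≠ 0) : Om Q ≤ K := by
  have h2 : (2 : F) ≠ 0 := fun e => h1 1 (by linear_combination e)
  obtain ⟨c₁, e1, m1⟩ : ∃ c₁, pr Q (D j) c = c₁ ∧ c₁ ∈ D j := ⟨_, rfl, pr_mem _ _⟩
  obtain ⟨c₂, e2, m2⟩ : ∃ c₂, pr Q (D l) c = c₂ ∧ c₂ ∈ D l := ⟨_, rfl, pr_mem _ _⟩
  obtain ⟨c₃, e3, m3⟩ : ∃ c₃, pr Q (D n) c = c₃ ∧ c₃ ∈ D n := ⟨_, rfl, pr_mem _ _⟩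
  have q1 : Q c₁ ≠ 0 := e1 ▸ hall j
  have q3 : Q c₃ ≠ 0 := e3 ▸ hall n
  rw [e1, e2] at hcl
  rw [e1, e2, e3] at hw
  obtain ⟨r, hr, r1, r2, r3⟩ : ∃ r, c = c₁ + c₂ + c₃ + r ∧ r ∈ perp Q (D j) ∧ r ∈ perp Q (D l) ∧
      r ∈ perp Q (D n) := by
    refine ⟨c - c₁ - c₂ - c₃, by abel, ?_, ?_, ?_⟩ <;> refine (h.od.nd _).pr_eq_zero_iff.1 ?_ <;>
      simp only [map_sub, e1, e2, e3, (h.od.nd _).pr_of_mem m1, (h.od.nd _).pr_of_mem m2,
        (h.od.nd _).pr_of_mem m3, h.od.pr_of_ne hjl m1, h.od.pr_of_ne hjn m1,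
        h.od.pr_of_ne hjl.symm m2, h.od.pr_of_ne hln m2, h.od.pr_of_ne hjn.symm m3,
        h.od.pr_of_ne hln.symm m3] <;> simp
  obtain ⟨y, hy, hcy, hQy⟩ := (h.od.nd j).exists_star (h.dim j) m1 q1
  have hX := eq_sp_of_indep (h.dim j) m1 hy (fun e => q1 (by simp [e])) fun e => by
    obtain ⟨s, rfl⟩ := mem_sp_one.1 e
    rw [pol_smul_right, pol_self] at hcy
    exact hQy (by rw [(mul_eq_zero.1 hcy).resolve_right (mul_ne_zero h2 q1)]; simp)
  obtain ⟨τ, σ, τ', σ', t1, t2, t3⟩ := exists_trace_prod h1 (κ := 2 * 2 * Q y / Q c₁)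
    (w := 2 * (Q c₁ + Q c₂ + 2 * Q c₃) / (x * Q c₁))
    (div_ne_zero (mul_ne_zero (mul_ne_zero h2 h2) hQy) q1)
    (div_ne_zero (mul_ne_zero h2 hw) (mul_ne_zero hx q1))
  have hm : ∀ α β : F, α • c₁ + β • y ∈ D j := fun α β =>
    (D j).add_mem ((D j).smul_mem _ m1) ((D j).smul_mem _ hy)
  have hQ : ∀ α β : F, Q (α • c₁ + β • y) = α * α * Q c₁ + β * β * Q y := fun α β => by
    rw [Q_add, Q_smul, Q_smul, pol_smul_left, pol_smul_right, hcy]; ring
  obtain ⟨ρ, hρ, ρ1, ρ2⟩ := (h.od.nd j).plane_swap (h.dim j) m1 (hm (τ / 2) σ) q1 (by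
    rw [hQ]; field_simp at t1 ⊢; linear_combination -t1)
  obtain ⟨s, hs, hsD, hss, s1, s2, s3⟩ := h.od2.exists_swap h.nd (by omega) hjl
  obtain ⟨s', hs', -, hss', s1', s2', -⟩ := h.od2.exists_swap h.nd (by omega) hjn
  have hss1 : ∀ v, s (s v) = v := fun v => by rw [← LinearEquiv.mul_apply, hss]; rfl
  obtain ⟨α, hα, α1, α2⟩ := (h.od.nd j).plane_swap (h.dim j) (s2 _ m2) (hm (x * τ' / 2) (x * σ'))
    (by rw [hs, hcl]; exact mul_ne_zero (mul_ne_zero hx hx) q1) (by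
      rw [hs, hQ, hcl]; field_simp at t2 ⊢; linear_combination -t2)
  set a := (x * τ' / 2) • c₁ + (x * σ') • y with ha
  set g := ρ * refl Q y with hg
  have gO : g ∈ OG Q ⊓ Fix (perp Q (D j)) :=
    Subgroup.mul_mem _ hρ ⟨refl_mem_OG y, refl_mem_Fix_perp hy⟩
  have g1 : g c₁ = (τ / 2) • c₁ + σ • y := by rw [hg, LinearEquiv.mul_apply, refl_of_perp hcy, ρ1]
  have g2 : g ((τ / 2) • c₁ + (-σ) • y) = c₁ := by
    rw [hg, LinearEquiv.mul_apply]
    refine Eq.trans (congrArg ρ ?_) ρ2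
    rw [refl_apply, polar_add_left, pol_smul_left, pol_smul_left, hcy, pol_self]
    match_scalars <;> field_simp <;> ring
  set J := refl Q (s' c₁) * refl Q (s' y) with hJ
  have JO : J ∈ OG Q ⊓ Fix (perp Q (D n)) :=
    Subgroup.mul_mem _ ⟨refl_mem_OG _, refl_mem_Fix_perp (s1' _ m1)⟩
      ⟨refl_mem_OG _, refl_mem_Fix_perp (s1' _ hy)⟩
  have J1 : J c₃ = -c₃ := by
    have := s2' _ m3
    rw [hX] at this
    obtain ⟨α, β, e⟩ := mem_sp_two.1 this
    have e' : c₃ = α • s' c₁ + β • s' y := by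
      rw [← _root_.map_smul, ← _root_.map_smul, ← map_add, ← e, ← LinearEquiv.mul_apply, hss']; rfl
    rw [e', hJ, refl_refl_apply]
    simp only [polar_add_left, pol_smul_left, OG_pol hs', hs' _, pol_self, hcy, pol_comm Q y c₁]
    match_scalars <;> field_simp <;> ring
  have sform : s = refl Q (c₁ - s c₁) * refl Q (y - s y) := by
    have o1 := h.od.orth j l hjl
    have o2 : ∀ u ∈ D j, ∀ v ∈ D j, polar Q (s u) v = 0 := fun u hu v hv =>
      h.od.orth l j hjl.symm _ (s1 u hu) v hv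
    have n1 : ∀ u ∈ D j, Q (u - s u) = 2 * Q u := fun u hu => by
      rw [Q_sub, hs, o1 u hu _ (s1 u hu)]; ring
    have k1 : ∀ u ∈ D j, (refl Q (c₁ - s c₁) * refl Q (y - s y)) u = s u ∧
        (refl Q (c₁ - s c₁) * refl Q (y - s y)) (s u) = u := fun u hu => by
      rw [hX] at hu
      obtain ⟨α, β, rfl⟩ := mem_sp_two.1 hu
      simp only [refl_refl_apply, n1 _ m1, n1 _ hy, map_add, _root_.map_smul, polar_add_left,
        polar_sub_left, polar_sub_right, pol_smul_left, OG_pol hs, pol_self, hcy, pol_comm Q y c₁,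
        o1 _ m1 _ (s1 _ m1), o1 _ m1 _ (s1 _ hy), o1 _ hy _ (s1 _ m1), o1 _ hy _ (s1 _ hy),
        o2 _ m1 _ m1, o2 _ m1 _ hy, o2 _ hy _ m1, o2 _ hy _ hy]
      constructor <;> match_scalars <;> field_simp <;> ring
    ext v
    have p1 : v - pr Q (D j) v - pr Q (D l) v ∈ perp Q (D j) :=
      Submodule.sub_mem _ ((h.od.nd j).sub_pr_mem v) (h.od.le_perp hjl.symm (pr_mem _ _))
    have p2 : v - pr Q (D j) v - pr Q (D l) v ∈ perp Q (D l) := by
      rw [sub_right_comm]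
      exact Submodule.sub_mem _ ((h.od.nd l).sub_pr_mem v) (h.od.le_perp hjl (pr_mem _ _))
    have p3 : ∀ u ∈ D j, polar Q (v - pr Q (D j) v - pr Q (D l) v) (u - s u) = 0 := fun u hu => by
      rw [polar_sub_right, mem_perp'.1 p1 u hu, mem_perp'.1 p2 _ (s1 u hu), sub_self]
    have e : v = pr Q (D j) v + s (s (pr Q (D l) v)) + (v - pr Q (D j) v - pr Q (D l) v) := by
      rw [hss1]; abel
    rw [e, map_add, map_add, map_add, map_add, (k1 _ (pr_mem _ _)).1,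
      (k1 _ (s2 _ (pr_mem _ _))).2, s3 _ p1 p2, hss1, LinearEquiv.mul_apply,
      refl_of_perp (p3 y hy), refl_of_perp (p3 _ m1)]
  have sJ : s * J ∈ Om Q := by
    have n1 : ∀ u ∈ D j, Q (u - s u) = 2 * Q u := fun u hu => by
      rw [Q_sub, hs, h.od.orth j l hjl u hu _ (s1 u hu)]; ring
    have := refl_four_mem_Om h.nd h.h5 (a := c₁ - s c₁) (b := y - s y) (c := s' c₁) (d := s' y)
      (s := 2 * Q c₁ * Q y) (by rw [n1 _ m1]; exact mul_ne_zero h2 q1)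
      (by rw [n1 _ hy]; exact mul_ne_zero h2 hQy) (by rwa [hs']) (by rwa [hs'])
      (by rw [n1 _ m1, n1 _ hy, hs', hs']; ring)
    rwa [← sform, mul_assoc] at this
  set S := α * s * α⁻¹ with hS
  have SO : S ∈ OG Q := (OG Q).mul_mem ((OG Q).mul_mem hα.1 hs) ((OG Q).inv_mem hα.1)
  have αD := h.od.DStab_of_fix h.nd hα.1 hα.2
  have gD := h.od.DStab_of_fix h.nd gO.1 gO.2
  have hO : g * S * g * J ∈ Om Q := by
    have := (Om Q).mul_mem ((Om Q).mul_mem ((Om Q).mul_mem (comm_mem_Om gO.1 SO)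
      (Om_conj SO (sq_mem_Om h.nd h.h5 gO.1))) (comm_mem_Om hα.1 hs)) sJ
    convert this using 1
    rw [hS]; group
  have hD : g * S * g * J ∈ DStab D := (DStab D).mul_mem ((DStab D).mul_mem ((DStab D).mul_mem gD
    ((DStab D).mul_mem ((DStab D).mul_mem αD hsD) ((DStab D).inv_mem αD))) gD)
    (h.od.DStab_of_fix h.nd JO.1 JO.2)
  have αi := (OG Q ⊓ Fix (perp Q (D j))).inv_mem hα
  have S1 : ∀ v ∈ perp Q (D j), v ∈ perp Q (D l) → S v = v := fun v h1 h2 => by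
    rw [hS, LinearEquiv.mul_apply, LinearEquiv.mul_apply, αi.2 v h1, s3 v h1 h2, hα.2 v h1]
  have S2 : S c₂ = a := by
    rw [hS, LinearEquiv.mul_apply, LinearEquiv.mul_apply, αi.2 _ (h.od.le_perp hjl.symm m2), α1]
  have S3 : S a = c₂ := by
    rw [hS, LinearEquiv.mul_apply, LinearEquiv.mul_apply, inv_apply_eq α1, hss1,
      hα.2 _ (h.od.le_perp hjl.symm m2)]
  have S4 : ∀ v ∈ D j, S v ∈ D l := fun v hv => by
    have := s1 _ ((Stab_of_Fix_perp h.nd αi v).1 hv)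
    rw [hS, LinearEquiv.mul_apply, LinearEquiv.mul_apply, hα.2 _ (h.od.le_perp hjl.symm this)]
    exact this
  have ma : a ∈ D j := hm _ _
  have mb := S4 _ (hm (τ / 2) σ)
  have mc := (Stab_of_Fix_perp h.nd gO a).1 ma
  have hc' : (g * S * g * J) c = g a + S ((τ / 2) • c₁ + σ • y) - c₃ + r := by
    have p3j := h.od.le_perp hjn.symm m3
    have p3l := h.od.le_perp hln.symm m3
    rw [hr, LinearEquiv.mul_apply, LinearEquiv.mul_apply, LinearEquiv.mul_apply]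
    simp only [map_add (J), J1, JO.2 _ r3, JO.2 _ (h.od.le_perp hjn m1),
      JO.2 _ (h.od.le_perp hln m2)]
    simp only [map_add g, map_neg g, g1, gO.2 _ r1, gO.2 _ p3j,
      gO.2 _ (h.od.le_perp hjl.symm m2)]
    rw [map_add S, map_add S, map_add S, map_neg S, S2, S1 _ r1 r2, S1 _ p3j p3l]
    simp only [map_add g, map_neg g, gO.2 _ r1, gO.2 _ p3j, gO.2 _ (h.od.le_perp hjl.symm mb)]
    abel
  have hz : c - (g * S * g * J) c = (c₁ - g a) + (c₂ - S ((τ / 2) • c₁ + σ • y)) + (2 : F) • c₃ := by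
    rw [hc', hr]; module
  have z1 := (D j).sub_mem m1 mc
  have z2 := (D l).sub_mem m2 mb
  have z3 := (D n).smul_mem (2 : F) m3
  obtain ⟨m, hm1⟩ := h.fin [j, l, n] (by simp)
  obtain ⟨m', hm2⟩ := h.fin [j, l, n, m] (by simp)
  simp only [List.mem_cons, List.not_mem_nil, or_false, not_or] at hm1 hm2
  have zp : ∀ m, m ≠ j → m ≠ l → m ≠ n → c - (g * S * g * J) c ∈ perp Q (D m) :=
    fun m h1 h2 h3 => by
      rw [hz]
      exact Submodule.add_mem _ (Submodule.add_mem _ (h.od.le_perp h1.symm z1)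
        (h.od.le_perp h2.symm z2)) (h.od.le_perp h3.symm z3)
  refine h.fin_pair (Ne.symm hm2.2.2.2) hQc (z := c - (g * S * g * J) c) ?_ (fun e => ?_)
    (by rw [sub_sub_cancel, Om_le_OG hO]) (by
      rw [sub_sub_cancel]; exact hc.trans (h.rel_map hD hO hd hc).symm)
    (zp m hm1.1 hm1.2.1 hm1.2.2) (zp m' hm2.1 hm2.2.1 hm2.2.2.1)
    fun e => hall m (by rw [(h.od.nd m).pr_of_perp e]; simp)
  · have f1 : polar Q c₁ (g a) = polar Q ((τ / 2) • c₁ + (-σ) • y) a := by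
      rw [← OG_pol gO.1 _ a, g2]
    have f2 : polar Q c₂ (S ((τ / 2) • c₁ + σ • y)) = polar Q a ((τ / 2) • c₁ + σ • y) := by
      rw [← OG_pol SO a, S3]
    have f3 : Q a = Q c₂ := by rw [← S2, SO]
    have f4 : Q ((τ / 2) • c₁ + σ • y) = Q c₁ := by rw [← g1, gO.1]
    rw [hz, Q_add, Q_add, polar_add_left, h.od.orth j l hjl _ z1 _ z2, h.od.orth j n hjn _ z1 _ z3,
      h.od.orth l n hln _ z2 _ z3, Q_sub, Q_sub, f1, f2, gO.1, SO, f3, f4, Q_smul, ha]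
    simp only [polar_add_left, polar_add_right, pol_smul_left, pol_smul_right, pol_self, hcy,
      pol_comm Q y c₁]
    field_simp at t3 ⊢
    linear_combination -2 * t3
  · have := congrArg (pr Q (D n)) (hz.symm.trans e)
    rw [map_add, map_add, h.od.pr_of_ne hjn z1, h.od.pr_of_ne hln z2, (h.od.nd n).pr_of_mem z3,
      _root_.map_zero, zero_add, zero_add] at this
    exact q3 (by rw [(smul_eq_zero.1 this).resolve_left h2]; simp)

theorem fin_sing {i j l : Fin t} (hjl : j ≠ l) {c d : V} (hd : d ∈ D i) (hc : Rel Q K c d)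
    (hQc : Q c ≠ 0) (hj : c ∉ perp Q (D j)) (hl : c ∉ perp Q (D l))
    (hQ : Q (pr Q (D j) c) = 0) : Om Q ≤ K :=
  h.fin_two (h.newS_of_sing hd hc hQc (fun e => hl (h.od.le_perp hjl e)) hj hQ (Or.inl (by
    have := (h.pl j).card (pr_mem _ _) (fun e => hj ((h.od.nd j).pr_eq_zero_iff.1 e)) hQ
    omega)))

theorem fin_three' {i j l m : Fin t} (hjl : j ≠ l) (hjm : j ≠ m) (hlm : l ≠ m) {c d : V}
    (hd : d ∈ D i) (hc : Rel Q K c d) (hQc : Q c ≠ 0) (hj : c ∉ perp Q (D j))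
    (hl : c ∉ perp Q (D l)) (hm : c ∉ perp Q (D m)) : Om Q ≤ K := by
  by_cases s1 : Q (pr Q (D j) c) = 0
  · exact h.fin_sing hjl hd hc hQc hj hl s1
  by_cases s2 : Q (pr Q (D l) c) = 0
  · exact h.fin_sing hjl.symm hd hc hQc hl hj s2
  by_cases h4 : (∃ s : F, s * s = -1) ∨ ∃ n, c ∈ perp Q (D n)
  · exact h.fin_conic hjl hjm hlm hd hc hQc s1 s2 hm h4
  push Not at h4
  by_cases s3 : ∃ n, Q (pr Q (D n) c) = 0
  · obtain ⟨n, hn⟩ := s3
    exact h.fin_sing (j := n) (l := j) (fun e => s1 (e ▸ hn)) hd hc hQc (h4.2 n) hj hn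
  push Not at s3
  obtain ⟨n, hn⟩ := h.fin [j, l, m] (by simp)
  obtain ⟨o, ho⟩ := h.fin [j, l, m, n] (by simp)
  simp only [List.mem_cons, List.not_mem_nil, or_false, not_or] at hn ho
  have h2 : (2 : F) ≠ 0 := fun e => h4.1 1 (by linear_combination e)
  have key : ∀ {j l m : Fin t}, j ≠ l → j ≠ m → l ≠ m → n ≠ j → n ≠ l → n ≠ m → o ≠ j → o ≠ l →
      o ≠ m → ∀ x : F, x ≠ 0 → Q (pr Q (D l) c) = x * x * Q (pr Q (D j) c) → Om Q ≤ K :=
    fun {j l m} hjl hjm hlm n1 n2 n3 o1 o2 o3 x hx e => by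
      by_cases w1 : Q (pr Q (D j) c) + Q (pr Q (D l) c) + 2 * Q (pr Q (D m) c) = 0
      swap
      · exact h.fin_swap h4.1 hjl hjm hlm hd hc hQc s3 hx e w1
      by_cases w2 : Q (pr Q (D j) c) + Q (pr Q (D l) c) + 2 * Q (pr Q (D n) c) = 0
      swap
      · exact h.fin_swap h4.1 hjl n1.symm n2.symm hd hc hQc s3 hx e w2
      by_cases w3 : Q (pr Q (D j) c) + Q (pr Q (D l) c) + 2 * Q (pr Q (D o) c) = 0
      swap
      · exact h.fin_swap h4.1 hjl o1.symm o2.symm hd hc hQc s3 hx e w3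
      have e1 : Q (pr Q (D n) c) = Q (pr Q (D m) c) :=
        mul_left_cancel₀ h2 (by linear_combination w2 - w1)
      have e2 : Q (pr Q (D o) c) = Q (pr Q (D m) c) :=
        mul_left_cancel₀ h2 (by linear_combination w3 - w1)
      refine h.fin_swap h4.1 n3.symm o3.symm (Ne.symm ho.2.2.2) hd hc hQc s3 one_ne_zero
        (by rw [e1]; ring) fun e => mul_ne_zero (mul_ne_zero h2 h2) (s3 m) ?_
      rw [e1, e2] at e; linear_combination e
  obtain ⟨x, hx, e | e | e⟩ := two_same_class (s3 j) (s3 l) (s3 m)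
  · exact key hjl.symm hlm hjm hn.2.1 hn.1 hn.2.2 ho.2.1 ho.1 ho.2.2.1 x hx e
  · exact key hjm.symm hlm.symm hjl hn.2.2 hn.1 hn.2.1 ho.2.2.1 ho.1 ho.2.1 x hx e
  · exact key hlm.symm hjm.symm hjl.symm hn.2.2 hn.2.1 hn.1 ho.2.2.1 ho.2.1 ho.1 x hx e

theorem good_two (hB : ¬ Bad Q D K) : Om Q ≤ K := by
  obtain ⟨i, d, hd, hQd, c, hcd, hc, hnew⟩ := h.exists_new hB
  have hQc : Q c ≠ 0 := by rwa [hcd]
  obtain ⟨j, l, hjl, hj, hl⟩ := h.od.exists_two h.nd (fun e => hQc (by simp [e])) hnew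
  by_cases s1 : Q (pr Q (D j) c) = 0
  · exact h.fin_sing hjl hd hc hQc hj hl s1
  obtain ⟨m, hm⟩ := h.fin [j, l] (by simp)
  obtain ⟨n, hn⟩ := h.fin [j, l, m] (by simp)
  simp only [List.mem_cons, List.not_mem_nil, or_false, not_or] at hm hn
  by_cases e0 : ∃ m, m ≠ j ∧ m ≠ l ∧ c ∉ perp Q (D m)
  · obtain ⟨m, h1, h2, h3⟩ := e0
    exact h.fin_three' hjl h1.symm h2.symm hd hc hQc hj hl h3
  push Not at e0
  have e2 := e0 n hn.1 hn.2.1
  obtain ⟨a, ha, hQa, hind, hp⟩ := (h.good j).exists_partner (h.dim j).ge (pr_mem _ _) s1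
  obtain ⟨ρ, hρ, ρ1, -⟩ := (h.od.nd j).plane_swap (h.dim j) (pr_mem _ _) ha s1 hQa.symm
  obtain ⟨s, hs, hsD, hss, t1, t2, t3⟩ := h.od2.exists_swap h.nd (by omega) (Ne.symm hm.2)
  obtain ⟨p, hp', p1, p2⟩ := h.lift n ((OG Q).mul_mem hs hρ.1)
    ((DStab D).mul_mem hsD (h.od.DStab_of_fix h.nd hρ.1 hρ.2))
  have k1 := h.rel_map p1 p2 hd hc
  rw [LinearEquiv.mul_apply, hp'.2 c e2, LinearEquiv.mul_apply] at k1
  obtain ⟨c₁, e1, m1⟩ : ∃ c₁, pr Q (D j) c = c₁ ∧ c₁ ∈ D j := ⟨_, rfl, pr_mem _ _⟩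
  obtain ⟨c₂, e2, m2⟩ : ∃ c₂, pr Q (D l) c = c₂ ∧ c₂ ∈ D l := ⟨_, rfl, pr_mem _ _⟩
  rw [e1] at s1 hQa hind hp ρ1
  have hr : c = c₁ + c₂ := by
    rw [← sub_eq_zero]
    refine h.od.eq_zero h.nd fun o => (h.od.nd o).pr_eq_zero_iff.1 ?_
    rw [map_sub, map_add]
    by_cases o1 : o = j
    · rw [o1, e1, (h.od.nd j).pr_of_mem m1, h.od.pr_of_ne hjl.symm m2]; simp
    by_cases o2 : o = l
    · rw [o2, e2, (h.od.nd l).pr_of_mem m2, h.od.pr_of_ne hjl m1]; simp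
    rw [(h.od.nd o).pr_of_perp (e0 o o1 o2), h.od.pr_of_ne (Ne.symm o1) m1,
      h.od.pr_of_ne (Ne.symm o2) m2]; simp
  have k2 : s (ρ c) = a + s c₂ := by
    rw [hr, map_add ρ, ρ1, hρ.2 _ (h.od.le_perp hjl.symm m2), map_add s,
      t3 _ (h.od.le_perp hjl ha) (h.od.le_perp (Ne.symm hm.1) ha)]
  have k3 : Q (a + s c₂) = Q c := by rw [← k2, hs, hρ.1]
  rw [k2] at k1
  have m3 := t1 _ m2
  have c20 : c₂ ≠ 0 := fun e => hl ((h.od.nd l).pr_eq_zero_iff.1 (e2.trans e))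
  have hφ : polar Q (a + s c₂) c / Q c ≠ 0 := by
    rw [polar_add_left, ← (h.od.nd j).pol_pr ha, e1, mem_perp.1 (e0 m hm.1 hm.2) _ m3, add_zero]
    exact div_ne_zero hp hQc
  refine h.fin_three' hjl (Ne.symm hm.1) (Ne.symm hm.2) hd (hc.refl_apply' k1)
    (by rwa [refl_mem_OG, k3]) (fun e => ?_) (fun e => ?_) fun e => ?_
  · have := (h.od.nd j).pr_of_perp e
    rw [refl_apply, map_sub, map_add, _root_.map_smul, e1, (h.od.nd j).pr_of_mem ha,
      h.od.pr_of_ne hm.1 m3, add_zero, sub_eq_zero] at this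
    exact hind (mem_sp_one.2 ⟨_, this⟩)
  · have := (h.od.nd l).pr_of_perp e
    rw [refl_apply, map_sub, map_add, _root_.map_smul, e2, h.od.pr_of_ne hjl ha,
      h.od.pr_of_ne hm.2 m3, add_zero, zero_sub, neg_eq_zero] at this
    exact smul_ne_zero hφ c20 this
  · have := (h.od.nd m).pr_of_perp e
    rw [refl_apply, map_sub, map_add, _root_.map_smul, (h.od.nd m).pr_of_perp (e0 m hm.1 hm.2),
      h.od.pr_of_ne (Ne.symm hm.1) ha, (h.od.nd m).pr_of_mem m3, zero_add, smul_zero,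
      sub_zero] at this
    exact c20 (s.map_eq_zero_iff.1 this)

end Two

theorem OD.max_two (h : OD Q D 2) (hN : ND Q) (ht : 5 ≤ t) (hP : ∀ i, PlOK Q (D i)) :
    Geo.IsMaximalIn (Om Q) (DStab D ⊓ Om Q) := by
  refine h.max_of hN (by rw [h.total]; omega) (by omega) (by omega) fun K hK => ?_
  have h2 : Two Q D K := ⟨hK, h, ht, hP⟩
  by_cases hS : ∃ j, NewS Q D K j
  · obtain ⟨j, hj⟩ := hS
    exact Or.inr (h2.fin_two hj)
  by_cases hB : Bad Q D K
  · exact Or.inl (h2.bad_two hB fun j hj => hS ⟨j, hj⟩)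
  · exact Or.inr (h2.good_two hB)

end Cfsg.Agent.H8
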