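import Cfsg.Agent.H8.Imp1

/-!
Maximality of stabilisers of orthogonal decompositions into members of dimension at least three,
and of non-degenerate subspaces in small dimension.
-/

set_option autoImplicit false
set_option linter.unusedSectionVars false

namespace Cfsg.Agent.H8

open QuadraticMap Module

variable {F V : Type*} [Field F] [AddCommGroup V] [Module F V] {Q : QuadraticForm F V}
variable [Finite F] [FiniteDimensional F V] {t : ℕ} {D : Fin t → Submodule F V}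

theorem exists_conic_point (h2 : (2 : F) ≠ 0) {a b : F} (ha : a ≠ 0) (hb : b ≠ 0) (c : F) :
    ∃ x y : F, a * x * x + b * y * y = c := by
  have := Fintype.ofFinite F
  obtain ⟨x, y, h⟩ := FiniteField.exists_root_sum_quadratic (R := F)
    (f := Polynomial.C a * Polynomial.X ^ 2)
    (g := Polynomial.C b * Polynomial.X ^ 2 - Polynomial.C c) (by simp [Polynomial.degree_C ha])
    (by
      rw [Polynomial.degree_sub_C] <;> simp [Polynomial.degree_C hb])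
    (FiniteField.odd_card_of_char_ne_two fun e => h2 (by
      have := ringChar.spec F 2; rw [e] at this; exact_mod_cast this.2 dvd_rfl))
  exact ⟨x, y, by simp at h; linear_combination h⟩

theorem exists_phi (h2 : (2 : F) ≠ 0) (hq : 4 ≤ Nat.card F) {ν δ β : F} (hν : ν ≠ 0) (hδ : δ ≠ 0)
    (hβ : β ≠ 0) : ∃ φ s : F, φ ≠ 0 ∧ ν + φ * φ * δ = s * s * β ∧ (s ≠ 0 ∨ ∃ r, ν = r * r * β) := by
  obtain ⟨s, φ, h⟩ := exists_conic_point h2 hβ (neg_ne_zero.2 hδ) ν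
  by_cases hφ : φ = 0
  · subst hφ
    obtain ⟨l, hl, hl'⟩ := exists_roots_list (a := -δ) (b := 0) (c := β) (Or.inr (Or.inr hβ))
    obtain ⟨r, hr⟩ := exists_not_mem_list (0 :: l) (by simp; omega)
    simp only [List.mem_cons, not_or] at hr
    have h1 : β - δ * r * r ≠ 0 := fun e => hr.2 (hl' r (by linear_combination e))
    have hs : s ≠ 0 := fun e => hν (by rw [← h, e]; ring)
    obtain ⟨κ, hκ, hκ0⟩ : ∃ κ : F, κ * (β - δ * r * r) = 2 * β * s ∧ κ ≠ 0 :=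
      ⟨_, div_mul_cancel₀ _ h1, div_ne_zero (mul_ne_zero (mul_ne_zero h2 hβ) hs) h1⟩
    exact ⟨κ * r, s - κ, mul_ne_zero hκ0 hr.1, by linear_combination -h - κ * hκ,
      Or.inr ⟨s, by linear_combination -h⟩⟩
  by_cases hs : s = 0
  · subst hs
    obtain ⟨l, hl, hl'⟩ := exists_roots_list (a := β) (b := 0) (c := -δ) (Or.inl hβ)
    obtain ⟨r, hr⟩ := exists_not_mem_list (0 :: l) (by simp; omega)
    simp only [List.mem_cons, not_or] at hr
    have h1 : β * r * r - δ ≠ 0 := fun e => hr.2 (hl' r (by linear_combination e))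
    obtain ⟨κ, hκ, hκ0⟩ : ∃ κ : F, κ * (β * r * r - δ) = 2 * δ * φ ∧ κ ≠ 0 :=
      ⟨_, div_mul_cancel₀ _ h1, div_ne_zero (mul_ne_zero (mul_ne_zero h2 hδ) hφ) h1⟩
    have key : ν + (φ + κ) * (φ + κ) * δ = κ * r * (κ * r) * β := by
      linear_combination -h - κ * hκ
    by_cases h3 : φ + κ = 0
    · rw [h3] at key
      exact ⟨φ, 0, hφ, by linear_combination -h, Or.inr ⟨κ * r, by linear_combination key⟩⟩
    · exact ⟨_, _, h3, key, Or.inl (mul_ne_zero hκ0 hr.1)⟩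
  · exact ⟨φ, s, hφ, by linear_combination -h, Or.inl hs⟩

theorem exists_witt_odd (h2 : (2 : F) ≠ 0) {X : Submodule F V} {x y : V} (hx : x ∈ X) (hy : y ∈ X)
    (hxy : Q x = Q y) (h0 : Q x ≠ 0) : ∃ g ∈ OG Q ⊓ Fix (perp Q X), g x = y := by
  by_cases h : Q (x - y) = 0
  · have h1 : Q (x - -y) ≠ 0 := fun e => by
      rw [Q_sub, Q_neg, polar_neg_right] at e
      rw [Q_sub] at h
      exact mul_ne_zero (mul_ne_zero h2 h2) h0 (by linear_combination e + h + 2 * hxy)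
    refine ⟨refl Q y * refl Q (x - -y), ⟨(OG Q).mul_mem (refl_mem_OG _) (refl_mem_OG _),
      (Fix _).mul_mem (refl_mem_Fix_perp hy) (refl_mem_Fix_perp (X.sub_mem hx (X.neg_mem hy)))⟩, ?_⟩
    rw [LinearEquiv.mul_apply, refl_swap (by rw [Q_neg, hxy]) h1, map_neg, refl_apply, pol_self,
      mul_div_cancel_right₀ _ (hxy ▸ h0)]
    module
  · exact ⟨refl Q (x - y), ⟨refl_mem_OG _, refl_mem_Fix_perp (X.sub_mem hx hy)⟩, refl_swap hxy h⟩

theorem Stab_of_Fix_perp (hN : ND Q) {X : Submodule F V} {g : V ≃ₗ[F] V}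
    (hg : g ∈ OG Q ⊓ Fix (perp Q X)) : g ∈ Stab X := by
  have := Stab_perp hg.1 (Fix_le_Stab _ hg.2)
  rwa [hN.perp_perp] at this

theorem OD.rigid {k : ℕ} (h : OD Q D k) (hN : ND Q) (hk : 2 ≤ k) (hG : ∀ i, Good Q (D i)) :
    Rigid Q D := by
  intro x hx i d hd hQd hm
  refine h.od0.mem_DStab (fun l hl => ?_) fun j => ?_
  · have := h.dim l; rw [hl, finrank_bot] at this; omega
  · obtain ⟨c, hc, hQc⟩ := (h.nd j).exists_value_two hN (by rw [h.dim]; exact hk) (Q d)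
    obtain ⟨l, hl⟩ := (hG j).maps h.od0 hx hc (by rwa [hQc]) fun a ha hQa =>
      hm j a ha (hQa.trans hQc)
    exact ⟨l, by rw [h.dim, h.dim], hl⟩

/-- There is a Siegel transformation centred in a member which does not preserve it. -/
def NewS (Q : QuadraticForm F V) (D : Fin t → Submodule F V) (K : Subgroup (V ≃ₗ[F] V))
    (j : Fin t) : Prop := ∃ u ∈ D j, u ≠ 0 ∧ Q u = 0 ∧ ∃ v ∈ MS Q K u, v ∉ D j

theorem not_NewS {K : Subgroup (V ≃ₗ[F] V)} {j : Fin t} (h : ¬ NewS Q D K j) :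
    ∀ u ∈ D j, u ≠ 0 → Q u = 0 → MS Q K u ≤ D j := fun u h1 h2 h3 v hv => by
  by_contra e; exact h ⟨u, h1, h2, h3, v, hv, e⟩

theorem OD.hsw {k : ℕ} (h : OD Q D k) (hN : ND Q) (hk : 0 < k) {j : Fin t} {u : V} (hu : u ∈ D j) :
    ∀ l m, l ≠ j → m ≠ j → l ≠ m → ∃ s ∈ OG Q, s ∈ DStab D ∧ s u = u ∧
      ∀ x ∈ D m, ∃ y ∈ D l, s y = x := fun l m hl hm hlm => by
  obtain ⟨s, hs, hsD, hss, -, h2, h3⟩ := h.exists_swap hN hk hlm
  exact ⟨s, hs, hsD, h3 u (h.od0.le_perp hl.symm hu) (h.od0.le_perp hm.symm hu), fun x hx =>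
    ⟨s x, h2 x hx, by rw [← LinearEquiv.mul_apply, hss]; rfl⟩⟩

theorem OD.max_of {k : ℕ} (h : OD Q D k) (hN : ND Q) (h6 : 6 ≤ finrank F V) (hk : 0 < k)
    (ht : 2 ≤ t) (hK : ∀ K, Over Q D K → K ≤ DStab D ∨ Om Q ≤ K) :
    Geo.IsMaximalIn (Om Q) (DStab D ⊓ Om Q) := by
  have hb : ∀ l, D l ≠ ⊥ := fun l hl => by
    have := h.dim l; rw [hl, finrank_bot] at this; omega
  refine isMaximalIn_of ?_ fun K h1 h2 g hg hgD => ?_
  · have := Om_not_le_DStab hN h6 h.indep (i := ⟨0, by omega⟩) (j := ⟨1, by omega⟩) (by simp)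
      (hb _) (hb _)
    exact SetLike.not_le_iff_exists.1 this
  · rcases hK K ⟨h.od0, hN, by omega, h2.trans Om_le_OG, fun g a b => h1 ⟨a, b⟩⟩ with e | e
    · exact absurd (e hg) hgD
    · exact e

theorem OD.max_of_three {k : ℕ} (h : OD Q D k) (hN : ND Q) (h6 : 6 ≤ finrank F V) (hk : 3 ≤ k)
    (ht : 2 ≤ t) (hG : ∀ i, Good Q (D i))
    (hgood : ∀ K, Over Q D K → ¬ Bad Q D K → ∃ j, NewS Q D K j) :
    Geo.IsMaximalIn (Om Q) (DStab D ⊓ Om Q) := by
  refine h.max_of hN h6 (by omega) ht fun K hK => ?_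
  by_cases hS : ∃ j, NewS Q D K j
  · obtain ⟨j, u, hu, hu0, hQu, v, hv, hvj⟩ := hS
    exact Or.inr (hK.fin_three (by rw [h.dim]; exact hk) hu hQu hu0 hv hvj
      (fun l _ e => by have := e.2.1; rw [h.dim] at this; omega) (h.hsw hN (by omega) hu))
  · left
    by_cases hB : Bad Q D K
    · exact hK.bad_three hB (h.rigid hN (by omega) hG) (fun i _ _ _ => by rw [h.dim]; omega)
        (j := ⟨0, by omega⟩) (by rw [h.dim]; exact hk) (hG _) (not_NewS fun e => hS ⟨_, e⟩)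
    · exact absurd (hgood K hK hB) hS

namespace Over

variable {K : Subgroup (V ≃ₗ[F] V)} (h : Over Q D K)
include h

theorem exists_new (hB : ¬ Bad Q D K) : ∃ i, ∃ d ∈ D i, Q d ≠ 0 ∧ ∃ c, Q c = Q d ∧ Rel Q K c d ∧
    ∀ l, c ∉ D l := by
  unfold Bad at hB
  push Not at hB
  exact hB

theorem newS_of_perp {i j : Fin t} {c d u : V} (hd : d ∈ D i) (hc : Rel Q K c d) (hQc : Q c ≠ 0)
    (hcj : c ∉ D j) (hQ : Q (pr Q (D j) c) ≠ 0) (hu : u ∈ D j) (hu0 : u ≠ 0) (hQu : Q u = 0)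
    (huc : polar Q (pr Q (D j) c) u = 0) : NewS Q D K j :=
  ⟨u, hu, hu0, hQu, c, h.MS_of_perp hd hc hQc hu hQu
    (by rwa [(h.od.nd j).pol_pr_left hu, pol_comm] at huc) (fun e => by
      obtain ⟨s, hs⟩ := mem_sp_one.1 e
      exact hQ (by rw [hs, Q_smul, hQu, mul_zero])), hcj⟩

theorem newS_of_four {i j : Fin t} {c d : V} (hd : d ∈ D i) (hc : Rel Q K c d) (hQc : Q c ≠ 0)
    (hcj : c ∉ D j) (hQ : Q (pr Q (D j) c) ≠ 0) (h4 : 4 ≤ finrank F (D j)) : NewS Q D K j := by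
  obtain ⟨u, hu, hu0, huc, hQu⟩ := exists_sing Q (D j) [] [pr Q (D j) c] (by simpa using h4)
  exact h.newS_of_perp hd hc hQc hcj hQ hu (by simpa [sp_nil] using hu0) hQu (huc _ (by simp))

theorem newS_of_sing {i j : Fin t} {c d : V} (hd : d ∈ D i) (hc : Rel Q K c d) (hQc : Q c ≠ 0)
    (hcj : c ∉ D j) (hj : c ∉ perp Q (D j)) (hQu : Q (pr Q (D j) c) = 0)
    (h4 : 4 ≤ Nat.card F ∨ Rel Q K c (c - pr Q (D j) c)) : NewS Q D K j :=
  ⟨_, pr_mem _ _, fun e => hj ((h.od.nd j).pr_eq_zero_iff.1 e), hQu, c,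
    h.MS_of_sing hd hc hQc hj hQu h4, hcj⟩

theorem exists_angle (h2 : (2 : F) ≠ 0) {j : Fin t} (h3 : 3 ≤ finrank F (D j)) {c : V}
    (hQ : Q (pr Q (D j) c) ≠ 0) (ν φ : F) : ∃ e ∈ D j, Q e = ν ∧ polar Q e c = φ := by
  set x := pr Q (D j) c with hx
  have hxD : x ∈ D j := pr_mem _ _
  have hE := (h.od.nd j).inf_perp_nd (sp_le.2 (by simp [hxD])) (ndOn_one h2 hQ)
  have hd := finrank_le_inf_perp_sp (Q := Q) (D j) [x]
  simp only [List.length_cons, List.length_nil] at hd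
  obtain ⟨w, hw, hQw⟩ := hE.exists_value_two h.nd (by omega)
    (ν - φ / (2 * Q x) * (φ / (2 * Q x)) * Q x)
  have hxw : polar Q x w = 0 := mem_perp_sp.1 hw.2 x (by simp)
  have hm := (D j).add_mem ((D j).smul_mem (φ / (2 * Q x)) hxD) hw.1
  refine ⟨_, hm, ?_, ?_⟩
  · rw [Q_add, Q_smul, pol_smul_left, hxw, hQw]; ring
  · rw [← (h.od.nd j).pol_pr hm, ← hx, polar_add_left, pol_smul_left, pol_self, pol_comm Q w, hxw]
    field_simp; ring

/-- Reflecting a vector of a member in a class element. -/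
theorem refl_new {i j : Fin t} {c d e : V} (hd : d ∈ D i) (hc : Rel Q K c d) (hcd : Q c = Q d)
    (hQc : Q c ≠ 0) (he : e ∈ D j) (hQe : Q e = Q c) {φ : F} (hφ : polar Q e c = φ * Q c) :
    Rel Q K (e - φ • c) d ∧ Q (e - φ • c) = Q d ∧
      pr Q (D j) (e - φ • c) = e - φ • pr Q (D j) c ∧
      Q (e - φ • pr Q (D j) c) = Q c + φ * φ * (Q (pr Q (D j) c) - Q c) ∧
      ∀ l, l ≠ j → pr Q (D l) (e - φ • c) = -φ • pr Q (D l) c := by
  have e1 : refl Q c e = e - φ • c := by rw [refl_apply, hφ, mul_div_cancel_right₀ _ hQc]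
  refine ⟨?_, ?_, ?_, ?_, fun l hl => ?_⟩
  · rw [← e1]; exact hc.refl_apply' (h.rel_of_norm he hd (hQe.trans hcd))
  · rw [← e1, refl_mem_OG, hQe, hcd]
  · rw [map_sub, _root_.map_smul, (h.od.nd j).pr_of_mem he]
  · rw [Q_sub, Q_smul, pol_smul_right, (h.od.nd j).pol_pr he, hφ, hQe]; ring
  · rw [map_sub, _root_.map_smul, h.od.pr_of_ne hl.symm he, zero_sub, neg_smul]

theorem three_aux (h2 : (2 : F) ≠ 0) (hq : 4 ≤ Nat.card F) {i j l : Fin t}
    (h3 : finrank F (D j) = 3) {c d : V} (hd : d ∈ D i) (hc : Rel Q K c d) (hcd : Q c = Q d)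
    (hQc : Q c ≠ 0) (hjl : j ≠ l) (hl : c ∉ perp Q (D l)) (hQ : Q (pr Q (D j) c) ≠ 0)
    (hδ : Q (pr Q (D j) c) ≠ Q c) : NewS Q D K j := by
  obtain ⟨u, hu, hu0, hQu⟩ := exists_sing_three Q (T := D j) (by omega)
  have hd1 := finrank_le_inf_perp_sp (Q := Q) (D j) [u]
  simp only [List.length_cons, List.length_nil] at hd1
  obtain ⟨v, hv, hQv⟩ := (h.od.nd j).exists_nonsing h.nd (T := D j ⊓ perp Q (sp F [u]))
    inf_le_left (by omega)
  have huv : polar Q u v = 0 := mem_perp_sp.1 hv.2 u (by simp)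
  have W : ∀ c', Rel Q K c' d → Q c' ≠ 0 → c' ∉ perp Q (D l) → ∀ s, s ≠ 0 →
      Q (pr Q (D j) c') = s * s * Q v → NewS Q D K j := fun c' h1 h1' h4 s hs h5 => by
    have h0 : Q (s • v) ≠ 0 := by rw [Q_smul]; exact mul_ne_zero (mul_ne_zero hs hs) hQv
    obtain ⟨g, hg, hgv⟩ := exists_witt_odd h2 ((D j).smul_mem s hv.1) (pr_mem (D j) c')
      (by rw [h5, Q_smul]) h0
    refine h.newS_of_perp hd h1 h1' (fun e => h4 (h.od.le_perp hjl e))
      (by rw [← hgv, hg.1]; exact h0) ((Stab_of_Fix_perp h.nd hg u).1 hu)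
      (fun e => hu0 (g.map_eq_zero_iff.1 e)) (by rw [hg.1, hQu]) ?_
    rw [← hgv, OG_pol hg.1, pol_smul_left, pol_comm, huv, mul_zero]
  obtain ⟨φ, s, hφ, h4, h5⟩ := exists_phi h2 hq hQc (sub_ne_zero.2 hδ) hQv
  obtain ⟨e, he, hQe, hec⟩ := h.exists_angle h2 h3.ge hQ (Q c) (φ * Q c)
  obtain ⟨k1, k2, k3, k4, k5⟩ := h.refl_new hd hc hcd hQc he hQe hec
  have k6 : e - φ • c ∉ perp Q (D l) := fun e => hl ((h.od.nd l).pr_eq_zero_iff.1 (by
    have := (h.od.nd l).pr_of_perp e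
    rw [k5 l hjl.symm] at this
    exact (smul_eq_zero.1 this).resolve_left (neg_ne_zero.2 hφ)))
  have k7 : Q (e - φ • c) ≠ 0 := by rw [k2, ← hcd]; exact hQc
  by_cases hs : s = 0
  · obtain ⟨r, hr⟩ := h5.resolve_left (not_not.2 hs)
    by_cases h6 : e - φ • c ∈ perp Q (D j)
    · have h7 := (h.od.nd j).pr_of_perp h6
      rw [k3, sub_eq_zero] at h7
      rw [h7, Q_smul, hr] at hQe
      refine W c hc hQc hl (r / φ) (div_ne_zero (fun e => hQc (by rw [hr, e]; ring)) hφ) ?_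
      field_simp; linear_combination hQe
    · exact h.newS_of_sing hd k1 k7 (fun e => k6 (h.od.le_perp hjl e)) h6
        (by rw [k3, k4, h4, hs]; ring) (Or.inl hq)
  · exact W _ k1 k7 k6 s hs (by rw [k3, k4, h4])

theorem good_three (h2 : (2 : F) ≠ 0) (hq : 4 ≤ Nat.card F) (h3 : ∀ j, finrank F (D j) = 3)
    (hB : ¬ Bad Q D K) : ∃ j, NewS Q D K j := by
  obtain ⟨i, d, hd, hQd, c, hcd, hc, hnew⟩ := h.exists_new hB
  have hQc : Q c ≠ 0 := by rwa [hcd]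
  obtain ⟨j, l, hjl, hj, hl⟩ := h.od.exists_two h.nd (fun e => hQc (by simp [e])) hnew
  by_cases s1 : Q (pr Q (D j) c) = 0
  · exact ⟨j, h.newS_of_sing hd hc hQc (hnew j) hj s1 (Or.inl hq)⟩
  by_cases s2 : Q (pr Q (D l) c) = 0
  · exact ⟨l, h.newS_of_sing hd hc hQc (hnew l) hl s2 (Or.inl hq)⟩
  by_cases s3 : Q (pr Q (D l) c) = Q c
  swap
  · exact ⟨l, h.three_aux h2 hq (h3 l) hd hc hcd hQc hjl.symm hj s2 s3⟩
  by_cases s4 : Q (pr Q (D j) c) = Q c
  swap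
  · exact ⟨j, h.three_aux h2 hq (h3 j) hd hc hcd hQc hjl hl s1 s4⟩
  obtain ⟨φ, hφ⟩ := exists_not_mem_list [(0 : F), 1, -1] (by simp; omega)
  simp only [List.mem_cons, List.not_mem_nil, or_false, not_or] at hφ
  obtain ⟨e, he, hQe, hec⟩ := h.exists_angle h2 (h3 j).ge s1 (Q c) (φ * Q c)
  obtain ⟨k1, k2, k3, k4, k5⟩ := h.refl_new hd hc hcd hQc he hQe hec
  have k7 : Q (pr Q (D l) (e - φ • c)) = φ * φ * Q c := by rw [k5 l hjl.symm, Q_smul, s3]; ring
  refine ⟨l, h.three_aux h2 hq (h3 l) hd k1 k2 (by rw [k2]; exact hQd) hjl.symm (fun e => ?_)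
    (by rw [k7]; exact mul_ne_zero (mul_ne_zero hφ.1 hφ.1) hQc) fun e => ?_⟩
  · have := (h.od.nd j).pr_of_perp e
    rw [k3] at this
    rw [this, s4] at k4
    exact hQc (by simpa using k4.symm)
  · rw [k7, k2, ← hcd] at e
    have : (φ - 1) * (φ + 1) * Q c = 0 := by linear_combination e
    rcases mul_eq_zero.1 ((mul_eq_zero.1 this).resolve_right hQc) with e | e
    · exact hφ.2.1 (by linear_combination e)
    · exact hφ.2.2 (by linear_combination e)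

end Over

theorem OD.max_four {k : ℕ} (h : OD Q D k) (hN : ND Q) (hk : 4 ≤ k) (ht : 2 ≤ t)
    (hG : ∀ i, Good Q (D i)) : Geo.IsMaximalIn (Om Q) (DStab D ⊓ Om Q) := by
  refine h.max_of_three hN (by rw [h.total]; nlinarith) (by omega) ht hG fun K hK hB => ?_
  obtain ⟨i, d, hd, hQd, c, hcd, hc, hnew⟩ := hK.exists_new hB
  have hQc : Q c ≠ 0 := by rwa [hcd]
  obtain ⟨j, hj⟩ := h.od0.exists_nonsing_pr hN hQc
  exact ⟨j, hK.newS_of_four hd hc hQc (hnew j) hj (by rw [h.dim]; exact hk)⟩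

theorem OD.max_three (h : OD Q D 3) (hN : ND Q) (ht : 2 ≤ t) (h2 : (2 : F) ≠ 0)
    (hq : 4 ≤ Nat.card F) : Geo.IsMaximalIn (Om Q) (DStab D ⊓ Om Q) :=
  h.max_of_three hN (by rw [h.total]; omega) le_rfl ht
    (fun i => (h.nd i).good_of_three hN h2 (h.dim i) hq)
    fun _ hK hB => hK.good_three h2 hq h.dim hB

theorem NDOn.good_of_four (hN : ND Q) {X : Submodule F V} (hX : NDOn Q X) (h4 : 4 ≤ finrank F X)
    (hp : ¬ (Nat.card F = 2 ∧
      ∃ U, U ≤ X ∧ (∀ x ∈ U, Q x = 0) ∧ 2 * finrank F U = 4 ∧ finrank F X = 4)) : Good Q X := by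
  by_cases h2 : (2 : F) = 0
  · by_cases hq : Nat.card F = 2
    · exact hX.good_of_two hN hq h4 fun e => hp ⟨hq, e⟩
    · have := Finite.one_lt_card (α := F)
      exact hX.good_of_card (Or.inr (Or.inl ⟨h2, by omega⟩))
  · exact hX.good_of_odd hN h2 h4

/-- Stabilisers of non-degenerate subspaces of dimension at least four. -/
theorem nondeg_max_four (hN : ND Q) (h5 : 5 ≤ finrank F V) {X : Submodule F V} (hX : NDOn Q X)
    (h4 : 4 ≤ finrank F X) (h1 : X ≠ ⊤) (hle : finrank F (perp Q X) ≤ finrank F X) (hG : Good Q X)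
    (hiso : ∀ g ∈ OG Q, X.map (g : V →ₗ[F] V) ≠ perp Q X)
    (hex : ¬ (Nat.card F ≤ 3 ∧ finrank F (perp Q X) = 2 ∧ ∃ x ∈ perp Q X, x ≠ 0 ∧ Q x = 0)) :
    Geo.IsMaximalIn (Om Q) (Stab X ⊓ Om Q) := by
  have h0 : X ≠ ⊥ := fun e => by rw [e, finrank_bot] at h4; omega
  let D : Fin 2 → Submodule F V := ![X, perp Q X]
  have hD : OD0 Q D := ⟨Fin.forall_fin_two.2 ⟨hX, hX.perp hN⟩, Fin.forall_fin_two.2
      ⟨Fin.forall_fin_two.2 ⟨fun e => absurd rfl e, fun _ x hx y hy => hy x hx⟩,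
        Fin.forall_fin_two.2 ⟨fun _ x hx y hy => by rw [pol_comm]; exact hx y hy,
          fun e => absurd rfl e⟩⟩, by
    rw [eq_top_iff, ← hX.isCompl.sup_eq_top]
    exact sup_le (le_iSup D 0) (le_iSup D 1)⟩
  have key : ∀ g ∈ OG Q, (∃ l, ∀ x ∈ X, g x ∈ D l) → g ∈ Stab X := fun g hg ⟨l, hl⟩ => by
    fin_cases l
    · exact mem_Stab_of_maps hl
    · exact absurd (map_eq_of_maps hl hle) (hiso g hg)
  have key' : ∀ g ∈ OG Q, g ∈ Stab X → g ∈ DStab D := fun g hg hgX =>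
    mem_DStab_of_Stab (Fin.forall_fin_two.2 ⟨hgX, Stab_perp hg hgX⟩)
  refine isMaximalIn_of (exists_Om_not_Stab hN h5 h0 h1) fun K hK1 hK2 g hg hgX => ?_
  have hK : Over Q D K := ⟨hD, hN, h5, hK2.trans Om_le_OG, fun g h1 h2 =>
    hK1 ⟨key g (Om_le_OG h2) (DStab_maps h1 0), h2⟩⟩
  have hS : NewS Q D K 0 := by
    by_contra hS
    by_cases hB : Bad Q D K
    · refine hgX (key g (hK.le hg) (DStab_maps (hK.bad_three hB (fun x hx i d hd hQd hm => ?_)
        ?_ (j := 0) (by change 3 ≤ finrank F X; omega) hG (not_NewS hS) hg) 0))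
      · obtain ⟨c, hc, hQc⟩ := hX.exists_value_two hN (by omega) (Q d)
        exact key' x hx (key x hx (hG.maps hD hx hc (by rwa [hQc]) fun a ha hQa =>
          hm 0 a ha (hQa.trans hQc)))
      · refine Fin.forall_fin_two.2 ⟨fun _ _ _ => by change 2 ≤ finrank F X; omega,
          Fin.forall_fin_two.2 ⟨fun _ e => ?_, fun e => absurd rfl e⟩⟩
        change finrank F (perp Q X) = finrank F X at e
        change 2 ≤ finrank F (perp Q X); omega
    · obtain ⟨i, d, hd, hQd, c, hcd, hc, hnew⟩ := hK.exists_new hB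
      have hQc : Q c ≠ 0 := by rwa [hcd]
      by_cases s1 : Q (pr Q X c) = 0
      · refine hS (hK.newS_of_sing hd hc hQc (hnew 0) (hnew 1) s1 (Or.inr (hc.trans
          (hK.rel_of_norm (j := 1) hd (hX.sub_pr_mem c) ?_))))
        change _ = Q (c - pr Q X c)
        rw [hX.Q_sub_pr, s1, hcd, sub_zero]
      · exact hS (hK.newS_of_four hd hc hQc (hnew 0) s1 h4)
  obtain ⟨u, hu, hu0, hQu, v, hv, hvj⟩ := hS
  refine hK.fin_three (j := 0) (by change 3 ≤ finrank F X; omega) hu hQu hu0 hv hvj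
    (Fin.forall_fin_two.2 ⟨fun e => absurd rfl e, fun _ => hex⟩) fun l m h1 h2 h3 => ?_
  exfalso
  fin_cases l <;> fin_cases m <;> simp_all

end Cfsg.Agent.H8
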