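import Cfsg.Agent.H7.SL4a

/-!
The monomial group is maximal in `SL₅(q)`, `q ≥ 5`.
-/

set_option autoImplicit false
set_option linter.unusedSectionVars false

namespace Cfsg.Agent.H8.L5a

open Module Cfsg.Agent.H7 Cfsg.Agent.H1 Cfsg.Agent.H1.Root Cfsg.Agent.H1.C2b Cfsg.Agent.H1.C2c
  Cfsg.Agent.H1.C2d Cfsg.Agent.H7.SL4a
open scoped Matrix MatrixGroups

variable {F : Type*} [Field F] {K : Subgroup ((Fin 5 → F) ≃ₗ[F] (Fin 5 → F))}

theorem iter5 : ∀ (τ : Fin 5 → Fin 5) (j : Fin 5), (∀ i, τ (τ (τ (τ (τ i)))) = i) → τ j = j →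
    ∀ i, τ i = i := by
  decide +kernel

theorem col_eq {ι : Type} [Fintype ι] [DecidableEq ι] (g : (ι → F) ≃ₗ[F] (ι → F)) {i k : ι} {c : F}
    (h : g (ee F i) = c • g (ee F k)) : i = k := by
  by_contra hne
  rw [← map_smul] at h
  have := congrFun (g.injective h) i
  simp [ee_ne hne] at this

/-- normalised frame -/
theorem exists_frame (hK : HasMono K) (hR : Rigid K) {g : (Fin 5 → F) ≃ₗ[F] (Fin 5 → F)} (hg : g ∈ K)
    (j : Fin 5) : ∃ G : (Fin 5 → F) ≃ₗ[F] (Fin 5 → F),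
      (∀ i a, G (ee F i) a = 0 ↔ g (ee F i) a = 0) ∧ (∀ a, g (ee F j) a ≠ 0 → G (ee F j) a = 1) ∧
      ∀ σ : Equiv.Perm (Fin 5), Equiv.Perm.sign σ = 1 → (∀ a, g (ee F j) a = 0 → σ a = a) →
        ∀ i, ∃ i', ∃ c : F, c ≠ 0 ∧ pm F σ (G (ee F i)) = c • G (ee F i') := by
  classical
  set v := g (ee F j) with hv
  let d : Fin 5 → Fˣ := fun a => if h : v a = 0 then 1 else Units.mk0 (v a) h
  let G := (dg d)⁻¹ * g
  have hG : ∀ x a, G x a = (d a : F)⁻¹ * g x a := fun x a => dg_symm_apply d _ a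
  have hG' : ∀ x, g x = dg d (G x) := fun x => by simp [G]
  have hv1 : ∀ a, v a ≠ 0 → G (ee F j) a = 1 := fun a ha => by simp [hG, d, ha, ← hv]
  refine ⟨G, fun i a => by simp [hG], hv1, fun σ hσ hσ' i => ?_⟩
  obtain ⟨i', c, hc, e⟩ := hR.perm hg (conj_perm_mem hK d hσ) (j := j) (by
    rw [hG']
    simp only [LinearEquiv.mul_apply, LinearEquiv.coe_inv, LinearEquiv.symm_apply_apply]
    congr 1
    ext a
    rw [pm_apply]
    by_cases ha : v a = 0
    · rw [hσ' a ha]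
    · rw [hv1 a ha, hv1]
      intro h0
      have := σ.injective (hσ' _ h0)
      exact ha (this ▸ h0)) i
  refine ⟨i', c, hc, (dg d).injective ?_⟩
  rw [map_smul, ← hG', ← e]; rfl

theorem eig5 (G : (Fin 5 → F) ≃ₗ[F] (Fin 5 → F)) {j : Fin 5} (hj : ∀ a, G (ee F j) a = 1)
    {σ : Equiv.Perm (Fin 5)} (h5 : ∀ a, σ (σ (σ (σ (σ a)))) = a)
    (h : ∀ i, ∃ i', ∃ c : F, c ≠ 0 ∧ pm F σ (G (ee F i)) = c • G (ee F i')) (i : Fin 5) :
    ∃ c : F, ∀ a, G (ee F i) (σ a) = c * G (ee F i) a := by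
  choose τ c hc e using h
  have e' : ∀ i a, G (ee F i) (σ a) = c i * G (ee F (τ i)) a := fun i a => by
    simpa using congrFun (e i) a
  have h1 : ∀ i, τ (τ (τ (τ (τ i)))) = i := by
    intro i
    refine (col_eq G (c := c i * c (τ i) * c (τ (τ i)) * c (τ (τ (τ i))) * c (τ (τ (τ (τ i))))) ?_).symm
    ext a
    conv_lhs => rw [← h5 a]
    simp only [e', Pi.smul_apply, smul_eq_mul]; ring
  have h2 : τ j = j := by
    refine (col_eq G (c := c j) ?_).symm
    ext a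
    rw [Pi.smul_apply, smul_eq_mul, ← e', hj, hj]
  refine ⟨c i, fun a => ?_⟩
  rw [e', iter5 τ j h1 h2]

theorem has_zero (hK : HasMono K) (hR : Rigid K) {g : (Fin 5 → F) ≃ₗ[F] (Fin 5 → F)} (hg : g ∈ K)
    (j : Fin 5) : ∃ a, g (ee F j) a = 0 := by
  by_contra hne
  push Not at hne
  obtain ⟨G, -, h1, h2⟩ := exists_frame hK hR hg j
  obtain ⟨i, hi⟩ := exists_ne j
  let σ : Equiv.Perm (Fin 5) := Equiv.swap 0 4 * Equiv.swap 0 3 * Equiv.swap 0 2 * Equiv.swap 0 1
  let σ' : Equiv.Perm (Fin 5) := Equiv.swap 0 3 * Equiv.swap 0 4 * Equiv.swap 0 2 * Equiv.swap 0 1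
  obtain ⟨c, hc⟩ := eig5 G (fun a => h1 a (hne a)) (σ := σ) (by decide)
    (h2 σ (by decide) (fun a ha => (hne a ha).elim)) i
  obtain ⟨c', hc'⟩ := eig5 G (fun a => h1 a (hne a)) (σ := σ') (by decide)
    (h2 σ' (by decide) (fun a ha => (hne a ha).elim)) i
  set w := G (ee F i) with hw
  have a0 : w 1 = c * w 0 := hc 0
  have a1 : w 2 = c * w 1 := hc 1
  have a2 : w 3 = c * w 2 := hc 2
  have a3 : w 4 = c * w 3 := hc 3
  have b0 : w 1 = c' * w 0 := hc' 0
  have b2 : w 4 = c' * w 2 := hc' 2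
  have b4 : w 3 = c' * w 4 := hc' 4
  have hw0 : w 0 ≠ 0 := by
    intro h0
    have : w = 0 := by
      ext a; fin_cases a <;> simp [h0, a0, a1, a2, a3]
    rw [hw, map_eq_zero_iff _ G.injective] at this
    simpa using congrFun this i
  have hcc : c' = c := mul_right_cancel₀ hw0 (b0.symm.trans a0)
  subst hcc
  have hc0 : c' ≠ 0 := by
    rintro rfl
    have b5 : w 0 = 0 * w 3 := hc' 3
    exact hw0 (by simpa using b5)
  have h34 : w 4 = w 3 := by rw [b2, a2]
  have hc1 : c' = 1 := by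
    have h3 : w 3 ≠ 0 := by rw [a2, a1, a0]; simp [hc0, hw0]
    exact mul_right_cancel₀ h3 (by rw [← a3, h34, one_mul])
  subst hc1
  refine hi (col_eq G (c := w 0) ?_)
  ext a
  rw [Pi.smul_apply, h1 a (hne a), ← hw]
  fin_cases a <;> simp [a0, a1, a2, a3]

theorem exists_pow5 [Fintype F] (hq : 5 ≤ Fintype.card F) : ∃ s : F, s ≠ 0 ∧ s ^ 5 ≠ 1 := by
  by_cases h : 7 ≤ Fintype.card F
  · exact exists_pow_ne_one_of_lt (by norm_num) (by omega)
  obtain ⟨s, hs0, hs⟩ := exists_pow_ne_one_of_lt (F := F) (k := 1) (by norm_num) (by omega)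
  have h2 : Fintype.card F = 5 ∨ Fintype.card F = 6 := by omega
  rcases h2 with h2 | h2
  · have h1 := FiniteField.pow_card_sub_one_eq_one s hs0
    rw [h2] at h1
    exact ⟨s, hs0, fun h5 => hs (by linear_combination h5 - s * h1)⟩
  · obtain ⟨p, hp⟩ := CharP.exists F
    obtain ⟨n, hpp, hn⟩ := FiniteField.card F p
    rw [h2] at hn
    have h3 : (2 : ℕ) ∣ p := Nat.prime_two.dvd_of_dvd_pow (n := n) (by rw [← hn]; norm_num)
    have h4 : (3 : ℕ) ∣ p := Nat.prime_three.dvd_of_dvd_pow (n := n) (by rw [← hn]; norm_num)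
    have := (Nat.prime_dvd_prime_iff_eq Nat.prime_two hpp).1 h3
    subst this
    omega

theorem rigid_mono5 [Fintype F] (hq : 5 ≤ Fintype.card F) (hK : HasMono K) (hR : Rigid K)
    {g : (Fin 5 → F) ≃ₗ[F] (Fin 5 → F)} (hg : g ∈ K) : Mono g := by
  classical
  by_contra hM
  have h2z : ∀ {i k l : Fin 5}, g (ee F i) k = 0 → g (ee F i) l = 0 → k = l := fun hk hl => by
    by_contra hkl
    exact not_two_zeros hq (by simp) hK hR hg hM hkl hk hl
  choose ζ hζ using has_zero hK hR hg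
  set z := ζ 0 with hz
  obtain ⟨G, h0, h1, h2⟩ := exists_frame hK hR hg 0
  obtain ⟨i, hi⟩ := exists_col_ne g (φ := pr F z) (fun h => by simpa using LinearMap.congr_fun h (ee F z))
  replace hi : g (ee F i) z ≠ 0 := hi
  have haz : ζ i ≠ z := fun h => hi (h ▸ hζ i)
  have hsurj : Function.Surjective ζ := by
    intro b
    by_cases hb : b = z
    · exact ⟨0, hb.symm⟩
    by_cases hba : b = ζ i
    · exact ⟨i, hba.symm⟩
    obtain ⟨x, y, hxy, a1, a2, a3, a4, a5, a6⟩ := exists_out3 (ι := Fin 5) (by simp) (ζ i) b z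
    obtain ⟨i', c, hc, e⟩ := h2 (Equiv.swap b (ζ i) * Equiv.swap x y) (by simp [hxy, hba]) (fun a ha => by
      have : a = z := h2z ha (hζ 0)
      subst this
      simp [Equiv.swap_apply_of_ne_of_ne, Ne.symm a3, Ne.symm a6, Ne.symm hb, Ne.symm haz]) i
    refine ⟨i', h2z (hζ i') ?_⟩
    have := congrFun e b
    simp only [pm_apply, Equiv.Perm.mul_apply, Equiv.swap_apply_of_ne_of_ne (Ne.symm a2) (Ne.symm a5),
      Equiv.swap_apply_left, Pi.smul_apply, smul_eq_mul] at this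
    rw [(h0 i (ζ i)).2 (hζ i)] at this
    exact (h0 i' b).1 ((mul_eq_zero.1 this.symm).resolve_left hc)
  have hinj : Function.Injective ζ := Finite.injective_iff_surjective.2 hsurj
  obtain ⟨s, hs0, hs⟩ := exists_pow5 hq
  let u : Fˣ := Units.mk0 s hs0
  let d : Fin 5 → Fˣ := fun x => u * Pi.mulSingle (M := fun _ => Fˣ) z (u ^ 5)⁻¹ x
  have hd : dg d ∈ K := hK.dg_mem (by simp [d, Finset.prod_mul_distrib])
  obtain ⟨i', c, hc, e⟩ := col_of_mono (perm' hR hg hd (j := 0) (c := (u : F)) (by simp) (by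
    ext x
    by_cases a1 : x = z
    · have := hζ 0
      rw [← hz, ← a1] at this
      simp [this]
    · simp [d, a1])) i
  have hii : i' = i := by
    apply hinj
    refine h2z (hζ i') ?_
    have := congrFun e (ζ i)
    simp only [dg_apply, hζ i, mul_zero, Pi.smul_apply, smul_eq_mul] at this
    exact (mul_eq_zero.1 this.symm).resolve_left hc
  subst hii
  obtain ⟨x, -, -, a1, a2, -⟩ := exists_out3 (ι := Fin 5) (by simp) (ζ i') z z
  have hx : g (ee F i') x ≠ 0 := fun h => a1 (h2z h (hζ i'))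
  have e1 := congrFun e x
  have e2 := congrFun e z
  simp only [dg_apply, Pi.smul_apply, smul_eq_mul] at e1 e2
  have f1 := mul_right_cancel₀ hx e1
  have f2 := mul_right_cancel₀ hi e2
  simp [d, a2, u] at f1 f2
  apply hs
  rw [← f1] at f2
  field_simp at f2
  exact f2.symm

theorem lines_max [Fintype F] (hq : 5 ≤ Fintype.card F) {D : Fin 5 → Submodule F (Fin 5 → F)}
    (hD : Geo.IsMDecomposition 1 D) :
    Geo.IsMaximalIn (Geo.specialLinear (Fin 5) F)
      (Geo.decompositionStabilizer D ⊓ Geo.specialLinear (Fin 5) F) := by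
  have hne := not_le_inf_of_not_le (SL_not_le_decompositionStabilizer (by simp) hD)
  obtain ⟨b, rfl⟩ := exists_basis_of_isMDecomposition hD
  let Ψ : (Fin 5 → F) ≃ₗ[F] (Fin 5 → F) := b.equivFun.symm
  have hΨ : ∀ i, Ψ (ee F i) = b i := fun i => by simp [Ψ, Pi.single_apply]
  refine isMaximalIn_of_equiv (H7.toLE.trans (conjLE Ψ).symm) _ _ (fun g => LinearEquiv.det g = 1)
    (fun g => Mono g ∧ LinearEquiv.det g = 1) (fun g => ?_) (fun g => ?_) (fun g h => h.2) hne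
    (fun M h3 h4 => ?_)
  · rw [mem_SL_iff, ← det_conjLE Ψ ((H7.toLE.trans (conjLE Ψ).symm) g)]; simp
  · rw [Subgroup.mem_inf, mem_SL_iff, ← det_conjLE Ψ ((H7.toLE.trans (conjLE Ψ).symm) g)]
    simp only [MulEquiv.trans_apply, MulEquiv.apply_symm_apply]
    refine and_congr_left fun _ => ⟨fun h j => ?_, fun h => ?_⟩
    · obtain ⟨σ, c, a1, a2, -⟩ := monomial_of_mem b h
      exact ⟨σ j, c j, a1 j, by rw [conjLE_symm_apply, hΨ, a2, map_smul, ← hΨ]; simp⟩
    · obtain ⟨π, hπ⟩ := exists_projs hD.indep hD.iSup_eq_top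
      rw [mem_decompositionStabilizer_iff]
      refine C2a.stab_of_maps hπ hD.finrank_eq one_pos fun i => ?_
      obtain ⟨j, c, -, e⟩ := h i
      rw [conjLE_symm_apply, hΨ, LinearEquiv.symm_apply_eq, map_smul, hΨ] at e
      refine ⟨j, fun x hx => ?_⟩
      obtain ⟨a, rfl⟩ := Submodule.mem_span_singleton.1 hx
      rw [map_smul, e]
      exact Submodule.smul_mem _ _ (Submodule.smul_mem _ _ (Submodule.mem_span_singleton_self _))
  · have hK : HasMono M := fun g a1 a2 => h3 g ⟨a2, a1⟩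
    by_cases hN : NRoot M
    · exact Or.inr (all_of_nroot (by simp) hK hN)
    · exact Or.inl fun g hg => ⟨rigid_mono5 hq hK
        (fun g hg i h => mono_of_isE (by simp) hK h4 hN (by omega) hg h) hg, h4 g hg⟩

end Cfsg.Agent.H8.L5a
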