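import Cfsg.Agent.H7.SL4c

/-!
The similarity group of a non-degenerate quadratic form in dimension at least five (odd
characteristic) is maximal in the special linear group.
-/

set_option autoImplicit false
set_option linter.unusedSectionVars false

namespace Cfsg.Agent.H8.L5b

open Module Cfsg.Agent.Form Cfsg.Agent.H7 Cfsg.Agent.H1.Fill Cfsg.Agent.H7.SL4b
open Cfsg.Agent.H7.SL4c (exists_rr sim_of_sing)
open scoped Matrix MatrixGroups

section abstract
variable {F : Type*} [Field F] {V : Type*} [AddCommGroup V] [Module F V] [FiniteDimensional F V]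
  {S : PQ (FP.orth F) V} {K : Subgroup (V ≃ₗ[F] V)}

theorem exists_sing_ne5 (h2 : (2 : F) ≠ 0) (hS : S.Nondeg) (hk : SingK S 3) (hn : 4 ≤ finrank F V) {w : V}
    (hw : S.Q w ≠ 0) {u : V} (hu : u ≠ 0) (huw : S.B u w = 0) :
    ∃ e ∈ S.perp (F ∙ w), S.Sing e ∧ S.B u e ≠ 0 := by
  have hww : S.B w w ≠ 0 := by rw [S.orth_B_self]; exact mul_ne_zero h2 hw
  have hnm : ∀ x, x ≠ 0 → S.B x w = 0 → x ∉ F ∙ w := by
    intro x hx0 hx hm
    obtain ⟨a, rfl⟩ := Submodule.mem_span_singleton.1 hm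
    rw [S.B_smul_left] at hx
    exact hx0 (by rw [(mul_eq_zero.1 hx).resolve_right hww, zero_smul])
  obtain ⟨d, hd, hd0, hds⟩ := hk (S.perp (F ∙ w)) (by
    have := hS.finrank_perp (F ∙ w)
    have := finrank_span_singleton_le (F := F) w
    omega)
  by_cases h : S.B u d = 0
  · refine exists_sing_ne hS (hnm u hu huw) (d := d) ?_ (hnm d hd0 (S.mem_perp_span_singleton.1 hd)) hds
    rw [S.perp_sup]
    exact ⟨hd, S.mem_perp_span_singleton.2 (S.B_comm_zero h)⟩
  · exact ⟨d, hd, hds, h⟩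

theorem mem_of_sing5 (h2 : (2 : F) ≠ 0) (hS : S.Nondeg) (hk : SingK S 3) (hn : 4 ≤ finrank F V) {w : V}
    (hw : S.Q w ≠ 0) {A : AddSubgroup V} (hA : ∀ d ∈ S.perp (F ∙ w), S.Sing d → d ∈ A) {u : V}
    (huw : S.B u w = 0) : u ∈ A := by
  by_cases hu : u = 0
  · rw [hu]; exact zero_mem _
  obtain ⟨e, he, hes, h⟩ := exists_sing_ne5 h2 hS hk hn hw hu huw
  exact mem_of_sing_ne hA (S.mem_perp_span_singleton.2 huw) he hes h

/-- a transvection with non-singular centre generates everything -/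
theorem mem_of_trans (h2 : (2 : F) ≠ 0) (hS : S.Nondeg) (hk : SingK S 3) (hn : 4 ≤ finrank F V)
    (hK : sisom S ≤ K) {w : V} (hw : S.Q w ≠ 0) {φ : Dual F V} (h : Has K φ w) (hφw : φ w = 0)
    (hφ : φ ≠ 0) (g : V ≃ₗ[F] V) (hg : LinearEquiv.det g = 1) : g ∈ K := by
  have hww : S.B w w ≠ 0 := by rw [S.orth_B_self]; exact mul_ne_zero h2 hw
  obtain ⟨u0, rfl⟩ := hS.exists_lin φ
  have hu0 : u0 ∈ axes S K w := ⟨hφw, h⟩
  have hu00 : u0 ≠ 0 := by rintro rfl; exact hφ (by ext; simp)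
  have key : ∀ u ∈ axes S K w, ∀ d ∈ S.perp (F ∙ w), S.Sing d → S.B u d ≠ 0 → ∀ c : F,
      c • d ∈ axes S K w := by
    intro u hu d hd hds hud
    obtain ⟨y, hy, hy'⟩ := exists_mem_notMem_of_finrank_lt (U := S.perp ((F ∙ w) ⊔ F ∙ d)) (W := F ∙ d) (by
      have h1 := hS.finrank_perp ((F ∙ w) ⊔ F ∙ d)
      have h2 := finrank_sup_span_le (F ∙ w) d
      have h3 := finrank_span_singleton_le (F := F) w
      have h4 := finrank_span_singleton_le (F := F) d
      omega)
    rw [S.perp_sup] at hy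
    have hyd := S.mem_perp_span_singleton.1 hy.2
    have hE : S.EichOK d y (S.Q y) := ⟨hds, hyd, by simp⟩
    have h1 := sub_mem (axes_eich hK w d y _ hE hd hy.1 u hu) hu
    rw [PQ.eich_apply] at h1
    simp only [FP.orth_ε, one_mul] at h1
    exact line_mem hS (axes_eich hK w) h1 hd hds (by simp [hds.B_self, hyd]) (fun hm => by
      obtain ⟨z, hz, b, e⟩ := mem_sup_span_iff.1 hm
      obtain ⟨a, rfl⟩ := Submodule.mem_span_singleton.1 hz
      have e1 := congrArg (fun x => S.B x w) e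
      simp only [PQ.B_add_left, PQ.B_sub_left, PQ.B_smul_left, S.mem_perp_span_singleton.1 hd,
        S.mem_perp_span_singleton.1 hy.1] at e1
      have ha : a = 0 := (mul_eq_zero.1 (show a * S.B w w = 0 by linear_combination -e1)).resolve_right hww
      refine hy' (Submodule.mem_span_singleton.2
        ⟨(S.B u d)⁻¹ * (S.B u y - S.Q y * S.B u d - b), ?_⟩)
      have e2 : S.B u d • y = (S.B u y - S.Q y * S.B u d - b) • d := by
        rw [ha, zero_smul, zero_add] at e
        linear_combination (norm := module) -e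
      rw [mul_smul, ← e2, smul_smul, inv_mul_cancel₀ hud, one_smul])
  obtain ⟨d, hd, hds, hud⟩ := exists_sing_ne5 h2 hS hk hn hw hu00 (S.B_comm_zero hφw)
  have hd0 : d ≠ 0 := by rintro rfl; simp at hud
  have hA : ∀ e ∈ S.perp (F ∙ w), S.Sing e → e ∈ axes S K w := by
    intro e he hes
    by_cases hde : S.B d e = 0
    · by_cases hm : e ∈ F ∙ d
      · obtain ⟨c, rfl⟩ := Submodule.mem_span_singleton.1 hm
        exact key u0 hu0 d hd hds hud c
      · have hd' : d ∈ axes S K w := by simpa using key u0 hu0 d hd hds hud 1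
        have := line_mem hS (axes_eich hK w) hd' he hes hde (fun hm' => by
          obtain ⟨z, hz, b, e1⟩ := mem_sup_span_iff.1 hm'
          obtain ⟨a, rfl⟩ := Submodule.mem_span_singleton.1 hz
          have e2 := congrArg (fun x => S.B x w) e1
          simp only [PQ.B_add_left, PQ.B_smul_left, S.mem_perp_span_singleton.1 hd,
            S.mem_perp_span_singleton.1 he] at e2
          have ha : a = 0 :=
            (mul_eq_zero.1 (show a * S.B w w = 0 by linear_combination -e2)).resolve_right hww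
          rw [ha, zero_smul, zero_add] at e1
          have hb : b ≠ 0 := by rintro rfl; exact hd0 (by simpa using e1)
          exact hm (Submodule.mem_span_singleton.2 ⟨b⁻¹, by
            rw [e1, smul_smul, inv_mul_cancel₀ hb, one_smul]⟩)) 1
        simpa using this
    · simpa using key d (by simpa using key u0 hu0 d hd hds hud 1) e he hes hde 1
  have hwc : w ∈ fullCenters K := full_of_axes hS fun u hu => mem_of_sing5 h2 hS hk hn hw hA hu
  refine mem_of_fullCenters_eq_top (eq_top_iff.2 fun u _ => ?_) g hg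
  have h1 : u - ((S.B w w)⁻¹ * S.B u w) • w ∈ (fullCenters K).toAddSubgroup := by
    refine mem_of_sing5 h2 hS hk hn hw (fun e he hes => ?_) (by
      rw [S.B_sub_left, S.B_smul_left]; field_simp; ring)
    have he' := S.B_comm_zero (S.mem_perp_span_singleton.1 he)
    have hQ : S.Q (w + e) = S.Q w := by rw [S.orth_Q_add, (S.orth_sing e).1 hes, he']; ring
    obtain ⟨s, hs, es⟩ := exists_rr h2 (a := w + e) (b := w) (by rwa [hQ]) hw
    have h3 := add_mem (fullCenters_apply hwc (hK hs)) (neg_mem hwc)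
    have h4 : s w + -w = (2 : F) • e := by
      rw [es, hQ, S.B_add_right, he', S.orth_B_self]
      match_scalars <;> field_simp <;> ring
    rw [h4] at h3
    have := (fullCenters K).smul_mem (2 : F)⁻¹ h3
    rwa [smul_smul, inv_mul_cancel₀ h2, one_smul] at this
  simpa using add_mem h1 ((fullCenters K).smul_mem ((S.B w w)⁻¹ * S.B u w) hwc)

theorem orth_max5 (h2 : (2 : F) ≠ 0) (hS : S.Nondeg) (hk : SingK S 3)
    (hn : 5 ≤ finrank F V) (hK : sisom S ≤ K) :
    (∀ g ∈ K, ∃ c : F, c ≠ 0 ∧ ∀ x, S.Q (g x) = c * S.Q x) ∨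
      ∀ g, LinearEquiv.det g = 1 → g ∈ K := by
  by_cases h : ∀ g ∈ K, ∀ v, S.Sing v → S.Sing (g v)
  · left
    intro g hg
    obtain ⟨c, hc⟩ := sim_of_sing (S' := S.comap (g : V →ₗ[F] V)) h2 hS hk (by omega)
      (fun v hv => (S.orth_sing _).1 (h g hg v ((S.orth_sing _).2 hv)))
    refine ⟨c, ?_, hc⟩
    rintro rfl
    obtain ⟨a, -, ha⟩ := H1.C8.exists_nonsing hS (U := ⊤) (by rw [finrank_top]; omega)
    exact ha (by simpa using hc (g.symm a))
  right
  push Not at h
  obtain ⟨g, hg, v, hv, hw⟩ := h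
  set w := g v with hwdef
  have hQw : S.Q w ≠ 0 := fun h => hw ((S.orth_sing w).2 h)
  have hww : S.B w w ≠ 0 := by rw [S.orth_B_self]; exact mul_ne_zero h2 hQw
  have hw0 : w ≠ 0 := fun h => hww (by rw [h]; simp)
  let β : Dual F V := S.lin v ∘ₗ (g.symm : V →ₗ[F] V)
  have hβ : ∀ x, β (g x) = S.B x v := fun x => by simp [β]
  have hβw : β w = 0 := by rw [hwdef, hβ, hv.B_self]
  obtain ⟨a, ⟨ha1, ha2⟩, hQa⟩ := H1.C8.exists_nonsing hS
    (U := LinearMap.ker β ⊓ LinearMap.ker (S.lin w)) (by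
      have := finrank_le_finrank_ker_inf_ker β (S.lin w); omega)
  replace ha1 : β a = 0 := ha1
  replace ha2 : S.B a w = 0 := ha2
  have hwa : S.B w a = 0 := S.B_comm_zero ha2
  have haa : S.B a a ≠ 0 := by rw [S.orth_B_self]; exact mul_ne_zero h2 hQa
  let s : V ≃ₗ[F] V := S.tau w _ (S.orth_tauOK hQw) * S.tau a _ (S.orth_tauOK hQa)
  have hsK : s ∈ K := by
    refine hK ⟨mul_mem (S.tau_mem _ _ _) (S.tau_mem _ _ _), ?_⟩
    change LinearEquiv.det s = 1
    apply Units.ext
    rw [map_mul, Units.val_mul, det_tau, det_tau, S.orth_B_self, S.orth_B_self, Units.val_one]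
    field_simp; ring
  have hs : ∀ x, s x = x - ((S.Q a)⁻¹ * S.B x a) • a - ((S.Q w)⁻¹ * S.B x w) • w := fun x => by
    simp only [s, LinearEquiv.mul_apply, PQ.tau_apply, S.B_add_left, S.B_smul_left, ha2]
    module
  have hsw : s w = -w := by
    rw [hs, hwa, S.orth_B_self, ← mul_assoc, mul_comm _ 2, mul_assoc, inv_mul_cancel₀ hQw]; module
  have hsβ : ∀ x, β (s x) = β x := fun x => by simp [hs, ha1, hβw]
  let W : Submodule F V := (LinearMap.ker β ⊓ LinearMap.ker (S.lin w)) ⊓ LinearMap.ker (S.lin a)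
  have hsW : ∀ x ∈ W, s x = x := fun x hx => by
    have e1 : S.B x w = 0 := hx.1.2
    have e2 : S.B x a = 0 := hx.2
    simp [hs, e1, e2]
  -- the pull-back of `W` is not totally isotropic
  obtain ⟨x, hx, y, hy, hxy⟩ : ∃ x, g x ∈ W ∧ ∃ y, g y ∈ W ∧ S.B x y ≠ 0 := by
    by_contra hc
    push Not at hc
    let W' : Submodule F V := W.comap (g : V →ₗ[F] V)
    have hvW : v ∉ W' := fun h => hww h.1.2
    have hd : finrank F W' = finrank F W := by
      have : W' = W.map (g.symm : V →ₗ[F] V) := by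
        ext z; simp [W', Submodule.mem_map_equiv]
      rw [this]; exact LinearEquiv.finrank_map_eq g.symm W
    have hd2 : finrank F V ≤ finrank F W + 3 := by
      have := finrank_le_finrank_ker_inf_ker β (S.lin w)
      have := finrank_le_finrank_inf_ker (LinearMap.ker β ⊓ LinearMap.ker (S.lin w)) (S.lin a)
      simp only [W]; omega
    have hd3 := Submodule.finrank_sup_span_singleton hvW
    have hle : W' ⊔ F ∙ v ≤ S.perp (W' ⊔ F ∙ v) := by
      have hv' : ∀ z ∈ W', S.B z v = 0 := fun z hz => by rw [← hβ]; exact hz.1.1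
      intro z0 hz0 z1 hz1
      obtain ⟨z, hz, b, rfl⟩ := mem_sup_span_iff.1 hz0
      obtain ⟨z', hz', b', rfl⟩ := mem_sup_span_iff.1 hz1
      simp [hc z hz z' hz', hv' z hz, S.B_comm_zero (hv' z' hz'), hv.B_self]
    have := Submodule.finrank_mono hle
    have := hS.finrank_perp (W' ⊔ F ∙ v)
    omega
  have hyv : S.B y v = 0 := by rw [← hβ]; exact hy.1.1
  have hE : S.EichOK v y (S.Q y) := ⟨hv, hyv, by simp⟩
  let e : V ≃ₗ[F] V := g * S.eich v y _ hE * g⁻¹
  have heK : e ∈ K := mul_mem (mul_mem hg (hK (eich_mem_sisom S _ _ _ hE))) (inv_mem hg)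
  let α : Dual F V := (S.lin y - S.Q y • S.lin v) ∘ₗ (g.symm : V →ₗ[F] V)
  have he : ∀ z, e z = z + α z • w - β z • g y := fun z => by
    simp [e, α, β, hwdef]
  have hαw : α w = 0 := by simp [α, hwdef, S.B_comm_zero hyv, hv.B_self]
  have hew : e w = w := by rw [he, hαw, hβw]; simp
  let φ : Dual F V := -((α ∘ₗ (s.symm : V →ₗ[F] V)) + α) ∘ₗ (e.symm : V →ₗ[F] V)
  have hφ : ∀ z, φ (e z) = -(α (s.symm z) + α z) := fun z => by simp [φ]
  have hhas : Has K φ w := by
    refine ⟨s * e * s⁻¹ * e⁻¹, mul_mem (mul_mem (mul_mem hsK heK) (inv_mem hsK)) (inv_mem heK), fun z => ?_⟩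
    obtain ⟨z, rfl⟩ := e.surjective z
    obtain ⟨z, rfl⟩ := s.surjective z
    rw [hφ]
    simp only [LinearEquiv.mul_apply, LinearEquiv.coe_inv, LinearEquiv.symm_apply_apply]
    rw [he z, he (s z), map_sub, map_add, map_smul, map_smul, hsw, hsW _ hy, hsβ]
    module
  have hφw : φ w = 0 := by
    have e1 : s.symm w = -w := by rw [LinearEquiv.symm_apply_eq, map_neg, hsw, neg_neg]
    rw [← hew, hφ, e1, map_neg, hαw]; simp
  have hφx : φ (e (g x)) ≠ 0 := by
    have e1 : s.symm (g x) = g x := by rw [LinearEquiv.symm_apply_eq, hsW _ hx]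
    have e2 : S.B x v = 0 := by rw [← hβ]; exact hx.1.1
    have e3 : α (g x) = S.B x y := by simp [α, e2]
    rw [hφ, e1, e3, ← two_mul]
    exact neg_ne_zero.2 (mul_ne_zero h2 hxy)
  exact mem_of_trans h2 hS hk (by omega) hK hQw hhas hφw (fun h => hφx (by rw [h]; rfl))

end abstract

variable {ι : Type} [Fintype ι] [DecidableEq ι] {F : Type*} [Field F]

theorem quad_max [Fintype F] (hn : 5 ≤ Fintype.card ι) (hodd : Odd (Fintype.card F))
    {Q : (ι → F) → F} (hQ : Geo.IsNondegenerateQuadraticForm Q) :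
    Geo.IsMaximalIn (Geo.specialLinear ι F) (Geo.quadSimilarityGroup Q ⊓ Geo.specialLinear ι F) := by
  have hk : SingK (quadPQ hQ) 3 := by
    intro U hU
    obtain ⟨Q', hQ', -⟩ := H8.exists_quadraticForm hQ
    obtain ⟨v, hv, hv0, hv'⟩ := H8.exists_sing_three Q' hU
    exact ⟨v, hv, hv0, ((quadPQ hQ).orth_sing v).2 (by rw [quadPQ_Q, ← hQ']; exact hv')⟩
  refine isMaximalIn_of_equiv H7.toLE _ _ (fun g => LinearEquiv.det g = 1)
    (fun g => (∃ c : F, c ≠ 0 ∧ ∀ x, Q (g x) = c * Q x) ∧ LinearEquiv.det g = 1)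
    mem_SL_iff (fun g => ?_) (fun g h => h.2)
    (not_le_inf_of_not_le (SL_not_le_quadSimilarityGroup (by omega) hQ)) (fun M h1 h2 => ?_)
  · rw [Subgroup.mem_inf, mem_SL_iff]
    refine and_congr_left fun _ => ⟨?_, ?_⟩
    · rintro ⟨c, hc⟩; exact ⟨c, c.ne_zero, hc⟩
    · rintro ⟨c, hc, hc'⟩; exact ⟨Units.mk0 c hc, hc'⟩
  · rcases orth_max5 (two_ne_zero_of_odd_card hodd) (quadPQ_nondeg hQ) hk (K := M) (by rwa [finrank_pi'])
      (fun g hg => h1 g ⟨⟨1, one_ne_zero, fun x => by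
        rw [one_mul]; exact ((quadPQ hQ).orth_mem_isom g).1 hg.1 x⟩, hg.2⟩) with h | h
    · exact Or.inl fun g hg => ⟨h g hg, h2 g hg⟩
    · exact Or.inr h

end Cfsg.Agent.H8.L5b
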