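import Cfsg.Agent.H4.CA2
import Cfsg.Agent.H2.Tr1

/-!
Exceptional characters of an abelian self-centralising subgroup acting semiregularly.
-/

set_option autoImplicit false
set_option linter.unusedSectionVars false

namespace Cfsg.Agent.H8.L5c

open Cfsg MulAction Subgroup Finset Cfsg.Agent.H5.Zas1 Cfsg.Agent.H5.Char
  Cfsg.Agent.H5.TI Cfsg.Agent.H4.CAG Cfsg.Agent.H2.Tr
open scoped ComplexConjugate

variable {G : Type*} [Group G] [Fintype G] {X : Subgroup G}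

attribute [local instance] ftSub

variable (h : CA X)
include h

open Classical in
theorem gram2 (ψ₁ ψ₂ : Irr X) {ψ : Irr X} (h1 : ψ₁ ≠ triv X) (h2 : ψ₂ ≠ triv X) :
    ∑ φ : Irr G, ((mult φ ψ₁ : ℤ) - mult φ ψ₂) * mult φ ψ =
      (if h.isTI.Rel ψ ψ₁ then 1 else 0) - (if h.isTI.Rel ψ ψ₂ then 1 else 0) := by
  obtain ⟨c, hc⟩ := gram h
  have e1 := hc ψ _ h1
  have e2 := hc ψ _ h2
  rw [sum_congr rfl (g := fun φ => (mult φ ψ : ℤ) * mult φ ψ₁ - (mult φ ψ : ℤ) * mult φ ψ₂)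
    fun φ _ => by ring, sum_sub_distrib, e1, e2]
  ring

open Classical in
theorem two {ψ₁ ψ₂ : Irr X} (h1 : ψ₁ ≠ triv X) (h2 : ψ₂ ≠ triv X) (hn : ¬ h.isTI.Rel ψ₁ ψ₂) :
    ∃ a b : Irr G, a ≠ b ∧
      ∀ φ, (mult φ ψ₁ : ℤ) - mult φ ψ₂ = (if φ = a then 1 else 0) - (if φ = b then 1 else 0) := by
  have e1 := gram2 h ψ₁ ψ₂ (ψ := ψ₁) h1 h2
  have e2 := gram2 h ψ₁ ψ₂ (ψ := ψ₂) h1 h2
  rw [if_pos (IsTI.Rel.refl _ _), if_neg hn] at e1
  rw [if_pos (IsTI.Rel.refl _ _), if_neg fun e => hn e.symm] at e2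
  have e3 : ∑ φ : Irr G, ((mult φ ψ₁ : ℤ) - mult φ ψ₂) * deg φ = 0 := by
    have a1 := sum_deg_mult ψ₁
    have a2 := sum_deg_mult ψ₂
    rw [deg_one h] at a1 a2
    simp only [sub_mul, sum_sub_distrib]
    exact_mod_cast sub_eq_zero.2 (congrArg (Nat.cast : ℕ → ℤ) (a1.trans a2.symm))
  exact norm_two (fun φ => (mult φ ψ₁ : ℤ) - mult φ ψ₂) deg deg_pos (by
    simp only [mul_sub _ (mult _ ψ₁ : ℤ), sum_sub_distrib, e1, e2]; rfl) e3

theorem pat {ψ₁ ψ₂ ψ₃ ψ₄ : Irr X} (h1 : ψ₁ ≠ triv X) (h2 : ψ₂ ≠ triv X) (h3 : ψ₃ ≠ triv X)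
    (h4 : ψ₄ ≠ triv X) {χ : Irr G} (l1 : mult χ ψ₂ < mult χ ψ₁) (l2 : mult χ ψ₄ < mult χ ψ₃) :
    h.isTI.Rel ψ₁ ψ₃ ∨ h.isTI.Rel ψ₂ ψ₄ := by
  classical
  obtain ⟨ξ, ξ', n1, e⟩ := two h h1 h2 fun e => l1.ne' (e.mult_eq χ)
  obtain ⟨η, η', n2, e'⟩ := two h h3 h4 fun e => l2.ne' (e.mult_eq χ)
  obtain rfl : χ = ξ := by
    have := e χ
    split_ifs at this <;> first | assumption | omega
  obtain rfl : χ = η := by
    have := e' χ
    split_ifs at this <;> first | assumption | omega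
  have g1 := gram2 h ψ₃ ψ₄ (ψ := ψ₁) h3 h4
  have g2 := gram2 h ψ₃ ψ₄ (ψ := ψ₂) h3 h4
  have g : ∑ φ : Irr G, ((mult φ ψ₃ : ℤ) - mult φ ψ₄) * ((mult φ ψ₁ : ℤ) - mult φ ψ₂) =
      1 + if ξ' = η' then 1 else 0 := by
    simp only [e, e', mul_sub, sub_mul, sum_sub_distrib, ite_mul, one_mul, zero_mul, sum_ite_eq', mem_univ,
      if_true, if_neg n1, if_neg n2, if_neg n2.symm, eq_comm (a := η')]
    ring
  simp only [mul_sub _ (mult _ ψ₁ : ℤ), sum_sub_distrib, g1, g2] at g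
  by_contra hc
  rw [not_or] at hc
  rw [if_neg hc.1, if_neg hc.2] at g
  split_ifs at g <;> omega

/-- the restriction is constant on the non-trivial characters -/
def Flat (X : Subgroup G) (χ : Irr G) : Prop :=
  ∀ ψ ψ' : Irr X, ψ ≠ triv X → ψ' ≠ triv X → mult χ ψ = mult χ ψ'

open Classical in
theorem special {χ : Irr G} (hχ : ¬ Flat X χ) : ∃ ψ₀ : Irr X, ψ₀ ≠ triv X ∧ ∃ s : ℤ, s * s = 1 ∧
    ∀ ψ', ψ' ≠ triv X → ¬ h.isTI.Rel ψ' ψ₀ → ∃ β : Irr G, β ≠ χ ∧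
      ∀ φ, (mult φ ψ₀ : ℤ) - mult φ ψ' = s * ((if φ = χ then 1 else 0) - (if φ = β then 1 else 0)) := by
  obtain ⟨ψ₁, ψ₂, h1, h2, hlt⟩ : ∃ ψ₁ ψ₂ : Irr X, ψ₁ ≠ triv X ∧ ψ₂ ≠ triv X ∧ mult χ ψ₂ < mult χ ψ₁ := by
    by_contra hc
    push Not at hc
    exact hχ fun ψ ψ' a b => le_antisymm (hc _ _ a b) (hc _ _ b a)
  by_cases hA : ∀ ψ', ψ' ≠ triv X → ¬ h.isTI.Rel ψ' ψ₁ → mult χ ψ' < mult χ ψ₁
  · refine ⟨ψ₁, h1, 1, rfl, fun ψ' a b => ?_⟩
    obtain ⟨ξ, ξ', n1, e⟩ := two h h1 a fun e => b e.symm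
    obtain rfl : χ = ξ := by
      have := e χ
      have := hA ψ' a b
      split_ifs at * <;> first | assumption | omega
    exact ⟨ξ', n1.symm, fun φ => by rw [e, one_mul]⟩
  push Not at hA
  obtain ⟨ψ₃, h3, r3, l3⟩ := hA
  refine ⟨ψ₂, h2, -1, rfl, fun ψ' a b => ?_⟩
  have l4 : mult χ ψ₂ < mult χ ψ' := by
    by_contra hc
    rcases pat h h1 a h3 h2 (χ := χ) (by omega) (by omega) with r | r
    exacts [r3 r.symm, b r]
  obtain ⟨ξ, ξ', n1, e⟩ := two h a h2 b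
  obtain rfl : χ = ξ := by
    have := e χ
    split_ifs at * <;> first | assumption | omega
  exact ⟨ξ', n1.symm, fun φ => by rw [← e]; ring⟩

theorem deg_sum (χ : Irr G) : deg χ = ∑ ψ : Irr X, mult χ ψ := by
  have := (ch_res χ X).one
  simp only [deg_one h, mul_one, OneMemClass.coe_one, deg_eq] at this
  exact_mod_cast this

theorem Flat.deg_eq {χ : Irr G} (hχ : Flat X χ) {ψ : Irr X} (hψ : ψ ≠ triv X) :
    deg χ = mult χ (triv X) + mult χ ψ * (Nat.card X - 1) := by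
  classical
  rw [deg_sum h, ← add_sum_erase _ _ (mem_univ (triv X)),
    sum_congr rfl fun μ hμ => hχ μ ψ (ne_of_mem_erase hμ) hψ, sum_const, card_erase_of_mem (mem_univ _),
    card_univ, card_irr_comm h.comm', smul_eq_mul, mul_comm]

theorem Flat.eq_triv (hN : ∀ K : Subgroup G, K.Normal → X ≤ K → K = ⊤) {χ : Irr G} (hχ : Flat X χ)
    {ψ : Irr X} (hψ : ψ ≠ triv X) (h0 : mult χ ψ = 0) : χ = triv G := by
  classical
  by_contra hne
  obtain ⟨K, hK, hK1, hK2⟩ := exists_ker χ hne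
  have e : ∀ x : X, χ.1 x = mult χ (triv X) := fun x => by
    rw [res_expand, ← add_sum_erase _ _ (mem_univ (triv X)),
      sum_eq_zero fun μ hμ => by rw [hχ μ ψ (ne_of_mem_erase hμ) hψ, h0]; simp]
    simp [triv_apply]
  refine hK1 (hN K hK fun x hx => hK2 x fun k => ?_)
  rw [e ⟨x ^ k, pow_mem hx k⟩, ← e 1]; rfl

open Classical in
theorem all_flat (hN : ∀ K : Subgroup G, K.Normal → X ≤ K → K = ⊤) {n : Irr G → ℕ} {j : ℕ}
    (hn : ∀ ψ : Irr X, ∑ φ, n φ * mult φ ψ = j) (he : 1 < wt X) (h1 : wt X * (j + 1) + 1 < Nat.card X)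
    (h2 : wt X * wt X + 1 < Nat.card X) {χ : Irr G} (hχ : n χ ≠ 0) : Flat X χ := by
  by_contra hF
  obtain ⟨ψ₀, h0, s, hs, hβ⟩ := special h hF
  have : Nonempty (Irr G) := ⟨χ⟩
  choose! β hβ1 hβ2 using hβ
  let D : Finset (Irr X) := univ.filter fun ψ' => ψ' ≠ triv X ∧ ¬ h.isTI.Rel ψ' ψ₀
  have hD : ∀ ψ', ψ' ∈ D ↔ ψ' ≠ triv X ∧ ¬ h.isTI.Rel ψ' ψ₀ := fun ψ' => by simp [D]
  have hs0 : s ≠ 0 := by rintro rfl; simp at hs
  have a1 : ∀ ψ' ∈ D, n (β ψ') = n χ := fun ψ' hψ' => by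
    obtain ⟨b1, b2⟩ := (hD _).1 hψ'
    have e : ∑ φ, (n φ : ℤ) * ((mult φ ψ₀ : ℤ) - mult φ ψ') = 0 := by
      simp only [mul_sub, sum_sub_distrib]
      exact_mod_cast sub_eq_zero.2 (congrArg (Nat.cast : ℕ → ℤ) ((hn ψ₀).trans (hn ψ').symm))
    simp only [hβ2 ψ' b1 b2, mul_sub, sum_sub_distrib, mul_ite, mul_zero, mul_one, sum_ite_eq', mem_univ,
      if_true] at e
    have : (n χ - n (β ψ') : ℤ) * s = 0 := by linear_combination e
    have := (mul_eq_zero.1 this).resolve_right hs0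
    omega
  have a2 : ∀ ψ' ∈ D, ∀ ψ, (mult χ ψ : ℤ) - mult (β ψ') ψ =
      s * ((if h.isTI.Rel ψ ψ₀ then 1 else 0) - (if h.isTI.Rel ψ ψ' then 1 else 0)) := fun ψ' hψ' ψ => by
    obtain ⟨b1, b2⟩ := (hD _).1 hψ'
    have e := gram2 h ψ₀ ψ' (ψ := ψ) h0 b1
    simp only [hβ2 ψ' b1 b2, mul_sub, sub_mul, sum_sub_distrib, mul_ite, ite_mul, zero_mul, mul_zero,
      mul_one, sum_ite_eq', mem_univ, if_true] at e
    rw [← e]
    linear_combination (-(mult χ ψ : ℤ) + mult (β ψ') ψ) * hs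
  have a3 : D.card + wt X + 1 = Nat.card X := by
    rw [← card_rel h h0, ← card_irr_comm h.comm', ← card_univ,
      ← card_filter_add_card_filter_not (s := univ) (fun ψ' => h.isTI.Rel ψ' ψ₀),
      ← card_filter_add_card_filter_not (s := univ.filter fun ψ' => ¬ h.isTI.Rel ψ' ψ₀)
        (fun ψ' => ψ' = triv X), filter_filter, filter_filter]
    rw [show (univ.filter fun ψ' => ¬ h.isTI.Rel ψ' ψ₀ ∧ ψ' = triv X) = {triv X} by
      ext μ
      simp only [mem_filter, mem_univ, true_and, mem_singleton]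
      exact ⟨fun a => a.2, fun a => ⟨fun r => rel_ne_triv h h0 r a, a⟩⟩]
    simp only [D, and_comm, card_singleton]
    ring
  have a4 : j < (D.image β).card := by
    have := card_le_mul_card_image (f := β) D (wt X) fun b hb => by
      obtain ⟨ψ', hψ', rfl⟩ := mem_image.1 hb
      obtain ⟨b1, b2⟩ := (hD _).1 hψ'
      rw [← card_rel h b1]
      refine card_le_card fun μ hμ => ?_
      obtain ⟨c1, c2⟩ := mem_filter.1 hμ
      have e1 := a2 μ c1 μ
      have e2 := a2 ψ' hψ' μ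
      rw [c2, e2, if_pos (IsTI.Rel.refl _ _)] at e1
      have e3 := mul_left_cancel₀ hs0 e1
      simp only [mem_filter, mem_univ, true_and]
      by_contra hr
      rw [if_neg hr] at e3
      omega
    by_contra hc
    have := Nat.mul_le_mul_left (wt X) (not_lt.1 hc)
    rw [mul_add] at h1
    omega
  have a5 : ∀ (ψ : Irr X) (m : ℕ), (∀ ψ' ∈ D, mult (β ψ') ψ = m) → m = 0 := fun ψ m hm => by
    have e1 : ∑ φ ∈ D.image β, n φ * mult φ ψ ≤ j := hn ψ ▸ sum_le_sum_of_subset (subset_univ _)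
    rw [sum_congr rfl (g := fun _ => n χ * m) fun b hb => by
      obtain ⟨ψ', hψ', rfl⟩ := mem_image.1 hb
      rw [a1 _ hψ', hm _ hψ'], sum_const, smul_eq_mul] at e1
    by_contra hm0
    have := Nat.mul_le_mul_left (D.image β).card
      (Nat.one_le_iff_ne_zero.2 (mul_ne_zero hχ hm0))
    omega
  obtain ⟨ψ₁, hψ₁⟩ : D.Nonempty := by
    rw [← image_nonempty (f := β), ← card_pos]; omega
  have a6 : mult χ (triv X) = 0 := a5 (triv X) _ fun ψ' hψ' => by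
    have := a2 ψ' hψ' (triv X)
    rw [if_neg fun r => rel_ne_triv h h0 r rfl, if_neg fun r => rel_ne_triv h ((hD _).1 hψ').1 r rfl] at this
    omega
  have a7 : mult (β ψ₁) ψ₀ = 0 := a5 ψ₀ _ fun ψ' hψ' => by
    have e1 := a2 ψ' hψ' ψ₀
    have e2 := a2 ψ₁ hψ₁ ψ₀
    rw [if_pos (IsTI.Rel.refl _ _), if_neg fun r => ((hD _).1 hψ').2 r.symm] at e1
    rw [if_pos (IsTI.Rel.refl _ _), if_neg fun r => ((hD _).1 hψ₁).2 r.symm] at e2
    omega
  have a8 : s = 1 ∧ mult χ ψ₀ = 1 := by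
    have e2 := a2 ψ₁ hψ₁ ψ₀
    rw [if_pos (IsTI.Rel.refl _ _), if_neg fun r => ((hD _).1 hψ₁).2 r.symm, a7] at e2
    rcases mul_self_eq_one_iff.1 hs with rfl | rfl <;> omega
  obtain ⟨rfl, a9⟩ := a8
  have a10 : ∀ ψ, mult χ ψ = if h.isTI.Rel ψ ψ₀ then 1 else 0 := fun ψ => by
    split_ifs with r
    · rw [r.mult_eq, a9]
    by_cases ht : ψ = triv X
    · rw [ht, a6]
    have := hβ2 ψ ht r χ
    rw [if_pos rfl, if_neg (hβ1 ψ ht r).symm, a9] at this
    omega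
  have a11 : deg χ = wt X := by
    rw [deg_sum h, ← card_rel h h0, card_filter]
    exact sum_congr rfl fun ψ _ => a10 ψ
  -- the product with the conjugate character
  obtain ⟨n', hn'⟩ := ch_mul_inv χ
  have b1 : n' (triv G) = 1 := by
    have := hn'.inner (triv G)
    have e := inner_irr χ χ
    rw [if_pos rfl] at e
    simp only [classInner, conj_irr, triv_apply, map_one, mul_one] at this e
    exact_mod_cast this.symm.trans e
  have b2 : ∑ φ, n' φ * mult φ (triv X) = wt X := by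
    have := (hn'.res X).inner (triv X)
    have e := (ch_res χ X).norm
    simp only [classInner, conj_irr, triv_apply, map_one, mul_one] at this e
    have e2 : ∑ φ, n' φ * mult φ (triv X) = ∑ ψ : Irr X, mult χ ψ * mult χ ψ := by
      exact_mod_cast this.symm.trans e
    rw [e2, ← card_rel h h0, card_filter]
    exact sum_congr rfl fun ψ _ => by rw [a10]; split_ifs <;> rfl
  have b3 : ∑ φ, n' φ * deg φ = wt X * wt X := by
    have := hn'.one
    simp only [inv_one, deg_eq, a11] at this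
    exact_mod_cast this.symm
  obtain ⟨φ, c1, c2⟩ : ∃ φ, φ ≠ triv G ∧ n' φ * mult φ (triv X) ≠ 0 := by
    by_contra hc
    push Not at hc
    rw [sum_eq_single (triv G) (fun φ _ a => hc φ a) (by simp), b1, mult_triv, if_pos rfl] at b2
    omega
  have c3 : Flat X φ := by
    have d1 : ∀ ψ, ψ ≠ triv X → mult φ ψ = mult φ ψ₀ := fun ψ ht => by
      by_cases r : h.isTI.Rel ψ ψ₀
      · exact r.mult_eq φ
      have e := hβ2 ψ ht r φ
      have e1 : φ ≠ χ := by rintro rfl; exact c2 (by rw [a6, mul_zero])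
      have e2 : φ ≠ β ψ := by
        rintro rfl
        have := a2 ψ ((hD _).2 ⟨ht, r⟩) (triv X)
        rw [if_neg fun r => rel_ne_triv h h0 r rfl, if_neg fun r => rel_ne_triv h ht r rfl, a6] at this
        exact c2 (by rw [show mult (β ψ) (triv X) = 0 by omega, mul_zero])
      rw [if_neg e1, if_neg e2] at e
      omega
    exact fun ψ ψ' a b => (d1 ψ a).trans (d1 ψ' b).symm
  have c4 := c3.deg_eq h h0
  have c5 : mult φ ψ₀ ≠ 0 := fun e => c1 (c3.eq_triv h hN h0 e)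
  have c6 : n' φ * deg φ ≤ wt X * wt X := b3 ▸ single_le_sum (f := fun φ => n' φ * deg φ)
    (fun _ _ => Nat.zero_le _) (mem_univ φ)
  have c7 := Nat.mul_le_mul_right (deg φ) (Nat.one_le_iff_ne_zero.2 (mul_ne_zero_iff.1 c2).1)
  have c8 := Nat.mul_le_mul_right (Nat.card X - 1) (Nat.one_le_iff_ne_zero.2 c5)
  omega

theorem char_main (hN : ∀ K : Subgroup G, K.Normal → X ≤ K → K = ⊤) {Ω : Type*} [MulAction G Ω]
    [Finite Ω] [IsPretransitive G Ω] [Nonempty Ω] (hs : ∀ x ∈ X, ∀ ω : Ω, x • ω = ω → x = 1) {j : ℕ}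
    (hj : Nat.card Ω = j * Nat.card X) (he : 1 < wt X) (h1 : wt X * (j + 1) + 1 < Nat.card X)
    (h2 : wt X * wt X + 1 < Nat.card X) :
    ∃ a c : ℕ, a < c ∧ c ≤ j ∧ a + c * (Nat.card X - 1) ∣ Nat.card G ∧
      (c = j → a + 1 = j → Nat.card (orbitRel.Quotient G (Ω × Ω)) = 2) := by
  classical
  have := Fintype.ofFinite Ω
  obtain ⟨n, hn⟩ := ch_rep (permRep ℂ G Ω)
  rw [H1.PermChar.perm_char] at hn
  have p1 : n (triv G) = 1 := by
    exact_mod_cast (hn.inner (triv G)).symm.trans (H1.PermChar.classInner_perm_one (G := G) (Ω := Ω))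
  have p2 : ∀ ψ : Irr X, ∑ φ, n φ * mult φ ψ = j := fun ψ => by
    have e := (hn.res X).inner ψ
    simp only [classInner] at e
    rw [sum_eq_single 1 (fun x _ hx => by
      have : IsEmpty (fixedBy Ω (x : G)) := ⟨fun ω => hx (Subtype.ext (hs x x.2 ω ω.2))⟩
      simp) (by simp)] at e
    have e1 : Nat.card (fixedBy Ω ((1 : X) : G)) = Nat.card Ω := by
      rw [OneMemClass.coe_one, fixedBy_one_eq_univ, Nat.card_univ]
    rw [e1, h.deg_one, hj] at e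
    have e2 : (Nat.card X : ℂ) ≠ 0 := card_ne
    have e3 : ((∑ φ, n φ * mult φ ψ : ℕ) : ℂ) = j := by
      rw [← e]; simp only [Nat.card_eq_fintype_card] at e2 ⊢; push_cast; field_simp; simp
    exact_mod_cast e3
  obtain ⟨x, hx, x1⟩ : ∃ x ∈ X, x ≠ 1 := by
    by_contra hc
    push Not at hc
    have : X = ⊥ := (eq_bot_iff_forall _).2 hc
    rw [this, card_bot] at h2
    omega
  obtain ⟨ψ₀, h0⟩ := exists_ne_triv h hx x1
  have hF := fun χ => all_flat h hN p2 he h1 h2 (χ := χ)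
  obtain ⟨χ, c1, c2⟩ : ∃ χ, n χ ≠ 0 ∧ mult χ (triv X) < mult χ ψ₀ := by
    by_contra hc
    push Not at hc
    have := sum_lt_sum (s := univ) (f := fun φ => n φ * mult φ ψ₀) (g := fun φ => n φ * mult φ (triv X))
      (fun φ _ => by
        by_cases e : n φ = 0
        · simp [e]
        · exact Nat.mul_le_mul_left _ (hc φ e)) ⟨triv G, mem_univ _, by
        simp [p1, mult_triv, h0.symm]⟩
    rw [p2, p2] at this
    omega
  have c3 := (hF χ c1).deg_eq h h0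
  have c4 : n χ * mult χ ψ₀ ≤ j := p2 ψ₀ ▸ single_le_sum (f := fun φ => n φ * mult φ ψ₀)
    (fun _ _ => Nat.zero_le _) (mem_univ χ)
  have c5 := Nat.mul_le_mul_right (mult χ ψ₀) (Nat.one_le_iff_ne_zero.2 c1)
  refine ⟨_, _, c2, by omega, c3 ▸ deg_dvd χ, fun d1 d2 => ?_⟩
  have hχ : χ ≠ triv G := by
    rintro rfl
    rw [mult_triv, mult_triv, if_neg h0.symm] at c2
    omega
  have d3 : deg χ + 1 = Nat.card Ω := by
    rw [c3, hj, d1]
    obtain ⟨k, hk⟩ : ∃ k, Nat.card X = k + 1 := ⟨Nat.card X - 1, by omega⟩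
    rw [hk, Nat.add_sub_cancel, mul_add]
    omega
  have d4 : ∑ φ, n φ * deg φ = Nat.card Ω := by
    have := hn.one
    rw [fixedBy_one_eq_univ, Nat.card_univ] at this
    exact_mod_cast this.symm
  rw [← add_sum_erase _ _ (mem_univ χ), ← add_sum_erase _ _ (mem_erase.2 ⟨hχ.symm, mem_univ _⟩), p1] at d4
  have d5 := deg_pos (triv G)
  have d6 := Nat.mul_le_mul_right (deg χ) (Nat.one_le_iff_ne_zero.2 c1)
  have d7 : ∑ φ ∈ (univ.erase χ).erase (triv G), n φ * deg φ = 0 := by omega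
  have d8 : n χ = 1 := by
    have : n χ * deg χ = 1 * deg χ := by omega
    exact Nat.eq_of_mul_eq_mul_right (deg_pos χ) this
  have d9 := hn.norm
  rw [H1.PermChar.classInner_perm_perm, ← add_sum_erase _ _ (mem_univ χ),
    ← add_sum_erase _ _ (mem_erase.2 ⟨hχ.symm, mem_univ _⟩), p1, d8, sum_eq_zero fun φ hφ => by
      rw [(mul_eq_zero.1 (sum_eq_zero_iff.1 d7 φ hφ)).resolve_right (deg_pos φ).ne', mul_zero]] at d9
  exact_mod_cast d9

end Cfsg.Agent.H8.L5c
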