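import Cfsg.Agent.H8.L5c
import Cfsg.Agent.H4.Frobenius

/-!
A group with a semiregular abelian self-centralising subgroup with few orbits is doubly transitive.
-/

set_option autoImplicit false
set_option linter.unusedSectionVars false

namespace Cfsg.Agent.H8.L5d

open Cfsg MulAction Subgroup Cfsg.Agent.H5.Zas1 Cfsg.Agent.H4.CAG Cfsg.Agent.H4.Util

variable {Ω : Type*} [Finite Ω] {t d N : ℕ} {b : Fin 6 → Ω}

theorem frob {G : Type*} [Group G] [Finite G] [MulAction G Ω] {X : Subgroup G} (h : CA X)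
    (hn : ∃ g, g ∉ Nm X) (hw : wt X = 1) (hs : ∀ x ∈ X, ∀ ω : Ω, x • ω = ω → x = 1)
    (hb : ∀ g : G, (∀ i, g • b i = b i) → g = 1) (hΩ : Nat.card Ω = d * Nat.card X) :
    ∃ m, 1 ≤ m ∧ 1 + m * Nat.card X ≤ d ^ 6 ∧ 1 + m * Nat.card X ∣ Nat.card G := by
  have hX : Nm X = X := by
    have := card_Nm X
    rw [hw, mul_one] at this
    exact (eq_of_le_of_card_ge le_normalizer this.le).symm
  have key : ∀ (g a : G), g • (a : G ⧸ Nm X) = a → a⁻¹ * g * a ∈ X := fun g a e => by
    rw [← hX, ← fix_iff, mul_smul, mul_smul, inv_smul_eq_iff]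
    simpa using e
  obtain ⟨K, hK, hK1, hK2⟩ := H4.Frobenius.exists_kernel (B := G) (X := G ⧸ Nm X)
    (fun x y => exists_smul_eq G x y) (fun g x y hxy e1 e2 => by
      obtain ⟨a, rfl⟩ := QuotientGroup.mk_surjective x
      have := free h (key g a e1) (ω := a⁻¹ • y) (fun e => hxy (by
        rw [inv_smul_eq_iff] at e; simpa using e.symm)) (by simp [mul_smul, e2])
      rwa [mul_assoc, inv_mul_eq_one, eq_comm, mul_eq_right] at this)
  have c1 : Nat.card K = Nat.card (G ⧸ Nm X) := by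
    refine Nat.card_congr (Equiv.ofBijective (fun k : K => (k : G) • ((1 : G) : G ⧸ Nm X)) ⟨?_, ?_⟩)
    · intro k k' e
      have := (hK1 _).1 (K.mul_mem (K.inv_mem k'.2) k.2)
      rcases this with e1 | e1
      · exact Subtype.ext (inv_mul_eq_one.1 e1).symm
      · exact (e1 ((1 : G) : G ⧸ Nm X) (by rw [mul_smul, inv_smul_eq_iff]; exact e)).elim
    · intro y
      obtain ⟨g, hg, e⟩ := hK2 ((1 : G) : G ⧸ Nm X) y
      exact ⟨⟨g, hg⟩, e⟩
  have c2 : Nat.card X * Nat.card K = Nat.card G := by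
    rw [c1, ← (Nm X).card_mul_index, hX]; rfl
  have c3 : K.index = Nat.card X := by
    have := K.card_mul_index
    rw [← c2, mul_comm] at this
    exact Nat.eq_of_mul_eq_mul_right Nat.card_pos this
  have c4 : ∀ ω : Ω, (stabilizer G ω).relIndex K ≤ d := fun ω => by
    have e1 : stabilizer G ω ≤ K := fun g hg => (hK1 g).2 (by
      by_contra hc
      push Not at hc
      obtain ⟨g1, x, e⟩ := hc
      obtain ⟨a, rfl⟩ := QuotientGroup.mk_surjective x
      have := hs _ (key g a e) (a⁻¹ • ω) (by simp [mul_smul, mem_stabilizer_iff.1 hg])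
      rw [mul_assoc, inv_mul_eq_one, eq_comm, mul_eq_right] at this
      exact g1 this)
    have e2 := relIndex_mul_index e1
    rw [c3, index_stabilizer] at e2
    have e3 := Set.ncard_le_card (orbit G ω)
    rw [← e2, hΩ] at e3
    exact Nat.le_of_mul_le_mul_right e3 Nat.card_pos
  have c5 : Nat.card K ≤ d ^ 6 := by
    have := relIndex_iInf_le (L := K) fun i => stabilizer G (b i)
    rw [show (⨅ i, stabilizer G (b i)) = ⊥ from (eq_bot_iff_forall _).2 fun g hg =>
      hb g fun i => mem_iInf.1 hg i, relIndex_bot_left] at this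
    refine this.trans ((Finset.prod_le_pow_card _ _ d fun i _ => c4 _).trans ?_)
    simp
  obtain ⟨k, hk⟩ := card_dvd_of_free' X ({((1 : G) : G ⧸ Nm X)}ᶜ : Set (G ⧸ Nm X))
    (fun g hg ω hω e => hω (smul_left_cancel g (e.trans (fix_iff.2 (le_normalizer hg)).symm)))
    fun g hg ω hω e => free h hg hω e
  rw [Set.ncard_compl, Set.ncard_singleton, ← c1] at hk
  have c6 : 1 < Nat.card K := by
    obtain ⟨g, hg⟩ := hn
    rw [c1, Finite.one_lt_card_iff_nontrivial]
    exact ⟨g, (1 : G), fun e => hg (ne_iff.1 e)⟩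
  have c7 : 1 + k * Nat.card X = Nat.card K := by rw [mul_comm]; omega
  refine ⟨k, ?_, c7 ▸ c5, c7 ▸ K.card_subgroup_dvd_card⟩
  by_contra hc
  rw [show k = 0 by omega] at c7
  omega

theorem two_trans.{u} (hΩ : Nat.card Ω = d * t) (h1 : 5 * (d + 1) + 1 < t) (h2 : 26 < t)
    (A1 : ∀ a c, a < c → c ≤ d → a + c * (t - 1) ∣ N → c = d ∧ a + 1 = d)
    (A2 : ∀ m, 1 ≤ m → 1 + m * t ≤ d ^ 6 → ¬ 1 + m * t ∣ N) (n : ℕ) :
    ∀ (G : Type u) [Group G] [Finite G] [MulAction G Ω] (X : Subgroup G), Nat.card G ≤ n → CA X →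
      (∃ g, g ∉ Nm X) → wt X ≤ 5 → Nat.card X = t → (∀ x ∈ X, ∀ ω : Ω, x • ω = ω → x = 1) →
      (∀ g : G, (∀ i, g • b i = b i) → g = 1) → Nat.card G ∣ N →
      ∀ x y x' y' : Ω, x ≠ y → x' ≠ y' → ∃ g : G, g • x = x' ∧ g • y = y' := by
  induction n with
  | zero => intro G _ _ _ X hn; exact absurd hn (by simpa using Nat.card_pos.ne')
  | succ n ih =>
  intro G _ _ _ X hn h hX hw ht hs hb hN x y x' y' hxy hxy'
  subst ht
  by_cases hK : ∀ K : Subgroup G, K.Normal → X ≤ K → K = ⊤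
  swap
  · push Not at hK
    obtain ⟨K, hK, hXK, hK1⟩ := hK
    have e1 : Nat.card (X.subgroupOf K) = Nat.card X := Nat.card_congr (subgroupOfEquivOfLe hXK).toEquiv
    obtain ⟨g, hg⟩ := ih K (X.subgroupOf K) (by
        have a1 := K.card_le_card_group
        have a2 : Nat.card K ≠ Nat.card G := fun e => hK1 (K.eq_top_of_card_eq e)
        omega) (fun z hz z1 => by
        ext w
        rw [mem_subgroupOf, ← h z hz (fun e => z1 (Subtype.ext e)), mem_centralizer_singleton_iff,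
          mem_centralizer_singleton_iff, Subtype.ext_iff]
        rfl) (by
        by_contra hc
        push Not at hc
        obtain ⟨g, hg⟩ := hX
        obtain ⟨z, hz, z1⟩ : ∃ z ∈ X, z ≠ 1 := by
          by_contra hc
          push Not at hc
          rw [(eq_bot_iff_forall _).2 hc, card_bot] at h2
          omega
        refine hg (semireg h hz z1 ?_)
        have := hc ⟨g⁻¹ * z * g, hK.conj_mem' z (hXK hz) g⟩
        rwa [Nm, ← subgroupOf_normalizer_eq hXK] at this) (by
        have a1 := card_Nm X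
        have a2 := card_Nm (X.subgroupOf K)
        have a3 : Nat.card (Nm (X.subgroupOf K)) ≤ Nat.card (Nm X) := by
          rw [Nm, ← subgroupOf_normalizer_eq hXK]
          exact Nat.card_le_card_of_injective (fun z => ⟨z.1.1, z.2⟩) fun z z' e =>
            Subtype.ext (Subtype.ext (congrArg (fun w : Nm X => (w : G)) e))
        rw [a1, a2, e1] at a3
        exact (Nat.le_of_mul_le_mul_left a3 Nat.card_pos).trans hw) e1
      (fun z hz ω e => Subtype.ext (hs z hz ω e)) (fun g e => Subtype.ext (hb g e))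
      (K.card_subgroup_dvd_card.trans hN) x y x' y' hxy hxy'
    exact ⟨g, hg⟩
  by_cases hw1 : wt X = 1
  · obtain ⟨m, a1, a2, a3⟩ := frob h hX hw1 hs hb hΩ
    exact (A2 m a1 a2 (a3.trans hN)).elim
  have hw2 : 1 < wt X := by have := wt_pos X; omega
  have := Fintype.ofFinite G
  have b1 : wt X * wt X + 1 < Nat.card X := by
    have := Nat.mul_le_mul hw hw
    omega
  have b2 : ∀ j, j ≤ d → wt X * (j + 1) + 1 < Nat.card X := fun j hj => by
    have := Nat.mul_le_mul hw (Nat.add_le_add_right hj 1)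
    omega
  have htr : IsPretransitive G Ω := by
    obtain ⟨j, hj⟩ := card_dvd_of_free' X (orbit G x) (fun g _ ω hω => mapsTo_smul_orbit g x hω)
      (fun g hg ω _ e => hs g hg ω e)
    have c1 := Set.ncard_le_card (orbit G x)
    rw [hj, hΩ, mul_comm d] at c1
    have c2 := Nat.le_of_mul_le_mul_left c1 Nat.card_pos
    have : Nonempty (orbit G x) := ⟨⟨x, mem_orbit_self x⟩⟩
    obtain ⟨a, c, e1, e2, e3, -⟩ := L5c.char_main h hK (Ω := orbit G x)
      (fun g hg ω e => hs g hg ω (congrArg Subtype.val e)) (j := j)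
      (by rw [Nat.card_coe_set_eq, hj, mul_comm]) hw2 (b2 j c2) b1
    obtain ⟨e4, -⟩ := A1 a c e1 (e2.trans c2) (e3.trans hN)
    refine (isPretransitive_iff_orbit_eq_univ x).2 (Set.eq_of_subset_of_ncard_le (Set.subset_univ _) ?_)
    rw [Set.ncard_univ, hΩ, hj, mul_comm d]
    exact Nat.mul_le_mul_left _ (by omega)
  have : Nonempty Ω := ⟨x⟩
  obtain ⟨a, c, e1, e2, e3, e4⟩ := L5c.char_main h hK hs hΩ hw2 (b2 d le_rfl) b1
  obtain ⟨e5, e6⟩ := A1 a c e1 e2 (e3.trans hN)
  have e7 := (Nat.card_eq_two_iff' (Quotient.mk'' (x, x))).1 (e4 e5 e6)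
  have e8 : ∀ {u v : Ω}, u ≠ v →
      (Quotient.mk'' (u, v) : orbitRel.Quotient G (Ω × Ω)) ≠ Quotient.mk'' (x, x) := fun huv e => by
    obtain ⟨g, hg⟩ := Quotient.exact e
    exact huv ((congrArg Prod.fst hg).symm.trans (congrArg Prod.snd hg))
  obtain ⟨g, hg⟩ := Quotient.exact (e7.unique (e8 hxy') (e8 hxy))
  exact ⟨g, congrArg Prod.fst hg, congrArg Prod.snd hg⟩

end Cfsg.Agent.H8.L5d
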