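import Cfsg.Agent.H8.L5g
import Cfsg.Agent.H1.Root
import Cfsg.Prelude.Def_GeometricClasses

/-!
The extraspecial group of order `125` and elements of its normaliser as matrices.
-/

set_option autoImplicit false
set_option linter.unusedSectionVars false
set_option linter.unusedSimpArgs false

namespace Cfsg.Agent.H8.L5

open Matrix Subgroup

/-- a primitive fifth root of unity -/
structure Om5 (F : Type*) [Field F] where
  ω : F
  s : F
  h : ω ^ 4 + ω ^ 3 + ω ^ 2 + ω + 1 = 0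
  hs : 5 * s = -(ω + ω ^ 4 - ω ^ 2 - ω ^ 3)
  h2 : (2 : F) ≠ 0
  h3 : (3 : F) ≠ 0
  h5 : (5 : F) ≠ 0

abbrev M5 (F : Type*) := Matrix (Fin 5) (Fin 5) F
abbrev G5 (F : Type*) [Field F] := GL (Fin 5) F

variable {F : Type*} [Field F]

/-- a unit from a matrix and its inverse -/
def mku {n : Type} [Fintype n] [DecidableEq n] (X Y : Matrix n n F) (h : X * Y = 1) : GL n F :=
  ⟨X, Y, h, mul_eq_one_comm.1 h⟩

/-- entrywise verification -/
scoped macro "mx5" : tactic => `(tactic| (ext i j; fin_cases i <;> fin_cases j <;>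
  simp [Matrix.mul_apply, Fin.sum_univ_succ, Matrix.diagonal_apply, Matrix.one_apply, Matrix.single_apply,
    Matrix.vecMul, dotProduct] <;> grind))

/-- commuting up to a scalar -/
def Cm (x y : G5 F) (c : F) : Prop := x.val * y.val = c • (y.val * x.val)

theorem Cm.mul {x x' y : G5 F} {c c' : F} (h : Cm x y c) (h' : Cm x' y c') : Cm (x * x') y (c * c') := by
  rw [Cm, Units.val_mul, mul_assoc, h', mul_smul_comm, ← mul_assoc, h, smul_mul_assoc, smul_smul, mul_assoc, mul_comm c]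

theorem Cm.pow {x y : G5 F} {c : F} (h : Cm x y c) (n : ℕ) : Cm (x ^ n) y (c ^ n) := by
  induction n with
  | zero => simp [Cm]
  | succ n ih => rw [pow_succ, pow_succ]; exact ih.mul h

theorem Cm.refl (x : G5 F) : Cm x x 1 := (one_smul _ _).symm

theorem Cm.five {x y : G5 F} {c : F} (h : Cm x y c) : c ^ 5 = 1 := by
  have := congrArg det h
  rw [det_smul, det_mul, det_mul, mul_comm, Fintype.card_fin, eq_comm, mul_eq_right₀ (mul_ne_zero
    (GeneralLinearGroup.det_ne_zero y) (GeneralLinearGroup.det_ne_zero x))] at this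
  exact this

namespace Om5
variable (o : Om5 F)

theorem w5 : o.ω ^ 5 = 1 := by linear_combination (o.ω - 1) * o.h
theorem w1 : o.ω ≠ 1 := fun e => o.h5 (by have := o.h; rw [e] at this; linear_combination this)
theorem w0 : o.ω ≠ 0 := fun e => by simpa [e] using o.h
theorem prim : IsPrimitiveRoot o.ω 5 := by
  have := Fact.mk Nat.prime_five
  exact orderOf_eq_prime o.w5 o.w1 ▸ IsPrimitiveRoot.orderOf _
theorem wne {k l : ℕ} (h : k % 5 ≠ l % 5) : o.ω ^ k ≠ o.ω ^ l := fun e => h (o.prim.pow_inj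
  (Nat.mod_lt _ (by norm_num)) (Nat.mod_lt _ (by norm_num)) (by rwa [← pow_eq_pow_mod _ o.w5, ← pow_eq_pow_mod _ o.w5]))
theorem s2 : 5 * o.s ^ 2 = 1 := mul_left_cancel₀ o.h5 (by have := o.h; have := o.hs; grind)
theorem s0 : o.s ≠ 0 := fun e => by simpa [e] using o.s2

/-- the diagonal generator -/
def a : G5 F := mku (diagonal fun i => o.ω ^ i.val) (diagonal fun i => o.ω ^ (4 * i.val)) (by
  rw [diagonal_mul_diagonal, ← diagonal_one]
  congr 1; ext i
  rw [← pow_add, show i.val + 4 * i.val = 5 * i.val by ring, pow_mul, o.w5, one_pow])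

/-- the shift -/
def b (F : Type*) [Field F] : G5 F := mku !![0, 0, 0, 0, 1; 1, 0, 0, 0, 0; 0, 1, 0, 0, 0; 0, 0, 1, 0, 0; 0, 0, 0, 1, 0]
  !![0, 1, 0, 0, 0; 0, 0, 1, 0, 0; 0, 0, 0, 1, 0; 0, 0, 0, 0, 1; 1, 0, 0, 0, 0] (by mx5)

/-- the central involution -/
def z (F : Type*) [Field F] : G5 F := mku !![1, 0, 0, 0, 0; 0, 0, 0, 0, 1; 0, 0, 0, 1, 0; 0, 0, 1, 0, 0; 0, 1, 0, 0, 0]
  !![1, 0, 0, 0, 0; 0, 0, 0, 0, 1; 0, 0, 0, 1, 0; 0, 0, 1, 0, 0; 0, 1, 0, 0, 0] (by mx5)

/-- the quadratic diagonal element -/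
def u : G5 F := mku (diagonal ![1, o.ω, o.ω ^ 4, o.ω ^ 4, o.ω]) (diagonal ![1, o.ω ^ 4, o.ω, o.ω, o.ω ^ 4]) (by
  have := o.w5; mx5)

/-- the Fourier matrix -/
def Φ : M5 F := !![1, 1, 1, 1, 1; 1, o.ω, o.ω ^ 2, o.ω ^ 3, o.ω ^ 4; 1, o.ω ^ 2, o.ω ^ 4, o.ω, o.ω ^ 3;
  1, o.ω ^ 3, o.ω, o.ω ^ 4, o.ω ^ 2; 1, o.ω ^ 4, o.ω ^ 3, o.ω ^ 2, o.ω]

theorem a_val : o.a.val = diagonal fun i => o.ω ^ i.val := rfl
theorem b_val : (b F).val =
  !![0, 0, 0, 0, 1; 1, 0, 0, 0, 0; 0, 1, 0, 0, 0; 0, 0, 1, 0, 0; 0, 0, 0, 1, 0] := rfl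
theorem z_val : (z F).val =
  !![1, 0, 0, 0, 0; 0, 0, 0, 0, 1; 0, 0, 0, 1, 0; 0, 0, 1, 0, 0; 0, 1, 0, 0, 0] := rfl
theorem u_val : o.u.val = diagonal ![1, o.ω, o.ω ^ 4, o.ω ^ 4, o.ω] := rfl
theorem zz : z F * z F = 1 := Units.ext (z F).val_inv

theorem ΦΦ : o.Φ * o.Φ = (5 : F) • (z F).val := by
  have := o.h
  rw [z_val, Φ]; mx5

/-- the normalised Fourier matrix -/
def f : G5 F := mku (o.s • o.Φ) (o.s • o.Φ * (z F).val) (by
  rw [← mul_assoc, smul_mul_smul_comm, ΦΦ, smul_smul, show o.s * o.s * 5 = 1 by linear_combination o.s2, one_smul]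
  exact (z F).val_inv)

theorem f_val : o.f.val = o.s • o.Φ := rfl
theorem ff : o.f * o.f = z F := Units.ext (by
  rw [Units.val_mul, f_val, smul_mul_smul_comm, ΦΦ, smul_smul, show o.s * o.s * 5 = 1 by linear_combination o.s2,
    one_smul])

theorem fb : o.f * b F = o.a * o.f := Units.ext (by
  have := o.w5
  rw [Units.val_mul, Units.val_mul, f_val, smul_mul_assoc, mul_smul_comm, Φ, a_val, b_val]
  congr 1; mx5)
theorem fa : b F * (o.f * o.a) = o.f := Units.ext (by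
  have := o.w5
  rw [Units.val_mul, Units.val_mul, f_val, smul_mul_assoc, mul_smul_comm, Φ, a_val, b_val]
  congr 1; mx5)
theorem ab : Cm o.a (b F) o.ω := by
  have := o.w5
  rw [Cm, a_val, b_val]; mx5
theorem ba : Cm (b F) o.a (o.ω ^ 4) := by
  rw [Cm, o.ab, smul_smul, ← pow_succ, o.w5, one_smul]
theorem ua : o.u * o.a = o.a * o.u := Units.ext (commute_diagonal _ _)
theorem ub : (o.u * b F).val = o.ω • (b F * o.a ^ 2 * o.u).val := by
  have := o.w5
  simp only [Units.val_mul, sq, a_val, b_val, u_val]; mx5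
theorem zu : z F * o.u = o.u * z F := Units.ext (by simp only [Units.val_mul, z_val, u_val]; mx5)
theorem za : o.a * z F * o.a = z F := Units.ext (by
  have := o.w5
  simp only [Units.val_mul, z_val, a_val]; mx5)
theorem zb : b F * z F * b F = z F := Units.ext (by simp only [Units.val_mul, z_val, b_val]; mx5)
theorem a5 : o.a ^ 5 = 1 := Units.ext (by
  rw [Units.val_pow_eq_pow_val, a_val, diagonal_pow, Units.val_one, ← diagonal_one]
  congr 1; ext i
  rw [Pi.pow_apply, ← pow_mul, mul_comm, pow_mul, o.w5, one_pow])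
theorem faf : o.f * o.a * o.f⁻¹ = (b F)⁻¹ := by rw [eq_inv_iff_mul_eq_one, mul_eq_one_comm, ← mul_assoc, fa, mul_inv_cancel]
include o in
theorem b5 : b F ^ 5 = 1 := by rw [← inv_eq_one, ← inv_pow, ← o.faf, conj_pow, a5]; simp

theorem det_a : o.a.val.det = 1 := by
  have := o.w5
  simp [a_val, Fin.prod_univ_succ]; grind
theorem det_u : o.u.val.det = 1 := by
  have := o.w5
  simp [u_val, Fin.prod_univ_succ]; grind
theorem det_f : o.f.val.det = 1 := by
  have e : o.Φ = vandermonde fun i : Fin 5 => o.ω ^ i.val := by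
    have := o.w5
    rw [Φ]; mx5
  have e2 : o.Φ.det = (5 * o.s) ^ 5 := by
    have := o.h
    have e3 : ∀ g : Fin 5 → Fin 5 → F, ∏ i, ∏ j ∈ Finset.Ioi i, g i j = g 0 1 * g 0 2 * g 0 3 * g 0 4 * (g 1 2 * g 1 3 *
        g 1 4) * (g 2 3 * g 2 4) * g 3 4 := fun g => by
      rw [Fin.prod_univ_five, show Finset.Ioi (0 : Fin 5) = {1, 2, 3, 4} by decide, show Finset.Ioi (1 : Fin 5) = {2, 3, 4}
        by decide, show Finset.Ioi (2 : Fin 5) = {3, 4} by decide, show Finset.Ioi (3 : Fin 5) = {4} by decide,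
        show Finset.Ioi (4 : Fin 5) = ∅ by decide]
      simp [mul_assoc]
    rw [e, det_vandermonde, e3, o.hs]
    simp
    grind
  rw [f_val, det_smul, e2, Fintype.card_fin]
  have := o.s2
  grind
include o in
theorem det_b : (b F).val.det = 1 := by
  have := congrArg (·.val.det) o.fb
  simpa [det_f, det_a] using this

/-- the extraspecial group -/
def R : Subgroup (G5 F) := closure {o.a, b F}

theorem a_mem : o.a ∈ o.R := subset_closure (by simp)
theorem b_mem : b F ∈ o.R := subset_closure (by simp)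

theorem sc_mem {x : G5 F} {c : F} (h : x.val = c • 1) (hc : c ^ 5 = 1) : x ∈ o.R := by
  obtain ⟨k, -, rfl⟩ := o.prim.eq_pow_of_pow_eq_one hc
  have e : (o.a * b F * o.a⁻¹ * (b F)⁻¹).val = o.ω • 1 := by
    rw [mul_assoc, ← _root_.mul_inv_rev, Units.val_mul, Units.val_mul, o.ab, smul_mul_assoc, ← Units.val_mul, ← Units.val_mul,
      mul_inv_cancel, Units.val_one]
  rw [show x = (o.a * b F * o.a⁻¹ * (b F)⁻¹) ^ k from Units.ext (by rw [h, Units.val_pow_eq_pow_val, e]; simp [smul_pow])]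
  exact pow_mem (mul_mem (mul_mem (mul_mem o.a_mem o.b_mem) (inv_mem o.a_mem)) (inv_mem o.b_mem)) k

theorem sc_of {y : G5 F} (h1 : Cm y o.a 1) (h2 : Cm y (b F) 1) : y.val = y.val 0 0 • 1 := by
  have e1 : ∀ i j, i ≠ j → y.val i j = 0 := fun i j hij => by
    have := congrFun (congrFun h1 i) j
    rw [one_smul, a_val, mul_diagonal, diagonal_mul, mul_comm] at this
    by_contra hn
    exact hij (Fin.ext (o.prim.pow_inj i.2 j.2 (mul_right_cancel₀ hn this).symm))
  have e2 := fun i j => congrFun (congrFun h2 i) j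
  have a1 := e2 1 0
  have a2 := e2 2 1
  have a3 := e2 3 2
  have a4 := e2 4 3
  simp [b_val, mul_apply, Fin.sum_univ_succ, vecMul, dotProduct] at a1 a2 a3 a4
  ext i j
  by_cases hij : i = j
  · subst hij; fin_cases i <;> simp [*]
  · simp [e1 i j hij, hij]

theorem exists_nf {x : G5 F} {c d : F} (h1 : Cm x o.a c) (h2 : Cm x (b F) d) :
    ∃ (m n : ℕ) (e : F), (x * o.a ^ m * b F ^ n).val = e • 1 := by
  obtain ⟨i, -, rfl⟩ := o.prim.eq_pow_of_pow_eq_one h1.five
  obtain ⟨j, -, rfl⟩ := o.prim.eq_pow_of_pow_eq_one h2.five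
  have e : ∀ k, o.ω ^ k * (o.ω ^ 4) ^ k = 1 := fun k => by rw [← mul_pow, ← pow_succ', o.w5, one_pow]
  refine ⟨4 * j, i, _, o.sc_of ?_ ?_⟩
  · simpa [e] using (h1.mul ((Cm.refl _).pow (4 * j))).mul (o.ba.pow i)
  · simpa [e, pow_mul] using (h2.mul (o.ab.pow (4 * j))).mul ((Cm.refl _).pow i)

theorem mem_R {x : G5 F} {c d : F} (h1 : Cm x o.a c) (h2 : Cm x (b F) d) (hd : x.val.det = 1) : x ∈ o.R := by
  obtain ⟨m, n, e, he⟩ := o.exists_nf h1 h2
  have := o.sc_mem he (by simpa [hd, o.det_a, o.det_b] using (congrArg det he).symm)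
  rwa [mul_mem_cancel_right (pow_mem o.b_mem _), mul_mem_cancel_right (pow_mem o.a_mem _)] at this

theorem nrm [Finite F] {g : G5 F} (h1 : g * o.a * g⁻¹ ∈ o.R) (h2 : g * b F * g⁻¹ ∈ o.R) :
    g ∈ Geo.subgroupNormalizer o.R := mem_normalizer_fintype fun r hr =>
  (closure_le (o.R.comap (MulAut.conj g).toMonoidHom)).2 (by rintro _ (rfl | rfl) <;> assumption) hr

theorem f_nrm [Finite F] : o.f ∈ Geo.subgroupNormalizer o.R :=
  o.nrm (o.faf ▸ inv_mem o.b_mem) (by rw [fb, mul_inv_cancel_right]; exact o.a_mem)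

theorem u_nrm [Finite F] : o.u ∈ Geo.subgroupNormalizer o.R := by
  refine o.nrm (by rw [ua, mul_inv_cancel_right]; exact o.a_mem) ?_
  have := o.sc_mem (x := o.u * b F * (b F * o.a ^ 2 * o.u)⁻¹) (c := o.ω) (by
    rw [Units.val_mul, ub, smul_mul_assoc, ← Units.val_mul, mul_inv_cancel, Units.val_one]) o.w5
  simpa [mul_assoc] using mul_mem this (mul_mem o.b_mem (pow_mem o.a_mem 2))

end Om5

section res
variable {k : ℕ} {P : Matrix (Fin 5) (Fin k) F} {Q : Matrix (Fin k) (Fin 5) F}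

/-- restriction to an invariant direct summand -/
def res (h : Q * P = 1) (H : Subgroup (G5 F)) (hH : ∀ g ∈ H, g.val * (P * Q) = P * Q * g.val) : H →* GL (Fin k) F :=
  MonoidHom.toHomUnits
    { toFun g := Q * g.1.val * P
      map_one' := by simp [h]
      map_mul' x y := by
        have := congrArg (Q * · * (y.1.val * P)) (hH x x.2)
        simp only [Matrix.mul_assoc, ← Matrix.mul_assoc Q P, h, Matrix.one_mul] at this
        simp only [coe_mul, Units.val_mul, Matrix.mul_assoc, this] }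

theorem res_val (h : Q * P = 1) (H : Subgroup (G5 F)) (hH) (g : H) : (res h H hH g).val = Q * g.1.val * P := rfl

end res

end Cfsg.Agent.H8.L5
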