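import Cfsg.Agent.H8.L5h

/-!
Overgroups of the normaliser of the extraspecial group of order `125`: the centraliser of an element of order five.
-/

set_option autoImplicit false
set_option linter.unusedSectionVars false
set_option linter.unusedSimpArgs false

namespace Cfsg.Agent.H8.L5

open Matrix Subgroup Om5 Cfsg.Agent.H1.Root Cfsg.Agent.H4 Cfsg.Agent.H4.Mob Cfsg.Agent.H4.MobCard L5g
open scoped commutatorElement

variable {F : Type*} [Field F] [Fintype F]

/-- the standing hypotheses -/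
structure Hyp (o : Om5 F) (p : ℕ) (M : Subgroup (G5 F)) : Prop where
  prime : p.Prime
  card : Fintype.card F = p
  det : ∀ g ∈ M, g.val.det = 1
  a : o.a ∈ M
  b : b F ∈ M
  u : o.u ∈ M
  f : o.f ∈ M

/-- the group is everything -/
abbrev Big (M : Subgroup (G5 F)) : Prop := Geo.specialLinear (Fin 5) F ≤ M

variable {o : Om5 F} {p : ℕ} {M : Subgroup (G5 F)}

theorem blk {g : G5 F} (h : g * o.u = o.u * g) : g.val = !![g.val 0 0, 0, 0, 0, 0; 0, g.val 1 1, 0, 0, g.val 1 4;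
    0, 0, g.val 2 2, g.val 2 3, 0; 0, 0, g.val 3 2, g.val 3 3, 0; 0, g.val 4 1, 0, 0, g.val 4 4] := by
  have e : ∀ i j, (g.val * o.u.val) i j = (o.u.val * g.val) i j := fun i j =>
    by rw [← Units.val_mul, h, Units.val_mul]
  simp only [u_val, mul_diagonal, diagonal_mul] at e
  have h1 := o.w1
  have h2 := o.wne (k := 4) (l := 0) (by norm_num)
  have h3 := o.wne (k := 4) (l := 1) (by norm_num)
  ext i j
  have h4 := e i j
  clear e
  fin_cases i <;> fin_cases j <;> simp at h4 ⊢ <;> grind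

/-- the centraliser of `u` -/
def Cu (o : Om5 F) (M : Subgroup (G5 F)) : Subgroup (G5 F) := M ⊓ centralizer {o.u}

theorem mem_Cu {g : G5 F} : g ∈ Cu o M ↔ g ∈ M ∧ g * o.u = o.u * g := and_congr_right' mem_centralizer_singleton_iff

/-- first block -/
def r0 (o : Om5 F) (M : Subgroup (G5 F)) : Cu o M →* GL (Fin 1) F := res (P := !![1; 0; 0; 0; 0])
  (Q := !![1, 0, 0, 0, 0]) (by mx5) _ fun g hg => by rw [blk (mem_Cu.1 hg).2]; mx5
/-- second block -/
def r1 (o : Om5 F) (M : Subgroup (G5 F)) : Cu o M →* GL (Fin 2) F := res (P := !![0, 0; 1, 0; 0, 0; 0, 0; 0, 1])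
  (Q := !![0, 1, 0, 0, 0; 0, 0, 0, 0, 1]) (by mx5) _ fun g hg => by rw [blk (mem_Cu.1 hg).2]; mx5
/-- third block -/
def r2 (o : Om5 F) (M : Subgroup (G5 F)) : Cu o M →* GL (Fin 2) F := res (P := !![0, 0; 0, 0; 1, 0; 0, 1; 0, 0])
  (Q := !![0, 0, 1, 0, 0; 0, 0, 0, 1, 0]) (by mx5) _ fun g hg => by rw [blk (mem_Cu.1 hg).2]; mx5

theorem r0_val (g : Cu o M) : (r0 o M g).val = !![g.1.val 0 0] := by rw [r0, res_val]; mx5
theorem r1_val (g : Cu o M) : (r1 o M g).val = !![g.1.val 1 1, g.1.val 1 4; g.1.val 4 1, g.1.val 4 4] := by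
  rw [r1, res_val]; mx5
theorem r2_val (g : Cu o M) : (r2 o M g).val = !![g.1.val 2 2, g.1.val 2 3; g.1.val 3 2, g.1.val 3 3] := by
  rw [r2, res_val]; mx5

theorem blk' (g : Cu o M) {x a b c d a' b' c' d' : F} (h0 : (r0 o M g).val = !![x]) (h1 : (r1 o M g).val = !![a, b; c, d])
    (h2 : (r2 o M g).val = !![a', b'; c', d']) :
    g.1.val = !![x, 0, 0, 0, 0; 0, a, 0, 0, b; 0, 0, a', b', 0; 0, 0, c', d', 0; 0, c, 0, 0, d] := by
  have e0 := congrFun (congrFun h0 0) 0
  have e1 := fun i j => congrFun (congrFun h1 i) j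
  have e2 := fun i j => congrFun (congrFun h2 i) j
  simp only [r0_val, r1_val, r2_val, Fin.forall_fin_two] at e0 e1 e2
  simp at e0 e1 e2
  rw [blk (mem_Cu.1 g.2).2]
  simp [*]

namespace Hyp
variable (H : Hyp o p M)
include H

theorem char : CharP F p := have := Fact.mk H.prime; charP_of_card_eq_prime H.card

theorem nat (x : F) : ∃ n : ℕ, x = n := by
  have := Fact.mk H.prime
  have := H.char
  obtain ⟨y, rfl⟩ := (ZMod.castHom_bijective F H.card).2 x
  exact ⟨y.val, by simp⟩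

theorem top (E : Subfield F) : E = ⊤ := eq_top_iff.2 fun x _ => by
  obtain ⟨n, rfl⟩ := H.nat x
  exact natCast_mem E n

theorem fermat {x : F} (hx : x ≠ 0) : x ^ (p - 1) = 1 := H.card ▸ FiniteField.pow_card_sub_one_eq_one x hx

theorem cast : ((p - 1 : ℕ) : F) = -1 := by
  have := H.char
  rw [Nat.cast_pred H.prime.pos, CharP.cast_eq_zero, zero_sub]

theorem cop : (30 : ℕ).Coprime p := by
  have := H.char
  refine ((Nat.Prime.coprime_iff_not_dvd H.prime).2 fun h => ?_).symm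
  exact mul_ne_zero (mul_ne_zero o.h2 o.h3) o.h5 (by linear_combination (CharP.cast_eq_zero_iff F p 30).2 h)

theorem z : z F ∈ M := o.ff ▸ mul_mem H.f H.f

theorem root {i j : Fin 5} (hij : i ≠ j) {c : F} (hc : c ≠ 0) {g : G5 F} (hg : g ∈ M) (e : g.val = 1 + single i j c) :
    Big M := by
  let K := M.map (H7.toLE (F := F)).toMonoidHom
  have h0 : ∀ n : ℕ, Rt K i j (n * c) := fun n => by
    induction n with
    | zero => simpa using rt_zero i j
    | succ n ih =>
      rw [Nat.cast_succ, add_mul, one_mul]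
      exact ih.add ⟨_, ⟨g, hg, rfl⟩, fun v => by
        change g.val *ᵥ v = _
        rw [e, add_mulVec, one_mulVec, single_mulVec]
        ext l; by_cases hl : l = i <;> simp [hl]⟩ hij
  have h1 : ∀ a, Rt K i j a := fun a => by
    obtain ⟨n, hn⟩ := H.nat (a / c)
    simpa [← hn, hc] using h0 n
  have h2 : ∀ {i j a}, Rt K i j a → Rt K (i + 1) (j + 1) a := fun {i j a} h =>
    (H7.Has.conj h (g := H7.toLE (Om5.b F)) ⟨_, H.b, rfl⟩).congr fun v => by
      have e1 : H7.toLE (Om5.b F) (ee F i) = ee F (i + 1) := by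
        rw [H7.toLE_apply, b_val]; ext l; fin_cases i <;> fin_cases l <;> simp [Pi.single_apply]
      have e2 : (H7.toLE (Om5.b F)).symm v j = v (j + 1) := by
        change ((Om5.b F).inv *ᵥ v) j = _
        fin_cases j <;> simp [Om5.b, mku, mulVec, dotProduct, Fin.sum_univ_succ]
      simp [e1, e2]
  have h3 : ∀ t a, Rt K (i + t) (j + t) a := fun t a => by
    have := h1 a
    fin_cases t
    exacts [by simpa using this, h2 this, by simpa [add_assoc] using h2 (h2 this),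
      by simpa [add_assoc] using h2 (h2 (h2 this)), by simpa [add_assoc] using h2 (h2 (h2 (h2 this)))]
  obtain ⟨d, rfl⟩ : ∃ d, j = i + d := ⟨j - i, by abel⟩
  have h4 : ∀ k a, Rt K k (k + d) a := fun k a => by
    have := h3 (k - i) a
    rwa [add_right_comm, add_sub_cancel] at this
  have hd : ∀ k : Fin 5, k ≠ k + d ∧ k ≠ k + d + d ∧ k ≠ k + d + d + d ∧ k ≠ k + d + d + d + d ∧
      ∀ l, k ≠ l → l = k + d ∨ l = k + d + d ∨ l = k + d + d + d ∨ l = k + d + d + d + d := by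
    clear * - hij; revert i d; decide
  have h5 := fun k a => by simpa using (h4 k a).comm (h4 _ 1) (hd k).1 (hd _).1 (hd k).2.1
  have h6 := fun k a => by simpa using (h5 k a).comm (h4 _ 1) (hd k).2.1 (hd _).1 (hd k).2.2.1
  have h7 := fun k a => by simpa using (h6 k a).comm (h4 _ 1) (hd k).2.2.1 (hd _).1 (hd k).2.2.2.1
  intro x hx
  obtain ⟨y, hy, e⟩ := mem_of_rt_all (K := K) (fun k l hkl a => by
    rcases (hd k).2.2.2.2 l hkl with rfl | rfl | rfl | rfl
    exacts [h4 k a, h5 k a, h6 k a, h7 k a]) _ ((H7.mem_SL_iff x).1 hx)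
  exact H7.toLE.injective e ▸ hy

theorem abel (T : Finset (Fin 5 × Fin 5)) (h1 : ∀ x ∈ T, ∀ y ∈ T, x.2 ≠ y.1)
    (h2 : ∀ x ∈ T, ∀ y ∈ T, x ≠ y → (x.1.val + 4 * x.2.val) % 5 ≠ (y.1.val + 4 * y.2.val) % 5) {g : G5 F} (hg : g ∈ M)
    (h : ∀ i j, (i, j) ∉ T → g.val i j = (1 : M5 F) i j) {i j : Fin 5} (hij : i ≠ j) (h0 : g.val i j ≠ 0) : Big M := by
  let A : M5 F → Prop := fun X => (∀ i j, (i, j) ∉ T → X i j = 0) ∧ ∃ g ∈ M, g.val = 1 + X
  have add : ∀ {X Y}, A X → A Y → A (X + Y) := fun {X Y} ⟨a1, g, g1, g2⟩ ⟨a2, k, k1, k2⟩ => by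
    have : X * Y = 0 := by
      ext i j
      rw [mul_apply]
      refine Finset.sum_eq_zero fun l _ => ?_
      by_contra hn
      exact h1 (i, l) (by_contra fun e => hn (by simp [a1 _ _ e])) (l, j) (by_contra fun e => hn (by simp [a2 _ _ e])) rfl
    exact ⟨fun i j e => by simp [a1 _ _ e, a2 _ _ e], _, mul_mem g1 k1, by
      rw [Units.val_mul, g2, k2, add_mul, mul_add, mul_add, this]; simp [add_assoc, add_comm]⟩
  have smul : ∀ {X} (c : F), A X → A (c • X) := fun {X} c hX => by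
    obtain ⟨n, rfl⟩ := H.nat c
    induction n with
    | zero => exact ⟨by simp, 1, one_mem _, by simp⟩
    | succ n ih => simpa [add_smul] using add ih hX
  have conj : ∀ {X}, A X → A (of fun i j => o.ω ^ (i.val + 4 * j.val) * X i j) := fun {X} ⟨a1, g, g1, g2⟩ =>
    ⟨fun i j e => by simp [a1 _ _ e], _, mul_mem (mul_mem H.a g1) (inv_mem H.a), by
      rw [Units.val_mul, Units.val_mul, g2, mul_add, add_mul, mul_one, Units.mul_inv]
      congr 1; ext i j
      change (o.a.val * X * diagonal fun i : Fin 5 => o.ω ^ (4 * i.val)) i j = _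
      rw [a_val, mul_diagonal, diagonal_mul, of_apply]; ring⟩
  have hT : (i, j) ∈ T := by_contra fun e => h0 (by rw [h i j e, one_apply_ne hij])
  have key : ∀ S : Finset (Fin 5 × Fin 5), S ⊆ T.erase (i, j) → ∃ X, A X ∧ X i j ≠ 0 ∧ ∀ x ∈ S, X x.1 x.2 = 0 := by
    intro S
    induction S using Finset.induction_on with
    | empty => exact fun _ => ⟨g.val - 1, ⟨fun i j e => by simp [h i j e], g, hg, by simp⟩,
        by simpa [one_apply_ne hij] using h0, by simp⟩
    | insert y S _ ih =>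
      intro hS
      obtain ⟨X, a1, a2, a3⟩ := ih ((Finset.subset_insert ..).trans hS)
      have hy := Finset.mem_erase.1 (hS (Finset.mem_insert_self ..))
      refine ⟨_, add (conj a1) (smul (-o.ω ^ (y.1.val + 4 * y.2.val)) a1), fun e => ?_, fun x hx => ?_⟩
      · exact mul_ne_zero (sub_ne_zero.2 (o.wne (h2 _ hT _ hy.2 hy.1.symm))) a2 (by simpa [sub_eq_add_neg, add_mul] using e)
      · rcases Finset.mem_insert.1 hx with rfl | hx
        · simp
        · simp [a3 x hx]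
  obtain ⟨X, ⟨a1, k, k1, k2⟩, a2, a3⟩ := key _ subset_rfl
  refine H.root hij a2 k1 (k2.trans (congrArg _ ?_))
  ext i' j'
  by_cases e : (i', j') = (i, j)
  · cases e; simp
  rw [single_apply_of_ne (h := fun e' => e (by rw [e'.1, e'.2]))]
  by_cases e' : (i', j') ∈ T
  exacts [a3 _ (Finset.mem_erase.2 ⟨e, e'⟩), a1 _ _ e']

theorem aC : o.a ∈ Cu o M := mem_Cu.2 ⟨H.a, o.ua.symm⟩

theorem pow0 (g : Cu o M) (n : ℕ) : (r0 o M (g ^ ((p - 1) * n))).val = !![1] := by
  have : r0 o M g ^ (p - 1) = 1 := by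
    rw [← H.card, ← pow_card_eq_one' (x := r0 o M g), card_GL_field]; simp
  rw [map_pow, pow_mul, this, one_pow]
  mx5

theorem pow_tr {g : GL (Fin 2) F} {t : F} (h : ProjGenLinGroup.mk g = Mob.tr t) (n : ℕ) :
    (g ^ ((p - 1) * n)).val = !![1, -(n * t); 0, 1] := by
  obtain ⟨c, c0, e⟩ := of_tr h
  rw [Units.val_pow_eq_pow_val, e, _root_.smul_pow, pow_mul c, H.fermat c0, unitri_pow, Nat.cast_mul, H.cast]
  simp

theorem five {r s : F} {h} (hr : r ^ 5 = s ^ 5) (hr' : r ≠ s) : mob r 0 0 s h ^ 5 = 1 ∧ mob r 0 0 s h ≠ 1 := by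
  refine ⟨?_, fun e => hr' (mob_eq_one.1 e).2.2⟩
  simp only [pow_succ, pow_zero, one_mul, mob_mul, mob_eq_one]
  exact ⟨by ring, by ring, by linear_combination hr⟩

theorem cu (h : LS F ≤ (ProjGenLinGroup.mk.comp (r1 o M)).range) : Big M := by
  have := Fact.mk H.prime
  have := H.char
  obtain ⟨c, hc⟩ := h (tr_mem_LS 1)
  have e0 := H.pow0 c (p ^ 2 - 1)
  have e1 := H.pow_tr hc (p ^ 2 - 1)
  have e2 : r2 o M (c ^ ((p - 1) * (p ^ 2 - 1))) ^ p = 1 := by
    rw [map_pow, ← pow_mul, ← pow_card_eq_one' (x := r2 o M c), card_GL_field, H.card]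
    rw [Fin.prod_univ_two, show p ^ 2 - p ^ (1 : Fin 2).val = (p - 1) * p by simp [Nat.sub_mul, sq]]
    congr 1
    simp only [Fin.val_zero, pow_zero]; ring
  rw [← map_pow, Nat.cast_pred (pow_pos H.prime.pos 2)] at e1
  simp only [Nat.cast_pow, CharP.cast_eq_zero, zero_pow two_ne_zero, zero_sub, mul_one, neg_neg] at e1
  generalize c ^ ((p - 1) * (p ^ 2 - 1)) = g at e0 e1 e2
  obtain ⟨a, b, c, d, hd, e3, e4⟩ : ∃ a b c d hd, (r2 o M g).val = !![a, b; c, d] ∧
    ProjGenLinGroup.mk (r2 o M g) = mob a b c d hd := ⟨_, _, _, _, _, eta_fin_two _, mk_eq_mob _⟩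
  have n1 : IsNilpotent ((r2 o M g).val - 1) := ⟨p, by
    rw [sub_pow_char_of_commute _ (Commute.one_right _), ← Units.val_pow_eq_pow_val, e2]; simp⟩
  have n2 := (isNilpotent_trace_of_isNilpotent n1).eq_zero
  have n3 : ((r2 o M g).val - 1).det = 0 := by
    obtain ⟨k, hk⟩ := n1
    exact eq_zero_of_pow_eq_zero (n := k) (by rw [← det_pow, hk, det_zero])
  simp [trace_fin_two, det_fin_two, e3, -mul_eq_zero] at n2 n3
  have e5 := blk' g e0 e1 e3
  by_cases hb : b = 0
  · exact H.abel {(1, 4), (3, 2)} (by decide) (by decide) g.2.1 (i := 1) (j := 4) (fun i j => by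
      rw [e5]; fin_cases i <;> fin_cases j <;> simp <;> grind) (by decide) (by simp [e5])
  by_cases hc : c = 0
  · exact H.abel {(1, 4), (2, 3)} (by decide) (by decide) g.2.1 (i := 1) (j := 4) (fun i j => by
      rw [e5]; fin_cases i <;> fin_cases j <;> simp <;> grind) (by decide) (by simp [e5])
  let B := (MulAction.stabilizer (PG F) (inf : P1 F)).comap (ProjGenLinGroup.mk.comp (r1 o M))
  have mB : ∀ x, (r1 o M x).val 1 0 = 0 → ProjGenLinGroup.mk (r2 o M x) ∈ B.map (ProjGenLinGroup.mk.comp (r2 o M)) :=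
    fun x e => ⟨x, by
      change ProjGenLinGroup.mk (r1 o M x) • _ = _
      rw [mk_eq_mob]; exact mob_smul_inf_eq_inf.2 e, rfl⟩
  have m1 := mB ⟨_, H.aC⟩ (by simp [r1_val, a_val])
  have m2 := mB g (by simp [e1])
  rw [mk_eq_mob, mob_congr (a' := o.ω ^ 2) (b' := 0) (c' := 0) (d' := o.ω ^ 3) (h' := by simp [o.w0])
    (by simp [r2_val, a_val]) (by simp [r2_val, a_val]) (by simp [r2_val, a_val]) (by simp [r2_val, a_val])] at m1
  have f5 := H.five (h := by simp [o.w0]) (r := o.ω ^ 2) (s := o.ω ^ 3) (by have := o.w5; grind) (o.wne (by norm_num))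
  rcases d5 H.top m1 f5.1 f5.2 m1 (by rw [← pow_mul, ← pow_mul]; exact o.wne (by norm_num)) (e4 ▸ m2) hb hc
    (by have := o.h2; grind) with ⟨⟨e⟩⟩ | h
  · have a1 : ProjGenLinGroup.mk (r2 o M g) ^ 30 = 1 := congrArg Subtype.val (a5_thirty e ⟨_, m2⟩)
    have := pow_gcd_eq_one.2 ⟨a1, (map_pow ..).symm.trans ((congrArg _ e2).trans (map_one _))⟩
    rw [H.cop, pow_one, e4] at this
    exact (hb (mob_eq_one.1 this).1).elim
  have hp := LS_perfect (F := F) ⟨o.ω, o.w0, by simpa using o.wne (k := 2) (l := 0) (by norm_num)⟩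
  have h' := commutator_mono (commutator_mono h h) (commutator_mono h h)
  rw [hp, hp, ← map_commutator, ← map_commutator] at h'
  obtain ⟨x, x1, x2⟩ := h' (tr_mem_LS 1)
  have x3 := stab_meta (map_comap_le (ProjGenLinGroup.mk.comp (r1 o M)) (MulAction.stabilizer (PG F) (inf : P1 F)))
  rw [← map_commutator, ← map_commutator] at x3
  have x4 := H.pow_tr (g := r1 o M x) (t := 0) ((x3 ⟨x, x1, rfl⟩).trans (aff_eq_one.2 ⟨rfl, rfl⟩).symm) 1
  have x5 := H.pow_tr (g := r2 o M x) x2 1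
  rw [← map_pow] at x4 x5
  exact H.root (i := 2) (j := 3) (c := -1) (by decide) (by simp) (x ^ ((p - 1) * 1)).2.1
    ((blk' _ (H.pow0 x 1) x4 x5).trans (by mx5))

theorem key {k : G5 F} (hk : k ∈ M) {x α β α' β' : F} (e : k.val = !![x, 0, 0, 0, 0; 0, α, 0, 0, β; 0, 0, α', β', 0;
    0, 0, β', α', 0; 0, β, 0, 0, α]) (hα : α ≠ 0) (hβ : β ≠ 0) : Big M := by
  have m0 : k ∈ Cu o M := mem_Cu.2 ⟨hk, Units.ext (by rw [Units.val_mul, Units.val_mul, e, u_val]; mx5)⟩
  have mB : ∀ x {a b c d h}, (r1 o M x).val = !![a, b; c, d] →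
      mob a b c d h ∈ (ProjGenLinGroup.mk.comp (r1 o M)).range := fun x a b c d h e =>
    ⟨x, (mk_eq_mob _).trans (mob_congr (by simp [e]) (by simp [e]) (by simp [e]) (by simp [e]))⟩
  have e1 : (r1 o M ⟨k, m0⟩).val = !![α, β; β, α] := by rw [r1_val, e]; mx5
  have m1 := mB ⟨_, H.aC⟩ (a := o.ω) (b := 0) (c := 0) (d := o.ω ^ 4) (h := by simp [o.w0]) (by rw [r1_val, a_val]; mx5)
  have m2 := mB _ (h := by simpa [e1] using gl_det_ne (r1 o M ⟨k, m0⟩)) e1
  have m3 := mB ⟨_, mem_Cu.2 ⟨H.z, o.zu⟩⟩ (a := 0) (b := 1) (c := 1) (d := 0) (h := by simp) (by rw [r1_val, z_val]; mx5)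
  have f5 := H.five (h := by simp [o.w0]) (r := o.ω) (s := o.ω ^ 4) (by have := o.w5; grind)
    (by simpa using o.wne (k := 1) (l := 4) (by norm_num))
  refine (d5 H.top m1 f5.1 f5.2 m1 (by rw [← pow_mul]; exact o.wne (by norm_num)) m2 hβ hβ (.inl hα)).elim
    (fun ⟨e⟩ => ?_) H.cu
  have := congrArg Subtype.val (a5_cent e (x := ⟨_, m3⟩) (y := ⟨_, m2⟩)
    (Subtype.ext (by simp [sq, mob_mul, mob_eq_one])) (fun e => by simpa [mob_eq_one] using congrArg Subtype.val e)
    (Subtype.ext (by simp [mob_mul])))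
  simp only [sq, coe_mul, mob_mul, coe_one, mob_eq_one] at this
  exact (mul_ne_zero o.h2 (mul_ne_zero hα hβ) (by linear_combination this.1)).elim

end Hyp

end Cfsg.Agent.H8.L5
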