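import Cfsg.Agent.H8.L5j
import Cfsg.Agent.H8.L5f
import Cfsg.Agent.H5.CK
import Cfsg.Agent.H1.C3d
import Cfsg.Agent.H2.PGroup

/-!
Classes three and six in `SL₅(q)`.
-/

set_option autoImplicit false
set_option linter.unusedSectionVars false
set_option linter.unusedSimpArgs false

namespace Cfsg.Agent.H8.L5

open Matrix Subgroup Om5 Module
open scoped commutatorElement

theorem class_two {Γ : Type*} [Group Γ] [Finite Γ] {r : ℕ} [hr : Fact r.Prime] (hp : IsPGroup r Γ)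
    (hc : ∀ A : Subgroup Γ, A.Characteristic → IsMulCommutative A → IsCyclic A) (h3 : ∀ x : Γ, x ^ r = 1)
    (hZ : Nat.card (center Γ) = r) : commutator Γ ≤ center Γ := by
  by_contra h
  obtain ⟨b, b1, b2, -, b4⟩ := H2.PGroup.exists_central_mod_p hp _ _ h
  let Z := Subgroup.upperCentralSeriesStep (center Γ)
  have z1 : ⁅(⊤ : Subgroup Γ), Z⁆ ≤ center Γ := by
    rw [commutator_comm]; exact commutator_le.2 fun x hx y _ => hx y
  have z2 : ⁅⁅(⊤ : Subgroup Γ), Z⁆, ⊤⁆ = ⊥ := commutator_eq_bot_iff_le_centralizer.2 (z1.trans (center_le_centralizer _))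
  have z3 := commutator_eq_bot_iff_le_centralizer.1
    (commutator_commutator_eq_bot_of_rotate z2 (by rwa [commutator_comm Z]))
  have := hc (Z ⊓ centralizer Z) inferInstance ⟨⟨fun a b => Subtype.ext (b.2.2 a a.2.1)⟩⟩
  have e : center Γ = Z ⊓ centralizer Z := eq_of_le_of_card_ge
    (le_inf (fun x hx y => by rw [commutatorElement_eq_one_iff_mul_comm.2 (mem_center_iff.1 hx y).symm]; simp)
      (center_le_centralizer _)) (by
      rw [hZ, ← IsCyclic.exponent_eq_card]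
      exact Nat.le_of_dvd hr.out.pos (Monoid.exponent_dvd_of_forall_pow_eq_one fun x => Subtype.ext (h3 x)))
  refine b2 (e ▸ ⟨fun y => ?_, z3 b1⟩)
  simpa [commutatorElement_def, mul_assoc] using inv_mem (b4 y)

universe v
variable {F : Type v} [Field F] [Fintype F]

theorem exists_NF (h2 : (2 : F) ≠ 0) (h3 : (3 : F) ≠ 0) (h5 : (5 : F) ≠ 0) {R : Subgroup (G5 F)}
    (hR : Geo.IsSymplecticTypeGroup 5 R) (hirr : Geo.ActsAbsolutelyIrreducibly (Geo.matrixSet R))
    (hZ : Nat.card (center R) = 5) : ∃ (o : Om5 F) (Q : G5 F), R.comap (MulAut.conj Q).toMonoidHom = o.R := by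
  have := Fact.mk Nat.prime_five
  have h5R : ∀ x : R, x ^ 5 = 1 := fun x => by simpa [hR.exponent_eq] using Monoid.pow_exponent_eq_one x
  have h5' : ∀ x ∈ R, x ^ 5 = 1 := fun x hx => congrArg Subtype.val (h5R ⟨x, hx⟩)
  have sc : ∀ z ∈ R, (∀ g ∈ R, z * g = g * z) → ∃ c : F, z.val = c • 1 := fun z hz e =>
    hirr.2 z.val (by rintro _ ⟨g, hg, rfl⟩; exact congrArg Units.val (e g hg))
  have cm : ∀ x ∈ R, ∀ y ∈ R, ∃ c, Cm x y c ∧ (x * y * x⁻¹ * y⁻¹).val = c • 1 := fun x hx y hy => by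
    have := class_two hR.pGroup hR.cyclic_of_characteristic h5R hZ
      (commutator_mem_commutator (mem_top (⟨x, hx⟩ : R)) (mem_top (⟨y, hy⟩ : R)))
    obtain ⟨c, e⟩ := sc _ (⁅(⟨x, hx⟩ : R), (⟨y, hy⟩ : R)⁆).2 fun g hg =>
      (congrArg Subtype.val (mem_center_iff.1 this ⟨g, hg⟩)).symm
    exact ⟨c, by rw [Cm, ← smul_one_mul, ← e]; simp [commutatorElement_def, mul_assoc], e⟩
  obtain ⟨x, hx, y, hy, hne⟩ : ∃ x ∈ R, ∃ y ∈ R, x * y ≠ y * x := by
    by_contra! hc
    have := (Asch.full_iff_absIrr.2 hirr).comm (Z := single 0 1 1) (by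
      rintro _ ⟨g, hg, rfl⟩
      obtain ⟨c, e⟩ := sc g hg (hc g hg)
      simp [e]) (single 1 0 1)
    simpa using congrFun (congrFun this 0) 0
  obtain ⟨ω, c1, c2⟩ := cm x hx y hy
  have ω1 : ω - 1 ≠ 0 := fun e => hne (Units.ext (by simpa [Cm, sub_eq_zero.1 e] using c1))
  let o : Om5 F := ⟨ω, -(ω + ω ^ 4 - ω ^ 2 - ω ^ 3) / 5, mul_left_cancel₀ ω1 (by linear_combination c1.five),
    mul_div_cancel₀ _ h5, h2, h3, h5⟩
  obtain ⟨k, v, v0, hv⟩ : ∃ (k : ℕ) (v : Fin 5 → F), v ≠ 0 ∧ x.val *ᵥ v = ω ^ k • v := by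
    have e : (x.val - ω ^ 0 • 1) * ((x.val - ω ^ 1 • 1) * ((x.val - ω ^ 2 • 1) * ((x.val - ω ^ 3 • 1) *
        (x.val - ω ^ 4 • 1)))) = 0 := by
      have e1 : x.val * (x.val * (x.val * (x.val * x.val))) = 1 := by
        simpa [pow_succ, mul_assoc] using congrArg Units.val (h5' x hx)
      have e2 : ω ^ 4 + ω ^ 3 + ω ^ 2 + ω + 1 = 0 := o.h
      simp only [mul_sub, sub_mul, smul_mul_assoc, mul_smul_comm, mul_one, one_mul, e1]
      match_scalars <;> grind
    have := congrArg det e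
    simp only [det_mul, det_zero, mul_eq_zero, ← exists_mulVec_eq_zero_iff, sub_mulVec, smul_mulVec, one_mulVec,
      sub_eq_zero] at this
    rcases this with h | h | h | h | h <;> exact ⟨_, h⟩
  have e1 : ∀ j : ℕ, x.val *ᵥ (y ^ j).val *ᵥ v = (ω ^ k * ω ^ j) • (y ^ j).val *ᵥ v := fun j => by
    induction j with
    | zero => simpa using hv
    | succ j ih =>
      rw [pow_succ' y, Units.val_mul, ← mulVec_mulVec, mulVec_mulVec _ x.val, c1, smul_mulVec, ← mulVec_mulVec, ih,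
        mulVec_smul, smul_smul]
      congr 1; ring
  let P : M5 F := of fun i j => ((y ^ j.val).val *ᵥ v) i
  obtain ⟨Q, hQ⟩ : IsUnit P := linearIndependent_cols_iff_isUnit.1 (Module.End.eigenvectors_linearIndependent'
    (toLin' x.val) (fun j : Fin 5 => ω ^ k * ω ^ j.val) (fun i j e => Fin.ext (o.prim.pow_inj i.2 j.2
      (mul_left_cancel₀ (pow_ne_zero k o.w0) e))) _ fun j => ⟨Module.End.mem_eigenspace_iff.2 (e1 j), fun e => v0 (by
        simpa using congrArg (((y ^ j.val)⁻¹).val *ᵥ ·) (show (y ^ j.val).val *ᵥ v = 0 from e))⟩)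
  have f1 : x.val * P = ω ^ k • (P * o.a.val) := by
    ext i j
    rw [a_val, Matrix.smul_apply, mul_diagonal]
    exact (congrFun (e1 j) i).trans (by simp [P, o]; ring)
  have f2 : y.val * P = P * (b F).val := by
    have e : ∀ j : ℕ, ∀ i, (y.val *ᵥ (y ^ j).val *ᵥ v) i = ((y ^ (j + 1)).val *ᵥ v) i := fun j i => by
      rw [mulVec_mulVec, pow_succ' y, Units.val_mul]
    ext i j
    refine (e j i).trans ?_
    fin_cases j <;> simp [P, b_val, mul_apply, Fin.sum_univ_succ, -Units.val_pow_eq_pow_val, h5' y hy]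
  rw [← hQ] at f1 f2
  have g1 : x.val = ω ^ k • (Q * o.a * Q⁻¹).val := by
    rw [Units.val_mul, Units.val_mul, ← smul_mul_assoc, ← f1, Units.mul_inv_cancel_right]
  have g2 : Q * b F * Q⁻¹ = y := Units.ext (by rw [Units.val_mul, Units.val_mul, ← f2, Units.mul_inv_cancel_right])
  have m1 : Q * o.a * Q⁻¹ ∈ R := by
    rw [show Q * o.a * Q⁻¹ = ((x * y * x⁻¹ * y⁻¹) ^ k)⁻¹ * x from eq_inv_mul_iff_mul_eq.2 (Units.ext (by
      rw [Units.val_mul, Units.val_pow_eq_pow_val, c2, g1]; simp [_root_.smul_pow]))]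
    exact mul_mem (inv_mem (pow_mem (mul_mem (mul_mem (mul_mem hx hy) (inv_mem hx)) (inv_mem hy)) k)) hx
  have m2 : o.R ≤ R.comap (MulAut.conj Q).toMonoidHom := (closure_le _).2 (by
    rintro _ (rfl | rfl)
    exacts [m1, show Q * b F * Q⁻¹ ∈ R from g2 ▸ hy])
  refine ⟨o, Q, le_antisymm (fun g hg => ?_) m2⟩
  have key : ∀ w ∈ o.R, ∃ c, Cm g w c := fun w hw => (cm _ hg _ (m2 hw)).imp fun c e => by
    simpa [Cm, mul_assoc] using congrArg ((Q⁻¹).val * · * Q.val) e.1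
  obtain ⟨c, hc⟩ := key _ o.a_mem
  obtain ⟨d, hd⟩ := key _ o.b_mem
  obtain ⟨m, n, e, he⟩ := o.exists_nf hc hd
  have := h5' _ (mem_comap.1 (mul_mem (mul_mem hg (pow_mem (m2 o.a_mem) m)) (pow_mem (m2 o.b_mem) n)))
  rw [← map_pow, map_eq_one_iff (MulAut.conj Q).toMonoidHom (MulAut.conj Q).injective] at this
  have := o.sc_mem he (by simpa [he, _root_.smul_pow, -Units.val_mul] using congrArg (·.val 0 0) this)
  rwa [mul_mem_cancel_right (pow_mem o.b_mem _), mul_mem_cancel_right (pow_mem o.a_mem _)] at this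

/-- class six in `SL₅(p)` -/
theorem es_max (hF : ∃ p : ℕ, p.Prime ∧ Fintype.card F = p ∧ p % 5 = 1) (R : Subgroup (G5 F))
    (hR : Geo.IsLinearSymplecticTypeData 5 R) :
    Geo.IsMaximalIn (Geo.specialLinear (Fin 5) F) (Geo.subgroupNormalizer R ⊓ Geo.specialLinear (Fin 5) F) := by
  obtain ⟨p, hp, hF, h5⟩ := hF
  have := Fact.mk hp
  have := charP_of_card_eq_prime hF
  have hn : ∀ n : ℕ, n.Prime → n % 5 ≠ 1 → (n : F) ≠ 0 := fun n h1 h2 e =>
    h2 ((Nat.prime_dvd_prime_iff_eq hp h1).1 ((CharP.cast_eq_zero_iff F p n).1 e) ▸ h5)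
  obtain ⟨o, Q, h⟩ := exists_NF (hn 2 (by norm_num) (by norm_num)) (hn 3 (by norm_num) (by norm_num))
    (hn 5 (by norm_num) (by norm_num)) hR.symplecticType hR.absIrred (by
      obtain ⟨p, e, -, -, h | h | h⟩ := hR.field
      exacts [h.2.2.1, absurd h.1 (by decide), absurd h.1 (by decide)])
  have hS : ∀ g : G5 F, g ∈ Geo.specialLinear (Fin 5) F ↔ g.val.det = 1 := fun g => by
    rw [Geo.specialLinear, MonoidHom.mem_ker, Units.ext_iff, GeneralLinearGroup.val_det_apply, Units.val_one]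
  have hS' : ∀ g : G5 F, Q * g * Q⁻¹ ∈ Geo.specialLinear (Fin 5) F ↔ g.val.det = 1 := fun g => by
    rw [hS, Units.val_mul, Units.val_mul, det_units_conj]
  have hN : ∀ g, Q * g * Q⁻¹ ∈ Geo.subgroupNormalizer R ↔ g ∈ Geo.subgroupNormalizer o.R := fun g => by
    rw [← h, Geo.subgroupNormalizer, Geo.subgroupNormalizer,
      ← comap_normalizer_eq_of_surjective _ (MulAut.conj Q).surjective]; rfl
  refine ⟨lt_of_le_of_ne inf_le_right fun e => H7.SL_not_le_subgroupNormalizer (by simp) Nat.prime_five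
    hR.symplecticType.pGroup hR.absIrred (e.ge.trans inf_le_left), fun M h1 h2 => ?_⟩
  have m : ∀ g ∈ Geo.subgroupNormalizer o.R, g.val.det = 1 → g ∈ M.comap (MulAut.conj Q).toMonoidHom :=
    fun g a b => h1 ⟨(hN g).2 a, (hS' g).2 b⟩
  have cj : ∀ g : G5 F, g = Q * (Q⁻¹ * g * Q) * Q⁻¹ := fun g => by group
  refine (Hyp.core ⟨hp, hF, fun g hg => (hS' g).1 (h2 hg), m _ (le_normalizer o.a_mem) o.det_a,
    m _ (le_normalizer o.b_mem) o.det_b, m _ o.u_nrm o.det_u, m _ o.f_nrm o.det_f⟩).symm.imp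
    (fun k => le_antisymm (fun g hg => ⟨?_, h2 hg⟩) h1) fun k => le_antisymm h2 fun g hg => ?_
  · rw [cj g] at hg ⊢
    exact k (x := Q⁻¹ * g * Q) ((hS _).2 ((hS' _).1 hg))
  · rw [cj g] at hg ⊢
    exact (hN _).2 (k (x := Q⁻¹ * g * Q) hg)

theorem semi_mu {E V : Type*} [Field E] [Algebra F E] [AddCommGroup V] [Module F V] [Module E V] [IsScalarTower F E V]
    (k : Eˣ) : H1.C3a.Semi E (L5f.mu F V k) := fun e => ⟨e, fun v => smul_comm (k : E) e v⟩

open H7 H1.C3a in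
/-- class three in `SL₅(q)` -/
theorem ext_max {K : Subalgebra F (M5 F)} (hK : Geo.IsFieldSubalgebra 5 K) :
    Geo.IsMaximalIn (Geo.specialLinear (Fin 5) F) (Geo.subalgebraNormalizer K ⊓ Geo.specialLinear (Fin 5) F) := by
  let _ := Asch.fieldOf K hK.comm hK.inv
  let inst : Module K (Fin 5 → F) :=
    Module.compHom _ ((Matrix.toLinAlgEquiv' (R := F)).toRingHom.comp K.val.toRingHom)
  have : @IsScalarTower F K (Fin 5 → F) Algebra.toSMul inst.toSMul _ :=
    ⟨fun c k v => Matrix.smul_mulVec c k.1 v⟩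
  have : FiniteDimensional K (Fin 5 → F) := Module.Finite.right F K _
  have h1 := Module.finrank_mul_finrank F K (Fin 5 → F)
  rw [finrank_pi', hK.finrank_eq, Fintype.card_fin] at h1
  have hm : finrank K (Fin 5 → F) = 1 := by omega
  have h2 := SL_not_le_subalgebraNormalizer (by simp) hK (by norm_num)
  have h3 : ∀ g, g ∈ Geo.subalgebraNormalizer K ↔ Semi K (H7.toLE g) := mem_subalgebraNormalizer_iff' K
  refine isMaximalIn_of_equiv H7.toLE _ _ (fun g => LinearEquiv.det g = 1)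
    (fun g => Semi K g ∧ LinearEquiv.det g = 1) mem_SL_iff (fun g => ?_) (fun g h => h.2)
    (not_le_inf_of_not_le h2) (fun M h4 h5 => ?_)
  · rw [mem_inf, mem_SL_iff, h3]
  by_cases hS : ∀ g ∈ M, Semi K g
  · exact .inl fun g hg => ⟨hS g hg, h5 g hg⟩
  push Not at hS
  exact .inr (H5.CK.wagner5 (by simp) M (L5f.singer hK.finrank_eq hm h5 (fun k hk => h4 _
    ⟨semi_mu k, Units.ext ((L5f.det_mu hm k).trans hk)⟩) hS))

end Cfsg.Agent.H8.L5
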