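import Cfsg.Agent.H8.LW2
import Cfsg.Agent.H1.Homog

/-! Arithmetic for homogeneous groups. -/

set_option autoImplicit false
set_option linter.unusedSectionVars false

namespace Cfsg.Agent.H8.LW

open MulAction Finset Equiv Cfsg.Agent.H5.Odd Cfsg.Agent.H3.MultiTrans
open scoped Pointwise Nat

theorem exists_compl {K : Type*} [Group K] [Finite K] {p m : ℕ} (hp : p.Prime) (h : Nat.card K = p * m)
    (h1 : (p * m).minFac = p) (h2 : ¬ p ∣ m) : ∃ N : Subgroup K, N.Normal ∧ Nat.card N = m := by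
  have := Fact.mk hp
  let P : Sylow p K := default
  have h3 : Nat.card P = p := by
    rw [P.card_eq_multiplicity, h, Nat.factorization_mul hp.ne_zero (by rintro rfl; simp at h2)]
    simp [hp.factorization_self, Nat.factorization_eq_zero_of_not_dvd h2]
  have h4 := (isCyclic_of_prime_card h3).isComplement' (h ▸ h1)
  have h5 := h4.card_mul.trans h
  rw [h3, mul_comm] at h5
  exact ⟨_, inferInstance, Nat.eq_of_mul_eq_mul_left hp.pos h5⟩

theorem exists_comm {K : Type*} [Group K] [Finite K] {p q : ℕ} (hp : p.Prime) (hq : q.Prime)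
    (h : Nat.card K = 2 * (p * q)) (h1 : (2 * (p * q)).minFac = 2) (h2 : ¬ 2 ∣ p * q) (h3 : (p * q).minFac = p)
    (h4 : ¬ p ∣ q) (h5 : Nat.Coprime p (q - 1)) : ∃ u v : K, orderOf u = p ∧ orderOf v = q ∧ u * v = v * u := by
  have := Fact.mk hp
  have := Fact.mk hq
  obtain ⟨N, -, hN⟩ := exists_compl Nat.prime_two h h1 h2
  obtain ⟨Q, hn, hQ⟩ := exists_compl hp hN h3 h4
  obtain ⟨u, hu⟩ := exists_prime_orderOf_dvd_card' (G := N) p (by simp [hN])
  obtain ⟨v, hv⟩ := exists_prime_orderOf_dvd_card' (G := Q) q (by simp [hQ])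
  have := isCyclic_of_prime_card hQ
  have h6 : MulAut.conjNormal (H := Q) u = 1 := orderOf_eq_one_iff.1 (Nat.eq_one_of_dvd_coprimes h5
    (hu ▸ orderOf_map_dvd _ u) (by rw [← Nat.totient_prime hq, ← hQ, ← IsCyclic.card_mulAut]; exact orderOf_dvd_natCard _))
  refine ⟨u, v, by simpa, by simpa, ?_⟩
  have := congrArg (fun f : MulAut Q => ((f v : N) : K)) h6
  simpa [mul_inv_eq_iff_eq_mul] using this

variable {G α : Type*} [Group G] [Finite G] [MulAction G α] [FaithfulSMul G α] [Fintype α] [DecidableEq α] {j : ℕ}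

/-- the fixed points -/
def fx (α : Type*) [MulAction G α] [Fintype α] [DecidableEq α] (g : G) : Finset α := univ.filter fun x => g • x = x

@[simp] theorem mem_fx {g : G} {x : α} : x ∈ fx α g ↔ g • x = x := by simp [fx]

theorem fx_mod {g : G} {p : ℕ} (hp : p.Prime) (h : orderOf g = p) : #(fx α g) % p = Fintype.card α % p := by
  have := Fact.mk hp
  convert Perm.card_compl_support_modEq (p := p) (n := 1) (σ := toPermHom G α g)
    (by rw [pow_one, ← map_pow, ← h, pow_orderOf_eq_one, map_one]) using 1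
  unfold Nat.ModEq; congr! 3; ext; simp

theorem fx_sub {u v : G} {q : ℕ} (hq : q.Prime) (h : orderOf v = q) (hc : u * v = v * u) (h1 : #(fx α u) < q) :
    #(fx α u) ≤ #(fx α v) := by
  have h2 : ∀ x, toPermHom G α v x ∈ fx α u ↔ x ∈ fx α u := fun x => by
    simp only [mem_fx, toPermHom_apply, toPerm_apply]; rw [smul_smul, hc, mul_smul, smul_left_cancel_iff]
  have h3 : (toPermHom G α v).subtypePerm h2 = 1 := orderOf_eq_one_iff.1 (Nat.eq_one_of_dvd_coprimes
    ((Nat.coprime_factorial_iff hq.ne_one).2 (hq.minFac_eq ▸ h1)) (orderOf_dvd_of_pow_eq_one (by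
      rw [Perm.subtypePerm_pow]; ext x; simp only [← map_pow, ← h, pow_orderOf_eq_one, map_one]; rfl)) (by
      convert orderOf_dvd_card (x := (toPermHom G α v).subtypePerm h2); rw [Fintype.card_perm, Fintype.card_coe]))
  exact card_le_card fun x hx => by simpa using congrArg Subtype.val (DFunLike.congr_fun h3 ⟨x, hx⟩)

theorem fx_le (hT : Triv G α (j + 1)) {g : G} {p : ℕ} (hp : p.Prime) (h : orderOf g = p) : #(fx α g) ≤ j :=
  Nat.le_of_not_lt fun h1 => hp.ne_one (by rw [← h, hT g _ h1 fun x => mem_fx.1, orderOf_one])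

theorem card_fixing {i : ℕ} (hj : IsMultiplyPretransitive G α j) (hi : i ≤ j) (hn : j ≤ Fintype.card α)
    {s : Finset α} (hs : #s = i) :
    Nat.card G = Nat.card (fixingSubgroup G (s : Set α)) * ((Fintype.card α).choose i * i !) := by
  rw [← (fixingSubgroup G (s : Set α)).card_mul_index, IsMultiplyPretransitive.index_of_fixingSubgroup_eq _
    (isMultiplyPretransitive_of_le (n := j) (by simpa [hs]) (by simpa))]; simp [hs]

/-- commuting elements in a stabiliser of order `2pq` -/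
theorem fx_cases (hj : IsMultiplyPretransitive G α j) (hT : Triv G α (j + 1)) {i p q : ℕ} (hi : i ≤ j)
    (hn : j ≤ Fintype.card α) (h : Nat.card G = 2 * (p * q) * ((Fintype.card α).choose i * i !)) (hp : p.Prime)
    (hq : q.Prime) (h1 : (2 * (p * q)).minFac = 2) (h2 : ¬ 2 ∣ p * q) (h3 : (p * q).minFac = p) (h4 : ¬ p ∣ q)
    (h5 : Nat.Coprime p (q - 1)) : ∃ a b, i ≤ a ∧ a ≤ j ∧ b ≤ j ∧ a % p = Fintype.card α % p ∧
      b % q = Fintype.card α % q ∧ (a < q → a ≤ b) ∧ (b < p → b ≤ a) := by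
  obtain ⟨s, -, hs⟩ := exists_subset_card_eq (s := (univ : Finset α)) (n := i) (by rw [card_univ]; omega)
  rw [card_fixing hj hi hn hs] at h
  obtain ⟨u, v, hu, hv, hc⟩ := exists_comm hp hq (Nat.eq_of_mul_eq_mul_right
    (Nat.mul_pos (Nat.choose_pos (by omega)) i.factorial_pos) h) h1 h2 h3 h4 h5
  rw [← Subgroup.orderOf_coe] at hu hv
  replace hc := congrArg Subtype.val hc
  exact ⟨_, _, hs ▸ card_le_card fun x hx => mem_fx.2 ((mem_fixingSubgroup_iff G).1 u.2 x hx), fx_le hT hp hu,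
    fx_le hT hq hv, fx_mod hp hu, fx_mod hq hv, fx_sub hq hv hc, fx_sub hp hu hc.symm⟩

theorem card_homog {i : ℕ} (hh : ∀ s t : Finset α, #s = i → #t = i → ∃ g : G, g • s = t) (hT : Triv G α i)
    {s : Finset α} (hs : #s = i) : Nat.card G = (Fintype.card α).choose i * Nat.card (indSub G s) := by
  rw [← (stabilizer G s).index_mul_card, index_stabilizer, show orbit G s = powersetCard i (univ : Finset α) from
    Set.ext fun t => ⟨by rintro ⟨g, rfl⟩; simpa, fun h => hh s t hs (by simpa using h)⟩, Set.ncard_coe_finset,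
    card_powersetCard, card_univ]
  congr 1
  refine Nat.card_eq_of_bijective (fun g => ⟨(toPerm (g : G)).subtypePerm fun x => by
    have := smul_mem_smul_finset_iff (s := s) (b := x) (g : G)
    rwa [show (g : G) • s = s from g.2] at this, g, fun _ => rfl⟩) ⟨fun g g' e => Subtype.ext ?_, fun ⟨σ, g, hg⟩ => ⟨⟨g, ?_⟩,
      Subtype.ext (Equiv.ext fun x => Subtype.ext (hg x))⟩⟩
  · refine (inv_mul_eq_one.1 (hT _ s hs.ge fun x hx => ?_)).symm
    rw [mul_smul, inv_smul_eq_iff]
    exact congrArg Subtype.val (DFunLike.congr_fun (congrArg Subtype.val e) ⟨x, hx⟩)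
  · refine eq_of_subset_of_card_le (fun x hx => ?_) (by simp)
    obtain ⟨y, hy, rfl⟩ := mem_smul_finset.1 hx
    rw [hg ⟨y, hy⟩]; exact coe_mem _

theorem card_ind_dvd (s : Finset α) : Nat.card (indSub G s) ∣ (#s)! := by
  simpa [Fintype.card_perm] using (indSub G s).card_subgroup_dvd_card

theorem arith (hj : IsMultiplyPretransitive G α j) (hn : j + 2 ≤ Fintype.card α) (hT : Triv G α (j + 1))
    (hnt : ¬ IsMultiplyPretransitive G α (j + 1))
    (h1 : ∀ s t : Finset α, #s = j + 1 → #t = j + 1 → ∃ g : G, g • s = t)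
    (h2 : ∀ s t : Finset α, #s = j + 2 → #t = j + 2 → ∃ g : G, g • s = t) :
    ∃ t m, Fintype.card α = j + t * m ∧ m ∣ (j + 1)! ∧ m ≠ 1 ∧ m * (t * m - 1) ∣ (j + 2)! ∧ t % 2 = 1 ∧
      Nat.card G = t * ((Fintype.card α).choose j * j !) := by
  have ex : ∀ i ≤ j + 2, ∃ s : Finset α, #s = i := fun i hi =>
    let ⟨s, _, h⟩ := exists_subset_card_eq (s := (univ : Finset α)) (n := i) (by rw [card_univ]; omega); ⟨s, h⟩
  obtain ⟨s0, e0⟩ := ex j (by omega)
  obtain ⟨s1, e1⟩ := ex (j + 1) (by omega)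
  obtain ⟨s2, e2⟩ := ex (j + 2) le_rfl
  have c0 := card_fixing hj le_rfl (by omega) e0
  have c1 := card_homog h1 hT e1
  have c2 := card_homog h2 (fun g s h => hT g s (by omega)) e2
  obtain ⟨m, hm⟩ := card_ind_dvd (G := G) s1
  have c3 := Nat.choose_succ_right_eq (Fintype.card α) j
  have c4 := Nat.choose_succ_right_eq (Fintype.card α) (j + 1)
  have p0 := Nat.choose_pos (show j ≤ Fintype.card α by omega)
  have p1 := Nat.choose_pos (show j + 1 ≤ Fintype.card α by omega)
  have p2 := Nat.card_pos (α := indSub G s1)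
  have nt : indSub G s1 ≠ ⊤ := fun h => hnt (mt_of_top h1 e1 h)
  rw [e1] at hm
  have c5 : Nat.card (fixingSubgroup G (s0 : Set α)) * m = Fintype.card α - j :=
    Nat.eq_of_mul_eq_mul_left (Nat.mul_pos p0 p2) (by
      have := Nat.factorial_succ j
      grind)
  refine ⟨_, m, by omega, Dvd.intro_left _ hm.symm, fun h => nt (Subgroup.eq_top_of_card_eq _ (by
    simp [Fintype.card_perm, e1, hm, h])), ⟨Nat.card (indSub G s2), Nat.eq_of_mul_eq_mul_left p1 ?_⟩, ?_, c0⟩
  · rw [c5, Nat.sub_sub, Nat.factorial_succ]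
    grind
  · by_cases hO : OddFix G α j
    · exact Nat.odd_iff.1 (odd_fixing hO e0.ge)
    · exact absurd (gen hj (fun g s hs hg _ => hT g s hs hg) hO e1) nt

theorem card_fixing_eq {i : ℕ} (hh : ∀ s t : Finset α, #s = i → #t = i → ∃ g : G, g • s = t) {s t : Finset α}
    (hs : #s = i) (ht : #t = i) :
    Nat.card (fixingSubgroup G (s : Set α)) = Nat.card (fixingSubgroup G (t : Set α)) := by
  obtain ⟨g, rfl⟩ := hh s t hs ht
  rw [coe_smul_finset, ← SubMulAction.fixingSubgroup_map_conj_eq (g := g) rfl,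
    Subgroup.card_map_of_injective (MulAut.conj g).injective]

end Cfsg.Agent.H8.LW
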