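import Cfsg.Agent.H8.LW2

/-! Groups inducing exactly the alternating group on all `(j+1)`-sets. -/

set_option autoImplicit false
set_option linter.unusedSectionVars false

namespace Cfsg.Agent.H8.LW

open MulAction Finset Equiv Cfsg.Agent.H5.Odd Cfsg.Agent.H3.MultiTrans
open scoped Pointwise

variable {G α : Type*} [Group G] [Finite G] [MulAction G α] [FaithfulSMul G α] [Fintype α] [DecidableEq α] {j : ℕ}

theorem AltOn.smul {s : Finset α} (h : AltOn G s) (g : G) : AltOn G (g • s) := fun σ h1 h2 => by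
  obtain ⟨w, hw⟩ := h ((toPerm g)⁻¹ * σ * toPerm g) (by simp [h1]) fun x hx => by
    simp [h2 _ (mt (smul_mem_smul_finset_iff g).1 hx)]
  refine ⟨g * w * g⁻¹, fun x hx => ?_⟩
  obtain ⟨y, hy, rfl⟩ := mem_smul_finset.1 hx
  simpa [mul_smul, hw y hy] using (toPerm g).apply_symm_apply _

theorem swap_fix {s : Finset α} {a b : α} (ha : a ∈ s) (hb : b ∈ s) {x : α} (hx : x ∉ s) : swap a b x = x :=
  swap_apply_of_ne_of_ne (fun e => hx (e ▸ ha)) fun e => hx (e ▸ hb)

theorem AltOn.two {s : Finset α} (h : AltOn G s) {a b c d : α} (ha : a ∈ s) (hb : b ∈ s) (hc : c ∈ s) (hd : d ∈ s)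
    (hab : a ≠ b) (hcd : c ≠ d) : ∃ g : G, ∀ x ∈ s, g • x = swap a b (swap c d x) :=
  h (swap a b * swap c d) (by simp [hab, hcd]) fun x hx => by simp [swap_fix ha hb hx, swap_fix hc hd hx]

theorem AltOn.top {s : Finset α} (hA : AltOn G s) {a b : α} (ha : a ∈ s) (hb : b ∈ s) (hab : a ≠ b)
    (h : Ind G s (swap a b)) : indSub G s = ⊤ := top_of_swaps fun c hc d hd hcd => by
  obtain ⟨g, hg⟩ := hA.two hc hd ha hb hcd hab
  obtain ⟨w, hw⟩ := h
  exact ⟨g * w, fun x hx => by rw [mul_smul, hw x hx, hg _ (swap_mem ha hb hx), swap_apply_self]⟩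

theorem not_alt (hj : IsMultiplyPretransitive G α j) (h4 : 4 ≤ j) (hn : j + 2 < Fintype.card α)
    (hA : ∀ s : Finset α, #s = j + 1 → AltOn G s) : ∃ s : Finset α, #s = j + 1 ∧ indSub G s = ⊤ := by
  by_contra hnt
  have hO : OddFix G α (j - 1) := fun g t ht hg gg => by
    obtain ⟨t, h1, ht⟩ := exists_subset_card_eq ht
    refine eq_of_smul_eq_smul (α := α) fun a => by_contra fun h2 => hnt ?_
    rw [one_smul] at h2
    have h3 : a ∉ t := fun h => h2 (hg a (h1 h))
    have h5 : g • a ∉ t := not_mem_of (fun x hx => (hg x (h1 hx)).symm ▸ hx) h3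
    have h6 : #(insert a (insert (g • a) t)) = j + 1 := by
      rw [card_insert_of_notMem (by simp [h3, Ne.symm h2]), card_insert_of_notMem h5]; omega
    refine ⟨_, h6, (hA _ h6).top (a := a) (b := g • a) (by simp) (by simp) (Ne.symm h2) ⟨g, ?_⟩⟩
    simp only [mem_insert, forall_eq_or_imp, swap_apply_left, swap_apply_right, invol gg, true_and]
    exact fun x hx => by rw [hg x (h1 hx), swap_apply_of_ne_of_ne (by grind) (by grind)]
  refine (card_le_of_sharp hj h4 (fun h s hs hh => ?_) (by_contra fun h => ?_)).not_gt hn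
  · obtain ⟨s, h1, hs⟩ := exists_subset_card_eq hs
    obtain ⟨a, ha, b, hb, c, hc, d, hd, hab, hcd, h2, h3, h5, h6⟩ := exists_four (s := s) (by omega)
    refine eq_of_smul_eq_smul (α := α) fun e => ?_
    rw [one_smul]
    by_cases he : e ∈ s
    · exact hh e (h1 he)
    have h7 : #(insert e s) = j + 1 := by rw [card_insert_of_notMem he, hs]
    have m : ∀ {x}, x ∈ s → x ∈ insert e s := mem_insert_of_mem
    have key : ∀ a ∈ s, ∀ b ∈ s, ∀ c ∈ s, ∀ d ∈ s, a ≠ b → c ≠ d → c ≠ a → c ≠ b → d ≠ a → d ≠ b →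
        ∃ g : G, g * g = 1 ∧ ∀ x ∈ insert e s, g • x = swap a b (swap c d x) :=
      fun a ha b hb c hc d hd hab hcd h1 h2 h3 h5 => by
        obtain ⟨g, hg⟩ := (hA _ h7).two (m ha) (m hb) (m hc) (m hd) hab hcd
        obtain ⟨g, gg, h6⟩ := hO.lift (s := insert e s) (by omega) (g := g) fun x hx => by
          rw [hg x hx, hg _ (swap_mem (m ha) (m hb) (swap_mem (m hc) (m hd) hx))]
          simp only [swap_apply_def]; grind
        exact ⟨g, gg, fun x hx => (h6 x hx).trans (hg x hx)⟩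
    obtain ⟨u, uu, hu⟩ := key a ha b hb c hc d hd hab hcd h2 h3 h5 h6
    obtain ⟨v, vv, hv⟩ := key a ha c hc b hb d hd h2.symm h6.symm hab.symm h3.symm h5 hcd.symm
    have h8 : ∀ x ∈ insert e s, (u * v) • x = swap a d (swap b c x) := fun x hx => by
      rw [mul_smul, hv x hx, hu _ (swap_mem (m ha) (m hc) (swap_mem (m hb) (m hd) hx))]
      simp only [swap_apply_def]; grind
    have h9 : ∀ x ∈ insert e s, ((u * v) ^ 2) • x = x := fun x hx => by
      rw [sq, mul_smul, h8 x hx, h8 _ (swap_mem (m ha) (m hd) (swap_mem (m hb) (m hc) hx))]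
      simp only [swap_apply_def]; grind
    have h10 : ∀ n, Odd n → ∀ x ∈ insert e s, ((u * v) ^ n) • x = swap a d (swap b c x) := by
      rintro _ ⟨n, rfl⟩ x hx
      rw [pow_succ', mul_smul, pow_mul, pow_fix (h9 x hx), h8 x hx]
    obtain ⟨n, z1, zz, hz, -⟩ := exists_central_involution uu vv fun h => h5 (by
      simpa [swap_apply_of_ne_of_ne hab h2.symm, eq_comm] using h10 _ h a (m ha))
    replace h10 := h10 n (Nat.not_even_iff_odd.1 fun ⟨n, en⟩ => z1 (hO _ (insert e s) (by omega)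
      (fun x hx => by rw [en, ← two_mul, pow_mul, pow_fix (h9 x hx)]) zz))
    set z := (u * v) ^ n
    have h11 : ∀ x ∈ insert e s, (u * z) • x = swap a c (swap b d x) := fun x hx => by
      rw [mul_smul, h10 x hx, hu _ (swap_mem (m ha) (m hd) (swap_mem (m hb) (m hc) hx))]
      simp only [swap_apply_def]; grind
    have fe : ∀ {g : G} {a b c d}, a ∈ s → b ∈ s → c ∈ s → d ∈ s → (∀ x ∈ insert e s, g • x = swap a b (swap c d x)) →
        g • e = e := fun ha hb hc hd hg => by rw [hg e (by simp), swap_fix hc hd he, swap_fix ha hb he]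
    exact le_of_four (U := stabilizer G e) (odd_fixing hO (s := s) (by omega)) uu zz hz
      (conj_fixing uu fun x hx => hu x (m hx) ▸ swap_mem ha hb (swap_mem hc hd hx))
      (conj_fixing zz fun x hx => h10 x (m hx) ▸ swap_mem ha hd (swap_mem hb hc hx)) (fe ha hb hc hd hu)
      (fe ha hd hb hc h10)
      (fun x hx => fix_of_comm hO hs ha hab h2 h5 uu (fun x hx => hu x (m hx)) he (fe ha hb hc hd hu)
        ((mem_fixingSubgroup_iff G).1 hx))
      (fun x hx => fix_of_comm hO hs ha h5.symm hab.symm h2 zz (fun x hx => h10 x (m hx)) he (fe ha hd hb hc h10)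
        ((mem_fixingSubgroup_iff G).1 hx))
      (fun x hx => fix_of_comm hO hs ha h2.symm hab.symm h5 (by
          rw [mul_assoc, ← mul_assoc z, ← hz, mul_assoc, zz, mul_one, uu]) (fun x hx => h11 x (m hx)) he
        (fe ha hc hb hd h11) ((mem_fixingSubgroup_iff G).1 hx))
      ((mem_fixingSubgroup_iff G).2 fun x hx => hh x (h1 hx))
  · obtain ⟨t, -, ht⟩ := exists_subset_card_eq (s := (univ : Finset α)) (n := j) (by rw [card_univ]; omega)
    obtain ⟨a, ha, b, hb, hab⟩ := one_lt_card.1 (show 1 < #t by omega)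
    obtain ⟨g, gg, hg⟩ := exists_swap_invol hj hO (by omega) ht (fun x => swap_mem ha hb) (swap_mul_self a b)
    obtain ⟨e, he, ge⟩ := fixed_of_odd gg (s := t) (fun x hx => hg x hx ▸ swap_mem ha hb hx)
      (ht ▸ Nat.not_even_iff_odd.1 h)
    have := hO g (insert e ((t.erase a).erase b)) (by
      rw [card_insert_of_notMem (by simp [he]), card_erase_of_mem (mem_erase.2 ⟨hab.symm, hb⟩),
        card_erase_of_mem ha]; omega) (by
      simp only [mem_insert, forall_eq_or_imp, mem_erase]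
      exact ⟨ge, fun x hx => by rw [hg x hx.2.2, swap_apply_of_ne_of_ne hx.2.1 hx.1]⟩) gg
    exact hab (by simpa [this] using hg a ha)

end Cfsg.Agent.H8.LW
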