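import Cfsg.Agent.H1.N4i
import Cfsg.Agent.H1.N3b
import Cfsg.Agent.H4.HC2

/-! Dihedral centralisers of involutions and the homocyclic case: the class equation. -/

set_option autoImplicit false

namespace Cfsg.Agent.H8.Nf

open Subgroup Cfsg.Agent.MH Cfsg.Agent.H1.Mit Cfsg.Agent.H1.N1

universe u

theorem ghc (aH : ArH.{u}) : GHC.{u} := fun T _ _ Ro p S x y g H => by
  obtain ⟨m, m3, mo, hc, hU⟩ := H4.HC.hc_u1 g H
  obtain ⟨s, e, n, -, a, b, c, d⟩ := hU.eqs g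
  rw [hc] at a b c d
  refine aH T s e n m _ a m3 mo b ?_ ?_
  · have m0 : (m : ℚ) ≠ 0 := by positivity
    rw [c, Nat.cast_sub (by omega)]
    push_cast
    field_simp
    ring
  · obtain ⟨m, rfl⟩ : ∃ k, m = k + 1 := ⟨m - 1, by omega⟩
    rw [d, show 2 * (m + 1) - 1 = 2 * m + 1 by omega]
    ring

variable {T : Type*} [Group T] [Finite T] {t g : T} {A : Subgroup T} {k : ℕ}

theorem b1_iff (H : TD t A k) (ht : MH.Inv t) : g ∈ B1 t ↔ g ∈ A ∧ g ≠ 1 := by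
  refine ⟨fun ⟨g1, gt, o⟩ => ⟨by_contra fun n => ?_, g1⟩, fun ⟨a, g1⟩ => ⟨g1, H.le a, (od_or g).imp_right fun ⟨j, i⟩ => ?_⟩⟩
  · have g2 := H.out g gt n
    exact o.elim (fun o => g1 (o.eq_one g2)) fun m => n (inv_zpowers ht ⟨g1, g2⟩ m (mem_zpowers g) ▸ H.tm)
  · exact H.uq _ (pow_mem a j) i ▸ npow_mem_zpowers g j

theorem sr_iff (H : TD t A k) (ht : MH.Inv t) (a : g ∈ A) (g1 : g ≠ 1) {s : T} :
    MH.Inv s ∧ MH.Inv (s * g) ↔ s ∈ Cn t ∧ s ∉ A := by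
  have o : ∀ s ∈ Cn t, s ∉ A → MH.Inv s := fun s b n => ⟨fun e => n (e ▸ A.one_mem), H.out s b n⟩
  refine ⟨fun ⟨i, j⟩ => ⟨Cn_of_conj ?_, fun m => g1 (mul_left_cancel
    ((H.uq _ (mul_mem m a) j).trans ((H.uq _ m i).symm.trans (mul_one s).symm)))⟩,
    fun ⟨b, n⟩ => ⟨o s b n, o _ (mul_mem b (H.le a)) fun m => n ((mul_mem_cancel_right a).1 m)⟩⟩
  have e := inv_of_sr i j
  by_cases g2 : g * g = 1
  · rw [H.uq g a ⟨g1, g2⟩] at e
    exact e.trans ht.inv_eq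
  obtain ⟨w, hw⟩ := Set.ncard_eq_one.1 (H.nv1 g (H.le a) g2)
  have m := (conj_mem_Cn (g := s)).2 (mem_Cn_comm.1 (inv_mem (H.le a)))
  rw [← conj_inv, e, inv_inv] at m
  exact Eq.trans (hw.le ⟨ht.conj s, m⟩) (Eq.symm (hw.le ⟨ht, mem_Cn_comm.1 (H.le a)⟩))

theorem sr_eq (H : TD t A k) (ht : MH.Inv t) (a : g ∈ A) (g1 : g ≠ 1) : sr g = 2 * k := by
  have : {s | MH.Inv s ∧ MH.Inv (s * g)} = (Cn t : Set T) \ A := Set.ext fun s => sr_iff H ht a g1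
  rw [sr, this, Set.ncard_diff (show (A : Set T) ⊆ Cn t from H.le), ← Nat.card_coe_set_eq, ← Nat.card_coe_set_eq]
  exact (congrArg₂ _ H.card H.cardA).trans (by omega)

theorem u1_of (H : TD t A k) (ht : MH.Inv t) : U1 t (2 * k - 1) (2 * k - 1) (2 * k) := by
  have k0 : 0 < 2 * k := H.cardA ▸ Nat.card_pos
  have e : B1 t = (A : Set T) \ {1} := Set.ext fun g => b1_iff H ht
  have c : (B1 t).ncard = 2 * k - 1 := by
    rw [e, Set.ncard_sdiff_singleton_of_mem A.one_mem, ← Nat.card_coe_set_eq]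
    exact congrArg (· - 1) H.cardA
  have f : ∀ g ∈ B1 t, sr g = 2 * k := fun g m => sr_eq H ht ((b1_iff H ht).1 m).1 m.1
  exact ⟨ht, H.cls, fun g m o g1 => H.nv1 g m (mt o.eq_one g1), c,
    Eq.trans (congrArg _ (Set.ext fun g => ⟨And.left, fun m => ⟨m, by rw [f g m]; omega⟩⟩)) c, fun g m _ => f g m⟩

theorem of_td {T : Type u} [Group T] [Finite T] {Ro : T → Prop} {p k : ℕ} {t : T} {A : Subgroup T} (aD : ArD.{u})
    (h : LG Ro p) (d : DC T) (H : TD t A k) :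
    Nat.card T = 168 ∨ ∀ g : T, (∃ j, g ^ p ^ j = 1) ∨ ∃ s, MH.Inv s ∧ MH.Inv (s * g) := by
  have ht : MH.Inv t := by
    obtain ⟨u, -, hu, -⟩ := d.ex
    obtain ⟨g, e⟩ := H.cls u hu
    exact e ▸ hu.conj g
  have k0 : 0 < 2 * k := H.cardA ▸ Nat.card_pos
  have U := u1_of H ht
  obtain ⟨s, e, n, o, a, b, c, f⟩ := U.eqs h
  rw [H.card] at a b c f
  by_cases h3 : ∃ i ∈ s, e i = 3
  · refine Or.inl (aD T s e n k _ a (by omega) h3 b ?_ ?_)
    · have m0 : (k : ℚ) ≠ 0 := by have : 0 < k := by omega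
                                  positivity
      rw [c, Nat.cast_sub (by omega)]
      push_cast
      field_simp
      ring
    · obtain ⟨m, rfl⟩ : ∃ m, k = m + 1 := ⟨k - 1, by omega⟩
      rw [f, show 2 * (m + 1) - 1 = 2 * m + 1 by omega]
      ring
  have ne : ∀ g : T, sr g ≠ 0 → ∃ s, MH.Inv s ∧ MH.Inv (s * g) := fun g m => Set.nonempty_of_ncard_ne_zero m
  refine Or.inr fun g => ?_
  by_cases m : g ∈ OO T
  · obtain ⟨i, hi, E⟩ := o g m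
    have g1 := a.gt i hi
    by_cases ev : 2 ∣ e i
    · exact Or.inr (ne g (by rw [sr_ec E, if_pos ev]; omega))
    have e5 : 5 ≤ e i := by have := a.two i hi; have : e i ≠ 3 := fun z => h3 ⟨i, hi, z⟩; omega
    obtain ⟨j, hj⟩ := ((h.e4 g E.1).resolve_left fun z => by rw [E.2.2, E.2.1] at z; nlinarith) ⟨g, self_mem_Cn g⟩
    exact Or.inl ⟨j, congrArg Subtype.val hj⟩
  by_cases g1 : g = 1
  · exact Or.inl ⟨0, by simp [g1]⟩
  obtain ⟨u, ⟨i, m⟩, -⟩ := U.uniq g1 m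
  obtain ⟨w, rfl⟩ := H.cls u i
  have m' := (b1_iff H ht).1 ((B1_conj w).2 m)
  exact Or.inr (ne g (by rw [← sr_conj w, sr_eq H ht m'.1 m'.2]; omega))

end Cfsg.Agent.H8.Nf
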