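import Cfsg.Agent.H1.PS0

/-! Fixed-point upper bounds for the entropy products. -/

set_option autoImplicit false

namespace Cfsg.Agent.H8.PS

open Finset Cfsg.Agent.H1.PS

/-- evaluate `n` first -/
def sq (n : ℕ) (k : ℕ → ℕ) : ℕ := Nat.rec (k 0) (fun p _ => k (Nat.succ p)) n

theorem sq_eq (n : ℕ) (k : ℕ → ℕ) : sq n k = k n := by cases n <;> rfl

/-- block recursion -/
def run (n lim hh : ℕ) (a u v : ℕ → ℕ) (f : ℕ) : ℕ → ℕ → ℕ → ℕ → ℕ := Nat.rec (fun _ _ _ c => c) (fun _ r i E T c =>
  cond (Nat.ble n i) c (sq (cond (Nat.blt i lim) 1 (min (Nat.sub n i) hh)) fun h => sq (Nat.add i h) fun i' =>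
    sq (Nat.add (Nat.succ (Nat.div (Nat.mul E (Nat.pow (a i) h)) (Nat.pow (Nat.sub (Nat.sub n i) 1) h))) (Nat.mul h T)) fun E' =>
    sq (Nat.succ (Nat.div (Nat.mul T (u i)) (v i))) fun T' =>
    sq (Nat.succ (Nat.div (Nat.mul c (Nat.pow (Nat.add (Nat.add 4294967296 E) (Nat.mul h T)) h)) (Nat.pow 4294967296 h))) fun c' =>
    r i' E' T' c')) f

theorem cd (x y : ℕ) : (x : ℚ) / y ≤ (x / y + 1 : ℕ) := by
  rcases Nat.eq_zero_or_pos y with rfl | hy
  · simp
  rw [div_le_iff₀ (by positivity)]
  exact_mod_cast (Nat.lt_div_mul_add hy).le.trans (by rw [add_mul, one_mul])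

theorem run_ok {n lim hh i0 : ℕ} {a u v : ℕ → ℕ} {e t : ℕ → ℚ} (h0 : 1 ≤ hh) (he : ∀ j, j < n → 0 ≤ e j)
    (h1 : ∀ i j, i0 ≤ i → i ≤ j → j + 1 < n → e (j + 1) ≤ e j * (a i / (n - i - 1 : ℕ)) + t j)
    (h2 : ∀ i, a i ≤ n - i - 1) (h3 : ∀ i j, i < j → j + 1 < n → t j ≤ t i * (u i / v i)) (f : ℕ) :
    ∀ i E T c : ℕ, i0 ≤ i → n ≤ i + f → (i < n → e i * 4294967296 ≤ E) → (∀ j, i ≤ j → j + 1 < n → t j * 4294967296 ≤ T) →
      c * ∏ j ∈ Ico i n, (1 + e j) ≤ run n lim hh a u v f i E T c := by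
  induction f with
  | zero => intro i E T c _ k _ _; rw [Ico_eq_empty_of_le (by omega)]; simp [run]
  | succ f ih =>
    intro i E T c i1 k hE hT
    obtain ⟨h, hd⟩ : ∃ h, h = cond (Nat.blt i lim) 1 (min (n - i) hh) := ⟨_, rfl⟩
    have e1 : run n lim hh a u v (f + 1) i E T c = cond (Nat.ble n i) c (run n lim hh a u v f (i + h)
        (E * a i ^ h / (n - i - 1) ^ h + 1 + h * T) (T * u i / v i + 1) (c * (4294967296 + E + h * T) ^ h / 4294967296 ^ h + 1)) := by
      subst hd
      simp only [run, sq_eq]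
      rfl
    rw [e1]
    rcases le_or_gt n i with l | l
    · rw [Nat.ble_eq.to_iff.2 l, Ico_eq_empty_of_le l]; simp
    rw [show Nat.ble n i = false from Bool.eq_false_iff.2 fun z => l.not_ge (Nat.ble_eq.to_iff.1 z), cond_false]
    have hh1 : 1 ≤ h ∧ i + h ≤ n := by cases hb : Nat.blt i lim <;> simp only [hd, hb, cond_true, cond_false] <;> omega
    have hE := hE l
    set r : ℚ := a i / (n - i - 1 : ℕ) with hr
    have r0 : 0 ≤ r := by positivity
    have r1 : r ≤ 1 := div_le_one_of_le₀ (by exact_mod_cast h2 i) (by positivity)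
    have st : ∀ j, i + j < n → e (i + j) * 4294967296 ≤ E * r ^ j + j * T := fun j => by
      induction j with
      | zero => intro _; simpa using hE
      | succ j ij =>
        intro z
        have a1 := h1 i (i + j) i1 (by omega) z
        have a2 := mul_le_mul_of_nonneg_right (ij (by omega)) r0
        have a3 := hT (i + j) (by omega) z
        have a4 : (j * T : ℚ) * r ≤ j * T := mul_le_of_le_one_right (by positivity) r1
        rw [← add_assoc, pow_succ]
        push_cast
        linarith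
    refine le_trans ?_ (ih (i + h) _ _ _ (by omega) (by omega) (fun z => (st h z).trans ?_) fun j a1 a2 => ?_)
    · rw [← prod_Ico_consecutive _ (Nat.le_add_right i h) hh1.2, ← mul_assoc]
      refine mul_le_mul_of_nonneg_right (le_trans ?_ (cd _ _)) (prod_nonneg fun j m => by
        have := he j (mem_Ico.1 m).2; positivity)
      push_cast
      rw [mul_div_assoc, ← div_pow]
      refine mul_le_mul_of_nonneg_left ((prod_le_prod (g := fun _ => ((4294967296 + E + h * T) / 4294967296 : ℚ)) (fun j m => by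
        have := he j (by have := (mem_Ico.1 m).2; omega); positivity) fun j m => ?_).trans
        (by rw [prod_const, Nat.card_Ico, Nat.add_sub_cancel_left])) (by positivity)
      obtain ⟨j, rfl⟩ := Nat.exists_eq_add_of_le (mem_Ico.1 m).1
      have m2 := (mem_Ico.1 m).2
      have a1 := st j (by omega)
      have a2 : (E : ℚ) * r ^ j ≤ E := mul_le_of_le_one_right (by positivity) (pow_le_one₀ r0 r1)
      have a3 : (j : ℚ) * T ≤ h * T := mul_le_mul_of_nonneg_right (by norm_cast; omega) (by positivity)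
      rw [le_div_iff₀ (by norm_num)]
      linarith
    · have := cd (E * a i ^ h) ((n - i - 1) ^ h)
      rw [Nat.cast_mul, Nat.cast_pow, Nat.cast_pow, mul_div_assoc, ← div_pow] at this
      rw [Nat.cast_add, Nat.cast_mul]
      linarith
    · have b1 := h3 i j (by omega) a2
      have b2 := mul_le_mul_of_nonneg_right (hT i le_rfl (by omega)) (show (0 : ℚ) ≤ u i / v i by positivity)
      have := cd (T * u i) (v i)
      rw [Nat.cast_mul, mul_div_assoc] at this
      linarith

theorem mono {x y f g : ℕ} (hx : 0 < x) (xy : x ≤ y) (fg : f ≤ g) : ((x - g : ℕ) : ℚ) / x ≤ (y - f : ℕ) / y := by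
  rw [div_le_div_iff₀ (by positivity) (by norm_cast; omega)]
  norm_cast
  rw [Nat.sub_mul, Nat.sub_mul, mul_comm y x]
  exact Nat.sub_le_sub_left (Nat.mul_le_mul fg xy) _

theorem a0_pos {n : ℕ} (h : 2 ≤ n) : 0 < A0 n ∧ A0 n ≤ n := by
  have h' : (2 : ℚ) ≤ n := by exact_mod_cast h
  refine ⟨lt_min (by positivity) ?_, (min_le_left _ _).trans (by linarith)⟩
  have : (k0 n + 1 : ℚ) ≤ n := by have := Nat.sqrt_le_self (n - 2); norm_cast; unfold k0; omega
  have : (0 : ℚ) ≤ 2 * k0 n * (n - 1 - k0 n) / (n - 1) := div_nonneg (mul_nonneg (by positivity) (by linarith)) (by linarith)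
  linarith

/-- upper bound for `BU` -/
def bu (n hh : ℕ) : ℕ := sq (d0 n) fun d => run n 0 hh (fun i => Nat.sub (Nat.sub n i) d) (fun _ => 0) (fun _ => 1) n 1
  ⌈(n - A0 n) * 4294967296⌉₊ 0 (n * 4294967296) / 4294967296 + 1

theorem bu_ok {n hh : ℕ} (h : 2 ≤ n) (h0 : 1 ≤ hh) : BU n ≤ bu n hh := by
  obtain ⟨a1, a2⟩ := a0_pos h
  have d1 : 1 ≤ d0 n := le_min (Nat.one_le_ceil_iff.2 (by positivity)) (by omega)
  have h' : (2 : ℚ) ≤ n := by exact_mod_cast h
  have sb : ∀ j, j < n → (0 : ℚ) < n - j := fun j k => sub_pos.2 (by exact_mod_cast k)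
  have p0 : ∀ j, j < n → 0 ≤ PU n j := fun j => by
    induction j with
    | zero => intro _; simp [PU]
    | succ j ih =>
      intro k
      rcases j with _ | j
      · exact sub_nonneg.2 (div_le_one_of_le₀ a2 (by positivity))
      · exact div_nonneg (mul_nonneg (ih (by omega)) (by positivity)) (by exact_mod_cast (sb (j + 1) (by omega)).le)
  have e0 : ∀ j, j < n → (0 : ℚ) ≤ n * (n - 1) * PU n j / (n - j) := fun j k =>
    div_nonneg (mul_nonneg (mul_nonneg (by positivity) (by linarith)) (p0 j k)) (sb j k).le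
  have := run_ok (n := n) (lim := 0) (i0 := 1) (a := fun i => Nat.sub (Nat.sub n i) (d0 n)) (u := fun _ => 0) (v := fun _ => 1)
    (e := fun j => n * (n - 1) * PU n j / (n - j)) (t := fun _ => 0) h0 e0 (fun i j a b c => by
      obtain ⟨j, rfl⟩ : ∃ k, j = k + 1 := ⟨j - 1, by omega⟩
      have m := mul_le_mul_of_nonneg_left (mono (x := n - (j + 1) - 1) (y := n - i - 1) (f := d0 n - 1) (by omega) (by omega) le_rfl)
        (e0 (j + 1) (by omega))
      rw [show n - (j + 1) - 1 - (d0 n - 1) = n - (j + 1) - d0 n by omega, show n - i - 1 - (d0 n - 1) = n - i - d0 n by omega] at m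
      refine le_trans (le_of_eq ?_) (m.trans (add_zero _).ge)
      have s1 := (sb (j + 1) (by omega)).ne'
      have s2 := (sb (j + 1 + 1) c).ne'
      rw [PU, Nat.sub_sub n (j + 1) 1, Nat.cast_sub c.le]
      push_cast at s1 s2 ⊢
      field_simp) (fun i => by change n - i - d0 n ≤ _; omega) (by simp) n 1 ⌈(n - A0 n) * 4294967296⌉₊ 0 (n * 4294967296) le_rfl
    (by omega) (fun _ => le_trans (le_of_eq (by
      have : (n : ℚ) - 1 ≠ 0 := by linarith
      simp only [PU]
      push_cast
      field_simp)) (Nat.le_ceil _)) (by simp)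
  rw [bu, sq_eq]
  refine le_trans ?_ (cd _ _)
  rw [le_div_iff₀ (by norm_num), BU, Bd, range_eq_Ico, prod_eq_prod_Ico_succ_bot (by omega)]
  refine le_trans (le_of_eq ?_) this
  simp only [PU]
  push_cast
  have : (1 + n * (n - 1) * 1 / (n - 0) : ℚ) = n := by rw [sub_zero]; field_simp; ring
  rw [this]
  ring

/-- upper bound for `BI` -/
def bi (n lim hh : ℕ) : ℕ := sq ((n - 1) / 2 - 1) fun m => run n lim hh (fun i => Nat.sub (Nat.sub n i) (ff i))
  (fun i => Nat.mul (Nat.sub m i) (Nat.sub (ff (Nat.succ i)) 2)) (fun i => Nat.mul (Nat.sub (Nat.sub n i) 2) (Nat.sub (ff i) 2)) n 0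
  ((n - 1) * 4294967296) (2 * 4294967296) 4294967296 / 4294967296 + 1

theorem bi_ok {n lim hh : ℕ} (h : 2 ≤ n) (h0 : 1 ≤ hh) : BI n ≤ bi n lim hh := by
  have h' : (2 : ℚ) ≤ n := by exact_mod_cast h
  have sb : ∀ j, j < n → (0 : ℚ) < n - j := fun j k => sub_pos.2 (by exact_mod_cast k)
  have f4 : ∀ j, 4 ≤ ff j := fun j => le_max_left _ _
  have f2 : ∀ j, (0 : ℚ) < ff j - 2 := fun j => by have : (4 : ℚ) ≤ ff j := by exact_mod_cast f4 j
                                                   linarith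
  have p0 : ∀ j, j < n → 0 ≤ PI n j := fun j => by
    induction j with
    | zero => intro _; simp [PI]
    | succ j ih =>
      intro k
      have := ih (by omega)
      have := sb j (by omega)
      have := f2 j
      rw [PI]
      positivity
  have e0 : ∀ j, j < n → (0 : ℚ) ≤ n * (n - 1) * PI n j / (n - j) := fun j k =>
    div_nonneg (mul_nonneg (mul_nonneg (by positivity) (by linarith)) (p0 j k)) (sb j k).le
  obtain ⟨m, hm⟩ : ∃ m, m = (n - 1) / 2 - 1 := ⟨_, rfl⟩
  obtain ⟨t, ht⟩ : ∃ t : ℕ → ℚ, t = fun j => n * (n - 1) * ((m.choose j : ℚ) / n.choose j * (ff j - 2) / (n - j)) / (n - (j + 1 : ℕ)) := ⟨_, rfl⟩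
  have t0 : ∀ j, j + 1 < n → 0 ≤ t j := fun j k => by
    have := sb j (by omega)
    have := sb (j + 1) k
    have := f2 j
    have : (0 : ℚ) ≤ n - 1 := by linarith
    rw [ht]
    positivity
  have t1 : ∀ j, j + 2 < n → t (j + 1) = t j * (((m - j) * (ff (j + 1) - 2) : ℕ) / ((n - j - 2) * (ff j - 2) : ℕ)) := fun j k => by
    have s0 := (sb j (by omega)).ne'
    have s1 := (sb (j + 1) (by omega)).ne'
    have s2 := (sb (j + 2) k).ne'
    have s3 := (f2 j).ne'
    have c1 : (m.choose (j + 1) : ℚ) = m.choose j * (m - j : ℕ) / (j + 1) := by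
      rw [eq_div_iff (by positivity)]; exact_mod_cast Nat.choose_succ_right_eq m j
    have c2 : (n.choose (j + 1) : ℚ) = n.choose j * (n - j) / (j + 1) := by
      rw [eq_div_iff (by positivity), ← Nat.cast_sub (by omega)]; exact_mod_cast Nat.choose_succ_right_eq n j
    have c3 : (n.choose j : ℚ) ≠ 0 := by exact_mod_cast (Nat.choose_pos (by omega)).ne'
    simp only [ht, c1, c2]
    rw [Nat.sub_sub n j 2, Nat.cast_mul, Nat.cast_mul, Nat.cast_sub k.le, Nat.cast_sub ((by omega : 2 ≤ 4).trans (f4 j)),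
      Nat.cast_sub ((by omega : 2 ≤ 4).trans (f4 (j + 1)))]
    push_cast at s1 s2 ⊢
    rw [show (n : ℚ) - (j + 1 + 1) = n - (j + 2) by ring]
    field_simp
  have t2 : ∀ i j, i + j + 1 < n → t (i + j) ≤ t i := fun i j => by
    induction j with
    | zero => intro _; rfl
    | succ j ih =>
      intro k
      refine le_trans ?_ (ih (by omega))
      rw [← add_assoc, t1 (i + j) k]
      refine mul_le_of_le_one_right (t0 _ (by omega)) (div_le_one_of_le₀ ?_ (by positivity))
      norm_cast
      have a1 : 3 * (m - (i + j)) ≤ 2 * (n - (i + j) - 2) := by omega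
      have a2 : 2 * (ff (i + j + 1) - 2) ≤ 3 * (ff (i + j) - 2) := by unfold ff; omega
      have := Nat.mul_le_mul a1 a2
      linarith
  have := run_ok (n := n) (lim := lim) (i0 := 0) (a := fun i => Nat.sub (Nat.sub n i) (ff i))
    (u := fun i => Nat.mul (Nat.sub m i) (Nat.sub (ff (Nat.succ i)) 2)) (v := fun i => Nat.mul (Nat.sub (Nat.sub n i) 2) (Nat.sub (ff i) 2))
    (e := fun j => n * (n - 1) * PI n j / (n - j)) (t := t) h0 e0 (fun i j a b c => by
      have := f4 i
      have := f4 j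
      have m := mul_le_mul_of_nonneg_left (mono (x := n - j - 1) (y := n - i - 1) (f := ff i - 1) (g := ff j - 1) (by omega) (by omega)
        (by unfold ff; omega)) (e0 j (by omega))
      rw [show n - j - 1 - (ff j - 1) = n - j - ff j by omega, show n - i - 1 - (ff i - 1) = n - i - ff i by omega] at m
      refine le_trans (le_of_eq ?_) (add_le_add m le_rfl)
      have s1 := (sb j (by omega)).ne'
      have s2 := (sb (j + 1) c).ne'
      rw [PI, ← hm, ht, Nat.sub_sub n j 1, Nat.cast_sub c.le]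
      field_simp) (fun i => by have := f4 i; change n - i - ff i ≤ _; omega) (fun i j a b => by
      obtain ⟨j, rfl⟩ := Nat.exists_eq_add_of_le (Nat.succ_le_of_lt a)
      exact (t2 (i + 1) j b).trans (t1 i (by omega)).le) n 0 ((n - 1) * 4294967296) (2 * 4294967296) 4294967296 le_rfl
    (by omega) (fun _ => le_of_eq (by
      simp only [PI]
      rw [Nat.cast_mul, Nat.cast_sub (by omega)]
      push_cast
      rw [sub_zero]
      field_simp)) fun j _ k => by
      have := t2 0 j (by omega)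
      have e : t 0 = 2 := by
        have : (n : ℚ) - 1 ≠ 0 := by linarith
        simp only [ht, ff]
        norm_num
        field_simp
      rw [zero_add, e] at this
      push_cast
      linarith
  rw [bi, sq_eq, ← hm]
  refine le_trans ?_ (cd _ _)
  rw [le_div_iff₀ (by norm_num), BI, Bd, range_eq_Ico, mul_comm]
  exact this

end Cfsg.Agent.H8.PS
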