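import Cfsg.Agent.H8.PSb

/-! The numerical checks in middle degrees, imprimitive point stabiliser. -/

set_option autoImplicit false

namespace Cfsg.Agent.H8.PS

open Finset Cfsg.Agent.H1.PS

/-- the check for `BI` -/
def ci (n : ℕ) : Bool := Nat.beq (sq n fun n => (n + 2) ^ 2 * bi n 40 (n / 16) - 3 ^ n) 0

theorem ci1 : al ci 128 500 = true := by decide +kernel
theorem ci2 : al ci 628 500 = true := by decide +kernel
theorem ci3 : al ci 1128 500 = true := by decide +kernel
theorem ci4 : al ci 1628 500 = true := by decide +kernel
theorem ci5 : al ci 2128 500 = true := by decide +kernel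
theorem ci6 : al ci 2628 500 = true := by decide +kernel
theorem ci7 : al ci 3128 500 = true := by decide +kernel
theorem ci8 : al ci 3628 500 = true := by decide +kernel

theorem nim : NIm := fun n a b => by
  have : ci n = true := by
    by_cases h1 : n < 628
    · exact al_ok ci1 a h1
    by_cases h2 : n < 1128
    · exact al_ok ci2 (by omega) h2
    by_cases h3 : n < 1628
    · exact al_ok ci3 (by omega) h3
    by_cases h4 : n < 2128
    · exact al_ok ci4 (by omega) h4
    by_cases h5 : n < 2628
    · exact al_ok ci5 (by omega) h5
    by_cases h6 : n < 3128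
    · exact al_ok ci6 (by omega) h6
    by_cases h7 : n < 3628
    exacts [al_ok ci7 (by omega) h7, al_ok ci8 (by omega) (by omega)]
  rw [ci, sq_eq, Nat.beq_eq, Nat.sub_eq_zero_iff_le] at this
  refine (mul_le_mul_of_nonneg_left (bi_ok (lim := 40) (by omega) (show 1 ≤ n / 16 by omega)) (by positivity)).trans ?_
  exact_mod_cast this

end Cfsg.Agent.H8.PS
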