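import Cfsg.Agent.H8.Decomp

/-!
Maximality of the stabiliser of a pair of complementary maximal totally singular subspaces of
even dimension.
-/

set_option autoImplicit false
set_option linter.unusedSectionVars false

namespace Cfsg.Agent.H8

open QuadraticMap Module

variable {F V : Type*} [Field F] [AddCommGroup V] [Module F V] {Q : QuadraticForm F V}
variable [Finite F] [FiniteDimensional F V]

theorem map_mul_sub (a b : V ≃ₗ[F] V) (W : Submodule F V) :
    W.map ((a * b : V ≃ₗ[F] V) : V →ₗ[F] V) = (W.map (b : V →ₗ[F] V)).map (a : V →ₗ[F] V) := by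
  rw [← Submodule.map_comp]; rfl

theorem map_eq_of_maps {g : V ≃ₗ[F] V} {A B : Submodule F V} (h : ∀ x ∈ A, g x ∈ B)
    (hd : finrank F B ≤ finrank F A) : A.map (g : V →ₗ[F] V) = B := by
  apply Submodule.eq_of_le_of_finrank_le
  · rintro _ ⟨x, hx, rfl⟩; exact h x hx
  · rwa [LinearEquiv.finrank_map_eq]

/-- An isometry interchanging two dual totally singular subspaces. -/
theorem exists_swap (hN : ND Q) (h5 : 5 ≤ finrank F V) (j : ℕ) :
    ∀ A B : Submodule F V, (∀ x ∈ A, Q x = 0) → (∀ x ∈ B, Q x = 0) → finrank F A = j →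
      finrank F B = j → A ⊓ perp Q B = ⊥ →
      ∃ s ∈ OG Q ⊓ Fix (perp Q (A ⊔ B)), (∀ x ∈ A, s x ∈ B) ∧ (∀ x ∈ B, s x ∈ A) ∧
        ∀ a, Q a = -1 → s * refl Q a ^ j ∈ Om Q := by
  induction j with
  | zero =>
    intro A B _ _ hA hB _
    rw [Submodule.finrank_eq_zero.1 hA, Submodule.finrank_eq_zero.1 hB]
    exact ⟨1, Subgroup.one_mem _, fun x hx => hx, fun x hx => hx, fun a _ => by simp⟩
  | succ j ih =>
    intro A B hA hB dA dB hAB
    obtain ⟨u, hu, hu0⟩ := exists_not_mem (T := A) (S := ⊥) (by rw [finrank_bot]; omega)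
    obtain ⟨w, hw, huw⟩ := exists_pol_eq_one (Q := Q) (X := B) (x := u) fun h => hu0 (by
      rw [← hAB]; exact ⟨hu, h⟩)
    have hwu : polar Q w u = 1 := by rw [pol_comm, huw]
    have pA : ∀ x ∈ A, ∀ y ∈ A, polar Q x y = 0 := fun x hx y hy =>
    mem_perp'.1 (le_perp_of_sing hA hx) y hy
    have pB : ∀ x ∈ B, ∀ y ∈ B, polar Q x y = 0 := fun x hx y hy =>
    mem_perp'.1 (le_perp_of_sing hB hx) y hy
    have dec : ∀ (C : Submodule F V) (c d : V), c ∈ C → polar Q d c = 1 →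
        finrank F C = j + 1 → finrank F (C ⊓ perp Q (sp F [d]) : Submodule F V) = j := by
      intro C c d hc hdc hC
      have h1 := finrank_le_inf_perp_sp (Q := Q) C [d]
      have h2 : finrank F (C ⊓ perp Q (sp F [d]) : Submodule F V) < finrank F C :=
        Submodule.finrank_lt_finrank_of_lt (lt_of_le_of_ne inf_le_left fun h => by
          have : c ∈ C ⊓ perp Q (sp F [d]) := by rw [h]; exact hc
          have := mem_perp_sp.1 this.2 d (by simp)
          rw [hdc] at this; exact one_ne_zero this)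
      simp only [List.length_cons, List.length_nil] at h1
      omega
    have mA : ∀ x ∈ A, x - polar Q w x • u ∈ A ⊓ perp Q (sp F [w]) := fun x hx =>
      ⟨A.sub_mem hx (A.smul_mem _ hu), mem_perp_sp.2 (by
        simp [polar_sub_right, hwu])⟩
    have mB : ∀ x ∈ B, x - polar Q u x • w ∈ B ⊓ perp Q (sp F [u]) := fun x hx =>
      ⟨B.sub_mem hx (B.smul_mem _ hw), mem_perp_sp.2 (by
        simp [polar_sub_right, huw])⟩
    obtain ⟨s, hs, h1, h2, h3⟩ := ih (A ⊓ perp Q (sp F [w])) (B ⊓ perp Q (sp F [u]))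
      (fun x hx => hA x hx.1) (fun x hx => hB x hx.1) (dec A u w hu hwu dA) (dec B w u hw huw dB) (by
        rw [eq_bot_iff, ← hAB]
        refine fun x hx => ⟨hx.1.1, mem_perp.2 fun y hy => ?_⟩
        have e1 := mem_perp.1 hx.2 _ (mB y hy)
        rw [polar_sub_left, pol_smul_left, mem_perp_sp.1 hx.1.2 w (by simp)] at e1
        simpa using e1)
    have hQuw : Q (u - w) = -1 := by rw [Q_sub, hA u hu, hB w hw, huw]; ring
    have r1 : refl Q (u - w) u = w :=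
      refl_swap ((hA u hu).trans (hB w hw).symm) (by rw [hQuw]; simp)
    have r2 : refl Q (u - w) w = u := by
      have := inv_apply_eq r1
      rwa [refl_inv] at this
    have su : s u = u := hs.2 u (by
      rw [perp_sup]
      exact ⟨mem_perp'.2 fun y hy => pA u hu y hy.1, mem_perp'.2 fun y hy =>
        mem_perp_sp.1 hy.2 u (by simp)⟩)
    have sw : s w = w := hs.2 w (by
      rw [perp_sup]
      exact ⟨mem_perp'.2 fun y hy => mem_perp_sp.1 hy.2 w (by simp),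
        mem_perp'.2 fun y hy => pB w hw y hy.1⟩)
    refine ⟨s * refl Q (u - w), Subgroup.mul_mem _ ⟨hs.1, fun x hx => hs.2 x (perp_anti
      (sup_le_sup inf_le_left inf_le_left) hx)⟩ ⟨refl_mem_OG _, refl_mem_Fix (le_perp_perp _
      (Submodule.sub_mem _ (Submodule.mem_sup_left hu) (Submodule.mem_sup_right hw)))⟩,
      fun x hx => ?_, fun x hx => ?_, fun a ha => ?_⟩
    · change s (refl Q (u - w) x) ∈ B
      have e : x = (x - polar Q w x • u) + polar Q w x • u := by abel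
      have hx' := mA x hx
      rw [e, _root_.map_add, _root_.map_smul, r1, refl_of_perp (by
        rw [polar_sub_right, pA _ hx'.1 u hu, pol_comm, mem_perp_sp.1 hx'.2 w (by simp), sub_zero]),
        _root_.map_add, _root_.map_smul, sw]
      exact B.add_mem (h1 _ hx').1 (B.smul_mem _ hw)
    · change s (refl Q (u - w) x) ∈ A
      have e : x = (x - polar Q u x • w) + polar Q u x • w := by abel
      have hx' := mB x hx
      rw [e, _root_.map_add, _root_.map_smul, r2, refl_of_perp (by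
        rw [polar_sub_right, pB _ hx'.1 w hw, pol_comm, mem_perp_sp.1 hx'.2 u (by simp), sub_zero]),
        _root_.map_add, _root_.map_smul, su]
      exact A.add_mem (h2 _ hx').1 (A.smul_mem _ hu)
    · have e : s * refl Q (u - w) * refl Q a ^ (j + 1) =
          (s * (refl Q (u - w) * refl Q a) * s⁻¹) * (s * refl Q a ^ j) := by
        rw [pow_succ']; group
      rw [e]
      exact (Om Q).mul_mem (Om_conj hs.1 (refl_mul_refl_mem_Om hN h5 (hQuw.trans ha.symm)))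
        (h3 a ha)

theorem not_mem_sup_of_disjoint {A B S : Submodule F V} (hAB : A ⊓ B = ⊥) (hS : S ≤ A) {x : V}
    (hx : x ∈ A) (h : x ∉ S) : x ∉ S ⊔ B := by
  intro h1
  obtain ⟨s, hs, y, hy, rfl⟩ := Submodule.mem_sup.1 h1
  have h2 : y ∈ A ⊓ B := ⟨by simpa using A.sub_mem hx (hS hs), hy⟩
  rw [hAB, Submodule.mem_bot] at h2
  rw [h2, add_zero] at h
  exact h hs

section Core

variable {K : Subgroup (V ≃ₗ[F] V)} {A B : Submodule F V}

theorem MaxTS.decomp (hA : MaxTS Q A) (hB : MaxTS Q B) (hAB : A ⊓ B = ⊥) (z : V) :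
    ∃ a ∈ A, ∃ b ∈ B, a + b = z := by
  have h1 := Submodule.finrank_sup_add_finrank_inf_eq A B
  rw [hAB, finrank_bot] at h1
  have h2 : A ⊔ B = ⊤ := Submodule.eq_top_of_finrank_eq (by have := hA.2; have := hB.2; omega)
  exact Submodule.mem_sup.1 (by rw [h2]; trivial)

theorem pair_core_two (hN : ND Q) (hA : MaxTS Q A) (hB : MaxTS Q B) (hAB : A ⊓ B = ⊥)
    (h4 : 4 ≤ finrank F A) (hK : ∀ u ∈ A, ∀ w ∈ B, polar Q u w = 0 → siegel Q u w ∈ K) {u v : V}
    (hu : u ∈ A) (hv : v ∈ A) (huv : v ∉ sp F [u]) (h : siegel Q u v ∈ K) (z : V) :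
    siegel Q u z ∈ K := by
  have pA : ∀ x ∈ A, ∀ y ∈ A, polar Q x y = 0 := fun x hx y hy =>
    mem_perp'.1 (le_perp_of_sing hA.1 hx) y hy
  have hQu := hA.1 u hu
  have key : ∀ x ∈ A, v ∉ sp F [u, x] → siegel Q u x ∈ K := by
    intro x hx h1
    obtain ⟨y, hy, hy1, hy2⟩ := hN.exists_dual_in (X := B) (S := sp F [u, x]) (x := v) (by
      rw [hB.perp_eq hN]
      exact not_mem_sup_of_disjoint hAB (sp_le.2 (by simp [hu, hx])) hv h1)
    have e1 : polar Q u y = 0 := hy2 u (mem_sp_of_mem (by simp))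
    have e2 : polar Q x y = 0 := hy2 x (mem_sp_of_mem (by simp))
    have h2 := siegel_conj_mem (siegel_mem_OG x y) (hK x hx y hy e2) h
    rw [siegel_fix (pA u hu x hx) e1, siegel_apply_of_perp (hA.1 x hx) e2 (pA v hv x hx), hy1,
      one_smul] at h2
    have := siegel_sub_mem hQu (pA u hu v hv) (pA u hu _ (A.sub_mem hv hx)) h h2
    simpa using this
  have key2 : ∀ x ∈ A, siegel Q u x ∈ K := by
    intro x hx
    by_cases h1 : v ∈ sp F [u, x]
    · obtain ⟨y, hy, hy1⟩ := exists_not_mem (T := A) (S := sp F [u, v, x]) (by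
        have := finrank_sp_le (F := F) [u, v, x]
        simp only [List.length_cons, List.length_nil] at this; omega)
      have k : ∀ x' ∈ sp F [u, v, x], v ∉ sp F [u, x' + y] := by
        intro x' hx' h2
        obtain ⟨c, d, hcd⟩ := mem_sp_two.1 h2
        have hd : d ≠ 0 := by
          rintro rfl
          exact huv (mem_sp_one.2 ⟨c, by rw [hcd]; simp⟩)
        apply hy1
        have : y = d⁻¹ • (v - c • u) - x' := by
          rw [hcd]; match_scalars <;> field_simp <;> ring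
        rw [this]
        exact Submodule.sub_mem _ (Submodule.smul_mem _ _ (Submodule.sub_mem _
          (mem_sp_of_mem (by simp)) (Submodule.smul_mem _ _ (mem_sp_of_mem (by simp))))) hx'
      have k1 := key _ (A.add_mem hx hy) (k x (mem_sp_of_mem (by simp)))
      have k2 := key _ (A.add_mem A.zero_mem hy) (k 0 (Submodule.zero_mem _))
      have := siegel_sub_mem hQu (pA u hu _ (A.add_mem hx hy)) (pA u hu _ (A.add_mem A.zero_mem hy))
        k1 k2
      simpa using this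
    · exact key x hx h1
  by_cases hz : polar Q u z = 0
  · obtain ⟨a, ha, b, hb, rfl⟩ := hA.decomp hB hAB z
    have e : polar Q u b = 0 := by rwa [polar_add_right, pA u hu a ha, zero_add] at hz
    exact siegel_add_mem hQu (pA u hu a ha) e (key2 a ha) (hK u hu b hb e)
  · rw [siegel_of_not fun h => hz h.2]; exact K.one_mem

theorem pair_core_all (hN : ND Q) (hA : MaxTS Q A) (hB : MaxTS Q B) (hAB : A ⊓ B = ⊥)
    (h4 : 4 ≤ finrank F A) (hK : ∀ u ∈ A, ∀ w ∈ B, polar Q u w = 0 → siegel Q u w ∈ K) {u v : V}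
    (hu : u ∈ A) (hu0 : u ≠ 0) (hv : v ∈ A) (huv : v ∉ sp F [u]) (h : siegel Q u v ∈ K) {x : V}
    (hx : x ∈ A) (z : V) : siegel Q x z ∈ K := by
  have h1 := pair_core_two hN hA hB hAB h4 hK hu hv huv h
  by_cases h2 : x ∈ sp F [u]
  · obtain ⟨c, rfl⟩ := mem_sp_one.1 h2
    exact siegel_all_smul h1 c z
  · exact pair_core_two hN hA hB hAB h4 hK hx hu
      (not_mem_sp_swap h2 (by rw [sp_nil]; simpa using hu0))
      (siegel_swap_mem (hA.1 u hu) (hA.1 x hx) (mem_perp'.1 (le_perp_of_sing hA.1 hu) x hx) (h1 x)) z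

theorem pair_core_one (hN : ND Q) (hA : MaxTS Q A) (hB : MaxTS Q B) (hAB : A ⊓ B = ⊥)
    (h5 : 5 ≤ finrank F A) (hK : ∀ u ∈ A, ∀ w ∈ B, polar Q u w = 0 → siegel Q u w ∈ K)
    {a₀ a₁ b₀ b₁ : V} (ha0 : a₀ ∈ A) (ha1 : a₁ ∈ B) (hb0 : b₀ ∈ A) (hb1 : b₁ ∈ B) (h0 : a₀ ≠ 0)
    (hab : b₀ ∉ sp F [a₀]) (hQa : Q (a₀ + a₁) = 0) (hQb : Q (b₀ + b₁) = 0)
    (hp : polar Q (a₀ + a₁) (b₀ + b₁) = 0) (h : siegel Q (a₀ + a₁) (b₀ + b₁) ∈ K) {x : V}
    (hx : x ∈ A) (z : V) : siegel Q x z ∈ K := by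
  have pA : ∀ x ∈ A, ∀ y ∈ A, polar Q x y = 0 := fun x hx y hy =>
    mem_perp'.1 (le_perp_of_sing hA.1 hx) y hy
  have pB : ∀ x ∈ B, ∀ y ∈ B, polar Q x y = 0 := fun x hx y hy =>
    mem_perp'.1 (le_perp_of_sing hB.1 hx) y hy
  have hd := finrank_le_inf_perp_sp (Q := Q) A [a₁, b₁]
  have hd2 := finrank_sp_le (F := F) [a₀, b₀]
  simp only [List.length_cons, List.length_nil] at hd hd2
  obtain ⟨u, hu, hu1⟩ := exists_not_mem (T := A ⊓ perp Q (sp F [a₁, b₁])) (S := sp F [a₀, b₀])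
    (by omega)
  have e1 : polar Q u a₁ = 0 := by rw [pol_comm]; exact mem_perp_sp.1 hu.2 _ (by simp)
  have e2 : polar Q u b₁ = 0 := by rw [pol_comm]; exact mem_perp_sp.1 hu.2 _ (by simp)
  have hab' : a₀ ∉ sp F [b₀] := not_mem_sp_swap hab (by rw [sp_nil]; simpa using h0)
  have h1 : a₀ ∉ sp F [u, b₀] := not_mem_sp_swap hu1 hab'
  have huA : u ∈ A := hu.1
  obtain ⟨w, hw, hw1, hw2⟩ := hN.exists_dual_in (X := B) (S := sp F [u, b₀]) (x := a₀) (by
    rw [hB.perp_eq hN]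
    exact not_mem_sup_of_disjoint hAB (sp_le.2 (by simp [huA, hb0])) ha0 h1)
  have e3 : polar Q u w = 0 := hw2 u (mem_sp_of_mem (by simp))
  have e4 : polar Q b₀ w = 0 := hw2 b₀ (mem_sp_of_mem (by simp))
  have e5 : polar Q u (b₀ + b₁) = 0 := by rw [polar_add_right, pA u hu.1 b₀ hb0, e2, add_zero]
  have h2 := siegel_conj_mem (siegel_mem_OG _ _) h (hK u hu.1 w hw e3)
  rw [siegel_fix (by rw [polar_add_right, pA u hu.1 a₀ ha0, e1, add_zero]) e5,
    siegel_apply hQa hp, hQb, polar_add_right, polar_add_right, pol_comm Q w a₀, hw1,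
    pB w hw a₁ ha1, pol_comm Q w b₀, e4, pB w hw b₁ hb1] at h2
  simp only [add_zero, one_smul, zero_mul, zero_smul, sub_zero] at h2
  have hQu := hA.1 u hu.1
  have h3 := siegel_sub_mem hQu (by rw [polar_add_right, e3, e5, add_zero])
    (by rw [polar_add_right, e3, e2, add_zero]) h2
    (hK u hu.1 _ (B.add_mem hw hb1) (by rw [polar_add_right, e3, e2, add_zero]))
  have e6 : w + (b₀ + b₁) - (w + b₁) = b₀ := by abel
  rw [e6] at h3
  have hu0 : u ≠ 0 := by rintro rfl; exact hu1 (Submodule.zero_mem _)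
  refine pair_core_all hN hA hB hAB (by omega) hK hu.1 hu0 hb0 (fun h4 => ?_) h3 hx z
  have hb00 : b₀ ≠ 0 := by rintro rfl; exact hab (Submodule.zero_mem _)
  have h6 : u ∉ sp F [b₀] := fun h6 => hu1 (sp_le.2 (by simp [mem_sp_of_mem]) h6)
  exact not_mem_sp_swap h6 (by rw [sp_nil]; simpa using hb00) h4

theorem pair_core_new (hN : ND Q) (hA : MaxTS Q A) (hB : MaxTS Q B) (hAB : A ⊓ B = ⊥)
    (h5 : 5 ≤ finrank F A) (hK : ∀ u ∈ A, ∀ w ∈ B, polar Q u w = 0 → siegel Q u w ∈ K)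
    {g : V ≃ₗ[F] V} (hg : g ∈ OG Q) (hgK : g ∈ K) {u : V} (hu : u ∈ A) (h1 : g u ∉ A)
    (h2 : g u ∉ B) : (∀ x ∈ A, ∀ z, siegel Q x z ∈ K) ∨ (∀ x ∈ B, ∀ z, siegel Q x z ∈ K) := by
  have hK' : ∀ w ∈ B, ∀ u ∈ A, polar Q w u = 0 → siegel Q w u ∈ K := fun w hw u hu h =>
    siegel_swap_mem (hA.1 u hu) (hB.1 w hw) (by rwa [pol_comm]) (hK u hu w hw (by rwa [pol_comm]))
  have dAB : finrank F B = finrank F A := by have := hA.2; have := hB.2; omega
  obtain ⟨a₀, ha0, a₁, ha1, ha⟩ := hA.decomp hB hAB (g u)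
  have n0 : a₀ ≠ 0 := by rintro rfl; apply h2; rw [← ha, zero_add]; exact ha1
  have n1 : a₁ ≠ 0 := by rintro rfl; apply h1; rw [← ha, add_zero]; exact ha0
  have hd := finrank_le_inf_perp_sp (Q := Q) B [u]
  have hd2 := finrank_sp_le (F := F) [a₀, a₁]
  simp only [List.length_cons, List.length_nil] at hd hd2
  obtain ⟨_, ⟨w, hw, rfl⟩, hw1⟩ := exists_not_mem
    (T := (B ⊓ perp Q (sp F [u])).map (g : V →ₗ[F] V)) (S := sp F [a₀, a₁])
    (by rw [LinearEquiv.finrank_map_eq]; omega)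
  have huw : polar Q u w = 0 := mem_perp_sp.1 hw.2 u (by simp)
  obtain ⟨b₀, hb0, b₁, hb1, hb⟩ := hA.decomp hB hAB (g w)
  have k1 : Q (a₀ + a₁) = 0 := by rw [ha, hg, hA.1 u hu]
  have k2 : Q (b₀ + b₁) = 0 := by rw [hb, hg, hB.1 w hw.1]
  have k3 : polar Q (a₀ + a₁) (b₀ + b₁) = 0 := by rw [ha, hb, OG_pol hg, huw]
  have k4 : siegel Q (a₀ + a₁) (b₀ + b₁) ∈ K := by
    rw [ha, hb]; exact siegel_conj_mem hg hgK (hK u hu w hw.1 huw)
  by_cases c0 : b₀ ∈ sp F [a₀]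
  · by_cases c1 : b₁ ∈ sp F [a₁]
    · exfalso
      apply hw1
      change g w ∈ _
      rw [← hb]
      exact Submodule.add_mem _ (sp_le.2 (by simp [mem_sp_of_mem]) c0)
        (sp_le.2 (by simp [mem_sp_of_mem]) c1)
    · right
      rw [add_comm a₀] at k1 k3 k4
      rw [add_comm b₀] at k2 k3 k4
      exact fun x hx z => pair_core_one hN hB hA (by rwa [inf_comm]) (by omega) hK' ha1 ha0 hb1 hb0
        n1 c1 k1 k2 k3 k4 hx z
  · left
    exact fun x hx z => pair_core_one hN hA hB hAB h5 hK ha0 ha1 hb0 hb1 n0 c0 k1 k2 k3 k4 hx z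

end Core

theorem mem_DStab_two {D : Fin 2 → Submodule F V} {g : V ≃ₗ[F] V}
    (hd : finrank F (D 0) = finrank F (D 1))
    (h : ((∀ x ∈ D 0, g x ∈ D 0) ∧ ∀ x ∈ D 1, g x ∈ D 1) ∨
      ((∀ x ∈ D 0, g x ∈ D 1) ∧ ∀ x ∈ D 1, g x ∈ D 0)) : g ∈ DStab D := by
  rcases h with ⟨h0, h1⟩ | ⟨h0, h1⟩
  · refine ⟨1, fun i => ?_⟩
    fin_cases i
    · exact map_eq_of_maps h0 le_rfl
    · exact map_eq_of_maps h1 le_rfl
  · refine ⟨Equiv.swap 0 1, fun i => ?_⟩
    fin_cases i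
    · exact map_eq_of_maps h0 hd.ge
    · exact map_eq_of_maps h1 hd.le

theorem pair_max (hN : ND Q) {D : Fin 2 → Submodule F V} (hA : MaxTS Q (D 0)) (hB : MaxTS Q (D 1))
    (hD : iSupIndep D) (h5 : 5 ≤ finrank F (D 0)) (hev : Even (finrank F (D 0))) :
    Geo.IsMaximalIn (Om Q) (DStab D ⊓ Om Q) := by
  have hAB : D 0 ⊓ D 1 = ⊥ := disjoint_iff.1 (hD.pairwiseDisjoint (by decide : (0 : Fin 2) ≠ 1))
  have hn := hA.2
  have h5' : 5 ≤ finrank F V := by omega
  have dAB : finrank F (D 0) = finrank F (D 1) := by have := hB.2; omega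
  refine isMaximalIn_of ?_ fun K hK1 hK2 g hg hgD => ?_
  · by_contra h
    push Not at h
    exact Om_not_le_DStab hN (by omega) hD (by decide : (0 : Fin 2) ≠ 1) (hA.ne_bot h5')
      (hB.ne_bot h5') h
  have hK : ∀ u ∈ D 0, ∀ w ∈ D 1, polar Q u w = 0 → siegel Q u w ∈ K := by
    intro u hu w hw huw
    refine hK1 ⟨mem_DStab_two dAB (Or.inl ⟨fun x hx =>
      (siegel_mem_Stab_of_perp hu (le_perp_of_sing hA.1 hu) w x).1 hx, fun x hx => ?_⟩),
      siegel_mem_Om hN h5' u w⟩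
    rw [siegel_swap (hB.1 w hw) (hA.1 u hu) (by rwa [pol_comm])]
    exact (siegel_mem_Stab_of_perp hw (le_perp_of_sing hB.1 hw) _ x).1 hx
  have hK' : ∀ w ∈ D 1, ∀ u ∈ D 0, polar Q w u = 0 → siegel Q w u ∈ K := fun w hw u hu h =>
    siegel_swap_mem (hA.1 u hu) (hB.1 w hw) (by rwa [pol_comm]) (hK u hu w hw (by rwa [pol_comm]))
  obtain ⟨s, hs, s1, s2, s3⟩ := exists_swap hN h5' _ (D 0) (D 1) hA.1 hB.1 rfl dAB.symm
    (by rw [hB.perp_eq hN, hAB])
  have hsO : s ∈ Om Q := by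
    obtain ⟨a, -, ha⟩ := hN.ndOn_top.exists_value_two hN (by rw [finrank_top]; omega) (-1)
    have := s3 a ha
    obtain ⟨k, hk⟩ := hev
    rwa [hk, ← two_mul, pow_mul, pow_two, refl_mul_self, one_pow, mul_one] at this
  have hsK : s ∈ K := hK1 ⟨mem_DStab_two dAB (Or.inr ⟨s1, s2⟩), hsO⟩
  have hgO := Om_le_OG (hK2 hg)
  have hall : (∀ x ∈ D 0, ∀ z, siegel Q x z ∈ K) ∨ (∀ x ∈ D 1, ∀ z, siegel Q x z ∈ K) := by
    by_cases c0 : ∃ u ∈ D 0, g u ∉ D 0 ∧ g u ∉ D 1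
    · obtain ⟨u, hu, h1, h2⟩ := c0
      exact pair_core_new hN hA hB hAB h5 hK hgO hg hu h1 h2
    by_cases c1 : ∃ u ∈ D 1, g u ∉ D 1 ∧ g u ∉ D 0
    · obtain ⟨u, hu, h1, h2⟩ := c1
      exact (pair_core_new hN hB hA (by rwa [inf_comm]) (by omega) hK' hgO hg hu h1 h2).symm
    exfalso
    push Not at c0 c1
    have k : ∀ i, ∀ j, (∀ x ∈ D i, g x ∉ D j → g x ∈ D (j + 1)) →
        (∀ x ∈ D i, g x ∈ D j) ∨ ∀ x ∈ D i, g x ∈ D (j + 1) := by
      intro i j h
      rcases le_or_le_of_union (S := D i) (A := (D j).comap (g : V →ₗ[F] V))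
        (B := (D (j + 1)).comap (g : V →ₗ[F] V)) (fun x hx => by
          by_cases h1 : g x ∈ D j
          · exact Or.inl h1
          · exact Or.inr (h x hx h1)) with h1 | h1
      · exact Or.inl h1
      · exact Or.inr h1
    have hne : ∀ j, ¬ ((∀ x ∈ D 0, g x ∈ D j) ∧ ∀ x ∈ D 1, g x ∈ D j) := by
      rintro j ⟨h1, h2⟩
      have h3 : (⊤ : Submodule F V).map (g : V →ₗ[F] V) ≤ D j := by
        rintro _ ⟨z, -, rfl⟩
        obtain ⟨a, ha, b, hb, rfl⟩ := hA.decomp hB hAB z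
        rw [_root_.map_add]; exact (D j).add_mem (h1 a ha) (h2 b hb)
      have h4 := Submodule.finrank_mono h3
      rw [LinearEquiv.finrank_map_eq, finrank_top] at h4
      have : finrank F (D j) = finrank F (D 0) := by
        fin_cases j
        · rfl
        · exact dAB.symm
      omega
    rcases k 0 0 c0 with h1 | h1 <;> rcases k 1 1 c1 with h2 | h2
    · exact hgD (mem_DStab_two dAB (Or.inl ⟨h1, h2⟩))
    · exact hne 0 ⟨h1, h2⟩
    · exact hne 1 ⟨h1, h2⟩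
    · exact hgD (mem_DStab_two dAB (Or.inr ⟨h1, h2⟩))
  have hsurj : ∀ (A B : Submodule F V), (∀ x ∈ A, s x ∈ B) → finrank F B ≤ finrank F A →
      (∀ x ∈ A, ∀ z, siegel Q x z ∈ K) → ∀ x ∈ B, ∀ z, siegel Q x z ∈ K := by
    intro A B h1 h2 h3 x hx
    rw [← map_eq_of_maps h1 h2] at hx
    obtain ⟨y, hy, rfl⟩ := hx
    exact siegel_all_conj hs.1 hsK (h3 y hy)
  have hboth : (∀ x ∈ D 0, ∀ z, siegel Q x z ∈ K) ∧ (∀ x ∈ D 1, ∀ z, siegel Q x z ∈ K) := by
    rcases hall with h | h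
    · exact ⟨h, hsurj _ _ s1 dAB.ge h⟩
    · exact ⟨hsurj _ _ s2 dAB.le h, h⟩
  obtain ⟨u, hu, hu0⟩ := exists_not_mem (T := D 0) (S := ⊥) (by rw [finrank_bot]; omega)
  obtain ⟨w, hw, huw⟩ := exists_pol_eq_one (Q := Q) (X := D 1) (x := u) fun h => hu0 (by
    rw [hB.perp_eq hN] at h
    rw [← hAB]; exact ⟨hu, h⟩)
  exact Om_le_of_two hN h5' (hA.1 u hu) (hB.1 w hw) (by rw [huw]; exact one_ne_zero)
    (hboth.1 u hu) (hboth.2 w hw)

end Cfsg.Agent.H8
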