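import Cfsg.Agent.H8.Imp3

/-!
Lemmas on non-degenerate planes and on finite fields.
-/

set_option autoImplicit false
set_option linter.unusedSectionVars false

namespace Cfsg.Agent.H8

open QuadraticMap Module

variable {F V : Type*} [Field F] [AddCommGroup V] [Module F V] {Q : QuadraticForm F V}

theorem exists_fin_not_mem {t : ℕ} (l : List (Fin t)) (h : l.length < t) : ∃ x : Fin t, x ∉ l := by
  by_contra hc
  push Not at hc
  have h1 : (Finset.univ : Finset (Fin t)) ⊆ l.toFinset := fun x _ => List.mem_toFinset.2 (hc x)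
  have h2 := (Finset.card_le_card h1).trans l.toFinset_card_le
  rw [Finset.card_univ, Fintype.card_fin] at h2
  omega

section Field

variable [Finite F]

theorem two_same_class {a b c : F} (ha : a ≠ 0) (hb : b ≠ 0) (hc : c ≠ 0) :
    ∃ s : F, s ≠ 0 ∧ (a = s * s * b ∨ a = s * s * c ∨ b = s * s * c) := by
  classical
  have := Fintype.ofFinite F
  have key : ∀ {x y : F}, x ≠ 0 → y ≠ 0 → quadraticChar F x = quadraticChar F y →
      ∃ s : F, s ≠ 0 ∧ x = s * s * y := fun {x y} hx hy h => by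
    have h1 : quadraticChar F (x * y) = 1 := by
      rw [map_mul, h, ← _root_.sq, quadraticChar_sq_one hy]
    obtain ⟨r, hr⟩ := (quadraticChar_one_iff_isSquare (mul_ne_zero hx hy)).1 h1
    refine ⟨r / y, div_ne_zero (fun e => mul_ne_zero hx hy (by rw [hr, e, mul_zero])) hy, ?_⟩
    field_simp; linear_combination hr
  rcases quadraticChar_dichotomy ha with h1 | h1 <;>
  rcases quadraticChar_dichotomy hb with h2 | h2 <;>
  rcases quadraticChar_dichotomy hc with h3 | h3
  all_goals first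
    | exact (key ha hb (h1.trans h2.symm)).imp fun s hs => ⟨hs.1, Or.inl hs.2⟩
    | exact (key ha hc (h1.trans h3.symm)).imp fun s hs => ⟨hs.1, Or.inr (Or.inl hs.2)⟩
    | exact (key hb hc (h2.trans h3.symm)).imp fun s hs => ⟨hs.1, Or.inr (Or.inr hs.2)⟩

theorem inv_eq_pow_card {a : F} (ha : a ≠ 0) : a⁻¹ = a ^ (Nat.card F - 2) := by
  have := Fintype.ofFinite F
  have h1 := FiniteField.pow_card_sub_one_eq_one a ha
  have h2 := Finite.one_lt_card (α := F)
  rw [← Nat.card_eq_fintype_card, show Nat.card F - 1 = Nat.card F - 2 + 1 by omega, pow_succ] at h1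
  exact (eq_inv_of_mul_eq_one_left h1).symm

theorem subring_inv_mem {A : Subring F} {a : F} (h : a ∈ A) : a⁻¹ ∈ A := by
  by_cases ha : a = 0
  · simp [ha]
  · rw [inv_eq_pow_card ha]; exact A.pow_mem h _

theorem exists_conic_point' (h2 : (2 : F) ≠ 0) (hq : 7 ≤ Nat.card F) {A B γ δ : F} (hA : A ≠ 0)
    (hγ : γ ≠ 0) (hδ : δ ≠ 0) :
    ∃ r s : F, A + r * r * γ + (B + s * s * δ) = 0 ∧ A + r * r * γ ≠ 0 := by
  obtain ⟨r, s, h⟩ := exists_conic_point h2 hγ hδ (-(A + B))
  by_cases h0 : A + r * r * γ = 0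
  swap
  · exact ⟨r, s, by linear_combination h, h0⟩
  have hr : r ≠ 0 := fun e => hA (by rw [e] at h0; simpa using h0)
  obtain ⟨l1, hl1, hl1'⟩ := exists_roots_list (a := δ) (b := 0) (c := γ) (Or.inl hδ)
  obtain ⟨l2, hl2, hl2'⟩ := exists_roots_list (a := 0) (b := δ * s) (c := γ * r)
    (Or.inr (Or.inr (mul_ne_zero hγ hr)))
  obtain ⟨ρ, hρ⟩ := exists_not_mem_list (0 :: (s / r) :: (l1 ++ l2)) (by simp; omega)
  simp only [List.mem_cons, List.mem_append, not_or] at hρ
  have h1 : γ + δ * ρ * ρ ≠ 0 := fun e => hρ.2.2.1 (hl1' ρ (by linear_combination e))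
  have h3 : γ * r + δ * s * ρ ≠ 0 := fun e => hρ.2.2.2 (hl2' ρ (by linear_combination e))
  obtain ⟨κ, hκ, hκ0⟩ : ∃ κ : F, κ * (γ + δ * ρ * ρ) = 2 * (γ * r + δ * s * ρ) ∧ κ ≠ 0 :=
    ⟨_, div_mul_cancel₀ _ h1, div_ne_zero (mul_ne_zero h2 h3) h1⟩
  refine ⟨r - κ, s - κ * ρ, by linear_combination h + κ * hκ, fun e => ?_⟩
  have h4 : γ * κ * (κ - 2 * r) = 0 := by linear_combination e - h0
  have h5 : κ = 2 * r := sub_eq_zero.1 ((mul_eq_zero.1 h4).resolve_left (mul_ne_zero hγ hκ0))
  have h6 : 2 * δ * ρ * (r * ρ - s) = 0 := by rw [h5] at hκ; linear_combination hκ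
  have h7 := (mul_eq_zero.1 h6).resolve_left (mul_ne_zero (mul_ne_zero h2 hδ) hρ.1)
  exact hρ.2.1 (by field_simp; linear_combination h7)

theorem exists_trace_prod (h1 : ∀ s : F, s * s ≠ -1) {κ w : F} (hκ : κ ≠ 0) (hw : w ≠ 0) :
    ∃ τ s τ' s' : F, τ * τ + s * s * κ = 4 ∧ τ' * τ' + s' * s' * κ = 4 ∧ τ * τ' = w := by
  have h2 : (2 : F) ≠ 0 := fun e => h1 1 (by linear_combination e)
  have h4 : (4 : F) ≠ 0 := by have := mul_ne_zero h2 h2; norm_num at this; exact this
  by_contra hc
  push Not at hc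
  have key : ∀ τ : F, (τ ≠ 0 ∧ ∃ s, τ * τ + s * s * κ = 4) →
      (4 / w * τ ≠ 0 ∧ ∃ s, 4 / w * τ * (4 / w * τ) + s * s * κ = 4) := by
    rintro τ ⟨h0, s, hs⟩
    refine ⟨mul_ne_zero (div_ne_zero h4 hw) h0, ?_⟩
    have hn : ∀ s' : F, w / τ * (w / τ) + s' * s' * κ ≠ 4 := fun s' e =>
      hc τ s _ s' hs e (by field_simp)
    have hD : (4 - w / τ * (w / τ)) / κ ≠ 0 := div_ne_zero (fun e => hn 0 (by
      linear_combination -e)) hκ
    obtain ⟨r, hr, h | h | h⟩ := two_same_class hD (neg_ne_zero.2 one_ne_zero) one_ne_zero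
    · refine ⟨2 * r * τ / w, ?_⟩
      field_simp at h ⊢
      linear_combination 4 * h
    · exact absurd (by rw [div_eq_iff hκ] at h; linear_combination -h) (hn r)
    · exact absurd (by linear_combination -h) (h1 r)
  have hk : ∀ n : ℕ, (4 / w) ^ n * 2 ≠ 0 ∧
      ∃ s, (4 / w) ^ n * 2 * ((4 / w) ^ n * 2) + s * s * κ = 4 := fun n => by
    induction n with
    | zero => exact ⟨by simpa using h2, 0, by norm_num⟩
    | succ n ih => have := key _ ih; rwa [← mul_assoc, ← pow_succ'] at this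
  obtain ⟨-, s, hs⟩ := hk (Nat.card F - 2)
  rw [← inv_eq_pow_card (div_ne_zero h4 hw)] at hs
  exact hc 2 0 _ s (by norm_num) hs (by field_simp; norm_num)

end Field

variable [Finite F] [FiniteDimensional F V] {X : Submodule F V}

theorem eq_sp_of_indep (h2 : finrank F X = 2) {a b : V} (ha : a ∈ X) (hb : b ∈ X) (ha0 : a ≠ 0)
    (hab : b ∉ sp F [a]) : X = sp F [a, b] := by
  refine (Submodule.eq_of_le_of_finrank_le (sp_le.2 (by simp [ha, hb])) ?_).symm
  have hlt : sp F [a] < sp F [a, b] := lt_of_le_of_ne (sp_le.2 (by simp [mem_sp_of_mem]))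
    fun e => hab (by rw [e]; exact mem_sp_of_mem (by simp))
  have := Submodule.finrank_lt_finrank_of_lt hlt
  rw [sp_one, finrank_span_singleton ha0] at this
  omega

theorem NDOn.plane_sing_perp (hX : NDOn Q X) (h2 : finrank F X = 2) {x y : V} (hx : x ∈ X)
    (hy : y ∈ X) (hQx : Q x ≠ 0) (hQy : Q y = 0) (hxy : polar Q x y = 0) : y = 0 := by
  by_contra h0
  have := eq_sp_of_indep h2 hy hx h0 fun e => by
    obtain ⟨s, rfl⟩ := mem_sp_one.1 e; exact hQx (by rw [Q_smul, hQy, mul_zero])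
  refine h0 (hX y hy fun z hz => ?_)
  rw [this] at hz
  obtain ⟨r, s, rfl⟩ := mem_sp_two.1 hz
  rw [polar_add_right, pol_smul_right, pol_smul_right, pol_self, hQy, pol_comm, hxy]; ring

theorem NDOn.exists_star (hX : NDOn Q X) (h2 : finrank F X = 2) {x : V} (hx : x ∈ X)
    (hQx : Q x ≠ 0) : ∃ y ∈ X, polar Q x y = 0 ∧ Q y ≠ 0 := by
  have hd := finrank_le_inf_perp_sp (Q := Q) X [x]
  simp only [List.length_cons, List.length_nil] at hd
  obtain ⟨y, hy, hy0⟩ := exists_not_mem (T := X ⊓ H8.perp Q (sp F [x])) (S := ⊥)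
    (by rw [finrank_bot]; omega)
  have := mem_perp_sp.1 hy.2 x (by simp)
  exact ⟨y, hy.1, this, fun e => hy0 (hX.plane_sing_perp h2 hx hy.1 hQx e this)⟩

theorem NDOn.plane_swap (hX : NDOn Q X) (h2 : finrank F X = 2) {x y : V} (hx : x ∈ X)
    (hy : y ∈ X) (hQx : Q x ≠ 0) (hxy : Q x = Q y) :
    ∃ r ∈ OG Q ⊓ Fix (H8.perp Q X), r x = y ∧ r y = x := by
  by_cases e : x = y
  · exact ⟨1, Subgroup.one_mem _, e, e.symm⟩
  have h : Q (x - y) ≠ 0 := fun h => e (sub_eq_zero.1 (hX.plane_sing_perp h2 hx (X.sub_mem hx hy)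
    hQx h (by rw [Q_sub] at h; rw [polar_sub_right, pol_self]; linear_combination h + hxy)))
  refine ⟨refl Q (x - y), ⟨refl_mem_OG _, refl_mem_Fix_perp (X.sub_mem hx hy)⟩, refl_swap hxy h, ?_⟩
  have := inv_apply_eq (refl_swap hxy h)
  rwa [refl_inv] at this

theorem NDOn.plane_dep (hX : NDOn Q X) (h2 : finrank F X = 2) {p q : V} (hp : p ∈ X)
    (hq : q ∈ X) (hQp : Q p = 0) (hpq : polar Q p q = 0) :
    ∃ r s : F, (r ≠ 0 ∨ s ≠ 0) ∧ r • p + s • q = 0 := by
  by_cases h0 : p = 0
  · exact ⟨1, 0, Or.inl one_ne_zero, by simp [h0]⟩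
  obtain ⟨w, hw, hQw, hpw⟩ := hX.exists_partner hp h0 hQp
  rw [eq_sp_pair h2 hp hw hQw hpw] at hq
  obtain ⟨r, s, rfl⟩ := mem_sp_two.1 hq
  rw [polar_add_right, pol_smul_right, pol_smul_right, pol_self, hQp, hpw] at hpq
  have : s = 0 := by simpa using hpq
  exact ⟨r, -1, Or.inr (by simp), by simp [this]⟩

theorem NDOn.siegel_plane (hX : NDOn Q X) (h2 : finrank F X = 2) {u v : V} (hu : u ∈ X)
    (hv : v ∈ X) : siegel Q u v = 1 := by
  by_cases h : Q u = 0 ∧ polar Q u v = 0
  swap
  · exact siegel_of_not h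
  by_cases h0 : u = 0
  · ext x; rw [siegel_apply h.1 h.2, h0]; simp
  obtain ⟨r, s, h1, h3⟩ := hX.plane_dep h2 hu hv h.1 h.2
  have hs : s ≠ 0 := fun e => by
    rw [e, zero_smul, add_zero] at h3
    exact smul_ne_zero (h1.resolve_right (not_not.2 e)) h0 h3
  have : v = 0 + (-r / s) • u := by
    have e : v = s⁻¹ • (s • v) := by rw [smul_smul, inv_mul_cancel₀ hs, one_smul]
    rw [e, eq_neg_of_add_eq_zero_right h3]; match_scalars; field_simp
  rw [this, siegel_add_smul h.1 (by simp), siegel_zero]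

theorem rot_ne (h2 : finrank F X = 2) {b b' v : V} (hb : b ∈ X) (hb' : b' ∈ X) (hQ : Q b ≠ 0)
    (hQ' : Q b' ≠ 0) (hind : b' ∉ sp F [b]) (hv : v ∉ perp Q X) :
    (refl Q b * refl Q b') v ≠ v := by
  intro h
  have hX := eq_sp_of_indep h2 hb hb' (fun e => hQ (by simp [e])) hind
  rw [refl_refl_apply, sub_sub, sub_eq_self, add_comm] at h
  obtain ⟨h3, h4⟩ := indep_of_span hX.le h2.ge h
  rw [h4, zero_mul, sub_zero, div_eq_zero_iff, or_iff_left hQ] at h3
  rw [div_eq_zero_iff, or_iff_left hQ'] at h4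
  exact hv (by rw [hX]; exact mem_perp_sp.2 (by simp [pol_comm Q b, pol_comm Q b', h3, h4]))

theorem refl_refl_sub_mem {b b' : V} (hb : b ∈ X) (hb' : b' ∈ X) (v : V) :
    (refl Q b * refl Q b') v - v ∈ X := by
  rw [refl_refl_apply, sub_sub v, sub_sub_cancel_left]
  exact X.neg_mem (X.add_mem (X.smul_mem _ hb') (X.smul_mem _ hb))

theorem rot_add {a b x : V} (ha : Q a ≠ 0) (hb : Q b ≠ 0) (hx : x ∈ sp F [a, b]) :
    refl Q a (refl Q b x) + refl Q b (refl Q a x) =
      (polar Q a b * polar Q a b / (Q a * Q b) - 2) • x := by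
  obtain ⟨r, s, rfl⟩ := mem_sp_two.1 hx
  simp only [refl_apply, polar_add_left, polar_sub_left, pol_smul_left, pol_self, pol_comm Q b a]
  match_scalars <;> field_simp <;> ring

/-- The condition on the planes. -/
def PlOK (Q : QuadraticForm F V) (X : Submodule F V) : Prop :=
  7 ≤ Nat.card F ∨ ((∀ x ∈ X, x ≠ 0 → Q x ≠ 0) ∧ ((2 : F) = 0 ∨ 4 ≤ Nat.card F))

theorem PlOK.good (h : PlOK Q X) (hX : NDOn Q X) : Good Q X :=
  hX.good_of_card (h.imp (fun h => by omega) Or.inr)

theorem PlOK.card (h : PlOK Q X) {x : V} (hx : x ∈ X) (h0 : x ≠ 0) (hQ : Q x = 0) :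
    7 ≤ Nat.card F := h.resolve_right fun e => e.1 x hx h0 hQ

theorem PlOK.hex (h : PlOK Q X) :
    ¬ (Nat.card F ≤ 3 ∧ finrank F X = 2 ∧ ∃ x ∈ X, x ≠ 0 ∧ Q x = 0) := by
  rintro ⟨h1, -, x, hx, h0, hQ⟩
  have := h.card hx h0 hQ; omega

theorem plane_add_top (hN : ND Q) (hX : NDOn Q X) (h2 : finrank F X = 2) (hP : PlOK Q X)
    {M : AddSubgroup V} (hM : ∀ x ∈ M, x ∈ X) (hr : ∀ b ∈ X, Q b ≠ 0 → ∀ x ∈ M, refl Q b x ∈ M)
    (h0 : ∃ x ∈ M, x ≠ 0) : ∀ x ∈ X, x ∈ M := by
  let A : Subring F :=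
    { carrier := {s | ∀ x ∈ M, s • x ∈ M}
      mul_mem' := fun {a b} ha hb x hx => by rw [mul_smul]; exact ha _ (hb x hx)
      one_mem' := fun x hx => by rwa [one_smul]
      add_mem' := fun {a b} ha hb x hx => by rw [add_smul]; exact M.add_mem (ha x hx) (hb x hx)
      zero_mem' := fun x _ => by rw [zero_smul]; exact M.zero_mem
      neg_mem' := fun {a} ha x hx => by rw [neg_smul]; exact M.neg_mem (ha x hx) }
  have h2A : (2 : F) ∈ A := by exact_mod_cast natCast_mem A 2
  have hτ : ∀ a ∈ X, ∀ b ∈ X, Q a ≠ 0 → b ∉ sp F [a] →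
      Q a * Q b / (polar Q a b * polar Q a b) ∈ A := fun a ha b hb hQa hab => by
    by_cases hQb : Q b = 0
    · simp [hQb]
    have hs := eq_sp_of_indep h2 ha hb (fun e => hQa (by simp [e])) hab
    have h1 : polar Q a b * polar Q a b / (Q a * Q b) - 2 ∈ A := fun x hx => by
      rw [← rot_add hQa hQb (hs ▸ hM x hx)]
      exact M.add_mem (hr a ha hQa _ (hr b hb hQb x hx)) (hr b hb hQb _ (hr a ha hQa x hx))
    have := subring_inv_mem (A.add_mem h1 h2A)
    rwa [sub_add_cancel, inv_div] at this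
  obtain ⟨a, ha, hQa⟩ := hX.exists_nonsing hN le_rfl (by omega)
  have hall : ∀ s : F, s ∈ A := by
    by_cases hc : (2 : F) = 0
    · obtain ⟨y, hy, hay⟩ := hX.exists_pol_eq_one ha (fun e => hQa (by simp [e]))
      have haa : polar Q a a = 0 := by rw [pol_self, hc, zero_mul]
      have hn : ∀ r : F, r • a + y ∉ sp F [a] := fun r e => by
        obtain ⟨s, hs⟩ := mem_sp_one.1 e
        have := congrArg (polar Q a) hs
        simp [polar_add_right, pol_smul_right, haa, hay] at this
      have e1 : ∀ r : F, Q a * Q ((r / Q a) • a + y) = r * r + r + Q a * Q y := fun r => by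
        rw [Q_add, Q_smul, pol_smul_left, hay]; field_simp; ring
      have k1 : ∀ r : F, r * r + r + Q a * Q y ∈ A := fun r => by
        have := hτ a ha _ (X.add_mem (X.smul_mem (r / Q a) ha) hy) hQa (hn _)
        rwa [polar_add_right, pol_smul_right, haa, hay, mul_zero, zero_add, mul_one, div_one,
          e1] at this
      have k2 : Q a * Q y ∈ A := by simpa using k1 0
      have k3 : ∀ r : F, r * r + r ∈ A := fun r => by simpa using A.sub_mem (k1 r) k2
      by_cases hA : ∃ α ∈ A, α * α + α ≠ 0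
      · obtain ⟨α, hα, hα0⟩ := hA
        intro r
        have := A.mul_mem (subring_inv_mem (k3 α)) (A.sub_mem (k3 (α * r))
          (A.mul_mem (A.mul_mem hα hα) (k3 r)))
        rwa [show α * r * (α * r) + α * r - α * α * (r * r + r) = (α * α + α) * r by
          linear_combination (-α * α * r) * hc, inv_mul_cancel_left₀ hα0] at this
      · push Not at hA
        rcases hP with h7 | ⟨han, -⟩
        · obtain ⟨l1, hl1, hl1'⟩ := exists_roots_list (a := (1 : F)) (b := 1) (c := 0)
            (Or.inl one_ne_zero)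
          obtain ⟨l2, hl2, hl2'⟩ := exists_roots_list (a := (1 : F)) (b := 1) (c := 1)
            (Or.inl one_ne_zero)
          obtain ⟨r, hr⟩ := exists_not_mem_list (l1 ++ l2) (by simp; omega)
          simp only [List.mem_append, not_or] at hr
          have : (r * r + r) * (r * r + r + 1) = 0 := by linear_combination hA _ (k3 r)
          rcases mul_eq_zero.1 this with e | e
          · exact absurd (hl1' r (by linear_combination e)) hr.1
          · exact absurd (hl2' r (by linear_combination e)) hr.2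
        · have k4 : ∀ r : F, r * r + r + Q a * Q y ≠ 0 := fun r => by
            rw [← e1]
            exact mul_ne_zero hQa (han _ (X.add_mem (X.smul_mem _ ha) hy) fun e =>
              hn _ (by rw [e]; exact Submodule.zero_mem _))
          have k5 : Q a * Q y + 1 = 0 := by
            have : Q a * Q y * (Q a * Q y + 1) = 0 := by linear_combination hA _ k2
            exact (mul_eq_zero.1 this).resolve_left (by simpa using k4 0)
          intro r
          have : (r * r + r) * (r * r + r + 1) = 0 := by linear_combination hA _ (k3 r)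
          rcases mul_eq_zero.1 this with e | e
          · have : r * (r + 1) = 0 := by linear_combination e
            rcases mul_eq_zero.1 this with e | e
            · rw [e]; exact A.zero_mem
            · rw [eq_neg_of_add_eq_zero_left e]; exact A.neg_mem A.one_mem
          · exact absurd (by linear_combination e + k5 - hc) (k4 r)
    · obtain ⟨y, hy, hay, hQy⟩ := hX.exists_star h2 ha hQa
      have k1 : ∀ s : F, s * s * (Q y / Q a) ∈ A := fun s => by
        by_cases hs : s = 0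
        · simp [hs]
        have := hτ a ha _ (X.add_mem ha (X.smul_mem s hy)) hQa fun e => by
          obtain ⟨r, hr⟩ := mem_sp_one.1 e
          have := congrArg (polar Q y) hr
          rw [polar_add_right, pol_smul_right, pol_smul_right, pol_comm Q y a, hay, pol_self] at this
          exact mul_ne_zero hs (mul_ne_zero hc hQy) (by linear_combination this)
        have := A.sub_mem (A.mul_mem (A.mul_mem h2A h2A) this) A.one_mem
        convert this using 1
        rw [Q_add, Q_smul, polar_add_right, pol_smul_right, hay, pol_self]; field_simp; ring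
      refine fun s => addSubgroup_top_of_sq (A := A.toAddSubgroup) (fun r => ?_) s
      have := A.mul_mem (k1 r) (subring_inv_mem (k1 1))
      change r * r ∈ A
      convert this using 1; field_simp
  let N : Submodule F V :=
    { carrier := M
      add_mem' := M.add_mem
      zero_mem' := M.zero_mem
      smul_mem' := fun c x hx => hall c x hx }
  have := irred_of_refl_siegel hN hX (N := N) hM ((Submodule.ne_bot_iff _).2 h0) hr
    (fun u hu v hv x hx => by rw [hX.siegel_plane h2 hu hv]; exact hx) hP.hex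
  intro x hx
  rw [← this] at hx; exact hx

/-- Two vectors dual to given non-singular vectors of a plane with opposite norms. -/
theorem plane_conic (hN : ND Q) (hX : NDOn Q X) (h2 : finrank F X = 2) (hP : PlOK Q X)
    {c e : V} (hc : c ∈ X) (he : e ∈ X) (hQc : Q c ≠ 0) (hQe : Q e ≠ 0) :
    ∃ b ∈ X, ∃ b' ∈ X, polar Q b c = 1 ∧ polar Q b' e = 1 ∧ Q b + Q b' = 0 ∧ Q b ≠ 0 := by
  by_cases hc2 : (2 : F) = 0
  · have hcc : ∀ x, polar Q x x = 0 := fun x => by rw [pol_self, hc2, zero_mul]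
    obtain ⟨x, hx, hQx, h1, h3⟩ : ∃ x ∈ X, Q x = Q e ∧ polar Q c x ≠ 0 ∧ Q (c + x) ≠ 0 := by
      by_cases han : ∀ x ∈ X, x ≠ 0 → Q x ≠ 0
      · obtain ⟨x, hx, hQx, hxN⟩ := (hP.good hX).exists_value_not_mem hN hX h2.ge
          (N := perp Q (sp F [c])) (fun h => hQc (by
            rw [hX c hc fun x hx => mem_perp_sp.1 (h hx) c (by simp), _root_.map_zero])) hQe
        have h1 : polar Q c x ≠ 0 := fun e => hxN (mem_perp_sp.2 (by simpa using e))
        refine ⟨x, hx, hQx, h1, han _ (X.add_mem hc hx) fun e => h1 ?_⟩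
        rw [eq_neg_of_add_eq_zero_right e, polar_neg_right, hcc, neg_zero]
      · push Not at han
        obtain ⟨u, hu, hu0, hQu⟩ := han
        have h7 := hP.card hu hu0 hQu
        obtain ⟨w, hw, hQw, huw⟩ := hX.exists_partner hu hu0 hQu
        have hc' := hc
        rw [eq_sp_pair h2 hu hw hQw huw] at hc'
        obtain ⟨p, r, rfl⟩ := mem_sp_two.1 hc'
        have hQ : ∀ a b : F, Q (a • u + b • w) = a * b := fun a b => by
          rw [Q_add, Q_smul, Q_smul, pol_smul_left, pol_smul_right, hQu, hQw, huw]; ring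
        have hr : r ≠ 0 := fun e => hQc (by rw [hQ, e, mul_zero])
        obtain ⟨l1, hl1, hl1'⟩ := exists_roots_list (a := r) (b := 0) (c := p * Q e) (Or.inl hr)
        obtain ⟨l2, hl2, hl2'⟩ := exists_roots_list (a := r) (b := p * r + Q e) (c := p * Q e)
          (Or.inl hr)
        obtain ⟨l, hl⟩ := exists_not_mem_list (0 :: (l1 ++ l2)) (by simp; omega)
        simp only [List.mem_cons, List.mem_append, not_or] at hl
        have hl0 := hl.1
        refine ⟨l • u + (Q e / l) • w, X.add_mem (X.smul_mem _ hu) (X.smul_mem _ hw),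
          by rw [hQ]; field_simp, fun h => hl.2.1 (hl1' l ?_), fun h => hl.2.2 (hl2' l ?_)⟩
        · simp only [polar_add_left, polar_add_right, pol_smul_left, pol_smul_right, hcc, huw,
            pol_comm Q w u] at h
          field_simp at h; linear_combination h
        · rw [add_add_add_comm, ← add_smul, ← add_smul, hQ] at h
          field_simp at h; linear_combination h
    obtain ⟨g, hg, hgx, -⟩ := hX.plane_swap h2 hx he (by rwa [hQx]) hQx
    have hb := X.smul_mem (polar Q c x)⁻¹ (X.add_mem hc hx)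
    refine ⟨_, hb, g _, (Stab_of_Fix_perp hN hg _).1 hb, ?_, ?_, ?_, ?_⟩
    · rw [pol_smul_left, polar_add_left, hcc, pol_comm Q x, zero_add, inv_mul_cancel₀ h1]
    · rw [← hgx, OG_pol hg.1, pol_smul_left, polar_add_left, hcc, add_zero, inv_mul_cancel₀ h1]
    · rw [hg.1, ← two_mul, hc2, zero_mul]
    · rw [Q_smul]; exact mul_ne_zero (mul_ne_zero (inv_ne_zero h1) (inv_ne_zero h1)) h3
  · obtain ⟨y, hy, hcy, hQy⟩ := hX.exists_star h2 hc hQc
    obtain ⟨y', hy', hey, hQy'⟩ := hX.exists_star h2 he hQe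
    have key : ∀ {c y : V} (r : F), Q c ≠ 0 → polar Q c y = 0 →
        polar Q ((2 * Q c)⁻¹ • c + r • y) c = 1 ∧
        Q ((2 * Q c)⁻¹ • c + r • y) = (2 * 2 * Q c)⁻¹ + r * r * Q y := fun {c y} r h1 h3 => by
      constructor
      · rw [polar_add_left, pol_smul_left, pol_smul_left, pol_self, pol_comm Q y, h3]
        field_simp; ring
      · rw [Q_add, Q_smul, Q_smul, pol_smul_left, pol_smul_right, h3]; field_simp; ring
    obtain ⟨r, s, h1, h3⟩ : ∃ r s : F, (2 * 2 * Q c)⁻¹ + r * r * Q y +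
        ((2 * 2 * Q e)⁻¹ + s * s * Q y') = 0 ∧ (2 * 2 * Q c)⁻¹ + r * r * Q y ≠ 0 := by
      rcases hP with h7 | ⟨han, -⟩
      · exact exists_conic_point' hc2 h7 (inv_ne_zero (mul_ne_zero (mul_ne_zero hc2 hc2) hQc))
          hQy hQy'
      · obtain ⟨r, s, h⟩ := exists_conic_point hc2 hQy hQy' (-((2 * 2 * Q c)⁻¹ + (2 * 2 * Q e)⁻¹))
        refine ⟨r, s, by linear_combination h, ?_⟩
        rw [← (key r hQc hcy).2]
        refine han _ (X.add_mem (X.smul_mem _ hc) (X.smul_mem _ hy)) fun e => ?_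
        have := (key r hQc hcy).1
        rw [e] at this; simp at this
    exact ⟨_, X.add_mem (X.smul_mem _ hc) (X.smul_mem r hy), _,
      X.add_mem (X.smul_mem _ he) (X.smul_mem s hy'), (key r hQc hcy).1, (key s hQe hey).1,
      by rw [(key r hQc hcy).2, (key s hQe hey).2, h1], by rwa [(key r hQc hcy).2]⟩

end Cfsg.Agent.H8
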