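import Cfsg.Agent.H8.Q8a

/-! The unipotent elements centralising the involution, for the field with eight elements. -/

set_option autoImplicit false

namespace Cfsg.Agent.H8.Q8

open Matrix Cfsg.Agent.H3.S7 K8

/-- the generators lie in `S` and there is no root element -/
structure Gn (S : Submonoid (M7 K8)) : Prop where
  a : a8 ∈ S
  b : b8 ∈ S
  u : u8 ∈ S
  f : f8 ∈ S
  nr : ∀ i j c, i ≠ j → c ≠ 0 → 1 + single i j c ∉ S

theorem ka_io : ka * io = 0 := by decide +kernel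

theorem Gm_mul (η η' : M34) : Gm η * Gm η' = Gm (η + η') := by
  have : io * η * ka * (io * η' * ka) = 0 := by
    rw [Matrix.mul_assoc (io * η), ← Matrix.mul_assoc ka, ← Matrix.mul_assoc ka, ka_io]; simp
  simp only [Gm, mul_add, add_mul, this, Matrix.mul_add, Matrix.add_mul, one_mul, mul_one]
  abel

theorem Gm_conj {g g' : M7 K8} {A : Matrix (Fin 3) (Fin 3) K8} {B : Matrix (Fin 4) (Fin 4) K8} (h1 : g * g' = 1)
    (h2 : g * io = io * A) (h3 : ka * g' = B * ka) (η : M34) : g * Gm η * g' = Gm (A * η * B) := by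
  rw [Gm, mul_add, add_mul, mul_one, h1, Gm, ← Matrix.mul_assoc, ← Matrix.mul_assoc, h2, Matrix.mul_assoc _ ka, h3]
  simp only [Matrix.mul_assoc]

/-- weights -/
def du : Fin 3 → K8 := ![w4, w2, w1]
/-- weights -/
def eu : Fin 4 → K8 := ![1, w3, w5, w6]
/-- powers of the weights -/
def pw (k : ℕ) : M34 := of fun i j => (du i * eu j) ^ k
/-- action of the Fourier matrix -/
def Af : Matrix (Fin 3) (Fin 3) K8 := !![w5, w3, w6; w3, w6, w5; w6, w5, w3]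
/-- action of the Fourier matrix -/
def Bf : Matrix (Fin 4) (Fin 4) K8 := !![1, 1, 1, 1; 0, w5, w3, w6; 0, w3, w6, w5; 0, w6, w5, w3]
/-- action of the Fourier matrix -/
def pf (η : M34) : M34 := Af * η * Bf
/-- weight zero -/
def m0 : M34 := !![0, 1, 0, 0; 0, 0, 1, 0; 0, 0, 0, 1]
/-- residue weights -/
def m1 : M34 := !![1, 0, 1, 0; 1, 0, 0, 1; 1, 1, 0, 0]
/-- non-residue weights -/
def m2 : M34 := !![0, 0, 0, 1; 0, 1, 0, 0; 0, 0, 1, 0]
/-- residue weights -/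
def g1 (a b c : K8) : M34 := !![0, 0, a, 0; 0, 0, 0, b; 0, c, 0, 0]
/-- non-residue weights -/
def g2 (a b c : K8) : M34 := !![0, 0, 0, a; 0, b, 0, 0; 0, 0, c, 0]
/-- admissible diagonal -/
def Ok (η : M34) : Prop := (η 0 1 = 0 ∧ η 1 2 = 0 ∧ η 2 3 = 0) ∨ (η 0 1 = 1 ∧ η 1 2 = 1 ∧ η 2 3 = 1)

instance decOk (η : M34) : Decidable (Ok η) := by unfold Ok; infer_instance

theorem chkA : ∀ a b c : K8, Ok (dg a b c) ∨ (a + b + c, b + c + a, c + a + b) ∈ progs.map (·.1) ∨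
    (a + b, b + c, c + a) ∈ progs.map (·.1) ∨ (a + b + pf (dg (a + b) (b + c) (c + a)) 0 1,
      b + c + pf (dg (a + b) (b + c) (c + a)) 1 2, c + a + pf (dg (a + b) (b + c) (c + a)) 2 3) ∈ progs.map (·.1) := by
  decide +kernel

theorem chkB : ∀ a b c : K8, (a = 0 ∧ b = 0 ∧ c = 0) ∨ ∃ j : Fin 7, ¬ Ok (pf (pw j ⊙ g2 a b c)) := by
  decide +kernel

theorem chkC1 : ∀ a b c : K8, pf (e0 a b c) 0 3 = 0 ∧ pf (e0 a b c) 1 1 = 0 ∧ pf (e0 a b c) 2 2 = 0 := by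
  decide +kernel

theorem chkC2 : ∀ a b c : K8, pf (g1 a b c) 0 3 = 0 → pf (g1 a b c) 1 1 = 0 → pf (g1 a b c) 2 2 = 0 →
    a = 0 ∧ b = 0 ∧ c = 0 := by
  decide +kernel

theorem chkC3 : ∀ a b c : K8, (a = 0 ∧ b = 0 ∧ c = 0) ∨ (∃ j : Fin 7, ¬ Ok (pf (pw j ⊙ e0 a b c))) ∨
    ∃ k : Fin 7, pw k ⊙ e0 a b c = e0 1 1 1 := by
  decide +kernel

theorem dg_add (a b c a' b' c' : K8) : dg a b c + dg a' b' c' = dg (a + a') (b + b') (c + c') := by
  ext i j; fin_cases i <;> fin_cases j <;> simp [dg]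

theorem m0_eq (η : M34) : m0 ⊙ η = dg (η 0 1) (η 1 2) (η 2 3) := by
  ext i j; fin_cases i <;> fin_cases j <;> simp [dg, m0]

theorem m2_eq (η : M34) : m2 ⊙ η = g2 (η 0 3) (η 1 1) (η 2 2) := by
  ext i j; fin_cases i <;> fin_cases j <;> simp [g2, m2]

theorem m1_eq (η : M34) : m1 ⊙ η = e0 (η 0 0) (η 1 0) (η 2 0) + g1 (η 1 0 + η 0 2) (η 2 0 + η 1 3) (η 0 0 + η 2 1) := by
  ext i j; fin_cases i <;> fin_cases j <;> simp [g1, m1, e0, ← add_assoc, CharTwo.add_self_eq_zero]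

namespace Gn
variable {S : Submonoid (M7 K8)} (H : Gn S)
include H

theorem prog {p : List (ℕ × ℕ)} {Y : M7 K8} (h : run p [a8, b8, u8, f8] 1 Y = true) : Y ∈ S :=
  slp (by simp [H.a, H.b, H.u, H.f]) S.one_mem h

theorem z : z8 ∈ S := H.prog (p := [(3, 3)]) (by decide +kernel)

theorem h : h8 ∈ S := H.prog (p := [(2, 2), (4, 3), (5, 4), (6, 5), (7, 5), (8, 3), (9, 3)]) (by decide +kernel)

theorem add {η η' : M34} (h : Gm η ∈ S) (h' : Gm η' ∈ S) : Gm (η + η') ∈ S := Gm_mul η η' ▸ S.mul_mem h h'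

theorem cf {η : M34} (h : Gm η ∈ S) : Gm (pf η) ∈ S :=
  Gm_conj (g := f8) (g' := f8 * z8) (A := Af) (B := Bf) (by decide +kernel) (by decide +kernel) (by decide +kernel) η ▸
    S.mul_mem (S.mul_mem H.f h) (S.mul_mem H.f H.z)

theorem ch {a b c : K8} (h : Gm (dg a b c) ∈ S) : Gm (dg b c a) ∈ S := by
  have := Gm_conj (g := h8) (g' := h8ᵀ) (A := !![0, 1, 0; 0, 0, 1; 1, 0, 0])
    (B := !![1, 0, 0, 0; 0, 0, 0, 1; 0, 1, 0, 0; 0, 0, 1, 0]) (by decide +kernel) (by decide +kernel)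
    (by decide +kernel) (dg a b c) ▸ S.mul_mem (S.mul_mem H.h h) (slp (p := [(0, 0), (1, 1), (2, 0)]) (r := [h8])
      (by simp [H.h]) S.one_mem (by decide +kernel))
  convert this using 2
  simp [dg]

theorem cu {η : M34} (h : Gm η ∈ S) (k : ℕ) : Gm (pw k ⊙ η) ∈ S := by
  induction k with
  | zero => rwa [show pw 0 ⊙ η = η by ext; simp [pw]]
  | succ k ih =>
    have := Gm_conj (g := u8) (g' := u8.map (·⁻¹)) (A := diagonal du) (B := diagonal eu) (by decide +kernel)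
      (by decide +kernel) (by decide +kernel) _ ▸ S.mul_mem (S.mul_mem H.u ih)
        (H.prog (p := [(2, 2), (4, 2), (5, 5)]) (by decide +kernel))
    rwa [show diagonal du * (pw k ⊙ η) * diagonal eu = pw (k + 1) ⊙ η by ext; simp [pw]; ring] at this

theorem c1 {η : M34} (h : Gm η ∈ S) : Gm (m1 ⊙ η) ∈ S := by
  rw [show m1 = pw 0 + pw 1 + pw 2 + pw 4 by decide +kernel, add_hadamard, add_hadamard, add_hadamard]
  exact H.add (H.add (H.add (H.cu h _) (H.cu h _)) (H.cu h _)) (H.cu h _)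

theorem c2 {η : M34} (h : Gm η ∈ S) : Gm (m2 ⊙ η) ∈ S := by
  rw [show m2 = pw 0 + pw 3 + pw 5 + pw 6 by decide +kernel, add_hadamard, add_hadamard, add_hadamard]
  exact H.add (H.add (H.add (H.cu h _) (H.cu h _)) (H.cu h _)) (H.cu h _)

theorem c0 {η : M34} (h : Gm η ∈ S) : Gm (dg (η 0 1) (η 1 2) (η 2 3)) ∈ S := by
  rw [← m0_eq, show m0 = pw 0 + m1 + m2 by decide +kernel, add_hadamard, add_hadamard]
  exact H.add (H.add (H.cu h _) (H.c1 h)) (H.c2 h)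

theorem regs {X : M7 K8} (h : X ∈ S) : ∀ Y ∈ [a8, b8, u8, f8, z8, h8, X], Y ∈ S := by
  simp [H.a, H.b, H.u, H.f, H.z, H.h, h]

theorem bad {a b c : K8} (h : Gm (dg a b c) ∈ S) : (a, b, c) ∉ progs.map (·.1) := fun hm => by
  obtain ⟨t, ht, e⟩ := List.mem_map.1 hm
  obtain ⟨h1, h2, h3⟩ := progs_ok t ht
  rw [fM_eq, e] at h3
  exact H.nr _ _ _ h1 h2 (slp (H.regs h) S.one_mem h3)

theorem ok {η : M34} (h : Gm η ∈ S) : Ok η := by
  have h0 := H.c0 h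
  have h1 := H.add h0 (H.ch h0)
  rw [dg_add] at h1
  rcases chkA (η 0 1) (η 1 2) (η 2 3) with k | k | k | k
  · exact k
  · exact (H.bad (dg_add .. ▸ H.add h1 (H.ch (H.ch h0))) k).elim
  · exact (H.bad h1 k).elim
  · exact (H.bad (dg_add .. ▸ H.add h1 (H.c0 (H.cf h1))) k).elim

theorem two {η : M34} (h : Gm η ∈ S) : η 0 3 = 0 ∧ η 1 1 = 0 ∧ η 2 2 = 0 :=
  (chkB _ _ _).resolve_right fun ⟨j, hj⟩ => hj (H.ok (H.cf (H.cu (m2_eq η ▸ H.c2 h) j)))

theorem main {η : M34} (h : Gm η ∈ S) : η = 0 ∨ η = dg 1 1 1 := by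
  have h1 := m1_eq η ▸ H.c1 h
  obtain ⟨a1, a2, a3⟩ := H.two (H.cf h1)
  obtain ⟨b1, b2, b3⟩ := chkC1 (η 0 0) (η 1 0) (η 2 0)
  simp only [pf, Matrix.mul_add, Matrix.add_mul, Matrix.add_apply] at a1 a2 a3 b1 b2 b3
  rw [b1, zero_add] at a1
  rw [b2, zero_add] at a2
  rw [b3, zero_add] at a3
  obtain ⟨c1, c2, c3⟩ := chkC2 _ _ _ a1 a2 a3
  rw [c1, c2, c3, show g1 0 0 0 = 0 by decide +kernel, add_zero] at h1
  obtain ⟨d1, d2, d3⟩ : η 0 0 = 0 ∧ η 1 0 = 0 ∧ η 2 0 = 0 := by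
    rcases chkC3 (η 0 0) (η 1 0) (η 2 0) with k | ⟨j, hj⟩ | ⟨k, hk⟩
    · exact k
    · exact (hj (H.ok (H.cf (H.cu h1 j)))).elim
    · have := progX
      rw [fM_eq] at this
      exact (H.nr 3 0 w6 (by decide) (by decide) (slp (H.regs (hk ▸ H.cu h1 k)) S.one_mem this)).elim
  obtain ⟨e1, e2, e3⟩ := H.two h
  rw [d2, zero_add] at c1
  rw [d3, zero_add] at c2
  rw [d1, zero_add] at c3
  refine (H.ok h).imp (fun ⟨f1, f2, f3⟩ => ?_) fun ⟨f1, f2, f3⟩ => ?_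
  all_goals ext i j; fin_cases i <;> fin_cases j <;> simp [dg, *]

end Gn

end Cfsg.Agent.H8.Q8
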