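import Cfsg.Agent.H8.Q8b
import Cfsg.Agent.H3.S7c

/-! The centraliser of the involution, for the field with eight elements. -/

set_option autoImplicit false

namespace Cfsg.Agent.H8.Q8

open Matrix Cfsg.Agent.H3.S7 K8

/-- rows at the squares -/
def la : Matrix (Fin 3) I K8 := of fun i x => if x = ξ i then 1 else 0
/-- rows at the non-squares -/
def ta : Matrix (Fin 3) I K8 := of fun i x => if x = -ξ i then 1 else 0
/-- columns at zero and the squares -/
def ro : Matrix I (Fin 4) K8 := of fun x j => if x = η j then 1 else 0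
/-- the corner -/
def E0 : M7 K8 := single 0 0 1

theorem id1 : ro * ka + io * ta = 1 := by decide +kernel
theorem id2 : io * la + E0 + taᵀ * ioᵀ = 1 := by decide +kernel
theorem id3 : z8 = 1 + io * ioᵀ := by decide +kernel
theorem id4 : ta * io = 1 := by decide +kernel
theorem id5 : ioᵀ * io = 0 := by decide +kernel
theorem id6 : E0 * io = 0 := by decide +kernel
theorem io_eq : io = laᵀ - taᵀ := by decide +kernel

theorem form {N : M7 K8} (h1 : N * io = 0) (h2 : ioᵀ * N = 0) (h3 : E0 * N = 0) : N = io * (la * N * ro) * ka := by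
  have e1 : N = io * la * N := by
    conv_lhs => rw [← one_mul N, ← id2, add_mul, add_mul, h3, Matrix.mul_assoc taᵀ, h2]
    simp
  have e2 : N = N * (ro * ka) := by
    conv_lhs => rw [← mul_one N, ← id1, mul_add, ← Matrix.mul_assoc N io, h1]
    simp
  conv_lhs => rw [e2, e1]
  simp only [Matrix.mul_assoc]

/-- transposes -/
def trS (S : Submonoid (M7 K8)) : Submonoid (M7 K8) where
  carrier := {X | Xᵀ ∈ S}
  one_mem' := by simpa using S.one_mem
  mul_mem' := fun h h' => by simpa using S.mul_mem h' h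

namespace Gn
variable {S : Submonoid (M7 K8)} (H : Gn S)
include H

theorem tr : Gn (trS S) where
  a := H.prog (p := [(0, 4)]) (by decide +kernel)
  b := H.prog (p := [(1, 1), (4, 1), (5, 5)]) (by decide +kernel)
  u := H.prog (p := [(2, 4)]) (by decide +kernel)
  f := H.prog (p := [(3, 4)]) (by decide +kernel)
  nr i j c h1 h2 h := H.nr j i c h1.symm h2 (by simpa [trS] using h)

theorem half {N : M7 K8} (h : 1 + N ∈ S) (h1 : N * io = 0) (h2 : ioᵀ * N = 0) (h3 : E0 * N = 0) :
    N = 0 ∨ N = io * ioᵀ := by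
  rw [form h1 h2 h3] at h ⊢
  refine (H.main h).imp (fun e => ?_) fun e => ?_ <;> rw [e]
  · simp
  · decide +kernel

theorem full {N : M7 K8} (h : 1 + N ∈ S) (h1 : N * io = 0) (h2 : ioᵀ * N = 0) (h3 : N 0 0 = 0) :
    N = 0 ∨ N = io * ioᵀ := by
  have e1 : N * N = N * E0 * N := by
    have : N * N = N * (io * la + E0 + taᵀ * ioᵀ) * N := by rw [id2, mul_one]
    rw [this, mul_add, mul_add, ← Matrix.mul_assoc N io, h1]
    simp [add_mul, Matrix.mul_assoc, h2]
  have e2 : ∀ i j, (N * N) i j = N i 0 * N 0 j := fun i j => by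
    rw [e1, mul_apply, Finset.sum_eq_single 0 (fun b _ hb => by simp [E0, hb]) (by simp)]
    simp [E0]
  have e3 : (1 + N) * (1 + N) = 1 + N * N := by
    rw [mul_add, add_mul, add_mul, one_mul, one_mul, mul_one, add_assoc, ← add_assoc N]
    ext i j; simp [CharTwo.add_self_eq_zero]
  have e4 : ∀ i j, N i 0 * N 0 j = 0 := by
    rcases H.half (e3 ▸ S.mul_mem h h) (by rw [Matrix.mul_assoc, h1, Matrix.mul_zero])
      (by rw [← Matrix.mul_assoc, h2, Matrix.zero_mul]) (by
        ext i j; by_cases hi : i = 0 <;> simp [E0, hi, e2, h3]) with e | e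
    · exact fun i j => by rw [← e2, e]; rfl
    · have a1 : N 1 0 * N 0 1 = 1 := by rw [← e2, e]; decide +kernel
      have a2 : N 2 0 * N 0 2 = 1 := by rw [← e2, e]; decide +kernel
      have a3 : N 1 0 * N 0 2 = 0 := by rw [← e2, e]; decide +kernel
      exact absurd a3 (mul_ne_zero (left_ne_zero_of_mul_eq_one a1) (right_ne_zero_of_mul_eq_one a2))
  by_cases hr : ∀ j, N 0 j = 0
  · exact H.half h h1 h2 (by ext i j; by_cases hi : i = 0 <;> simp [E0, hi, hr])
  push Not at hr
  obtain ⟨j, hj⟩ := hr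
  have := H.tr.half (N := Nᵀ) (by simpa [trS] using h) (by simpa using congrArg transpose h2)
    (by simpa using congrArg transpose h1) (by
      ext i k; by_cases hi : i = 0 <;> simp [E0, hi, (mul_eq_zero.1 (e4 k j)).resolve_right hj])
  exact this.imp (fun e => by simpa using congrArg transpose e) fun e => by simpa using congrArg transpose e

theorem sc {c : K8} (hc : c ≠ 0) : c • (1 : M7 K8) ∈ S := by
  obtain ⟨k, rfl⟩ : ∃ k : Fin 7, c = w1 ^ k.val := by revert c; decide +kernel
  have := S.pow_mem (H.prog (p := [(0, 0), (4, 0), (5, 5), (1, 1), (7, 1), (8, 8), (0, 1), (10, 6), (11, 9)])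
    (Y := w1 • 1) (by decide +kernel)) k.val
  rwa [smul_pow, one_pow] at this

end Gn

section cz
variable {g : M7 K8} (hg : g * z8 = z8 * g)
include hg

theorem cz0 : g * (io * ioᵀ) = io * ioᵀ * g := by
  rwa [id3, mul_add, add_mul, mul_one, one_mul, add_right_inj] at hg

theorem cz1 : g * io = io * (la * g * io) := by
  have e1 : ioᵀ * g * io = 0 := by
    have := congrArg (ta * · * io) (cz0 hg)
    simp only [Matrix.mul_assoc, id5, Matrix.mul_zero] at this
    rwa [← Matrix.mul_assoc, id4, Matrix.one_mul, ← Matrix.mul_assoc, eq_comm] at this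
  have e2 : E0 * g * io = 0 := by
    have := congrArg (E0 * · * taᵀ) (cz0 hg)
    simp only [← Matrix.mul_assoc, id6, Matrix.zero_mul] at this
    rwa [Matrix.mul_assoc, ← transpose_mul, id4, transpose_one, Matrix.mul_one] at this
  conv_lhs => rw [← one_mul g, ← id2, add_mul, add_mul, Matrix.add_mul, Matrix.add_mul, e2, Matrix.mul_assoc taᵀ,
    Matrix.mul_assoc taᵀ, e1]
  simp [Matrix.mul_assoc]

theorem cz2 : ioᵀ * g = la * g * io * ioᵀ := by
  have := congrArg (ta * ·) (cz0 hg)
  simp only [← Matrix.mul_assoc, id4, Matrix.one_mul] at this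
  rw [← this, Matrix.mul_assoc ta, cz1 hg, ← Matrix.mul_assoc ta, id4, Matrix.one_mul]

theorem cz_det : g.det = g 0 0 * (la * g * io).det ^ 2 := by
  have e1 : fromRows ta ka * g * fromCols io ro = fromBlocks (la * g * io) (ta * g * ro) 0 (ka * g * ro) := by
    rw [fromRows_mul, fromRows_mul_fromCols, Matrix.mul_assoc ta g io, Matrix.mul_assoc ka g io, cz1 hg,
      ← Matrix.mul_assoc ta, ← Matrix.mul_assoc ka, id4, ka_io, Matrix.one_mul, Matrix.zero_mul]
  have e2 : ∀ (k : Fin 3) (x : I), ka k.succ x = ioᵀ k x := fun k x => by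
    revert x; fin_cases k <;> decide +kernel
  have e3 : ∀ i : Fin 3, ∀ j, (ka * g * ro) i.succ j = (la * g * io * (ioᵀ * ro)) i j := fun i j => by
    rw [← Matrix.mul_assoc, ← cz2 hg]
    simp only [mul_apply, e2]
  have e4 : ioᵀ * ro = of fun i j => if j = i.succ then 1 else 0 := by decide +kernel
  rw [← det_conj_of_mul_eq_one (M := fromRows ta ka) (M' := fromCols io ro) (by decide +kernel) (by decide +kernel), e1,
    det_fromBlocks_zero₂₁, det_succ_column_zero (ka * g * ro), Fin.sum_univ_succ, Finset.sum_eq_zero fun i _ => by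
      simp [e3, e4, mul_apply, (Fin.succ_ne_zero _).symm]]
  have e5 : (ka * g * ro).submatrix (Fin.succAbove 0) Fin.succ = la * g * io := by
    ext i j; simp [e3, e4, mul_apply (M := la * g * io)]
  have e6 : (ka * g * ro) 0 0 = g 0 0 := by
    simp [mul_apply, show ∀ x, ka 0 x = if x = 0 then 1 else 0 by decide +kernel, ro, show η 0 = 0 from rfl]
  rw [e5, e6]; simp; ring

end cz

theorem la_io (g : M7 K8) (i j : Fin 3) : (la * g * io) i j = g (ξ i) (ξ j) - g (ξ i) (-ξ j) := by
  simp [io_eq, mul_sub, mul_apply, la, ta]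

end Cfsg.Agent.H8.Q8
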