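import Cfsg.Agent.H8.Q8c
import Cfsg.Agent.H3.S7d

/-! Overgroups of the normaliser of the extraspecial group of order `343` in `SL₇(8)`. -/

set_option autoImplicit false

namespace Cfsg.Agent.H8.Q8

open Matrix Subgroup Cfsg.Agent.H3.S7 K8 Cfsg.Agent.Asch

/-- the standard root of unity -/
def o8 : Om7 K8 := ⟨w1, (show orderOf w1 = 7 from orderOf_eq_prime (by decide +kernel) (by decide)) ▸
  IsPrimitiveRoot.orderOf w1⟩

theorem a_eq : o8.a.val = a8 := by decide +kernel
theorem b_eq : (b K8).val = b8 := by decide +kernel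
theorem u_eq : o8.u.val = u8 := by decide +kernel
theorem z_eq : (z K8).val = z8 := by decide +kernel
theorem f_eq : o8.f.val = f8 := by decide +kernel

variable {M : Subgroup (G7 K8)}

theorem czv (g : Cz M) : g.1.val * z8 = z8 * g.1.val := by
  simpa [z_eq] using congrArg Units.val (mem_Cz.1 g.2).2

theorem rpv (g : Cz M) : (rp M g).val = la * g.1.val * io := by
  ext i j; rw [rp_apply, la_io]

/-- fixing the first coordinate vector -/
def St (g : Cz M) : Prop := g.1.val *ᵥ Pi.single 0 1 = Pi.single 0 1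

section
variable (H : Hyp o8 2 M) (hB : ¬ Big M)
include H

theorem corner (g : Cz M) : g.1.val 0 0 * (rp M g).val.det ^ 2 = 1 := by
  rw [rpv, ← cz_det (czv g), H.det _ g.2.1]

include hB

theorem gn : Gn (M.toSubmonoid.map (Units.coeHom _)) where
  a := ⟨_, H.a, a_eq⟩
  b := ⟨_, H.b, b_eq⟩
  u := ⟨_, H.u, u_eq⟩
  f := ⟨_, H.f, f_eq⟩
  nr _ _ _ h1 h2 := fun ⟨_, hg, e⟩ => hB (H.root h1 h2 hg e)

theorem kern (k : Cz M) {c : K8} (hk : (rp M k).val = c • 1) : k.1.val = c • 1 ∨ k.1.val = c • z8 := by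
  have h1 := corner H k
  rw [hk, det_smul, det_one, mul_one, Fintype.card_fin] at h1
  have c0 : c ≠ 0 := by rintro rfl; simp at h1
  have h2 : k.1.val 0 0 = c := by
    generalize k.1.val 0 0 = x at h1
    clear * - h1; revert x c; decide +kernel
  have e : ∀ X : M7 K8, X + X = 0 := fun X => by ext; simp [CharTwo.add_self_eq_zero]
  have h3 := (gn H hB).full (N := 1 + c⁻¹ • k.1.val) (by
      rw [← add_assoc, e, zero_add, ← smul_one_mul]
      exact Submonoid.mul_mem _ ((gn H hB).sc (inv_ne_zero c0)) ⟨_, k.2.1, rfl⟩)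
    (by
      rw [Matrix.add_mul, Matrix.smul_mul, cz1 (czv k), ← rpv, hk]
      ext; simp [c0, CharTwo.add_self_eq_zero])
    (by
      rw [Matrix.mul_add, Matrix.mul_smul, cz2 (czv k), ← rpv, hk]
      ext; simp [c0, CharTwo.add_self_eq_zero])
    (by simp [h2, c0, CharTwo.add_self_eq_zero])
  refine h3.imp (fun h => ?_) fun h => ?_
  · rw [← inv_smul_eq_iff₀ c0, ← add_right_inj 1, h, e]
  · rw [← inv_smul_eq_iff₀ c0, id3, ← h, ← add_assoc, e, zero_add]

theorem kern1 (k : Cz M) (hk : rp M k = 1) {y : I → K8} (hy : z8 *ᵥ y = y) : k.1.val *ᵥ y = y := by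
  rcases kern H hB k (c := 1) (by simp [hk]) with e | e <;> simp [e, hy]

theorem step {t r : Cz M} {d : Fin 3 → K8} (h1 : St t) (h2 : (rp M t).val = diagonal d) (h3 : ∀ i, d i ≠ 1)
    (h4 : (rp M r).val.det = 1) (h5 : (rp M t).val * (rp M r).val = (rp M r).val * (rp M t).val) : St r := by
  have z0 : z8 *ᵥ Pi.single 0 1 = Pi.single 0 1 := by decide +kernel
  have e1 : t.1.val *ᵥ r.1.val *ᵥ Pi.single 0 1 = r.1.val *ᵥ Pi.single 0 1 := by
    have := kern1 H hB (t * r * (r * t)⁻¹) (by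
      rw [map_mul, map_inv, map_mul, map_mul, mul_inv_eq_one]; exact Units.ext h5)
      (y := r.1.val *ᵥ t.1.val *ᵥ Pi.single 0 1) (by
        rw [h1, mulVec_mulVec, ← czv, ← mulVec_mulVec, z0])
    rw [mulVec_mulVec _ r.1.val, mulVec_mulVec, ← Units.val_mul, ← Units.val_mul, ← coe_mul, ← coe_mul,
      inv_mul_cancel_right, coe_mul, coe_mul, Units.val_mul, Units.val_mul, ← mulVec_mulVec, ← mulVec_mulVec, h1] at this
    exact this
  have e2 : r.1.val *ᵥ Pi.single 0 1 = io *ᵥ la *ᵥ r.1.val *ᵥ Pi.single 0 1 + Pi.single 0 1 := by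
    have e3 : ioᵀ *ᵥ r.1.val *ᵥ Pi.single 0 1 = 0 := by
      rw [mulVec_mulVec, cz2 (czv r), ← mulVec_mulVec, show ioᵀ *ᵥ Pi.single 0 1 = 0 by decide +kernel, mulVec_zero]
    have e4 : r.1.val 0 0 = 1 := by simpa [h4] using corner H r
    conv_lhs => rw [← one_mulVec (_ *ᵥ _), ← id2, add_mulVec, add_mulVec, ← mulVec_mulVec _ taᵀ, e3, ← mulVec_mulVec,
      E0, single_mulVec, show (r.1.val *ᵥ Pi.single 0 1) 0 = 1 by simp [e4]]
    simp [Pi.single]
  rw [St, e2]
  generalize la *ᵥ r.1.val *ᵥ Pi.single 0 1 = α at e2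
  rw [e2, mulVec_add, h1, add_left_inj, mulVec_mulVec, cz1 (czv t), ← rpv, h2, ← mulVec_mulVec] at e1
  have e5 := congrArg (ta *ᵥ ·) e1
  simp only [mulVec_mulVec, id4, one_mulVec, ← Matrix.mul_assoc, Matrix.one_mul] at e5
  have : α = 0 := funext fun i => by
    have := congrFun e5 i
    rw [mulVec_diagonal] at this
    exact (mul_left_eq_self₀.1 this).resolve_left (h3 i)
  simp [this]

theorem noSL (hL : ∀ Y : GL (Fin 3) K8, Y.val.det = 1 → Y ∈ (rp M).range) : False := by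
  have lift : ∀ Y : Matrix (Fin 3) (Fin 3) K8, Y.det = 1 → ∃ g : Cz M, (rp M g).val = Y := fun Y hY => by
    obtain ⟨g, hg⟩ := hL (H5.MH.mk1 Y hY) hY
    exact ⟨g, by rw [hg]; rfl⟩
  have su : St H.uC := by
    rw [St, show H.uC.1.val = u8 from u_eq]; decide +kernel
  have key : ∀ (d : Fin 3 → K8) (Y : Matrix (Fin 3) (Fin 3) K8), (∀ i, d i ≠ 1) → (diagonal d).det = 1 → Y.det = 1 →
      diagonal d * Y = Y * diagonal d → ∃ g : Cz M, St g ∧ (rp M g).val = Y := fun d Y h1 h2 h3 h4 => by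
    obtain ⟨t, ht⟩ := lift _ h2
    obtain ⟨g, hg⟩ := lift _ h3
    have st := step H hB su H.up (by decide +kernel) (ht ▸ h2) (by rw [ht, H.up]; exact commute_diagonal _ _)
    exact ⟨g, step H hB st ht h1 (hg ▸ h3) (by rw [ht, hg, h4]), hg⟩
  obtain ⟨g1, s1, e1⟩ := key ![w1, w1, w5] !![1, 1, 0; w1, w6, 0; 0, 0, w2] (by decide +kernel)
    (by rw [det_fin_three]; decide +kernel) (by rw [det_fin_three]; decide +kernel) (by decide +kernel)
  obtain ⟨g2, s2, e2⟩ := key ![w5, w1, w1] !![w1, 0, 0; 0, w6, w4; 0, w4, w6] (by decide +kernel)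
    (by rw [det_fin_three]; decide +kernel) (by rw [det_fin_three]; decide +kernel) (by decide +kernel)
  obtain ⟨g3, s3, e3⟩ := key ![w1, w1, w5] !![1, w1, 0; 1, w6, 0; 0, 0, w2] (by decide +kernel)
    (by rw [det_fin_three]; decide +kernel) (by rw [det_fin_three]; decide +kernel) (by decide +kernel)
  have := kern1 H hB ((g1 * g2 * g3)⁻¹ * H.fC) (by
    rw [map_mul, map_inv, inv_mul_eq_one, map_mul, map_mul]
    refine Units.ext ?_
    rw [Units.val_mul, Units.val_mul, e1, e2, e3, rpv, show H.fC.1.val = f8 from f_eq]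
    decide +kernel) (y := Pi.single 0 1) (by decide +kernel)
  have e : H.fC = g1 * g2 * g3 * ((g1 * g2 * g3)⁻¹ * H.fC) := by group
  have e' : H.fC.1.val *ᵥ Pi.single 0 1 = Pi.single 0 1 := by
    rw [e, coe_mul, Units.val_mul, ← mulVec_mulVec, this, coe_mul, coe_mul, Units.val_mul, Units.val_mul,
      ← mulVec_mulVec, ← mulVec_mulVec, s3, s2, s1]
  rw [show H.fC.1.val = f8 from f_eq] at e'
  exact absurd e' (by decide +kernel)

end

theorem eight8 (H : Hyp o8 2 M) : Big M ∨ M ≤ Geo.subgroupNormalizer o8.R := by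
  refine or_iff_not_imp_left.2 fun hB => ?_
  rcases H.mh with ⟨h1, h2⟩ | ⟨L, E, P, h1, -, h3, h4⟩
  · exact H.finish h1 h2 fun k ⟨c, hc⟩ => ⟨c, z_eq ▸ kern H hB k hc⟩
  · obtain rfl : E = ⊤ := (H.sub E).resolve_right fun h => by omega
    exact (noSL H hB fun Y hY => h1 ((h4 Y).2 ⟨hY, fun _ _ => trivial⟩)).elim

theorem R_le {F : Type*} [Field F] (o o' : Om7 F) : o.R ≤ o'.R := (closure_le _).2 (by
  rintro _ (rfl | rfl)
  · obtain ⟨k, hk⟩ := o'.exists_e o.w7
    rw [show o.a = o'.a ^ k.val from Units.ext (by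
      rw [Units.val_pow_eq_pow_val, o.a_val, o'.a_val, diagonal_pow]
      congr 1; ext x
      rw [Pi.pow_apply, o'.e_pow, Om7.e, hk, o'.e_pow]; simp [mul_comm])]
    exact pow_mem o'.a_mem _
  · exact o'.b_mem)

end Cfsg.Agent.H8.Q8

namespace Cfsg.Agent.H3.S7

open Matrix Subgroup H8.Q8

/-- the case of the field with eight elements -/
theorem Hyp.eight {F : Type*} [Field F] [Fintype F] {o : Om7 F} {p : ℕ} {M : Subgroup (G7 F)} (H : Hyp o p M)
    (h8 : Fintype.card F = 8) : Big M ∨ M ≤ Geo.subgroupNormalizer o.R := by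
  let φ : K8 ≃+* F := FiniteField.ringEquivOfCardEq (by rw [h8]; rfl)
  let e : G7 K8 ≃* G7 F := Units.mapEquiv (φ.mapMatrix (m := I)).toMulEquiv
  have ev : ∀ g, (e g).val = g.val.map φ := fun _ => rfl
  have ed : ∀ g, (e g).val.det = 1 ↔ g.val.det = 1 := fun g => by
    rw [ev, ← RingEquiv.mapMatrix_apply, ← RingEquiv.map_det, map_eq_one_iff φ φ.injective]
  let o' : Om7 F := ⟨φ o8.ω, o8.prim.map_of_injective φ.injective⟩
  have eR : o8.R = o.R.comap e.toMonoidHom := by
    have ea : e o8.a = o'.a := Units.ext (by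
      rw [ev, o8.a_val, o'.a_val, diagonal_map (map_zero φ)]
      congr 1; ext x; exact map_pow φ _ _)
    have eb : e (S7.b K8) = S7.b F := Units.ext (by
      ext i j; simp only [ev, S7.b, mo_apply, map_apply]; split_ifs <;> simp)
    rw [le_antisymm (R_le o o') (R_le o' o), ← comap_map_eq_self_of_injective (f := e.toMonoidHom) e.injective o8.R,
      Om7.R, MonoidHom.map_closure, Set.image_pair]
    exact congrArg (fun s => comap e.toMonoidHom (closure s)) (congrArg₂ (fun x y : G7 F => ({x, y} : Set (G7 F))) ea eb)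
  have eN : ∀ g, e g ∈ Geo.subgroupNormalizer o.R ↔ g ∈ Geo.subgroupNormalizer o8.R := fun g => by
    rw [eR, Geo.subgroupNormalizer, Geo.subgroupNormalizer, ← comap_normalizer_eq_of_surjective _ (f := e.toMonoidHom) e.surjective]; rfl
  refine (eight8 (M := M.comap e.toMonoidHom) ⟨Nat.prime_two, inferInstance, .inr ⟨rfl, .inl rfl⟩,
    fun g hg => (ed g).1 (H.det _ hg), fun g h1 h2 => H.nrm _ ((eN g).2 h1) ((ed g).2 h2)⟩).imp
    (fun h g hg => ?_) fun h g hg => ?_
  · obtain ⟨g, rfl⟩ := e.surjective g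
    exact h (x := g) (by
      rw [Geo.specialLinear, MonoidHom.mem_ker, Units.ext_iff, GeneralLinearGroup.val_det_apply, Units.val_one] at hg ⊢
      exact (ed g).1 hg)
  · obtain ⟨g, rfl⟩ := e.surjective g
    exact (eN g).2 (h (x := g) hg)

end Cfsg.Agent.H3.S7
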