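import Cfsg.Agent.H8.Unitary
import Cfsg.Agent.H8.Subfield

/-!
Maximality of the normaliser of a quadratic field of similarities (unitary type), dimension ten.
-/

set_option autoImplicit false
set_option linter.unusedSectionVars false
set_option linter.unusedVariables false

namespace Cfsg.Agent.H8

open QuadraticMap Module

variable {F V : Type*} [Field F] [AddCommGroup V] [Module F V]
variable {Q : QuadraticForm F V} {J : V →ₗ[F] V} {τ ν : F} {K : Subgroup (V ≃ₗ[F] V)}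

namespace UJ

theorem perp_J (h : UJ Q J τ ν) {a z : V} (h1 : polar Q a z = 0) (h2 : polar Q (J a) z = 0) :
    polar Q a (J z) = 0 ∧ polar Q (J a) (J z) = 0 :=
  ⟨by have := h.adj a z; rw [h1, h2] at this; linear_combination this,
    by rw [h.pol_JJ, h1, mul_zero]⟩

theorem mem_perp_iff {a z : V} : z ∈ perp Q (sp F [a, J a]) ↔
    polar Q a z = 0 ∧ polar Q (J a) z = 0 := by
  rw [mem_perp_sp]; simp

theorem delta (h : UJ Q J τ ν) (hK : ∀ v, Q v = 0 → J v ∈ MS Q K v) {a y z : V}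
    (hy : y ∈ MS Q K a) (hz : Q z = 0) (h1 : polar Q a z = 0) (h2 : polar Q (J a) z = 0) :
    polar Q y z • J z - polar Q y (J z) • z ∈ MS Q K a := by
  have h7 := MS_fix (siegel_mem_OG z (J z)) (MS_siegel (hK z hz))
    (siegel_fix h1 (h.perp_J h1 h2).1) hy
  rw [siegel_apply hz (hK z hz).1, h.Q_J, hz, mul_zero, zero_mul, add_zero] at h7
  convert (MS Q K a).sub_mem h7 hy using 1; abel

variable [Finite F] [FiniteDimensional F V]

theorem spread_aux (h : UJ Q J τ ν) (hN : ND Q) (h9 : 9 ≤ finrank F V)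
    (hK : ∀ v, Q v = 0 → J v ∈ MS Q K v) {a y : V} (ha : Q a = 0) (hy : y ∈ MS Q K a)
    (hQy : Q y = 0) (hy2 : polar Q (J a) y = 0) (hya : y ∉ sp F [a, J a]) :
    J y ∈ MS Q K a ∧ ∃ z ∈ MS Q K a, Q z = 0 ∧ polar Q (J a) z = 0 ∧ z ∉ sp F [a, J a] ∧
      polar Q y z = 0 ∧ polar Q (J y) z = 1 ∧ ∀ e, polar Q a e = 0 → polar Q (J a) e = 0 →
        polar Q y e = 0 → polar Q (J y) e = 0 → polar Q z e = 0 → e ∈ MS Q K a := by
  have h1 : J y ∉ sp F [y, a, J a] := by
    intro h1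
    obtain ⟨c, hc⟩ := mem_sp_cons.1 h1
    exact hya (h.mem_of_comb (h.J_mem a) (c := -c) (d := 1) (by simp)
      (by convert hc using 1; module))
  obtain ⟨z₀, k1, k2⟩ := hN.exists_dual h1
  have hQJ : Q (J y) = 0 := by rw [h.Q_J, hQy, mul_zero]
  have yJ : polar Q y (J y) = 0 := by rw [h.pol_J, hQy, mul_zero]
  have JJ : polar Q (J y) (J y) = 0 := by rw [pol_self, hQJ, mul_zero]
  obtain ⟨aJ, aJ'⟩ := h.perp_J hy.1 hy2
  obtain ⟨z, hQz, z1, z2, z3, z4⟩ : ∃ z, Q z = 0 ∧ polar Q a z = 0 ∧ polar Q (J a) z = 0 ∧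
      polar Q y z = 0 ∧ polar Q (J y) z = 1 := by
    refine ⟨z₀ - Q z₀ • J y, ?_, ?_, ?_, ?_, ?_⟩
    · rw [Q_sub, Q_smul, pol_smul_right, hQJ, pol_comm, k1]; ring
    all_goals rw [polar_sub_right, pol_smul_right]
    · rw [aJ, k2 _ (mem_sp_of_mem (by simp))]; ring
    · rw [aJ', k2 _ (mem_sp_of_mem (by simp))]; ring
    · rw [yJ, k2 _ (mem_sp_of_mem (by simp))]; ring
    · rw [JJ, k1]; ring
  have step : ∀ e, polar Q a e = 0 → polar Q (J a) e = 0 → polar Q y e = 0 →
      polar Q (J y) e = 0 → polar Q z e = 0 → z + e - Q e • J y ∈ MS Q K a := by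
    intro e e1 e2 e3 e4 e5
    have f1 : polar Q y (z + e - Q e • J y) = 0 := by
      rw [polar_sub_right, polar_add_right, pol_smul_right, z3, e3, yJ]; ring
    have f2 : polar Q y (J (z + e - Q e • J y)) = -1 := by
      have := h.adj y (z + e - Q e • J y)
      rw [f1, polar_sub_right, polar_add_right, pol_smul_right, z4, e4, JJ] at this
      linear_combination this
    have := h.delta hK hy (z := z + e - Q e • J y)
      (by rw [Q_sub, Q_add, Q_smul, pol_smul_right, polar_add_left, hQz, hQJ, e5, pol_comm Q z,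
            z4, pol_comm Q e, e4]; ring)
      (by rw [polar_sub_right, polar_add_right, pol_smul_right, z1, e1, aJ]; ring)
      (by rw [polar_sub_right, polar_add_right, pol_smul_right, z2, e2, aJ']; ring)
    rw [f1, f2] at this
    simpa using this
  have hz : z ∈ MS Q K a := by simpa using step 0 (by simp) (by simp) (by simp) (by simp) (by simp)
  have hJ : J y ∈ MS Q K a := by
    have hX := hN.ndOn_top.inf_perp_nd le_top (ndOn_pair hQJ hQz (by rw [z4]; exact one_ne_zero))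
    have d1 := finrank_le_inf_perp_sp (Q := Q) ⊤ [J y, z]
    have d2 := finrank_le_inf_perp_sp (Q := Q) (⊤ ⊓ perp Q (sp F [J y, z])) [a, J a, y]
    simp only [List.length_cons, List.length_nil, finrank_top] at d1 d2
    have := mt (hX.two_mul_finrank_le hN
      (T := ⊤ ⊓ perp Q (sp F [J y, z]) ⊓ perp Q (sp F [a, J a, y])) inf_le_left) (by omega)
    obtain ⟨e, he, he'⟩ := SetLike.not_le_iff_exists.1 this
    rw [mem_perp] at he'
    push Not at he'
    obtain ⟨e', he1, he2⟩ := he'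
    have st : ∀ e ∈ ⊤ ⊓ perp Q (sp F [J y, z]) ⊓ perp Q (sp F [a, J a, y]),
        z + e - Q e • J y ∈ MS Q K a := fun e he =>
      step e (mem_perp_sp.1 he.2 _ (by simp)) (mem_perp_sp.1 he.2 _ (by simp))
        (mem_perp_sp.1 he.2 _ (by simp)) (mem_perp_sp.1 he.1.2 _ (by simp))
        (mem_perp_sp.1 he.1.2 _ (by simp))
    have := Submodule.sub_mem _ (Submodule.add_mem _ (st _ he1) (st _ he))
      (Submodule.add_mem _ (st _ (Submodule.add_mem _ he1 he)) hz)
    rw [Q_add] at this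
    refine ((MS Q K a).smul_mem_iff he2).1 ?_
    convert this using 1; module
  refine ⟨hJ, z, hz, hQz, z2, fun e => ?_, z3, z4, fun e e1 e2 e3 e4 e5 => ?_⟩
  · obtain ⟨c, d, rfl⟩ := mem_sp_two.1 e
    rw [polar_add_right, pol_smul_right, pol_smul_right, pol_comm Q (J y), pol_comm Q (J y), aJ,
      aJ'] at z4
    simp at z4
  · have := Submodule.sub_mem _ (Submodule.add_mem _ (step e e1 e2 e3 e4 e5)
      (Submodule.smul_mem _ (Q e) hJ)) hz
    simpa using this

theorem spread_one' (h : UJ Q J τ ν) (hN : ND Q) (h9 : 9 ≤ finrank F V)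
    (hK : ∀ v, Q v = 0 → J v ∈ MS Q K v) {a b : V} (ha : Q a = 0) (hb : b ∈ MS Q K a)
    (hab : b ∉ sp F [a, J a]) : perp Q (sp F [a, J a]) ≤ MS Q K a := by
  obtain ⟨z, hz, hza, hQz, hbz⟩ : ∃ z ∈ perp Q (sp F [a, J a]), z ∉ sp F [a, J a] ∧ Q z = 0 ∧
      polar Q b z ≠ 0 := by
    obtain ⟨s, -, s1, s2, s3⟩ := exists_sing Q ⊤ [a, J a] [a, J a] (by simp; omega)
    have s4 := mem_perp_sp.2 s2
    obtain ⟨s', t1, t2, t3⟩ := exists_partner s4 s3 (by rwa [hN.perp_perp])
    obtain ⟨z, z1, z2, z3⟩ := exists_sing_pol_one s4 t1 s3 t2 t3 (x := b) (by rwa [hN.perp_perp])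
    by_cases e1 : z ∈ sp F [a, J a]
    swap
    · exact ⟨z, z1, e1, z2, by rw [z3]; exact one_ne_zero⟩
    by_cases e2 : polar Q b s = 0
    swap
    · exact ⟨s, s4, s1, s3, e2⟩
    refine ⟨z + s, Submodule.add_mem _ z1 s4, fun e => s1 (by simpa using Submodule.sub_mem _ e e1),
      by rw [Q_add, z2, s3, mem_perp.1 s4 z e1]; ring, by rw [polar_add_right, z3, e2]; simp⟩
  obtain ⟨z1, z2⟩ := mem_perp_iff.1 hz
  obtain ⟨z3, z4⟩ := h.perp_J z1 z2
  obtain ⟨hJ, w, hw, hQw, w1, w2, w3, w4, hE⟩ := h.spread_aux hN h9 hK ha (h.delta hK hb hQz z1 z2)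
    (by rw [Q_sub, Q_smul, Q_smul, pol_smul_left, pol_smul_right, h.Q_J, pol_comm Q (J z), h.pol_J,
          hQz]; ring)
    (by rw [polar_sub_right, pol_smul_right, pol_smul_right, z2, z4]; ring)
    (fun e => hza (h.mem_of_comb (h.J_mem a) (c := -polar Q b (J z)) (d := polar Q b z)
      (fun e => hbz e.2) (by convert e using 1; module)))
  have hy := h.delta hK hb hQz z1 z2
  have hQy : Q (polar Q b z • J z - polar Q b (J z) • z) = 0 := by
    rw [Q_sub, Q_smul, Q_smul, pol_smul_left, pol_smul_right, h.Q_J, pol_comm Q (J z), h.pol_J,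
      hQz]; ring
  have hy2 : polar Q (J a) (polar Q b z • J z - polar Q b (J z) • z) = 0 := by
    rw [polar_sub_right, pol_smul_right, pol_smul_right, z2, z4]; ring
  generalize polar Q b z • J z - polar Q b (J z) • z = y at *
  have hJw := (h.spread_aux hN h9 hK ha hw hQw w1 w2).1
  intro x hx
  obtain ⟨x1, x2⟩ := mem_perp_iff.1 hx
  obtain ⟨y3, y4⟩ := h.perp_J hy.1 hy2
  obtain ⟨w5, w6⟩ := h.perp_J hw.1 w1
  have g1 : polar Q y (J w) = -1 := by have := h.adj y w; rw [w3, w4] at this; linear_combination this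
  have g2 : polar Q (J y) (J w) = 0 := by rw [h.pol_JJ, w3, mul_zero]
  have g3 : polar Q y (J y) = 0 := by rw [h.pol_J, hQy, mul_zero]
  have g4 : polar Q w (J w) = 0 := by rw [h.pol_J, hQw, mul_zero]
  have := hE (x - (polar Q w x • J y + polar Q (J y) x • w - polar Q y x • J w)) ?_ ?_ ?_ ?_ ?_
  · simpa using Submodule.add_mem _ this (Submodule.sub_mem _ (Submodule.add_mem _
      (Submodule.smul_mem _ (polar Q w x) hJ) (Submodule.smul_mem _ (polar Q (J y) x) hw))
      (Submodule.smul_mem _ (polar Q y x) hJw))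
  all_goals simp only [polar_sub_right, polar_add_right, pol_smul_right, x1, x2, y3, y4, w5, w6, hw.1,
    w1, g1, g2, g3, g4, w3, w4, pol_self, h.Q_J, hQy, hQw, pol_comm Q w (J y)]
  all_goals ring

theorem exists_link' (h : UJ Q J τ ν) (hN : ND Q) (h7 : 7 ≤ finrank F V) {a x : V} (ha : Q a = 0)
    (hx : Q x = 0) (ha0 : a ≠ 0) (hx0 : x ≠ 0) :
    ∃ y, Q y = 0 ∧ y ∈ perp Q (sp F [a, J a]) ∧ y ∈ perp Q (sp F [x, J x]) ∧
      y ∉ sp F [a, J a] ∧ y ∉ sp F [x, J x] := by
  have hle : ∀ {a x : V}, x ∈ sp F [a, J a] → sp F [x, J x] ≤ sp F [a, J a] := fun {a x} e =>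
    sp_le.2 (by simp [e, h.J_mem a x e])
  have hsym : ∀ {a x : V}, x ∈ perp Q (sp F [a, J a]) → a ∈ perp Q (sp F [x, J x]) :=
    fun {a x} e => by
      obtain ⟨e1, e2⟩ := mem_perp_iff.1 e
      exact mem_perp_iff.2 ⟨by rwa [pol_comm], by rw [pol_comm]; exact (h.perp_J e1 e2).1⟩
  have hself : ∀ {a : V}, Q a = 0 → a ∈ perp Q (sp F [a, J a]) := fun {a} ha =>
    mem_perp_iff.2 ⟨by rw [pol_self, ha, mul_zero], by rw [pol_comm, h.pol_J, ha, mul_zero]⟩
  by_cases e1 : x ∈ sp F [a, J a]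
  · obtain ⟨s, -, s1, s2, s3⟩ := exists_sing Q ⊤ [a, J a] [a, J a] (by simpa using h7)
    exact ⟨s, s3, mem_perp_sp.2 s2, perp_anti (hle e1) (mem_perp_sp.2 s2), s1,
      fun e => s1 (hle e1 e)⟩
  by_cases e2 : x ∈ perp Q (sp F [a, J a])
  · refine ⟨a + x, by rw [Q_add, ha, hx, (mem_perp_iff.1 e2).1]; ring,
      Submodule.add_mem _ (hself ha) e2, Submodule.add_mem _ (hsym e2) (hself hx),
      fun e => e1 ?_, fun e => e1 (h.mem_swap ha0 ?_)⟩
    · simpa using Submodule.sub_mem _ e (mem_sp_of_mem (x := a) (by simp))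
    · simpa using Submodule.sub_mem _ e (mem_sp_of_mem (x := x) (by simp))
  · obtain ⟨y, -, y0, y1, y2⟩ := exists_sing Q ⊤ [] [a, J a, x, J x] (by simpa using h7)
    have y3 : y ≠ 0 := by simpa [sp_nil] using y0
    have y4 : y ∈ perp Q (sp F [a, J a]) := mem_perp_iff.2 ⟨y1 _ (by simp), y1 _ (by simp)⟩
    have y5 : y ∈ perp Q (sp F [x, J x]) := mem_perp_iff.2 ⟨y1 _ (by simp), y1 _ (by simp)⟩
    exact ⟨y, y2, y4, y5, fun e => e2 (perp_anti (hle (h.mem_swap y3 e)) (hsym y5)),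
      fun e => e2 (hsym (perp_anti (hle (h.mem_swap y3 e)) (hsym y4)))⟩

theorem spread_all' (h : UJ Q J τ ν) (hN : ND Q) (h12 : 9 ≤ finrank F V)
    (hK : ∀ v, Q v = 0 → J v ∈ MS Q K v) {a b : V} (ha : Q a = 0) (ha0 : a ≠ 0)
    (hb : b ∈ MS Q K a) (hab : b ∉ sp F [a, J a]) {x : V} (hx : Q x = 0) :
    perp Q (sp F [x, J x]) ≤ MS Q K x := by
  by_cases hx0 : x = 0
  · intro y _
    refine ⟨by simp [hx0], fun c => ?_⟩
    have e : siegel Q x (c • y) = 1 := by
      ext z
      rw [siegel_apply hx (by simp [hx0])]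
      simp [hx0]
    rw [e]; exact K.one_mem
  obtain ⟨y, hy, h1, h2, h3, h4⟩ := h.exists_link' hN (by omega) ha hx ha0 hx0
  have hy0 : y ≠ 0 := by rintro rfl; exact h3 (Submodule.zero_mem _)
  have k1 := h.spread_one' hN h12 hK ha hb hab
  have k2 := h.spread_one' hN h12 hK hy (MS_swap ha hy (k1 h1)) fun h5 => h3 (h.mem_swap ha0 h5)
  have h6 : x ∈ perp Q (sp F [y, J y]) := by
    have e1 := mem_perp_sp.1 h2 x (by simp)
    have e2 := mem_perp_sp.1 h2 (J x) (by simp)
    refine mem_perp_sp.2 ?_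
    simp only [List.mem_cons, List.not_mem_nil, or_false, forall_eq_or_imp, forall_eq]
    refine ⟨by rwa [pol_comm], ?_⟩
    have := h.adj x y
    rw [pol_comm]; rw [e1, e2] at this; linear_combination this
  exact h.spread_one' hN h12 hK hx (MS_swap hy hx (k2 h6)) h4

theorem all_siegel' (h : UJ Q J τ ν) (hN : ND Q) (h12 : 9 ≤ finrank F V) (hKO : K ≤ OG Q)
    (hK : ∀ v, Q v = 0 → J v ∈ MS Q K v)
    (hall : ∀ x, Q x = 0 → perp Q (sp F [x, J x]) ≤ MS Q K x) {u : V} (hu : Q u = 0) (v : V) :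
    siegel Q u v ∈ K := by
  by_cases hu0 : u = 0
  · have := MS_smul 0 (hall u hu (Submodule.zero_mem _))
    have e : siegel Q u v = 1 := by
      ext x
      rw [siegel_apply hu (by simp [hu0])]
      simp [hu0]
    rw [e]; exact K.one_mem
  have h1 : J u ∉ sp F [u] := by
    intro h1
    obtain ⟨c, hc⟩ := mem_sp_one.1 h1
    have := (h.eq_zero (c := -c) (d := 1) hu0 (by rw [hc]; module)).2
    exact one_ne_zero this
  obtain ⟨x₀, hx1, hx2⟩ := hN.exists_dual h1
  obtain ⟨x, hx, hx'⟩ := hN.exists_value_list [u, J u] (by simp; omega) x₀ 0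
  have e1 : polar Q u x = 0 := by rw [hx' u (by simp), hx2 u (mem_sp_of_mem (by simp))]
  have e2 : polar Q (J u) x = 1 := by rw [hx' _ (by simp), hx1]
  obtain ⟨y, hy, hy'⟩ := hN.exists_value_list [u, x, J x] (by simp; omega) 0 1
  simp only [polar_zero_right, List.mem_cons, List.not_mem_nil, or_false, forall_eq_or_imp,
    forall_eq] at hy'
  obtain ⟨e3, e4, e5⟩ := hy'
  have k1 : y ∈ MS Q K x := hall x hx (mem_perp_sp.2 (by simp [e4, e5]))
  have k2 := MS_fix (siegel_mem_OG x y) (MS_siegel k1) (siegel_fix e1 e3) (hK u hu)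
  have e6 : polar Q (J u) (siegel Q x y (J u)) = -1 := by
    rw [siegel_apply hx e4, polar_sub_right, polar_add_right, pol_smul_right, pol_smul_right,
      pol_self, h.Q_J, hu, e2, hy]
    ring
  refine siegel_all_of_MS (fun z hz => ?_) v
  have e : z = (z + polar Q (J u) z • siegel Q x y (J u)) -
      polar Q (J u) z • siegel Q x y (J u) := by abel
  rw [e]
  refine Submodule.sub_mem _ (hall u hu (mem_perp_sp.2 ?_)) (Submodule.smul_mem _ _ k2)
  simp only [List.mem_cons, List.not_mem_nil, or_false, forall_eq_or_imp, forall_eq]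
  exact ⟨by rw [polar_add_right, pol_smul_right, hz, k2.1]; ring,
    by rw [polar_add_right, pol_smul_right, e6]; ring⟩

theorem semilinear' (h : UJ Q J τ ν) (hN : ND Q) (h11 : 9 ≤ finrank F V) {L : V →ₗ[F] V}
    (hL : ∀ w, Q w = 0 → L w ∈ sp F [w, J w]) : ∃ α β : F, ∀ x, L x = α • x + β • J x := by
  obtain ⟨w₀, -, hw0, hw⟩ := exists_sing_three Q (T := ⊤) (by rw [finrank_top]; omega)
  obtain ⟨α, β, hab⟩ := mem_sp_two.1 (hL w₀ hw)
  let κ : V →ₗ[F] V := L - α • LinearMap.id - β • J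
  have hκ : ∀ x, κ x = L x - α • x - β • J x := fun x => rfl
  have k1 : ∀ w, Q w = 0 → κ w ∈ sp F [w, J w] := fun w hw => by
    rw [hκ]
    exact Submodule.sub_mem _ (Submodule.sub_mem _ (hL w hw)
      (Submodule.smul_mem _ _ (mem_sp_of_mem (by simp))))
      (Submodule.smul_mem _ _ (mem_sp_of_mem (by simp)))
  have step : ∀ x y, x ≠ 0 → Q x = 0 → Q y = 0 → polar Q x y = 0 → y ∉ sp F [x, J x] → κ x = 0 →
      κ y = 0 := by
    intro x y hx0 hx hy hxy h1 h2
    obtain ⟨c, d, e1⟩ := mem_sp_two.1 (k1 y hy)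
    obtain ⟨c', d', e2⟩ := mem_sp_two.1 (k1 (x + y) (by rw [Q_add, hx, hy, hxy]; ring))
    rw [_root_.map_add, h2, zero_add, e1, _root_.map_add] at e2
    have e3 : (c - c') • y + (d - d') • J y = c' • x + d' • J x := by
      linear_combination (norm := module) e2
    have h3 : c - c' = 0 ∧ d - d' = 0 := by
      by_contra h3
      exact h1 (h.mem_of_comb (h.J_mem x) h3 (by rw [e3]; exact mem_sp_two.2 ⟨_, _, rfl⟩))
    rw [h3.1, h3.2, zero_smul, zero_smul, add_zero] at e3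
    obtain ⟨h4, h5⟩ := h.eq_zero hx0 e3.symm
    rw [e1, sub_eq_zero.1 h3.1, sub_eq_zero.1 h3.2, h4, h5]; simp
  refine ⟨α, β, fun x => ?_⟩
  have := eq_zero_of_sing hN (by omega) (κ := κ) (fun u hu => ?_) x
  · rw [hκ] at this; linear_combination (norm := module) this
  by_cases hu0 : u = 0
  · rw [hu0, _root_.map_zero]
  obtain ⟨y, hy, h1, h2, h3, h4⟩ := h.exists_link' hN (by omega) hw hu hw0 hu0
  have hy0 : y ≠ 0 := by rintro rfl; exact h3 (Submodule.zero_mem _)
  refine step y u hy0 hy hu (by rw [pol_comm]; exact mem_perp_sp.1 h2 u (by simp))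
    (fun h5 => h4 (h.mem_swap hu0 h5))
    (step w₀ y hw0 hw hy (mem_perp_sp.1 h1 w₀ (by simp)) h3 (by rw [hκ, hab]; abel))

theorem max' (h : UJ Q J τ ν) (hN : ND Q) (h12 : 9 ≤ finrank F V) {S : Subgroup (V ≃ₗ[F] V)}
    (hS : ∀ g : V ≃ₗ[F] V, (∃ α β : F, ∀ x, g (J x) = α • g x + β • J (g x)) → g ∈ S)
    (hlt : ¬ Om Q ≤ S) : Geo.IsMaximalIn (Om Q) (S ⊓ Om Q) := by
  have h5 : 5 ≤ finrank F V := by omega
  refine isMaximalIn_of (SetLike.not_le_iff_exists.1 hlt) fun K hK1 hK2 g hg hgS => ?_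
  have hKO : K ≤ OG Q := hK2.trans Om_le_OG
  have hK : ∀ v, Q v = 0 → J v ∈ MS Q K v := fun v hv =>
    ⟨by rw [h.pol_J, hv, mul_zero], fun c => hK1 ⟨hS _ ⟨0, 1, fun x => by
      rw [h.comm hv]; simp⟩, siegel_mem_Om hN h5 _ _⟩⟩
  have hex : ∃ v, Q v = 0 ∧ g (J v) ∉ sp F [g v, J (g v)] := by
    by_contra hc
    push Not at hc
    obtain ⟨α, β, hab⟩ := h.semilinear' hN (by omega)
      (L := (g : V →ₗ[F] V) ∘ₗ J ∘ₗ ((g⁻¹ : V ≃ₗ[F] V) : V →ₗ[F] V)) fun w hw => by
        have := hc (g⁻¹ w) (by rw [(OG Q).inv_mem (hKO hg), hw])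
        rwa [apply_inv_apply] at this
    refine hgS (hS g ⟨α, β, fun x => ?_⟩)
    have := hab (g x)
    simpa [inv_apply_apply] using this
  obtain ⟨v, hv, hgv⟩ := hex
  have hv0 : g v ≠ 0 := by
    intro h0
    have : v = 0 := by simpa using h0
    rw [this] at hgv; simp at hgv
  exact Om_le_of_siegel hN h5 fun u w hu _ => h.all_siegel' hN h12 hKO hK (fun x hx =>
    h.spread_all' hN h12 hK (by rw [hKO hg, hv]) hv0 (MS_conj (hKO hg) hg (hK v hv)) hgv hx) hu w

end UJ

open Matrix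

theorem unitary_max' {ι : Type} [Fintype ι] [DecidableEq ι] {F : Type*} [Field F] [Finite F]
    {Q : (ι → F) → F} (hQ : Geo.IsNondegenerateQuadraticForm Q) (h12 : 9 ≤ Fintype.card ι)
    {K : Subalgebra F (Matrix ι ι F)} (hK : Geo.IsFieldSubalgebra 2 K)
    (hsc : ∀ k ∈ K, ∃ c : F, ∀ v, Q (k *ᵥ v) = c * Q v) :
    Geo.IsMaximalIn (Geo.omegaGL Q) (Geo.subalgebraNormalizer K ⊓ Geo.omegaGL Q) := by
  have hlt := omega_not_le_subalgebraNormalizer hQ (by omega) hK (by norm_num)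
  obtain ⟨Q, rfl, hN⟩ := exists_quadraticForm hQ
  obtain ⟨S, hS⟩ := exists_pull (Geo.subalgebraNormalizer K)
  rw [omegaGL_eq, ← hS, pull_le_pull] at hlt
  rw [omegaGL_eq, ← hS, ← pull_inf]
  obtain ⟨j, hj, hjs⟩ := field_exists_nonscalar hK (by norm_num)
  obtain ⟨ν, hν⟩ := hsc j hj
  obtain ⟨μ, hμ⟩ := hsc (1 + j) (K.add_mem K.one_mem hj)
  have hpol : ∀ x, polar Q x (j *ᵥ x) = (μ - 1 - ν) * Q x := fun x => by
    have := hμ x
    rw [Matrix.add_mulVec, Matrix.one_mulVec, Q_add, hν] at this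
    linear_combination this
  set τ := μ - 1 - ν
  have hadj : ∀ x y, polar Q (j *ᵥ x) y = τ * polar Q x y - polar Q x (j *ᵥ y) := fun x y => by
    have h1 := hpol (x + y)
    rw [Matrix.mulVec_add, polar_add_left, polar_add_right, polar_add_right, hpol, hpol, Q_add,
      pol_comm Q y] at h1
    linear_combination h1
  have hsq : ∀ x, j *ᵥ (j *ᵥ x) = τ • j *ᵥ x - ν • x := fun x => by
    rw [← sub_eq_zero]
    refine hN _ fun y => ?_
    have h1 := hν (y + x)
    rw [Matrix.mulVec_add, Q_add, Q_add, hν, hν, hadj] at h1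
    rw [pol_comm, polar_sub_right, polar_sub_right, pol_smul_right, pol_smul_right]
    linear_combination -h1
  have hsq' : j * j = τ • j - ν • (1 : Matrix ι ι F) :=
    Matrix.toLin'.injective (LinearMap.ext fun x => by
      simp only [Matrix.toLin'_apply, ← Matrix.mulVec_mulVec, hsq, Matrix.sub_mulVec,
        Matrix.smul_mulVec, Matrix.one_mulVec])
  have hscal : ∀ c d : F, c • (1 : Matrix ι ι F) + d • j = 0 → d = 0 := fun c d h0 => by
    by_contra hd
    exact hjs ⟨-(c / d), by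
      have : j = d⁻¹ • (d • j) := by rw [smul_smul, inv_mul_cancel₀ hd, one_smul]
      rw [this, eq_neg_of_add_eq_zero_right h0, div_eq_inv_mul]; module⟩
  have hcomb : ∀ c d : F, c • (1 : Matrix ι ι F) + d • j ∈ K := fun c d =>
    K.add_mem (K.smul_mem K.one_mem c) (K.smul_mem hj d)
  have hU : UJ Q (Matrix.toLin' j) τ ν := by
    refine ⟨by simpa using hsq, by simpa using hν, by simpa using hpol, fun c d h0 => ?_⟩
    have e : ((c + d * τ) • (1 : Matrix ι ι F) + (-d) • j) * (c • 1 + d • j) =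
        (c * c + c * d * τ + d * d * ν) • 1 := by
      simp only [add_mul, mul_add, smul_mul_assoc, mul_smul_comm, one_mul, mul_one, hsq']
      module
    rw [h0, zero_smul] at e
    have hd : d = 0 := by
      by_cases h1 : (c + d * τ) • (1 : Matrix ι ι F) + (-d) • j = 0
      · simpa using hscal _ _ h1
      · obtain ⟨y, hy, hy'⟩ := hK.inv _ (hcomb _ _) h1
        rw [hK.comm _ (hcomb _ _) _ hy] at hy'
        have : c • (1 : Matrix ι ι F) + d • j = 0 := by
          have e' := congrArg (y * ·) e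
          simp only [← mul_assoc, hy', one_mul, mul_zero] at e'
          exact e'
        exact hscal _ _ this
    rw [hd] at h0
    exact ⟨by simpa using h0, hd⟩
  have hspan : ∀ k ∈ K, ∃ c d : F, k = c • (1 : Matrix ι ι F) + d • j := by
    have h1 : sp F [j, (1 : Matrix ι ι F)] = Subalgebra.toSubmodule K := by
      apply Submodule.eq_of_le_of_finrank_le
      · exact sp_le.2 (by simp [hj, K.one_mem])
      · have h4 : finrank F (Subalgebra.toSubmodule K) = 2 := hK.finrank_eq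
        have : Nonempty ι := Fintype.card_pos_iff.1 (by omega)
        rw [h4, finrank_sp_cons (fun h => hjs (mem_sp_one.1 h)), finrank_sp_one one_ne_zero]
    intro k hk
    obtain ⟨c, d, h2⟩ := mem_sp_two.1 (show k ∈ sp F [j, (1 : Matrix ι ι F)] by rw [h1]; exact hk)
    exact ⟨d, c, by rw [h2, add_comm]⟩
  refine isMaximalIn_pull (hU.max' hN (by rwa [finrank_pi_card]) ?_ hlt)
  rintro g ⟨α, β, hg⟩
  obtain ⟨g, rfl⟩ := toLE.surjective g
  rw [← mem_pull, hS]
  have e1 : (g : Matrix ι ι F) * j = (α • 1 + β • j) * (g : Matrix ι ι F) :=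
    Matrix.toLin'.injective (LinearMap.ext fun x => by
      have := hg x
      simp only [toLE_apply, Matrix.toLin'_apply] at this
      simp only [Matrix.toLin'_apply, ← Matrix.mulVec_mulVec, this, Matrix.add_mulVec,
        Matrix.smul_mulVec, Matrix.one_mulVec])
  have e2 : (g : Matrix ι ι F) * j * ((g⁻¹ : GL ι F) : Matrix ι ι F) = α • 1 + β • j := by
    rw [e1, mul_assoc, ← Units.val_mul, mul_inv_cancel, Units.val_one, mul_one]
  have e3 : ∀ c d : F, (g : Matrix ι ι F) * (c • 1 + d • j) * ((g⁻¹ : GL ι F) : Matrix ι ι F) =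
      (c + d * α) • 1 + (d * β) • j := fun c d => by
    rw [mul_add, add_mul, mul_smul_comm, mul_smul_comm, smul_mul_assoc, smul_mul_assoc, e2, mul_one,
      ← Units.val_mul, mul_inv_cancel, Units.val_one]
    module
  have inj : ∀ x y : Matrix ι ι F, (g : Matrix ι ι F) * x * ((g⁻¹ : GL ι F) : Matrix ι ι F) =
      (g : Matrix ι ι F) * y * ((g⁻¹ : GL ι F) : Matrix ι ι F) → x = y := fun x y h =>
    (Units.mul_right_inj g).1 ((Units.mul_left_inj g⁻¹).1 h)
  have hβ : β ≠ 0 := by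
    rintro rfl
    apply hjs ⟨α, inj _ _ _⟩
    have := e3 α 0
    simp only [zero_smul, add_zero, zero_mul] at this e2
    rw [this, e2]
  intro k
  constructor
  · intro hk
    obtain ⟨c, d, rfl⟩ := hspan k hk
    rw [e3]; exact hcomb _ _
  · intro hk
    obtain ⟨c, d, h1⟩ := hspan _ hk
    have : k = (c - d / β * α) • 1 + (d / β) • j := inj _ _ (by
      rw [e3, h1, div_mul_cancel₀ _ hβ, sub_add_cancel])
    rw [this]; exact hcomb _ _

end Cfsg.Agent.H8
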