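import Cfsg.Agent.H8.Imp
import Cfsg.Agent.H8.Unitary9

/-!
Maximality of the geometric subgroups of `Ω` in all dimensions at least seven.
-/

set_option autoImplicit false
set_option linter.unusedSectionVars false

namespace Cfsg.Agent.H8

open QuadraticMap Module

section Abstract

variable {F V : Type*} [Field F] [AddCommGroup V] [Module F V] {Q : QuadraticForm F V}
variable [Finite F] [FiniteDimensional F V]

theorem point_max' (hN : ND Q) (h7 : 7 ≤ finrank F V) {v : V} (hv : Q v ≠ 0) :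
    Geo.IsMaximalIn (Om Q) (Stab (Submodule.span F {v}) ⊓ Om Q) := by
  have h5 : 5 ≤ finrank F V := by omega
  have hv0 : v ≠ 0 := by rintro rfl; simp at hv
  rw [← sp_one]
  refine isMaximalIn_of (exists_Om_not_Stab hN h5 ?_ ?_) fun K hK1 hK2 g hg hgX => ?_
  · rw [sp_one]; simpa using hv0
  · intro h
    have := finrank_sp_le (F := F) [v]
    rw [h, finrank_top] at this
    simp at this; omega
  have hgO : g ∈ OG Q := Om_le_OG (hK2 hg)
  have hE : ∀ a b, polar Q v a = 0 → polar Q v b = 0 → siegel Q a b ∈ K := fun a b ha hb =>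
    hK1 ⟨Fix_le_Stab _ (siegel_mem_Fix (mem_perp_sp.2 (by simpa using ha))
      (mem_perp_sp.2 (by simpa using hb))), siegel_mem_Om hN h5 a b⟩
  have hE' : ∀ a b, polar Q (g v) a = 0 → polar Q (g v) b = 0 → siegel Q a b ∈ K := by
    intro a b ha hb
    have := siegel_conj_mem hgO hg (hE (g⁻¹ a) (g⁻¹ b)
      (by rw [← OG_pol hgO, apply_inv_apply, ha]) (by rw [← OG_pol hgO, apply_inv_apply, hb]))
    rwa [apply_inv_apply, apply_inv_apply] at this
  have h1 : g v ∉ sp F [v] := fun h => hgX (mem_Stab_of_maps fun x hx => by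
    obtain ⟨c, rfl⟩ := mem_sp_one.1 hx
    rw [_root_.map_smul]; exact Submodule.smul_mem _ _ h)
  have h2 : v ∉ sp F [g v] := not_mem_sp_swap h1 (by rw [sp_nil]; simpa using hv0)
  obtain ⟨u, -, hu1, hu2, hQu⟩ := exists_sing Q ⊤ [v, g v] [v, g v] (by simp; omega)
  have h3 : v ∉ sp F [u, g v] := not_mem_sp_swap hu1 h2
  obtain ⟨y, hy1, hy2⟩ := hN.exists_dual h3
  have hvu : polar Q v u = 0 := hu2 v (by simp)
  have huy : polar Q u y = 0 := hy2 u (mem_sp_of_mem (by simp))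
  have hall : ∀ z, siegel Q u z ∈ K := by
    intro z
    by_cases hz : polar Q u z = 0
    · have h4 : z = (z - polar Q v z • y) + polar Q v z • y := by abel
      rw [h4]
      refine siegel_add_mem hQu (by rw [polar_sub_right, pol_smul_right, hz, huy]; ring)
        (by rw [pol_smul_right, huy, mul_zero]) (hE _ _ hvu ?_) (hE' _ _ (hu2 _ (by simp)) ?_)
      · rw [polar_sub_right, pol_smul_right, hy1]; ring
      · rw [pol_smul_right, hy2 _ (mem_sp_of_mem (by simp)), mul_zero]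
    · rw [siegel_of_not fun h => hz h.2]; exact K.one_mem
  obtain ⟨w, hw, hQw, huw⟩ := exists_partner (X := perp Q (sp F [v])) (x := u)
    (mem_perp_sp.2 (by simpa using hvu)) hQu (by
      rw [hN.perp_perp]
      exact fun h => hu1 (sp_le.2 (by simp [mem_sp_of_mem]) h))
  obtain ⟨hX, d1, -⟩ := hyp_perp hN hQu hQw huw
  have d2 := finrank_le_inf_perp_sp (Q := Q) (perp Q (sp F [u, w])) [v]
  simp only [List.length_cons, List.length_nil] at d2
  obtain ⟨a, ha, hQa⟩ := hX.exists_nonsing hN (T := perp Q (sp F [u, w]) ⊓ perp Q (sp F [v]))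
    inf_le_left (by omega)
  refine Om_le_of_one hN h5 hQu hall (siegel_mem_OG w a)
    (hE w a (mem_perp_sp.1 hw v (by simp)) (mem_perp_sp.1 ha.2 v (by simp))) ?_
  rw [pol_siegel_opp hQu hQw huw (mem_perp_sp.1 ha.1 _ (by simp)) (mem_perp_sp.1 ha.1 _ (by simp))]
  simpa using hQa

theorem nondeg_max_seven (hN : ND Q) (h7 : 7 ≤ finrank F V) {W : Submodule F V} (hW : NDOn Q W)
    (h0 : W ≠ ⊥) (h1 : W ≠ ⊤) (hiso : ∀ g ∈ OG Q, W.map (g : V →ₗ[F] V) ≠ perp Q W)
    (hex1 : ¬ (Nat.card F ≤ 3 ∧ finrank F W = 2 ∧ ∃ x ∈ W, x ≠ 0 ∧ Q x = 0))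
    (hex2 : ¬ (Nat.card F ≤ 3 ∧ finrank F (perp Q W) = 2 ∧ ∃ x ∈ perp Q W, x ≠ 0 ∧ Q x = 0))
    (h2 : Nat.card F = 2 → 9 ≤ finrank F V ∨
      (finrank F V = 8 ∧ ¬ ∃ U : Submodule F V, (∀ x ∈ U, Q x = 0) ∧ finrank F U = 4)) :
    Geo.IsMaximalIn (Om Q) (Stab W ⊓ Om Q) := by
  have hd := hN.finrank_perp W
  have hW' := hW.perp hN
  have h1' : perp Q W ≠ ⊤ := fun e => h0 (by rw [← hN.perp_perp W, e, hN.perp_top])
  have hiso' : ∀ g ∈ OG Q, (perp Q W).map (g : V →ₗ[F] V) ≠ perp Q (perp Q W) := fun g hg e =>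
    hiso g hg (by rw [OG_map_perp hg] at e; exact hN.perp_inj e)
  have A : ∀ hG : Good Q W, finrank F (perp Q W) ≤ finrank F W →
      Geo.IsMaximalIn (Om Q) (Stab W ⊓ Om Q) := fun hG h =>
    nondeg_max_four hN (by omega) hW (by omega) h1 h hG hiso hex2
  have B : ∀ hG : Good Q (perp Q W), finrank F W ≤ finrank F (perp Q W) →
      Geo.IsMaximalIn (Om Q) (Stab W ⊓ Om Q) := fun hG h => by
    rw [← Stab_perp_inf hN]
    exact nondeg_max_four hN (by omega) hW' (by omega) h1' (by rwa [hN.perp_perp]) hG hiso'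
      (by rwa [hN.perp_perp])
  rcases lt_trichotomy (finrank F W) (finrank F (perp Q W)) with h | h | h
  · refine B (hW'.good_of_four hN (by omega) ?_) h.le
    rintro ⟨e, U, -, -, -, e'⟩
    rcases h2 e with e | e <;> omega
  · by_cases p1 : Nat.card F = 2 ∧ ∃ U, U ≤ W ∧ (∀ x ∈ U, Q x = 0) ∧ 2 * finrank F U = 4 ∧
        finrank F W = 4
    · refine B (hW'.good_of_four hN (by omega) ?_) h.le
      rintro ⟨-, U', u1', u2', u3', u4'⟩
      obtain ⟨e, U, u1, u2, u3, u4⟩ := p1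
      refine ((h2 e).resolve_left (by omega)).2 ⟨U ⊔ U', fun x hx => ?_, ?_⟩
      · obtain ⟨a, ha, b, hb, rfl⟩ := Submodule.mem_sup.1 hx
        rw [Q_add, u2 a ha, u2' b hb, mem_perp.1 (u1' hb) a (u1 ha)]; ring
      · have e1 := Submodule.finrank_sup_add_finrank_inf_eq U U'
        have e2 : U ⊓ U' = ⊥ := by
          rw [eq_bot_iff, ← hW.inf_perp]; exact inf_le_inf u1 u1'
        rw [e2, finrank_bot] at e1; omega
    · exact A (hW.good_of_four hN (by omega) p1) h.ge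
  · refine A (hW.good_of_four hN (by omega) ?_) h.le
    rintro ⟨e, U, -, -, -, e'⟩
    rcases h2 e with e | e <;> omega

end Abstract

variable {ι : Type} [Fintype ι] [DecidableEq ι] {F : Type*} [Field F] [Fintype F]
  {Q : (ι → F) → F}

theorem geo_ts (hQ : Geo.IsNondegenerateQuadraticForm Q) (h7 : 7 ≤ Fintype.card ι)
    {W : Submodule F (ι → F)} (h0 : W ≠ ⊥) (hW : Geo.IsTotallySingularQuad Q W)
    (h : 2 * (finrank F W + 1) ≠ Fintype.card ι ∨ ¬ Geo.IsPlusTypeOn Q ⊤) :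
    Geo.IsMaximalIn (Geo.omegaGL Q) (Geo.subspaceStabilizer W ⊓ Geo.omegaGL Q) := by
  obtain ⟨Q, rfl, hN⟩ := exists_quadraticForm hQ
  rw [omegaGL_eq, subspaceStabilizer_eq, ← pull_inf]
  have hd : finrank F (ι → F) = Fintype.card ι := finrank_pi_card
  refine isMaximalIn_pull (parabolic_max hN (by omega) h0 hW fun e u hu hQu => ?_)
  by_contra huW
  refine (h.resolve_left (by omega)) ⟨W ⊔ sp F [u], le_top, fun x hx => ?_, ?_⟩
  · obtain ⟨a, ha, b, hb, rfl⟩ := Submodule.mem_sup.1 hx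
    obtain ⟨c, rfl⟩ := mem_sp_one.1 hb
    rw [Q_add, Q_smul, pol_smul_right, hW a ha, hQu, mem_perp.1 hu a ha]; ring
  · rw [finrank_sup_sp_one huW, finrank_top, e]

theorem geo_nd (hQ : Geo.IsNondegenerateQuadraticForm Q) (h7 : 7 ≤ Fintype.card ι)
    {W : Submodule F (ι → F)} (h0 : W ≠ ⊥) (h1 : W ≠ ⊤)
    (hW : Geo.IsNondegenerateOn (polar Q) W)
    (hiso : 2 * finrank F W ≠ Fintype.card ι ∨ (Even (finrank F W) ∧ ¬ Geo.IsPlusTypeOn Q ⊤))
    (hex1 : finrank F W = 2 → 4 ≤ Fintype.card F ∨ ¬ Geo.IsPlusTypeOn Q W)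
    (hex2 : finrank F W + 2 ≠ Fintype.card ι)
    (h2 : Fintype.card F = 2 → 9 ≤ Fintype.card ι ∨
      (Fintype.card ι = 8 ∧ ¬ Geo.IsPlusTypeOn Q ⊤)) :
    Geo.IsMaximalIn (Geo.omegaGL Q) (Geo.subspaceStabilizer W ⊓ Geo.omegaGL Q) := by
  obtain ⟨Q, rfl, hN⟩ := exists_quadraticForm hQ
  rw [omegaGL_eq, subspaceStabilizer_eq, ← pull_inf]
  have hd : finrank F (ι → F) = Fintype.card ι := finrank_pi_card
  have hp := hN.finrank_perp W
  have hW' := ndOn_of_isNondegenerateOn hW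
  rw [← Nat.card_eq_fintype_card (α := F)] at hex1 h2
  refine isMaximalIn_pull (nondeg_max_seven hN (by omega) hW' h0 h1 (fun g hg h => ?_) ?_ ?_ ?_)
  · rw [← h, LinearEquiv.finrank_map_eq] at hp
    obtain ⟨hev, hm⟩ := hiso.resolve_left (by omega)
    obtain ⟨U, hU, hU2⟩ := exists_ts_of_isometric hN hW' hev hg h.le
    exact hm ⟨U, le_top, hU, by rw [finrank_top]; omega⟩
  · rintro ⟨e1, e2, e3⟩
    exact (hex1 e2).resolve_left (by omega) ((isPlusTypeOn_plane e2).2 e3)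
  · rintro ⟨-, e2, -⟩; omega
  · intro e
    refine (h2 e).imp (fun h => by omega) fun h => ⟨by omega, fun ⟨U, u1, u2⟩ =>
      h.2 ⟨U, le_top, u1, by rw [finrank_top]; omega⟩⟩

theorem geo_point (hQ : Geo.IsNondegenerateQuadraticForm Q) (h7 : 7 ≤ Fintype.card ι)
    {v : ι → F} (hv : Q v ≠ 0) : Geo.IsMaximalIn (Geo.omegaGL Q)
      (Geo.subspaceStabilizer (Submodule.span F {v}) ⊓ Geo.omegaGL Q) := by
  obtain ⟨Q, rfl, hN⟩ := exists_quadraticForm hQ
  rw [omegaGL_eq, subspaceStabilizer_eq, ← pull_inf]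
  exact isMaximalIn_pull (point_max' hN (by rwa [finrank_pi_card]) hv)

theorem geo_decomp (hQ : Geo.IsNondegenerateQuadraticForm Q) {t k : ℕ} (hk : 2 ≤ k)
    {D : Fin t → Submodule F (ι → F)} (hD : Geo.IsOrthogonalMDecomposition Q k D)
    (h2 : k = 2 → 5 ≤ t ∧ Fintype.card F ≠ 3 ∧
      (6 ≤ Fintype.card F ∨ ∃ i, ¬ Geo.IsPlusTypeOn Q (D i)))
    (h3 : k = 3 → Odd (Fintype.card F) ∧ Fintype.card F ≠ 3)
    (h4 : k = 4 → Fintype.card F = 2 → ∃ i, ¬ Geo.IsPlusTypeOn Q (D i)) :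
    Geo.IsMaximalIn (Geo.omegaGL Q) (Geo.decompositionStabilizer D ⊓ Geo.omegaGL Q) := by
  obtain ⟨Q, rfl, hN⟩ := exists_quadraticForm hQ
  rw [omegaGL_eq, decompositionStabilizer_eq, ← pull_inf]
  have h := od_of_geo hD
  refine isMaximalIn_pull (h.max_general hN hk hD.decomp.decomp.two_le ?_ ?_ ?_)
  · rintro rfl
    obtain ⟨a, b, c⟩ := h2 rfl
    rw [Nat.card_eq_fintype_card]
    exact ⟨a, b, c.imp id fun ⟨i, hi⟩ => ⟨i, fun e => hi ((isPlusTypeOn_plane (h.dim i)).2 e)⟩⟩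
  · rintro rfl
    rw [Nat.card_eq_fintype_card]
    exact ⟨two_ne_zero_of_odd (h3 rfl).1, (h3 rfl).2⟩
  · rintro rfl e
    exact h4 rfl (by rwa [← Nat.card_eq_fintype_card])

theorem geo_not_plus (hQ : Geo.IsNondegenerateQuadraticForm Q) {t k : ℕ}
    {D : Fin t → Submodule F (ι → F)} (hD : Geo.IsOrthogonalMDecomposition Q k D)
    (hm : ¬ Geo.IsPlusTypeOn Q ⊤) : ∃ i, ¬ Geo.IsPlusTypeOn Q (D i) := by
  obtain ⟨Q, rfl, hN⟩ := exists_quadraticForm hQ
  have h := od_of_geo hD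
  by_contra hc
  push Not at hc
  choose U u1 u2 u3 using hc
  refine hm ⟨iSup U, le_top, fun x hx => ?_, ?_⟩
  · have key : ∀ x ∈ iSup U, ∀ i, pr Q (D i) x ∈ U i := fun x hx => by
      refine Submodule.iSup_induction U (motive := fun x => ∀ i, pr Q (D i) x ∈ U i) hx
        (fun j y hy i => ?_) (fun i => by simp) fun y z hy hz i => by
          rw [map_add]; exact (U i).add_mem (hy i) (hz i)
      by_cases e : j = i
      · subst e; rwa [(h.nd j).pr_of_mem (u1 j hy)]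
      · rw [h.od0.pr_of_ne e (u1 j hy)]; exact (U i).zero_mem
    rw [← h.od0.Q_sum_pr hN]
    exact Finset.sum_eq_zero fun i _ => u2 i _ (key x hx i)
  · have hi : iSupIndep U := h.indep.mono u1
    have e1 := LinearMap.finrank_range_of_inj (f := DirectSum.coeLinearMap U)
      hi.dfinsupp_lsum_injective
    rw [DirectSum.range_coeLinearMap, Module.finrank_directSum] at e1
    rw [e1, finrank_top, h.total, Finset.mul_sum, Finset.sum_congr rfl fun i _ => u3 i]
    simp [h.dim]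

theorem geo_pair_nonisom (hQ : Geo.IsNondegenerateQuadraticForm Q) {k : ℕ} (hk : 5 ≤ k)
    (hn : 2 * k = Fintype.card ι) {D : Fin 2 → Submodule F (ι → F)}
    (hD : Geo.IsNondegenerateMDecomposition (polar Q) k D)
    (hni : ¬ Geo.AreIsometricFor Q (D 0) (D 1)) :
    Geo.IsMaximalIn (Geo.omegaGL Q) (Geo.decompositionStabilizer D ⊓ Geo.omegaGL Q) := by
  obtain ⟨Q, rfl, hN⟩ := exists_quadraticForm hQ
  have hd : finrank F (ι → F) = Fintype.card ι := finrank_pi_card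
  have h0 := ndOn_of_isNondegenerateOn (hD.nondegenerate 0)
  have hk0 := hD.decomp.finrank_eq 0
  have hk1 := hD.decomp.finrank_eq 1
  have hp := hN.finrank_perp (D 0)
  have hperp : D 1 = perp Q (D 0) :=
    Submodule.eq_of_le_of_finrank_eq (fun x hx y hy => hD.orthogonal 0 1 (by decide) y hy x hx)
      (by omega)
  have hiso : ∀ g ∈ OG Q, (D 0).map (g : (ι → F) →ₗ[F] (ι → F)) ≠ D 1 := by
    intro g hg h
    refine hni ⟨(g.submoduleMap (D 0)).trans (LinearEquiv.ofEq _ _ h), fun w => ?_⟩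
    exact hg w
  have heq : DStab D ⊓ Om Q = Stab (D 0) ⊓ Om Q := by
    ext g
    constructor
    · rintro ⟨⟨σ, hσ⟩, hg⟩
      refine ⟨mem_Stab_iff_map.2 ?_, hg⟩
      have h1 := hσ 0
      by_cases h2 : σ 0 = 0
      · rwa [h2] at h1
      · have h3 : σ 0 = 1 := by
          revert h2; generalize σ 0 = j; revert j; decide
        rw [h3] at h1
        exact absurd h1 (hiso g (Om_le_OG hg))
    · rintro ⟨h1, hg⟩
      refine ⟨⟨1, fun i => ?_⟩, hg⟩
      fin_cases i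
      · exact mem_Stab_iff_map.1 h1
      · have := mem_Stab_iff_map.1 (Stab_perp (Om_le_OG hg) h1)
        rw [← hperp] at this
        exact this
  rw [omegaGL_eq, decompositionStabilizer_eq, ← pull_inf, heq]
  refine isMaximalIn_pull (nondeg_max_seven hN (by omega) h0 ?_ ?_ (by rwa [← hperp]) ?_ ?_
    fun _ => Or.inl (by omega))
  · intro h; rw [h, finrank_bot] at hk0; omega
  · intro h; rw [h, finrank_top] at hk0; omega
  · rintro ⟨-, h2, -⟩; omega
  · rintro ⟨-, h2, -⟩; omega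

theorem geo_pair_ts (hQ : Geo.IsNondegenerateQuadraticForm Q) {k : ℕ} (hk : 5 ≤ k) (hke : Even k)
    (hn : 2 * k = Fintype.card ι) {D : Fin 2 → Submodule F (ι → F)}
    (hD : Geo.IsMDecomposition k D) (hts : ∀ i, Geo.IsTotallySingularQuad Q (D i)) :
    Geo.IsMaximalIn (Geo.omegaGL Q) (Geo.decompositionStabilizer D ⊓ Geo.omegaGL Q) := by
  obtain ⟨Q, rfl, hN⟩ := exists_quadraticForm hQ
  rw [omegaGL_eq, decompositionStabilizer_eq, ← pull_inf]
  have hd : finrank F (ι → F) = Fintype.card ι := finrank_pi_card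
  exact isMaximalIn_pull (pair_max hN
    ⟨hts 0, by rw [hD.finrank_eq, hd, hn]⟩ ⟨hts 1, by rw [hD.finrank_eq, hd, hn]⟩ hD.indep
    (by rw [hD.finrank_eq]; omega) (by rwa [hD.finrank_eq]))

end Cfsg.Agent.H8
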