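import Cfsg.Agent.H8.Small
import Cfsg.Agent.H4.Fr5

/-! The frame clause of the small-dimensional lists, for a form given as a function. -/

set_option autoImplicit false

namespace Cfsg.Agent.H8

theorem geo_frame' {ι : Type} [Fintype ι] [DecidableEq ι] {F : Type*} [Field F] [Fintype F]
    {Q : (ι → F) → F} (hQ : Geo.IsNondegenerateQuadraticForm Q) {t : ℕ}
    {D : Fin t → Submodule F (ι → F)} (hD : Geo.IsOrthogonalMDecomposition Q 1 D)
    (hp : (Fintype.card F).Prime) (hodd : Odd (Fintype.card F)) (h7 : 7 ≤ Fintype.card ι)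
    (hn : Odd (Fintype.card ι) ∨ 10 ≤ Fintype.card ι) :
    Geo.IsMaximalIn (Geo.omegaGL Q) (Geo.decompositionStabilizer D ⊓ Geo.omegaGL Q) := by
  obtain ⟨Q, rfl, -⟩ := exists_quadraticForm hQ
  exact H4.Fr.geo_frame hD (by rwa [Nat.card_eq_fintype_card]) (two_ne_zero_of_odd hodd) h7 hn

end Cfsg.Agent.H8
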