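import Cfsg.Agent.H8.Unitary

/-!
Tensor decompositions of quadratic spaces: the non-maximal cases with two factors.
-/

set_option autoImplicit false
set_option linter.unusedSectionVars false
set_option linter.unusedVariables false

namespace Cfsg.Agent.H8

open QuadraticMap Module Matrix Kronecker

section Pure

variable {F : Type*} [Field F] {α β : Type}

theorem pt_add_left (x x' : α → F) (y : β → F) : pt (x + x') y = pt x y + pt x' y := by
  ext a; simp [pt, add_mul]

theorem pt_add_right (x : α → F) (y y' : β → F) : pt x (y + y') = pt x y + pt x y' := by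
  ext a; simp [pt, mul_add]

theorem pt_sub_right (x : α → F) (y y' : β → F) : pt x (y - y') = pt x y - pt x y' := by
  ext a; simp [pt, mul_sub]

theorem pt_smul_left (c : F) (x : α → F) (y : β → F) : pt (c • x) y = c • pt x y := by
  ext a; simp [pt, mul_assoc]

theorem pt_smul_right (c : F) (x : α → F) (y : β → F) : pt x (c • y) = c • pt x y := by
  ext a; simp [pt, mul_left_comm]

theorem pt_neg_left (x : α → F) (y : β → F) : pt (-x) y = pt x (-y) := by
  ext a; simp [pt]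

/-- `y ↦ x ⊗ y` -/
def ptR (x : α → F) : (β → F) →ₗ[F] (α × β → F) where
  toFun := pt x
  map_add' := pt_add_right x
  map_smul' := fun c y => pt_smul_right c x y

/-- contraction of the first factor -/
def ctr [Fintype α] (φ : (α → F) →ₗ[F] F) : (α × β → F) →ₗ[F] (β → F) where
  toFun := fun z b => φ fun a => z (a, b)
  map_add' := fun z w => by
    ext b; rw [Pi.add_apply, ← _root_.map_add]; rfl
  map_smul' := fun c z => by
    ext b; rw [Pi.smul_apply, RingHom.id_apply, ← _root_.map_smul]; rfl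

theorem ctr_pt [Fintype α] (φ : (α → F) →ₗ[F] F) (x : α → F) (y : β → F) :
    ctr φ (pt x y) = φ x • y := by
  ext b
  change φ (fun a => x a * y b) = φ x * y b
  rw [mul_comm, ← smul_eq_mul, ← _root_.map_smul]
  congr 1; ext a; simp [mul_comm]

theorem pure_dep [Fintype α] {e e' p : α → F} (he : e ∉ sp F [e']) (he' : e' ≠ 0) {w w' q : β → F}
    (hw : w ≠ 0) (h : pt p q = pt e w' + pt e' w) : w' ∈ sp F [w] := by
  obtain ⟨φ, h1, h2⟩ := exists_functional he
  obtain ⟨ψ, h3, h4⟩ := exists_functional (not_mem_sp_swap he (by rw [sp_nil]; simpa using he'))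
  have e1 := congrArg (ctr φ) h
  have e2 := congrArg (ctr ψ) h
  rw [_root_.map_add, ctr_pt, ctr_pt, ctr_pt] at e1 e2
  rw [h1, h2 e' (mem_sp_of_mem (by simp)), one_smul, zero_smul, add_zero] at e1
  rw [h3, h4 e (mem_sp_of_mem (by simp)), one_smul, zero_smul, zero_add] at e2
  have : ψ p ≠ 0 := by rintro h0; rw [h0, zero_smul] at e2; exact hw e2.symm
  exact mem_sp_one.2 ⟨φ p / ψ p, by rw [← e1, ← e2, smul_smul, div_mul_cancel₀ _ this]⟩

theorem pt_span [Fintype α] [Fintype β] [DecidableEq α] [DecidableEq β]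
    (N : Submodule F (α × β → F)) (h : ∀ x y, pt x y ∈ N) (v : α × β → F) : v ∈ N := by
  rw [pi_eq_sum_univ' v]
  refine N.sum_mem fun i _ => N.smul_mem _ ?_
  convert h (Pi.single i.1 1) (Pi.single i.2 1) using 1
  ext j
  simp only [pt, Pi.single_apply, Prod.ext_iff]
  by_cases h1 : j.1 = i.1 <;> by_cases h2 : j.2 = i.2 <;> simp [h1, h2]

/-- bilinear map of a bilinear form -/
def bilOf [Fintype α] [DecidableEq α] {f : (α → F) → (α → F) → F} (hf : Geo.IsBilinearForm f) :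
    (α → F) →ₗ[F] (α → F) →ₗ[F] F :=
  LinearMap.mk₂ F f hf.add_left hf.smul_left hf.add_right (fun c x y => hf.smul_right c x y)

theorem bilOf_apply [Fintype α] [DecidableEq α] {f : (α → F) → (α → F) → F}
    (hf : Geo.IsBilinearForm f) (x y : α → F) : bilOf hf x y = f x y := rfl

theorem bilin_eq_sum [Fintype α] [DecidableEq α] {f : (α → F) → (α → F) → F}
    (hf : Geo.IsBilinearForm f) (x y : α → F) :
    f x y = ∑ a, ∑ b, x a * Geo.gramMatrix f a b * y b := by
  rw [← bilOf_apply hf]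
  conv_lhs => rw [pi_eq_sum_univ' x, pi_eq_sum_univ' y]
  simp only [_root_.map_sum, LinearMap.sum_apply, _root_.map_smul, LinearMap.smul_apply,
    smul_eq_mul, Finset.mul_sum]
  rw [Finset.sum_comm]
  refine Finset.sum_congr rfl fun a _ => Finset.sum_congr rfl fun b _ => ?_
  rw [bilOf_apply, Geo.gramMatrix]; ring

theorem formOfGram_pt [Fintype α] [DecidableEq α] [Fintype β] [DecidableEq β]
    {f₁ : (α → F) → (α → F) → F} {f₂ : (β → F) → (β → F) → F} (h₁ : Geo.IsBilinearForm f₁)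
    (h₂ : Geo.IsBilinearForm f₂) (x x' : α → F) (y y' : β → F) :
    Geo.formOfGram id (Geo.gramMatrix f₁ ⊗ₖ Geo.gramMatrix f₂) (pt x y) (pt x' y') =
      f₁ x x' * f₂ y y' := by
  rw [bilin_eq_sum h₁, bilin_eq_sum h₂, Geo.formOfGram]
  simp only [Fintype.sum_prod_type, pt, id, kroneckerMap_apply]
  rw [Finset.sum_mul]
  refine Finset.sum_congr rfl fun a _ => ?_
  rw [Finset.sum_comm, Finset.sum_mul]
  refine Finset.sum_congr rfl fun b _ => ?_
  rw [Finset.mul_sum]
  refine Finset.sum_congr rfl fun c _ => ?_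
  rw [Finset.mul_sum]
  exact Finset.sum_congr rfl fun d _ => by ring

end Pure

section Abs

variable {F V : Type*} [Field F] [AddCommGroup V] [Module F V] {Q : QuadraticForm F V}

theorem mem_OG_of_span {S : Set V} (hS : ∀ N : Submodule F V, (∀ x ∈ S, x ∈ N) → ∀ v, v ∈ N)
    {g : V →ₗ[F] V} (h1 : ∀ x ∈ S, ∀ y ∈ S, polar Q (g x) (g y) = polar Q x y)
    (h2 : ∀ x ∈ S, Q (g x) = Q x) (v : V) : Q (g v) = Q v := by
  have k1 : ∀ x ∈ S, ∀ y, polar Q (g x) (g y) = polar Q x y := fun x hx y =>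
    sub_eq_zero.1 (hS (LinearMap.ker ((Q.polarBilin (g x)).comp g - Q.polarBilin x))
      (fun z hz => sub_eq_zero.2 (h1 x hx z hz)) y)
  have k2 : ∀ x y, polar Q (g x) (g y) = polar Q x y := fun x y => by
    rw [pol_comm, pol_comm Q x]
    exact sub_eq_zero.1 (hS (LinearMap.ker ((Q.polarBilin (g y)).comp g - Q.polarBilin y))
      (fun z hz => sub_eq_zero.2 (by
        change polar Q (g y) (g z) = polar Q y z
        rw [pol_comm, k1 z hz, pol_comm])) x)
  exact hS
    { carrier := {v | Q (g v) = Q v}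
      add_mem' := fun {a b} ha hb => by
        change Q (g (a + b)) = Q (a + b)
        rw [_root_.map_add, Q_add, Q_add, ha, hb, k2]
      zero_mem' := by simp
      smul_mem' := fun c a ha => by
        change Q (g (c • a)) = Q (c • a)
        rw [_root_.map_smul, Q_smul, Q_smul, ha] } h2 v

theorem hyp_perp' [FiniteDimensional F V] (hN : ND Q) (u w : V) :
    finrank F V ≤ finrank F (perp Q (sp F [u, w])) + 2 := by
  have h1 := hN.finrank_perp (sp F [u, w])
  have h2 := finrank_sp_le (F := F) [u, w]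
  simp only [List.length_cons, List.length_nil] at h2
  omega

end Abs

variable {F : Type*} [Field F] [Finite F]

theorem Om_not_le_pure {n₁ n₂ : ℕ} (h1 : 2 ≤ n₁) (h2 : 2 ≤ n₂) (h8 : 8 ≤ n₁ * n₂)
    {Q : QuadraticForm F (Fin n₁ × Fin n₂ → F)} (hN : ND Q) {S : Set (Fin n₁ × Fin n₂ → F)}
    (hS : ∀ z ∈ S, ∃ x y, z = pt x y) {z : Fin n₁ × Fin n₂ → F} (hz : z ∈ S) (hz0 : z ≠ 0) :
    ∃ g ∈ Om Q, g ∉ SetStab (F := F) S := by
  by_contra h
  push Not at h
  let i0 : Fin n₁ := ⟨0, by omega⟩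
  let i1 : Fin n₁ := ⟨1, by omega⟩
  let j0 : Fin n₂ := ⟨0, by omega⟩
  let j1 : Fin n₂ := ⟨1, by omega⟩
  have hd : finrank F (Fin n₁ × Fin n₂ → F) = n₁ * n₂ := by rw [finrank_pi_card]; simp
  obtain ⟨w, hw, h5⟩ := invariant_meets hN (S := S)
    (fun g hg x hx => (mem_SetStab.1 (h g hg) x).1 hx) hz hz0
    [LinearMap.proj (i0, j0), LinearMap.proj (i1, j1), LinearMap.proj (i0, j1)] (by omega)
    (by rw [hd]; simpa using h8) (Pi.single (i0, j0) 1 + Pi.single (i1, j1) 1)
    ⟨LinearMap.proj (i0, j0), by simp, by simp [i0, i1]⟩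
  obtain ⟨x, y, rfl⟩ := hS w hw
  have e1 := h5 (LinearMap.proj (i0, j0)) (by simp)
  have e2 := h5 (LinearMap.proj (i1, j1)) (by simp)
  have e3 := h5 (LinearMap.proj (i0, j1)) (by simp)
  simp [pt, i0, i1, j0, j1] at e1 e2 e3
  rcases e3 with e3 | e3
  · rw [e3] at e1; simp at e1
  · rw [e3] at e2; simp at e2

theorem kron_pure {n₁ n₂ : ℕ} {S : Subgroup ((Fin n₁ × Fin n₂ → F) ≃ₗ[F] (Fin n₁ × Fin n₂ → F))}
    (hS : pull S = Geo.kroneckerSubgroup n₁ n₂ F) {g : (Fin n₁ × Fin n₂ → F) ≃ₗ[F] (Fin n₁ × Fin n₂ → F)}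
    (hg : g ∈ S) : ∃ (a : (Fin n₁ → F) ≃ₗ[F] (Fin n₁ → F)) (b : (Fin n₂ → F) ≃ₗ[F] (Fin n₂ → F)),
      ∀ x y, g (pt x y) = pt (a x) (b y) := by
  obtain ⟨g, rfl⟩ := toLE.surjective g
  rw [← mem_pull, hS] at hg
  obtain ⟨a, b, hab⟩ := hg
  exact ⟨toLE a, toLE b, fun x y => by rw [toLE_apply, hab, kron_mulVec_pt]; rfl⟩

/-- quadratic form with polar form `f` in odd characteristic -/
theorem exists_quad_of_symm {α : Type} [Fintype α] [DecidableEq α] (h2 : (2 : F) ≠ 0)
    {f : (α → F) → (α → F) → F} (hf : Geo.IsSymmetricForm f) :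
    ∃ Q : QuadraticForm F (α → F), ND Q ∧ ∀ x y, polar Q x y = f x y := by
  have : ∀ x y, polar ((2 : F)⁻¹ • LinearMap.BilinMap.toQuadraticMap (bilOf hf.bilinear)) x y =
      f x y := fun x y => by
    rw [QuadraticMap.coeFn_smul, polar_smul, LinearMap.BilinMap.polar_toQuadraticMap, bilOf_apply,
      bilOf_apply, hf.symm y x, smul_eq_mul]
    field_simp; ring
  refine ⟨_, fun v hv => ?_, this⟩
  by_contra h0
  obtain ⟨x, hx⟩ := (hf.nondegenerate v h0).2
  exact hx (by rw [← this, hv])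

theorem kron_three_not_max (hq : Nat.card F = 3) {n₂ : ℕ} (h3 : 3 ≤ n₂)
    {Q : QuadraticForm F (Fin 3 × Fin n₂ → F)} (hN : ND Q) {f₁ : (Fin 3 → F) → (Fin 3 → F) → F}
    {f₂ : (Fin n₂ → F) → (Fin n₂ → F) → F} (hf₁ : Geo.IsSymmetricForm f₁)
    (hf₂ : Geo.IsSymmetricForm f₂) {c : F} (hc : c ≠ 0)
    (hT : ∀ x y x' y', polar Q (pt x y) (pt x' y') = c * (f₁ x x' * f₂ y y')) :
    ∃ M, Geo.kroneckerSubgroup 3 n₂ F ⊓ Geo.omegaGL Q < M ∧ M < Geo.omegaGL Q := by
  have h2 := two_ne_zero_of_card_three hq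
  obtain ⟨Q₁, hN₁, hQ₁⟩ := exists_quad_of_symm h2 hf₁
  obtain ⟨Q₂, hN₂, hQ₂⟩ := exists_quad_of_symm h2 hf₂
  simp only [← hQ₁, ← hQ₂] at hT
  obtain ⟨S, hS⟩ := exists_pull (Geo.kroneckerSubgroup 3 n₂ F)
  rw [omegaGL_eq, ← hS, ← pull_inf]
  have hd : finrank F (Fin 3 × Fin n₂ → F) = 3 * n₂ := by rw [finrank_pi_card]; simp
  have hd1 : finrank F (⊤ : Submodule F (Fin 3 → F)) = 3 := by simp
  have hd2 : finrank F (⊤ : Submodule F (Fin n₂ → F)) = n₂ := by simp
  obtain ⟨c₀, hc0, hgood⟩ := exists_good_norm hN₁ hq hN₁.ndOn_top hd1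
  obtain ⟨e, -, he0, he⟩ := hN₁.ndOn_top.exists_value hd1.ge c₀
  obtain ⟨u, -, w, -, hu, hw, huw⟩ := hN₂.ndOn_top.exists_hyp (by omega)
  have hQpt : ∀ x y, Q (pt x y) = 2 * c * (Q₁ x * Q₂ y) := fun x y => by
    have := hT x y x y
    rw [pol_self, pol_self, pol_self] at this
    exact mul_left_cancel₀ h2 (by linear_combination this)
  refine between_pull (between_of (T := SetStab {z | ∃ x y, Q₁ x = c₀ ∧ z = pt x y})
    (le_SetStab ?_) ?_ ?_)
  · rintro g ⟨hgS, hg⟩ _ ⟨x, y, hx, rfl⟩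
    obtain ⟨a, b, hab⟩ := kron_pure hS hgS
    refine ⟨a x, b y, ?_, hab x y⟩
    have hsim : ∀ x x', polar Q₁ (a x) (a x') * polar Q₂ (b u) (b w) = polar Q₁ x x' := by
      intro x x'
      have := OG_pol (Om_le_OG hg) (pt x u) (pt x' w)
      rw [hab, hab, hT, hT, huw, mul_one] at this
      exact mul_left_cancel₀ hc this
    have hQ : ∀ x, Q₁ (a x) * polar Q₂ (b u) (b w) = Q₁ x := fun x => by
      have := hsim x x
      rw [pol_self, pol_self] at this
      exact mul_left_cancel₀ h2 (by linear_combination this)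
    rcases eq_of_card_three hq (polar Q₂ (b u) (b w)) with h | h | h
    · have := hQ x
      rw [h, mul_zero, hx] at this
      exact absurd this.symm hc0
    · rw [← hx, ← hQ x, h, mul_one]
    · exfalso
      obtain ⟨s, -, hs0, hs⟩ := exists_sing_three Q₁ hd1.ge
      obtain ⟨v, hv, hv0⟩ := hN₁.ndOn_top.exists_nonsing hN₁ (T := perp Q₁ (sp F [s])) le_top (by
        have := hN₁.finrank_perp (sp F [s])
        rw [finrank_sp_one hs0] at this
        simp at this ⊢; omega)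
      have hsv := mem_perp_sp.1 hv s (by simp)
      have k1 := hgood s trivial hs0 hs v trivial hsv
      have k2 := hgood (a s) trivial (by simpa using hs0) (by
        have := hQ s; rw [h, hs] at this; linear_combination -this) (a v) trivial (by
        have := hsim s v; rw [h, hsv] at this; linear_combination -this)
      have k3 := hQ v
      rw [h] at k3
      apply k2
      rcases eq_of_card_three hq (Q₁ v) with h1 | h1 | h1 <;>
        rcases eq_of_card_three hq c₀ with h4 | h4 | h4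
      all_goals first
        | exact absurd h1 hv0
        | exact absurd h4 hc0
        | exact absurd (h1.trans h4.symm) k1
        | (rw [h4]; linear_combination -k3 - h1)
  · obtain ⟨y, hy, hy0⟩ := exists_not_mem (T := perp Q₂ (sp F [u, w])) (S := ⊥) (by
      have := (hyp_perp' hN₂ u w)
      rw [finrank_bot]; simp at this; omega)
    have hy0 : y ≠ 0 := by simpa using hy0
    have e1 := mem_perp_sp.1 hy u (by simp)
    have e2 := mem_perp_sp.1 hy w (by simp)
    have k1 : Q (pt e u) = 0 := by rw [hQpt, hu]; ring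
    have k2 : polar Q (pt e u) (pt e y) = 0 := by rw [hT, e1]; ring
    have hm : ∀ y', polar Q₂ u y' = 0 → ∀ z ∈ {z | ∃ x y, Q₁ x = c₀ ∧ z = pt x y},
        siegel Q (pt e u) (pt e y') z ∈ {z | ∃ x y, Q₁ x = c₀ ∧ z = pt x y} := by
      rintro y' hy' _ ⟨x, z, hx, rfl⟩
      have k3 : ∀ z, ∃ z', siegel Q (pt e u) (pt e y') (pt e z) = pt e z' := fun z => by
        have := (siegel_mem_Stab (Q := Q) (X := LinearMap.range (ptR e)) ⟨u, rfl⟩ ⟨y', rfl⟩ _).1
          ⟨z, rfl⟩
        obtain ⟨z', hz'⟩ := this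
        exact ⟨z', hz'.symm⟩
      rcases frame_of_no_sing hq hc0 hgood trivial trivial he hx with h | h | h
      · obtain ⟨z', hz'⟩ := k3 z
        exact ⟨e, z', he, by rw [h, hz']⟩
      · obtain ⟨z', hz'⟩ := k3 (-z)
        exact ⟨e, z', he, by rw [h, pt_neg_left, hz']⟩
      · exact ⟨x, z, hx, siegel_fix (by rw [hT, pol_comm, h]; ring) (by rw [hT, pol_comm, h]; ring)⟩
    refine ⟨siegel Q (pt e u) (pt e y), siegel_mem_Om hN (by omega) _ _,
      mem_SetStab_of_maps (hm y e1) ?_, fun hgS => ?_⟩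
    · rw [siegel_inv, ← neg_one_smul F (pt e y), ← pt_smul_right]
      exact hm _ (by rw [pol_smul_right, e1, mul_zero])
    obtain ⟨a, b, hab⟩ := kron_pure hS hgS
    obtain ⟨e', he', he'0⟩ := exists_not_mem (T := perp Q₁ (sp F [e])) (S := ⊥) (by
      have := hN₁.finrank_perp (sp F [e])
      rw [finrank_sp_one he0] at this
      rw [finrank_bot]; simp at this; omega)
    have he'0 : e' ≠ 0 := by simpa using he'0
    have e3 := mem_perp_sp.1 he' e (by simp)
    have hee : polar Q₁ e e ≠ 0 := by rw [pol_self, he]; exact mul_ne_zero h2 hc0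
    have k4 := hab (e + e') w
    rw [pt_add_left, _root_.map_add, siegel_apply k1 k2, siegel_fix (x := pt e' w)
      (by rw [hT, pol_comm, e3]; ring) (by rw [hT, pol_comm, e3]; ring), ← pt_smul_right,
      ← pt_smul_right, ← pt_add_right, ← pt_sub_right] at k4
    have hw0 : w ≠ 0 := by rintro rfl; simp at huw
    obtain ⟨t, ht⟩ := mem_sp_one.1 (pure_dep (fun h => by
      obtain ⟨t, ht⟩ := mem_sp_one.1 h
      apply hee
      nth_rewrite 2 [ht]
      rw [pol_smul_right, e3, mul_zero]) he'0 hw0 k4.symm)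
    have k5 := congrArg (polar Q₂ u) ht
    have k6 := congrArg (polar Q₂ w) ht
    simp only [polar_add_right, polar_sub_right, pol_smul_right, pol_self, hu, hw, huw, e1, e2,
      pol_comm Q₂ w u] at k5 k6
    have k7 : t = 1 := by linear_combination -k5
    have k8 : polar Q (pt e w) (pt e y) + Q (pt e y) * polar Q (pt e w) (pt e u) = 0 := by
      linear_combination -k6
    rw [k7, k8, zero_smul, sub_zero, one_smul, add_eq_left, hT, pol_comm Q₂ w u, huw] at ht
    exact hy0 ((smul_eq_zero.1 ht).resolve_left (mul_ne_zero hc (mul_ne_zero hee one_ne_zero)))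
  · refine Om_not_le_pure (by omega) (by omega) (by omega) hN ?_ (z := pt e u) ⟨e, u, he, rfl⟩ ?_
    · rintro _ ⟨x, y, -, rfl⟩; exact ⟨x, y, rfl⟩
    · intro h0
      have := hT e u e w
      rw [h0, polar_zero_left, pol_self, he, huw] at this
      simp [hc, hc0, h2] at this

theorem tensor_three_not_max {ι : Type} [Fintype ι] [DecidableEq ι] (hq : Nat.card F = 3) {n₂ : ℕ}
    (h3 : 3 ≤ n₂) {Q : (ι → F) → F} (hQ : Geo.IsNondegenerateQuadraticForm Q)
    {e : ι ≃ Fin 3 × Fin n₂} {P : Matrix.GeneralLinearGroup ι F}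
    {f₁ : (Fin 3 → F) → (Fin 3 → F) → F} {f₂ : (Fin n₂ → F) → (Fin n₂ → F) → F}
    (hf₁ : Geo.IsSymmetricForm f₁) (hf₂ : Geo.IsSymmetricForm f₂)
    (hT : Geo.IsTensorFormStructure id (polar Q) f₁ f₂ e P) :
    ∃ M, Geo.tensorProductSubgroup 3 n₂ e P ⊓ Geo.omegaGL Q < M ∧ M < Geo.omegaGL Q := by
  obtain ⟨Q, rfl, hN⟩ := exists_quadraticForm hQ
  obtain ⟨c, hc, hT⟩ := hT
  rw [omegaGL_tr Q e P, Geo.tensorProductSubgroup, map_map_eq_map_tr, ← map_equiv_inf]
  refine between_map _ (kron_three_not_max hq h3 (hN.comp _) hf₁ hf₂ hc fun x y x' y' => ?_)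
  rw [polar_comp_equiv, ← formOfGram_pt hf₁.bilinear hf₂.bilinear, ← hT]
  rfl

theorem not_le_normalizer_zpowers {V : Type*} [AddCommGroup V] [Module F V] [FiniteDimensional F V]
    {Q : QuadraticForm F V} (hN : ND Q) (h7 : 7 ≤ finrank F V) {j : V ≃ₗ[F] V} (hj : j ∈ OG Q)
    (hs : ¬ ∃ c : F, ∀ v, j v = c • v) :
    ∃ g ∈ Om Q, g ∉ Subgroup.normalizer (Subgroup.zpowers j : Set (V ≃ₗ[F] V)) := by
  by_contra h
  push Not at h
  have h1 := Om_le_of_normalized hN h7 (N := Subgroup.zpowers j)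
    (by rwa [Subgroup.zpowers_le]) (fun g hg x hx => (h g hg x).1 hx) (Subgroup.mem_zpowers j) hs
  refine hs (scalar_of_comm hN (by omega) (κ := (j : V →ₗ[F] V)) fun g hg x => ?_)
  obtain ⟨k, rfl⟩ := Subgroup.mem_zpowers_iff.1 (h1 hg)
  change (j * j ^ k) x = (j ^ k * j) x
  rw [← _root_.zpow_one_add, ← _root_.zpow_add_one, add_comm]

theorem mem_normalizer_zpowers {G : Type*} [Group G] {j g : G}
    (h : g * j * g⁻¹ = j ∨ g * j * g⁻¹ = j⁻¹) :
    g ∈ Subgroup.normalizer (Subgroup.zpowers j : Set G) := by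
  have key : ∀ g : G, (g * j * g⁻¹ = j ∨ g * j * g⁻¹ = j⁻¹) → ∀ x ∈ Subgroup.zpowers j,
      g * x * g⁻¹ ∈ Subgroup.zpowers j := by
    intro g h x hx
    obtain ⟨k, rfl⟩ := Subgroup.mem_zpowers_iff.1 hx
    rw [← conj_zpow]
    refine Subgroup.zpow_mem _ ?_ _
    rcases h with h | h <;> rw [h]
    · exact Subgroup.mem_zpowers j
    · exact Subgroup.inv_mem _ (Subgroup.mem_zpowers j)
  intro x
  refine ⟨key g h x, fun hx => ?_⟩
  have := key g⁻¹ (by
    rcases h with h | h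
    · left; conv_lhs => rw [← h]
      group
    · right
      have : j = g * j⁻¹ * g⁻¹ :=
        calc j = (j⁻¹)⁻¹ := (inv_inv j).symm
          _ = (g * j * g⁻¹)⁻¹ := by rw [h]
          _ = _ := by group
      conv_lhs => rw [this]
      group) _ hx
  simpa [mul_assoc] using this

theorem kron_two_not_max (hq : Nat.card F = 2) {n₂ : ℕ} (h4 : 4 ≤ n₂)
    {Q : QuadraticForm F (Fin 2 × Fin n₂ → F)} (hN : ND Q) {f₁ : (Fin 2 → F) → (Fin 2 → F) → F}
    {f₂ : (Fin n₂ → F) → (Fin n₂ → F) → F} (hf₁ : Geo.IsSymplecticForm f₁)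
    (hf₂ : Geo.IsSymplecticForm f₂) {c : F} (hc : c ≠ 0)
    (hT : ∀ x y x' y', polar Q (pt x y) (pt x' y') = c * (f₁ x x' * f₂ y y'))
    (hp : ∀ x y, Q (pt x y) = 0) :
    ∃ M, Geo.kroneckerSubgroup 2 n₂ F ⊓ Geo.omegaGL Q < M ∧ M < Geo.omegaGL Q := by
  have h2 : (2 : F) = 0 := two_eq_zero_of_even_card (by rw [hq]; decide)
  have h11 : (1 : F) + 1 = 0 := by linear_combination h2
  have hone : ∀ a : F, a ≠ 0 → a = 1 := fun a ha => (eq_of_card_two hq a).resolve_left ha
  obtain ⟨S, hS⟩ := exists_pull (Geo.kroneckerSubgroup 2 n₂ F)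
  rw [omegaGL_eq, ← hS, ← pull_inf]
  have hd : finrank F (Fin 2 × Fin n₂ → F) = 2 * n₂ := by rw [finrank_pi_card]; simp
  let ω : (Fin 2 → F) → (Fin 2 → F) := fun x => ![x 1, x 0 + x 1]
  let J : (Fin 2 × Fin n₂ → F) →ₗ[F] (Fin 2 × Fin n₂ → F) :=
    { toFun := fun z a => ω (fun i => z (i, a.2)) a.1
      map_add' := fun z w => by
        ext ⟨i, k⟩
        fin_cases i <;> simp [ω]
        ring
      map_smul' := fun c z => by
        ext ⟨i, k⟩
        fin_cases i <;> simp [ω]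
        ring }
  have hJ : ∀ x y, J (pt x y) = pt (ω x) y := fun x y => by
    ext ⟨i, k⟩
    fin_cases i <;> simp [ω, J, pt]
    ring
  have hJ2 : ∀ z, J (J z) = J z + z := fun z => by
    ext ⟨i, k⟩
    fin_cases i <;> simp [ω, J]
    · ring
    · ring
  have hzz : ∀ z : Fin 2 × Fin n₂ → F, z + z = 0 := fun z => by
    rw [← two_smul F z, h2, zero_smul]
  let j : (Fin 2 × Fin n₂ → F) ≃ₗ[F] (Fin 2 × Fin n₂ → F) :=
    LinearEquiv.ofLinear J (J + LinearMap.id)
      (LinearMap.ext fun z => by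
        simp only [LinearMap.comp_apply, LinearMap.add_apply, LinearMap.id_apply, _root_.map_add,
          hJ2]
        rw [add_right_comm, hzz, zero_add])
      (LinearMap.ext fun z => by
        simp only [LinearMap.comp_apply, LinearMap.add_apply, LinearMap.id_apply, hJ2]
        rw [add_right_comm, hzz, zero_add])
  have hj : ∀ z, j z = J z := fun _ => rfl
  have hj' : ∀ z, j⁻¹ z = J z + z := fun _ => rfl
  have hx2 : ∀ x : Fin 2 → F, x = x 0 • ![1, 0] + x 1 • ![0, 1] := fun x => by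
    ext i; fin_cases i <;> simp
  have hf1 : ∀ x x' : Fin 2 → F, f₁ x x' = (x 0 * x' 1 - x 1 * x' 0) * f₁ ![1, 0] ![0, 1] := by
    intro x x'
    conv_lhs => rw [hx2 x, hx2 x']
    simp only [hf₁.bilinear.add_left, hf₁.bilinear.add_right, hf₁.bilinear.smul_left,
      hf₁.bilinear.smul_right, hf₁.alternating]
    rw [hf₁.skew ![0, 1] ![1, 0]]; ring
  have hδ : f₁ ![1, 0] ![0, 1] = 1 := hone _ fun h => by
    obtain ⟨x, hx⟩ := (hf₁.nondegenerate ![1, 0] (by simp)).1
    exact hx (by rw [hf1, h, mul_zero])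
  have hc1 := hone c hc
  have hT' : ∀ x y x' y', polar Q (pt x y) (pt x' y') = (x 0 * x' 1 - x 1 * x' 0) * f₂ y y' := by
    intro x y x' y'
    rw [hT, hc1, hf1, hδ]; ring
  have hQJ : ∀ z, Q (J z) = Q z := mem_OG_of_span (S := {z | ∃ x y, z = pt x y})
    (fun N hN => pt_span N fun x y => hN _ ⟨x, y, rfl⟩) (by
      rintro _ ⟨x, y, rfl⟩ _ ⟨x', y', rfl⟩
      rw [hJ, hJ, hT', hT']
      simp only [ω, cons_val_zero, cons_val_one]
      linear_combination ((x 1 * x' 0 - x 0 * x' 1) * f₂ y y') * h2) (by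
      rintro _ ⟨x, y, rfl⟩
      rw [hJ, hp, hp])
  have hU : UJ Q J 1 1 := by
    refine ⟨fun z => by rw [hJ2, one_smul, one_smul, sub_eq_add_neg, neg_eq_of_add_eq_zero_right (hzz z)],
      fun z => by rw [hQJ, one_mul], fun z => ?_, fun a b h => ?_⟩
    · have := hQJ (J z)
      rw [hJ2, Q_add, hQJ, pol_comm] at this
      linear_combination this - Q z * h2
    · rcases eq_of_card_two hq a with rfl | rfl <;> rcases eq_of_card_two hq b with rfl | rfl
      · exact ⟨rfl, rfl⟩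
      all_goals exfalso
      · simp at h
      · simp at h
      · exact one_ne_zero (by linear_combination h - h2 : (1 : F) = 0)
  refine between_pull (between_of (T := Subgroup.normalizer (Subgroup.zpowers j : Set _)) ?_ ?_
    (not_le_normalizer_zpowers hN (by omega) (j := j) hQJ ?_))
  · rintro g ⟨hgS, -⟩
    obtain ⟨a, b, hab⟩ := kron_pure hS hgS
    have key : (∀ x, a (ω x) = ω (a x)) ∨ ∀ x, a (ω x) = ω (a x) + a x := by
      have e0 : ∀ x, a x = x 0 • a ![1, 0] + x 1 • a ![0, 1] := fun x => by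
        conv_lhs => rw [hx2 x, _root_.map_add, _root_.map_smul, _root_.map_smul]
      have n1 : a ![1, 0] ≠ 0 := by simp
      have n2 : a ![0, 1] ≠ 0 := by simp
      have n3 : a ![1, 0] ≠ a ![0, 1] := by simp
      generalize a ![1, 0] = p at e0 n1 n3
      generalize a ![0, 1] = q at e0 n2 n3
      have m1 : ¬ (p 0 = 0 ∧ p 1 = 0) := fun h => n1 (by ext i; fin_cases i <;> simp [h])
      have m2 : ¬ (q 0 = 0 ∧ q 1 = 0) := fun h => n2 (by ext i; fin_cases i <;> simp [h])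
      have m3 : ¬ (p 0 = q 0 ∧ p 1 = q 1) := fun h => n3 (by ext i; fin_cases i <;> simp [h])
      simp only [e0, funext_iff, Fin.forall_fin_two, ω, cons_val_zero, cons_val_one, Pi.add_apply,
        Pi.smul_apply, smul_eq_mul]
      rcases eq_of_card_two hq (p 0) with h1 | h1 <;> rcases eq_of_card_two hq (p 1) with h3 | h3 <;>
        rcases eq_of_card_two hq (q 0) with h5 | h5 <;> rcases eq_of_card_two hq (q 1) with h6 | h6 <;>
        simp only [h1, h3, h5, h6, and_self, not_true_eq_false] at m1 m2 m3 ⊢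
      all_goals first
        | (left; intro x; constructor <;> grind)
        | (right; intro x; constructor <;> grind)
    refine mem_normalizer_zpowers (key.imp (fun h => ?_) fun h => ?_)
    · rw [mul_inv_eq_iff_eq_mul]
      refine LinearEquiv.ext fun z => sub_eq_zero.1 (pt_span (LinearMap.ker
        ((g * j).toLinearMap - (j * g).toLinearMap)) (fun x y => sub_eq_zero.2 ?_) z)
      change g (j _) = j (g _)
      rw [hj, hJ, hab, hab, hj, hJ, h]
    · rw [mul_inv_eq_iff_eq_mul]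
      refine LinearEquiv.ext fun z => sub_eq_zero.1 (pt_span (LinearMap.ker
        ((g * j).toLinearMap - (j⁻¹ * g).toLinearMap)) (fun x y => sub_eq_zero.2 ?_) z)
      change g (j _) = j⁻¹ (g _)
      rw [hj, hJ, hab, hab, hj', hJ, h, pt_add_left]
  · let ε : Fin 3 → Fin n₂ → F := fun i => Pi.single ⟨i, by omega⟩ 1
    obtain ⟨y₁, n1, n2, h12⟩ : ∃ y₁, y₁ ≠ 0 ∧ y₁ + ε 0 ≠ 0 ∧ f₂ y₁ (ε 0) = 0 := by
      rcases eq_of_card_two hq (f₂ (ε 1) (ε 0)) with h | h
      · exact ⟨ε 1, fun h => by simpa [ε, Pi.single_apply, Fin.ext_iff] using congrFun h ⟨1, by omega⟩,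
          fun h => by simpa [ε, Pi.single_apply, Fin.ext_iff] using congrFun h ⟨1, by omega⟩, h⟩
      rcases eq_of_card_two hq (f₂ (ε 2) (ε 0)) with h' | h'
      · exact ⟨ε 2, fun h => by simpa [ε, Pi.single_apply, Fin.ext_iff] using congrFun h ⟨2, by omega⟩,
          fun h => by simpa [ε, Pi.single_apply, Fin.ext_iff] using congrFun h ⟨2, by omega⟩, h'⟩
      · exact ⟨ε 1 + ε 2, fun h => by simpa [ε, Pi.single_apply, Fin.ext_iff] using congrFun h ⟨1, by omega⟩,
          fun h => by simpa [ε, Pi.single_apply, Fin.ext_iff] using congrFun h ⟨1, by omega⟩,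
          by rw [hf₂.bilinear.add_left, h, h', h11]⟩
    have n0 : ε 0 ≠ 0 := fun h => by simpa [ε, Pi.single_apply, Fin.ext_iff] using congrFun h ⟨0, by omega⟩
    generalize ε 0 = y₂ at n2 h12 n0
    obtain ⟨z, hz1, hz2⟩ : ∃ z, f₂ z y₁ = 1 ∧ f₂ z y₂ = 1 := by
      obtain ⟨p, hp⟩ := (hf₂.nondegenerate y₁ n1).1
      obtain ⟨q, hq'⟩ := (hf₂.nondegenerate y₂ n0).1
      rcases eq_of_card_two hq (f₂ p y₂) with h | h
      · rcases eq_of_card_two hq (f₂ q y₁) with h' | h'
        · exact ⟨p + q, by rw [hf₂.bilinear.add_left, h', add_zero, hone _ hp],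
            by rw [hf₂.bilinear.add_left, h, zero_add, hone _ hq']⟩
        · exact ⟨q, h', hone _ hq'⟩
      · exact ⟨p, hone _ hp, h⟩
    set v := pt ![1, 0] y₁ + pt ![0, 1] y₂ with hv
    have hQv : Q v = 0 := by rw [hv, Q_add, hp, hp, hT', h12]; ring
    have hJv : J v = pt ![1, 0] y₂ + pt ![0, 1] (y₁ + y₂) := by
      rw [hv, _root_.map_add, hJ, hJ]
      ext ⟨i, k⟩
      fin_cases i <;> simp [ω, pt]
    have hcomm := hU.comm hQv 1
    rw [one_smul] at hcomm
    refine ⟨siegel Q v (J v), siegel_mem_Om hN (by omega) _ _, mem_normalizer_zpowers (Or.inl ?_),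
      fun hgS => ?_⟩
    · rw [mul_inv_eq_iff_eq_mul]
      exact LinearEquiv.ext hcomm
    obtain ⟨a, b, hab⟩ := kron_pure hS hgS
    have k := hab ![1, 0] z
    have e1 : polar Q (pt ![1, 0] z) v = 1 := by
      rw [hv, polar_add_right, hT', hT', hz2]; simp
    have e2 : polar Q (pt ![1, 0] z) (J v) = 0 := by
      rw [hJv, polar_add_right, hT', hT', hf₂.bilinear.add_right, hz1, hz2, h11]; simp
    rw [siegel_apply hQv (by rw [hU.pol_J, hQv, mul_zero]), e1, e2, hQJ, hQv, hJv, zero_mul,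
      add_zero, zero_smul, sub_zero, one_smul, ← add_assoc, ← pt_add_right] at k
    obtain ⟨t, ht⟩ := mem_sp_one.1 (pure_dep (fun h => by
      obtain ⟨t, ht⟩ := mem_sp_one.1 h
      simpa using congrFun ht 0) (by simp) n2 k.symm)
    have := congrArg (fun x => f₂ x y₂) ht
    simp only [hf₂.bilinear.add_left, hf₂.bilinear.smul_left, hz2, h12, hf₂.alternating] at this
    simp at this
  · rintro ⟨t, ht⟩
    have := congrFun (ht (pt ![1, 0] fun _ => 1)) (1, ⟨0, by omega⟩)
    rw [hj, hJ] at this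
    simp [pt, ω] at this

theorem tensor_two_not_max {ι : Type} [Fintype ι] [DecidableEq ι] (hq : Nat.card F = 2) {n₂ : ℕ}
    (h4 : 4 ≤ n₂) {Q : (ι → F) → F} (hQ : Geo.IsNondegenerateQuadraticForm Q)
    {e : ι ≃ Fin 2 × Fin n₂} {P : Matrix.GeneralLinearGroup ι F}
    {f₁ : (Fin 2 → F) → (Fin 2 → F) → F} {f₂ : (Fin n₂ → F) → (Fin n₂ → F) → F}
    (hf₁ : Geo.IsSymplecticForm f₁) (hf₂ : Geo.IsSymplecticForm f₂)
    (hT : Geo.IsTensorFormStructure id (polar Q) f₁ f₂ e P)
    (hp : ∀ (x₁ : Fin 2 → F) (x₂ : Fin n₂ → F), Q ((P : Matrix ι ι F) *ᵥ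
      ((fun a : Fin 2 × Fin n₂ => x₁ a.1 * x₂ a.2) ∘ e)) = 0) :
    ∃ M, Geo.tensorProductSubgroup 2 n₂ e P ⊓ Geo.omegaGL Q < M ∧ M < Geo.omegaGL Q := by
  obtain ⟨Q, rfl, hN⟩ := exists_quadraticForm hQ
  obtain ⟨c, hc, hT⟩ := hT
  rw [omegaGL_tr Q e P, Geo.tensorProductSubgroup, map_map_eq_map_tr, ← map_equiv_inf]
  refine between_map _ (kron_two_not_max hq h4 (hN.comp _) hf₁ hf₂ hc (fun x y x' y' => ?_) hp)
  rw [polar_comp_equiv, ← formOfGram_pt hf₁.bilinear hf₂.bilinear, ← hT]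
  rfl

end Cfsg.Agent.H8
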