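import Cfsg.Agent.H8.Tensor
import Cfsg.Agent.H8.Subfield

/-!
Tensor powers of symplectic spaces of dimension two or four in characteristic two: the stabiliser is
contained in a spin group.
-/

set_option autoImplicit false
set_option linter.unusedSectionVars false
set_option linter.unusedVariables false

namespace Cfsg.Agent.H8

open QuadraticMap Module Matrix Function

section Pure

variable {F : Type*} [Field F] {t : ℕ} {α : Type} [Fintype α] [DecidableEq α]

theorem ptn_eq (xs : Fin t → α → F) (i : Fin t) (a : Fin t → α) :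
    ptn xs a = xs i (a i) * ∏ j ∈ Finset.univ.erase i, xs j (a j) := by
  rw [ptn, Finset.mul_prod_erase _ (fun j => xs j (a j)) (Finset.mem_univ i)]

theorem ptn_update (xs : Fin t → α → F) (i : Fin t) (x : α → F) (a : Fin t → α) :
    ptn (update xs i x) a = x (a i) * ∏ j ∈ Finset.univ.erase i, xs j (a j) := by
  rw [ptn_eq _ i, update_self]
  congr 1
  exact Finset.prod_congr rfl fun j hj => by rw [update_of_ne (Finset.mem_erase.1 hj).1]

theorem ptn_update_add (xs : Fin t → α → F) (i : Fin t) (x y : α → F) :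
    ptn (update xs i (x + y)) = ptn (update xs i x) + ptn (update xs i y) := by
  ext a; simp only [ptn_update, Pi.add_apply]; ring

theorem ptn_update_smul (xs : Fin t → α → F) (i : Fin t) (c : F) (x : α → F) :
    ptn (update xs i (c • x)) = c • ptn (update xs i x) := by
  ext a; simp only [ptn_update, Pi.smul_apply, smul_eq_mul]; ring

/-- an endomorphism acting on the `i`-th tensor factor -/
def opn (i : Fin t) (z : (α → F) →ₗ[F] (α → F)) : ((Fin t → α) → F) →ₗ[F] ((Fin t → α) → F) where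
  toFun := fun w a => z (fun j => w (update a i j)) (a i)
  map_add' := fun v w => by
    ext a; rw [Pi.add_apply, ← Pi.add_apply (z _), ← _root_.map_add]; rfl
  map_smul' := fun c w => by
    ext a; rw [Pi.smul_apply, RingHom.id_apply, ← Pi.smul_apply c (z _), ← _root_.map_smul]; rfl

theorem opn_ptn (i : Fin t) (z : (α → F) →ₗ[F] (α → F)) (xs : Fin t → α → F) :
    opn i z (ptn xs) = ptn (update xs i (z (xs i))) := by
  ext a
  change z (fun j => ptn xs (update a i j)) (a i) = _
  have : (fun j => ptn xs (update a i j)) = (∏ j ∈ Finset.univ.erase i, xs j (a j)) • xs i := by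
    ext j
    rw [ptn_eq _ i, update_self, Pi.smul_apply, smul_eq_mul, mul_comm]
    congr 1
    exact Finset.prod_congr rfl fun j hj => by rw [update_of_ne (Finset.mem_erase.1 hj).1]
  rw [this, _root_.map_smul, ptn_update, Pi.smul_apply, smul_eq_mul, mul_comm]

theorem ptn_span (N : Submodule F ((Fin t → α) → F)) (h : ∀ xs, ptn xs ∈ N)
    (v : (Fin t → α) → F) : v ∈ N := by
  rw [pi_eq_sum_univ' v]
  refine N.sum_mem fun a _ => N.smul_mem _ ?_
  convert h (fun i => Pi.single (a i) 1) using 1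
  ext b
  simp only [ptn, Pi.single_apply]
  by_cases hb : b = a
  · simp [hb]
  · obtain ⟨i, hi⟩ := Function.ne_iff.1 hb
    rw [if_neg hb, Finset.prod_eq_zero (Finset.mem_univ i) (by rw [if_neg hi])]

theorem ptn_ext {W : Type*} [AddCommGroup W] [Module F W] {f g : ((Fin t → α) → F) →ₗ[F] W}
    (h : ∀ xs, f (ptn xs) = g (ptn xs)) : f = g :=
  LinearMap.ext fun v => sub_eq_zero.1 (ptn_span (LinearMap.ker (f - g))
    (fun xs => sub_eq_zero.2 (h xs)) v)

theorem power_form {f : (α → F) → (α → F) → F} (hf : Geo.IsBilinearForm f)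
    (xs ys : Fin t → α → F) :
    ∑ a, ∑ b, ptn xs a * (∏ i, Geo.gramMatrix f (a i) (b i)) * id (ptn ys b) =
      ∏ i, f (xs i) (ys i) := by
  simp only [bilin_eq_sum hf, Finset.prod_univ_sum, Fintype.piFinset_univ, ptn, id,
    Finset.prod_mul_distrib]

end Pure

/-- conjugation action on endomorphisms -/
def cj {F V : Type*} [Field F] [AddCommGroup V] [Module F V] :
    (V ≃ₗ[F] V) →* ((V →ₗ[F] V) ≃ₗ[F] (V →ₗ[F] V)) where
  toFun := fun g => g.conj
  map_one' := by ext; rfl
  map_mul' := fun g h => by ext; rfl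

theorem cj_apply {F V : Type*} [Field F] [AddCommGroup V] [Module F V] (g : V ≃ₗ[F] V)
    (y : V →ₗ[F] V) (v : V) : cj g y v = g (y (g⁻¹ v)) := rfl

theorem cj_eq {F V : Type*} [Field F] [AddCommGroup V] [Module F V] {g : V ≃ₗ[F] V}
    {y y' : V →ₗ[F] V} (h : (g : V →ₗ[F] V) ∘ₗ y = y' ∘ₗ (g : V →ₗ[F] V)) : cj g y = y' := by
  ext v
  rw [cj_apply]
  have := LinearMap.congr_fun h (g⁻¹ v)
  simpa [apply_inv_apply] using this

variable {F : Type*} [Field F] [Finite F]

theorem wreath_spin {k t : ℕ} (h2 : (2 : F) = 0) (ht : 2 ≤ t) (h7 : 7 ≤ k ^ t)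
    {Q : QuadraticForm F ((Fin t → Fin k) → F)} (hN : ND Q) {f : (Fin k → F) → (Fin k → F) → F}
    (hf : Geo.IsSymplecticForm f) {c : F} (hc : c ≠ 0)
    (hT : ∀ xs ys, polar Q (ptn xs) (ptn ys) = c * ∏ i, f (xs i) (ys i)) (hp : ∀ xs, Q (ptn xs) = 0)
    {S₁ : Set ((Fin k → F) →ₗ[F] (Fin k → F))}
    (hconj : ∀ (a : (Fin k → F) ≃ₗ[F] (Fin k → F)) (l : F), (∀ x y, f (a x) (a y) * l = f x y) →
      ∀ y ∈ S₁, ∃ y' ∈ S₁, ∀ v, a (y v) = l • y' (a v))
    {z : (Fin k → F) →ₗ[F] (Fin k → F)} (hz : z ∈ S₁) (hzz : ∀ v, z (z v) = 0)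
    (hadj : ∀ v w, f (z v) w = f v (z w)) (halt : 3 ≤ t ∨ ∀ v, f (z v) v = 0)
    (hanti : ∀ y ∈ S₁, ∃ d : F, ∀ v, z (y v) + y (z v) = d • v)
    {g₁ : (Fin k → F) →ₗ[F] (Fin k → F)} (hg1 : ∀ v, g₁ (g₁ v) = v)
    (hg2 : ∀ v w, f (g₁ v) (g₁ w) = f v w) {v₁ v₂ α α' β β' : Fin k → F}
    (e1 : f (v₁ + g₁ (z (g₁ v₁)) + z (v₁ + g₁ (z (g₁ v₁)))) α ≠ 0)
    (e2 : f (z v₁ + g₁ (z (g₁ v₁))) α = 0) (e3 : f (z v₁ + g₁ (z (g₁ v₁))) α' ≠ 0)
    (e4 : f v₂ β ≠ 0) (e5 : f v₂ β' = 0) (e6 : f (z v₂) β' ≠ 0) :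
    ∃ M, Geo.tensorWreathStandard k t F ⊓ Geo.omegaGL Q < M ∧ M < Geo.omegaGL Q := by
  obtain ⟨S, hS⟩ := exists_pull (Geo.tensorWreathStandard k t F)
  rw [omegaGL_eq, ← hS, ← pull_inf]
  have hd : finrank F ((Fin t → Fin k) → F) = k ^ t := by rw [finrank_pi_card]; simp
  let i0 : Fin t := ⟨0, by omega⟩
  let i1 : Fin t := ⟨1, by omega⟩
  have h01 : i0 ≠ i1 := by simp [i0, i1]
  have hzz' : ∀ w : (Fin t → Fin k) → F, w + w = 0 := fun w => by
    rw [← two_smul F w, h2, zero_smul]
  let L : Submodule F (((Fin t → Fin k) → F) →ₗ[F] ((Fin t → Fin k) → F)) :=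
    Submodule.span F {y | y = LinearMap.id ∨ ∃ i, ∃ z ∈ S₁, y = opn i z}
  have hL1 : LinearMap.id ∈ L := Submodule.subset_span (Or.inl rfl)
  have hL2 : ∀ i, ∀ y ∈ S₁, opn i y ∈ L := fun i y hy => Submodule.subset_span (Or.inr ⟨i, y, hy, rfl⟩)
  have hM : ∀ g : ((Fin t → Fin k) → F) ≃ₗ[F] ((Fin t → Fin k) → F),
      (∀ i, ∀ y ∈ S₁, cj g (opn i y) ∈ L) → g ∈ (Stab L).comap cj := by
    intro g hg
    refine mem_Stab_of_maps fun y hy => ?_
    have : L ≤ L.comap (cj g : _ →ₗ[F] _) := Submodule.span_le.2 (by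
      rintro _ (rfl | ⟨i, y, hy, rfl⟩)
      · have : cj g LinearMap.id = LinearMap.id := cj_eq rfl
        change cj g LinearMap.id ∈ L
        rw [this]; exact hL1
      · exact hg i y hy)
    exact this hy
  have hprod : ∀ (xs ys : Fin t → Fin k → F) (i : Fin t), f (xs i) (ys i) = 0 →
      polar Q (ptn xs) (ptn ys) = 0 := fun xs ys i h => by
    rw [hT, Finset.prod_eq_zero (Finset.mem_univ i) h, mul_zero]
  have hprod' : ∀ (xs ys : Fin t → Fin k → F), (∀ i, f (xs i) (ys i) ≠ 0) →
      polar Q (ptn xs) (ptn ys) ≠ 0 := fun xs ys h => by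
    rw [hT]; exact mul_ne_zero hc (Finset.prod_ne_zero_iff.2 fun i _ => h i)
  have hwr : ∀ (g : ((Fin t → Fin k) → F) ≃ₗ[F] ((Fin t → Fin k) → F))
      (gs : Fin t → (Fin k → F) ≃ₗ[F] (Fin k → F)) (σ : Equiv.Perm (Fin t)),
      (∀ xs, g (ptn xs) = ptn fun i => gs i (xs (σ i))) → g ∈ OG Q → g ∈ (Stab L).comap cj := by
    intro g gs σ hg hgO
    refine hM g fun i y hy => ?_
    obtain ⟨i, rfl⟩ := σ.surjective i
    have hsim : ∀ x x', f (gs i x) (gs i x') * ((∏ j ∈ Finset.univ.erase i, f (gs j v₂) (gs j β)) /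
        ∏ j ∈ Finset.univ.erase (σ i), f v₂ β) = f x x' := by
      intro x x'
      have h1 := OG_pol hgO (ptn (update (fun _ => v₂) (σ i) x)) (ptn (update (fun _ => β) (σ i) x'))
      rw [hg, hg, hT, hT, mul_right_inj' hc,
        ← Finset.mul_prod_erase _ _ (Finset.mem_univ i),
        ← Finset.mul_prod_erase _ _ (Finset.mem_univ (σ i)), update_self, update_self,
        Finset.prod_congr rfl (g := fun j => f (gs j v₂) (gs j β)),
        Finset.prod_congr (s₁ := Finset.univ.erase (σ i)) rfl (g := fun j => f v₂ β)] at h1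
      · rw [← mul_div_assoc, h1, mul_div_assoc, div_self, mul_one]
        exact Finset.prod_ne_zero_iff.2 fun _ _ => e4
      · intro j hj
        rw [update_of_ne (Finset.mem_erase.1 hj).1, update_of_ne (Finset.mem_erase.1 hj).1]
      · intro j hj
        have : σ j ≠ σ i := fun h => (Finset.mem_erase.1 hj).1 (σ.injective h)
        rw [update_of_ne this, update_of_ne this]
    generalize ((∏ j ∈ Finset.univ.erase i, f (gs j v₂) (gs j β)) /
        ∏ j ∈ Finset.univ.erase (σ i), f v₂ β) = l at hsim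
    obtain ⟨y', hy', h1⟩ := hconj _ _ hsim y hy
    rw [cj_eq (y' := l • opn i y') (ptn_ext fun xs => ?_)]
    · exact L.smul_mem _ (hL2 i y' hy')
    · simp only [LinearMap.comp_apply, LinearEquiv.coe_coe, LinearMap.smul_apply]
      rw [opn_ptn, hg, hg, opn_ptn, ← ptn_update_smul, ← h1]
      congr 1
      ext j : 1
      by_cases hj : j = i
      · rw [hj, update_self, update_self]
      · have : σ j ≠ σ i := fun h => hj (σ.injective h)
        rw [update_of_ne this, update_of_ne hj]
  have hcomm : ∀ (i j : Fin t) (y y' : (Fin k → F) →ₗ[F] (Fin k → F)), i ≠ j → ∀ w,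
      opn i y (opn j y' w) = opn j y' (opn i y w) := by
    intro i j y y' hij w
    refine LinearMap.congr_fun (f := opn i y ∘ₗ opn j y') (g := opn j y' ∘ₗ opn i y)
      (ptn_ext fun xs => ?_) w
    simp only [LinearMap.comp_apply, opn_ptn, update_of_ne hij, update_of_ne hij.symm]
    rw [update_comm hij]
  have hsq : ∀ (i : Fin t) w, opn i z (opn i z w) = 0 := by
    intro i w
    refine LinearMap.congr_fun (f := opn i z ∘ₗ opn i z) (g := 0) (ptn_ext fun xs => ?_) w
    simp only [LinearMap.comp_apply, opn_ptn, update_self, update_idem, hzz, LinearMap.zero_apply]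
    rw [← zero_smul F (0 : Fin k → F), ptn_update_smul, zero_smul]
  have hanti' : ∀ (i : Fin t), ∀ y ∈ S₁, ∃ d : F, ∀ w,
      opn i z (opn i y w) + opn i y (opn i z w) = d • w := by
    intro i y hy
    obtain ⟨d, hd⟩ := hanti y hy
    refine ⟨d, LinearMap.congr_fun (f := opn i z ∘ₗ opn i y + opn i y ∘ₗ opn i z)
      (g := d • LinearMap.id) (ptn_ext fun xs => ?_)⟩
    simp only [LinearMap.comp_apply, LinearMap.add_apply, opn_ptn, update_self, update_idem,
      LinearMap.smul_apply, LinearMap.id_apply]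
    rw [← ptn_update_add, hd, ptn_update_smul, update_eq_self]
  let X : ((Fin t → Fin k) → F) →ₗ[F] ((Fin t → Fin k) → F) := LinearMap.id + opn i0 z + opn i1 z
  have hX : ∀ w, X w = w + opn i0 z w + opn i1 z w := fun _ => rfl
  have hXX : ∀ w, X (X w) = w := fun w => by
    rw [hX, hX]
    simp only [_root_.map_add, hsq, hcomm i1 i0 z z h01.symm]
    linear_combination (norm := module) hzz' (opn i0 z w) + hzz' (opn i1 z w) +
      hzz' (opn i0 z (opn i1 z w))
  let x : ((Fin t → Fin k) → F) ≃ₗ[F] ((Fin t → Fin k) → F) := LinearEquiv.ofInvolutive X hXX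
  have hx : ∀ w, x w = X w := fun _ => rfl
  have hxL : X ∈ L := L.add_mem (L.add_mem hL1 (hL2 _ _ hz)) (hL2 _ _ hz)
  have hxM : x ∈ (Stab L).comap cj := by
    refine hM x fun i y hy => ?_
    obtain ⟨d, hd⟩ : ∃ d : F, ∀ w, X (opn i y w) + opn i y (X w) = d • w := by
      by_cases h0 : i = i0
      · obtain ⟨d, hd⟩ := hanti' i0 y hy
        refine ⟨d, fun w => ?_⟩
        rw [h0, hX, hX, _root_.map_add, _root_.map_add, hcomm i1 i0 z y h01.symm]
        linear_combination (norm := module) hd w + hzz' (opn i0 y w) + hzz' (opn i0 y (opn i1 z w))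
      by_cases h1 : i = i1
      · obtain ⟨d, hd⟩ := hanti' i1 y hy
        refine ⟨d, fun w => ?_⟩
        rw [h1, hX, hX, _root_.map_add, _root_.map_add, hcomm i0 i1 z y h01]
        linear_combination (norm := module) hd w + hzz' (opn i1 y w) + hzz' (opn i1 y (opn i0 z w))
      · refine ⟨0, fun w => ?_⟩
        rw [hX, hX, _root_.map_add, _root_.map_add, hcomm i0 i z y (Ne.symm h0),
          hcomm i1 i z y (Ne.symm h1), hzz', zero_smul]
    rw [cj_eq (y' := d • X + opn i y) (LinearMap.ext fun w => ?_)]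
    · exact L.add_mem (L.smul_mem _ hxL) (hL2 i y hy)
    · change X (opn i y w) = d • X (X w) + opn i y (X w)
      rw [hXX]
      linear_combination (norm := module) hd w - hzz' (opn i y (X w))
  have hpol : ∀ (i : Fin t) (xs ys : Fin t → Fin k → F),
      polar Q (opn i z (ptn xs)) (ptn ys) = polar Q (ptn xs) (opn i z (ptn ys)) := by
    intro i xs ys
    rw [opn_ptn, opn_ptn, hT, hT, ← Finset.mul_prod_erase _ _ (Finset.mem_univ i),
      ← Finset.mul_prod_erase _ _ (Finset.mem_univ i), update_self, update_self, hadj]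
    congr 2
    exact Finset.prod_congr rfl fun j hj => by
      rw [update_of_ne (Finset.mem_erase.1 hj).1, update_of_ne (Finset.mem_erase.1 hj).1]
  have hspan : ∀ N : Submodule F ((Fin t → Fin k) → F), (∀ w ∈ {w | ∃ xs, w = ptn xs}, w ∈ N) →
      ∀ v, v ∈ N := fun N hN => ptn_span N fun xs => hN _ ⟨xs, rfl⟩
  have hxO : x ∈ OG Q := by
    refine mem_OG_of_span (g := X) hspan ?_ ?_
    · rintro _ ⟨xs, rfl⟩ _ ⟨ys, rfl⟩
      have k1 : ∀ ys, polar Q (X (ptn xs)) (ptn ys) = polar Q (ptn xs) (X (ptn ys)) := fun ys => by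
        rw [hX, hX, polar_add_left, polar_add_left, polar_add_right, polar_add_right, hpol, hpol]
      have k2 : ∀ w, polar Q (X (ptn xs)) w = polar Q (ptn xs) (X w) :=
        LinearMap.congr_fun (f := Q.polarBilin (X (ptn xs))) (g := Q.polarBilin (ptn xs) ∘ₗ X)
          (ptn_ext k1)
      rw [k2, hXX]
    · rintro _ ⟨xs, rfl⟩
      rw [hX, opn_ptn, opn_ptn, Q_add, Q_add, polar_add_left, hp, hp, hp,
        hprod _ _ i1 (by rw [update_of_ne h01.symm, hf.alternating]),
        hprod _ _ i0 (by rw [update_of_ne h01, hf.alternating])]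
      rcases halt with h | h
      · rw [hprod _ _ ⟨2, h⟩ (by
          rw [update_of_ne (by simp [i0]), update_of_ne (by simp [i1]), hf.alternating])]; ring
      · rw [hprod _ _ i0 (by rw [update_self, update_of_ne h01, h])]; ring
  have hGG : ∀ w, opn i0 g₁ (opn i0 g₁ w) = w :=
    LinearMap.congr_fun (f := opn i0 g₁ ∘ₗ opn i0 g₁) (g := LinearMap.id) (ptn_ext fun xs => by
      simp only [LinearMap.comp_apply, opn_ptn, update_self, update_idem, hg1, update_eq_self,
        LinearMap.id_apply])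
  let g : ((Fin t → Fin k) → F) ≃ₗ[F] ((Fin t → Fin k) → F) :=
    LinearEquiv.ofInvolutive (opn i0 g₁) hGG
  have hg : ∀ w, g w = opn i0 g₁ w := fun _ => rfl
  have hgO : g ∈ OG Q := by
    refine mem_OG_of_span (g := opn i0 g₁) hspan ?_ ?_
    · rintro _ ⟨xs, rfl⟩ _ ⟨ys, rfl⟩
      rw [opn_ptn, opn_ptn, hT, hT]
      congr 1
      refine Finset.prod_congr rfl fun j _ => ?_
      by_cases hj : j = i0
      · rw [hj, update_self, update_self, hg2]
      · rw [update_of_ne hj, update_of_ne hj]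
    · rintro _ ⟨xs, rfl⟩
      rw [opn_ptn, hp, hp]
  have hgM : g ∈ (Stab L).comap cj :=
    hwr g (update (fun _ => 1) i0 (LinearEquiv.ofInvolutive g₁ hg1)) 1 (fun xs => by
      rw [hg, opn_ptn]
      congr 1
      ext j : 1
      by_cases hj : j = i0
      · rw [hj, update_self, update_self]; rfl
      · rw [update_of_ne hj, update_of_ne hj]; rfl) hgO
  have hwr' : ∀ g ∈ S, ∃ (gs : Fin t → (Fin k → F) ≃ₗ[F] (Fin k → F)) (σ : Equiv.Perm (Fin t)),
      ∀ xs, g (ptn xs) = ptn fun i => gs i (xs (σ i)) := by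
    intro g hg
    obtain ⟨g, rfl⟩ := toLE.surjective g
    rw [← mem_pull, hS] at hg
    obtain ⟨gs, σ, h⟩ := tensorWreath_normal hg
    exact ⟨fun i => toLE (gs i), σ, h⟩
  refine between_pull (between_of (T := (Stab L).comap cj) ?_ ⟨x * g * x⁻¹ * g⁻¹,
    comm_mem_Om hxO hgO, Subgroup.mul_mem _ (Subgroup.mul_mem _ (Subgroup.mul_mem _ hxM hgM)
      (Subgroup.inv_mem _ hxM)) (Subgroup.inv_mem _ hgM), fun hmem => ?_⟩ ?_)
  · rintro g ⟨hg, hgO⟩
    obtain ⟨gs, σ, h⟩ := hwr' g hg
    exact hwr g gs σ h (Om_le_OG hgO)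
  · obtain ⟨gs, σ, h⟩ := hwr' _ hmem
    have k0 := h (update (fun _ => v₂) i0 v₁)
    generalize (fun i => gs i (update (fun _ => v₂) i0 v₁ (σ i))) = ws at k0
    have k' : ptn ws = ptn (update (fun _ => v₂) i0 (v₁ + g₁ (z (g₁ v₁)) + z (v₁ + g₁ (z (g₁ v₁))))) +
        ptn (update (update (fun _ => v₂) i1 (z v₂)) i0 (z v₁ + g₁ (z (g₁ v₁)))) := by
      rw [← k0]
      change X (opn i0 g₁ (X (opn i0 g₁ _))) = _
      simp only [hX, _root_.map_add, opn_ptn, update_self, update_idem, hg1, update_of_ne h01,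
        update_of_ne h01.symm, hzz, ptn_update_add, update_comm h01]
      have hz0 : ptn (update (update (fun _ => v₂) i1 0) i0 v₁) = 0 := by
        ext a
        rw [ptn_eq _ i1, update_of_ne h01.symm, update_self]; simp
      rw [hz0]
      linear_combination (norm := module) hzz' (ptn (update (update (fun _ => v₂) i1 (z v₂)) i0 v₁))
    have p1 : polar Q (ptn ws) (ptn (update (fun _ => β) i0 α)) ≠ 0 := by
      rw [k', polar_add_left, hprod (update _ i0 (z v₁ + _)) _ i0 (by rwa [update_self, update_self]),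
        add_zero]
      refine hprod' _ _ fun i => ?_
      by_cases hi : i = i0
      · rwa [hi, update_self, update_self]
      · rwa [update_of_ne hi, update_of_ne hi]
    have p2 : polar Q (ptn ws) (ptn (update (update (fun _ => β) i1 β') i0 α')) ≠ 0 := by
      rw [k', polar_add_left, hprod _ _ i1 (by
        rwa [update_of_ne h01.symm, update_of_ne h01.symm, update_self]), zero_add]
      refine hprod' _ _ fun i => ?_
      by_cases hi : i = i0
      · rwa [hi, update_self, update_self]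
      · rw [update_of_ne hi, update_of_ne hi]
        by_cases hi' : i = i1
        · rwa [hi', update_self, update_self]
        · rwa [update_of_ne hi', update_of_ne hi']
    have p3 : polar Q (ptn ws) (ptn (update (update (fun _ => β) i1 β') i0 α)) = 0 := by
      rw [k', polar_add_left, hprod _ _ i1 (by
        rwa [update_of_ne h01.symm, update_of_ne h01.symm, update_self]),
        hprod _ _ i0 (by rwa [update_self, update_self]), add_zero]
    refine hprod' _ _ (fun i h0 => ?_) p3
    by_cases hi : i = i0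
    · rw [hi, update_self] at h0
      exact p1 (hprod _ _ i0 (by rwa [update_self]))
    · rw [update_of_ne hi] at h0
      exact p2 (hprod _ _ i (by rwa [update_of_ne hi]))
  · by_contra hall
    push Not at hall
    let u := ptn fun _ : Fin t => v₂
    let r := ptn (update (fun _ : Fin t => v₂) i1 (z v₂))
    have hLr : ∀ y ∈ L, polar Q r (y u) = 0 := by
      intro y hy
      have : L ≤ LinearMap.ker ((Q.polarBilin r) ∘ₗ LinearMap.applyₗ u) := Submodule.span_le.2 (by
        rintro _ (rfl | ⟨i, y, hy, rfl⟩)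
        · exact hprod _ _ i0 (by rw [update_of_ne h01, hf.alternating])
        · change polar Q r (opn i y u) = 0
          rw [opn_ptn]
          by_cases hi : i = i0
          · rcases halt with h | h
            · exact hprod _ _ ⟨2, h⟩ (by
                rw [update_of_ne (by simp [i1]), update_of_ne (by simp [hi, i0]), hf.alternating])
            · exact hprod _ _ i1 (by rw [update_self, update_of_ne (by rw [hi]; exact h01.symm), h])
          · exact hprod _ _ i0 (by rw [update_of_ne h01, update_of_ne (Ne.symm hi), hf.alternating]))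
      exact this hy
    let T : Submodule F ((Fin t → Fin k) → F) :=
      { carrier := {v | polar Q u v = 0 ∧ ∀ s ∈ Om Q, s u = u → polar Q r (s v) = 0}
        add_mem' := fun ha hb => ⟨by rw [polar_add_right, ha.1, hb.1, add_zero], fun s hs h => by
          rw [_root_.map_add, polar_add_right, ha.2 s hs h, hb.2 s hs h, add_zero]⟩
        zero_mem' := ⟨by simp, fun s _ _ => by simp⟩
        smul_mem' := fun c v hv => ⟨by rw [pol_smul_right, hv.1, mul_zero], fun s hs h => by
          rw [_root_.map_smul, pol_smul_right, hv.2 s hs h, mul_zero]⟩ }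
    have hu0 : u ≠ 0 := fun h => hprod' (fun _ => v₂) (fun _ => β) (fun _ => e4) (by
      change polar Q u _ = 0
      rw [h, polar_zero_left])
    have key := perp_le_of_invariant hN (by omega) (hp _) hu0 (T := T) (fun _ h => h.1)
      ⟨by rw [pol_self, hp, mul_zero], fun s _ h => by rw [h]; exact hLr _ hL1⟩
      (fun a b ha hab h1 h3 w hw => ⟨by
        have := OG_pol (siegel_mem_OG (Q := Q) a b) u w
        rwa [show siegel Q a b u = u from siegel_fix h1 h3, hw.1] at this, fun s hs h =>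
        hw.2 (s * siegel Q a b) ((Om Q).mul_mem hs (siegel_mem_Om hN (by omega) a b)) (by
          change s (siegel Q a b u) = u
          rw [show siegel Q a b u = u from siegel_fix h1 h3, h])⟩)
      (x := opn i0 z u) ⟨by
        rw [opn_ptn]; exact hprod _ _ i1 (by rw [update_of_ne h01.symm, hf.alternating]),
        fun s hs h => by
          have := hLr _ ((hall s hs _).1 (hL2 i0 z hz))
          rwa [cj_apply, inv_apply_eq h] at this⟩
      (fun h => by
        obtain ⟨d, hd⟩ := mem_sp_one.1 h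
        refine hprod' (update (fun _ => v₂) i0 (z v₂)) (update (fun _ => β) i0 β') (fun i => ?_) ?_
        · by_cases hi : i = i0
          · rwa [hi, update_self, update_self]
          · rwa [update_of_ne hi, update_of_ne hi]
        · rw [← opn_ptn, hd, pol_smul_left, hprod _ _ i0 (by rwa [update_self]), mul_zero])
      (y := ptn (update (fun _ => β) i1 β')) (hprod _ _ i1 (by rwa [update_self]))
    refine hprod' _ _ (fun i => ?_) (key.2 1 (Om Q).one_mem rfl)
    by_cases hi : i = i1
    · rwa [hi, update_self, update_self]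
    · rwa [update_of_ne hi, update_of_ne hi]

section Inst

variable {k : ℕ} {f : (Fin k → F) → (Fin k → F) → F}

/-- the map `v ↦ f v p • q` -/
def rk1 (hf : Geo.IsSymplecticForm f) (p q : Fin k → F) : (Fin k → F) →ₗ[F] (Fin k → F) :=
  ((bilOf hf.bilinear).flip p).smulRight q

theorem rk1_apply (hf : Geo.IsSymplecticForm f) (p q v : Fin k → F) : rk1 hf p q v = f v p • q := rfl

theorem symp_eq_sum (hf : Geo.IsSymplecticForm f) (x y : Fin k → F) :
    f x y = ∑ a, ∑ b, x a * f (Pi.single a 1) (Pi.single b 1) * y b := bilin_eq_sum hf.bilinear x y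

theorem pf_two {f : (Fin 2 → F) → (Fin 2 → F) → F} (hf : Geo.IsSymplecticForm f)
    (v p q : Fin 2 → F) : f p q • v - f v q • p + f v p • q = 0 := by
  rw [symp_eq_sum hf p, symp_eq_sum hf v, symp_eq_sum hf v]
  simp only [Fin.sum_univ_two, hf.alternating, hf.skew (Pi.single 1 1) (Pi.single 0 1)]
  ext i
  fin_cases i <;> simp <;> ring

theorem pf_four {f : (Fin 4 → F) → (Fin 4 → F) → F} (hf : Geo.IsSymplecticForm f)
    (v p q r s : Fin 4 → F) :
    (f p q * f r s - f p r * f q s + f p s * f q r) • v -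
      (f v q * f r s - f v r * f q s + f v s * f q r) • p +
      (f v p * f r s - f v r * f p s + f v s * f p r) • q -
      (f v p * f q s - f v q * f p s + f v s * f p q) • r +
      (f v p * f q r - f v q * f p r + f v r * f p q) • s = 0 := by
  simp only [symp_eq_sum hf p, symp_eq_sum hf v, symp_eq_sum hf q, symp_eq_sum hf r]
  simp only [Fin.sum_univ_four, hf.alternating, hf.skew (Pi.single 1 1) (Pi.single 0 1),
    hf.skew (Pi.single 2 1) (Pi.single 0 1), hf.skew (Pi.single 3 1) (Pi.single 0 1),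
    hf.skew (Pi.single 2 1) (Pi.single 1 1), hf.skew (Pi.single 3 1) (Pi.single 1 1),
    hf.skew (Pi.single 3 1) (Pi.single 2 1)]
  generalize f (Pi.single 0 1) (Pi.single 1 1) = g1
  generalize f (Pi.single 0 1) (Pi.single 2 1) = g2
  generalize f (Pi.single 0 1) (Pi.single 3 1) = g3
  generalize f (Pi.single 1 1) (Pi.single 2 1) = g4
  generalize f (Pi.single 1 1) (Pi.single 3 1) = g5
  generalize f (Pi.single 2 1) (Pi.single 3 1) = g6
  ext i
  simp only [Pi.add_apply, Pi.sub_apply, Pi.smul_apply, smul_eq_mul, Pi.zero_apply]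
  fin_cases i <;> simp only [Fin.zero_eta, Fin.mk_one, Fin.reduceFinMk] <;> ring

theorem exists_symp_pair (hf : Geo.IsSymplecticForm f) {x : Fin k → F} (hx : x ≠ 0) :
    ∃ y, f x y = 1 := by
  obtain ⟨y, hy⟩ := (hf.nondegenerate x hx).2
  exact ⟨(f x y)⁻¹ • y, by rw [hf.bilinear.smul_right, inv_mul_cancel₀ hy]⟩

theorem wreath_small {t : ℕ} (h2 : (2 : F) = 0) (ht : 2 ≤ t) (h7 : 7 ≤ k ^ t) (hk : k ≤ 4)
    {Q : QuadraticForm F ((Fin t → Fin k) → F)} (hN : ND Q) (hf : Geo.IsSymplecticForm f) {c : F}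
    (hc : c ≠ 0) (hT : ∀ xs ys, polar Q (ptn xs) (ptn ys) = c * ∏ i, f (xs i) (ys i))
    (hp : ∀ xs, Q (ptn xs) = 0) :
    ∃ M, Geo.tensorWreathStandard k t F ⊓ Geo.omegaGL Q < M ∧ M < Geo.omegaGL Q := by
  have hs : ∀ x y, f y x = f x y := fun x y => by
    rw [hf.skew]; linear_combination (-f x y) * h2
  have hzz : ∀ w : Fin k → F, w + w = 0 := fun w => by rw [← two_smul F w, h2, zero_smul]
  have hb := hf.bilinear
  have hk2 : 2 ≤ k := by
    by_contra h
    have : k ^ t ≤ 1 ^ t := Nat.pow_le_pow_left (by omega) t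
    rw [one_pow] at this; omega
  obtain ⟨q, hq⟩ := exists_symp_pair hf (x := Pi.single ⟨0, by omega⟩ 1) (by simp)
  generalize (Pi.single ⟨0, by omega⟩ 1 : Fin k → F) = p at hq
  obtain ⟨g₁, hg₁⟩ : ∃ g₁ : (Fin k → F) →ₗ[F] (Fin k → F), ∀ v, g₁ v = v + f v (p + q) • (p + q) :=
    ⟨LinearMap.id + rk1 hf (p + q) (p + q), fun _ => rfl⟩
  have hg1 : ∀ v, g₁ (g₁ v) = v := fun v => by
    simp only [hg₁, hb.add_left v, hb.smul_left, hf.alternating]
    linear_combination (norm := module) hzz (f v (p + q) • (p + q))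
  have hg2 : ∀ v w, f (g₁ v) (g₁ w) = f v w := fun v w => by
    simp only [hg₁]
    generalize p + q = r
    rw [hb.add_left, hb.add_right, hb.add_right, hb.smul_left, hb.smul_right, hb.smul_left,
      hb.smul_right, hf.alternating, hs w r]
    linear_combination (f w r * f v r) * h2
  have hqp : f q p = 1 := by rw [hs, hq]
  have h11 : (1 : F) + 1 = 0 := by linear_combination h2
  have hf0 : ∀ x, f 0 x = 0 := fun x => by
    rw [← zero_smul F (0 : Fin k → F), hb.smul_left, zero_mul]
  by_cases hk3 : k = 2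
  · subst hk3
    have ht3 : 3 ≤ t := by
      by_contra h
      have : t = 2 := by omega
      rw [this] at h7; omega
    refine wreath_spin h2 ht h7 hN hf hc hT hp (S₁ := {y | ∃ r, y = rk1 hf r r}) ?_
      (z := rk1 hf p p) ⟨p, rfl⟩ (fun v => ?_) (fun v w => ?_) (Or.inl ht3) ?_ hg1 hg2
      (v₁ := q) (v₂ := q) (α := p) (α' := q) (β := p) (β' := q) ?_ ?_ ?_ ?_ ?_ ?_
    · rintro a l hl _ ⟨r, rfl⟩
      exact ⟨_, ⟨a r, rfl⟩, fun v => by rw [rk1_apply, rk1_apply, _root_.map_smul, smul_smul, ← hl,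
        mul_comm]⟩
    · simp [rk1_apply, hf.alternating]
    · rw [rk1_apply, rk1_apply, hb.smul_left, hb.smul_right, hs p w]; ring
    · rintro _ ⟨r, rfl⟩
      refine ⟨f p r * f p r, fun v => ?_⟩
      simp only [rk1_apply, hb.smul_left, hs p r]
      linear_combination (norm := module) (-f p r) • pf_two hf v p r +
        hzz ((f p r * f v p) • r)
    all_goals simp [hg₁, rk1_apply, hb.add_left, hb.add_right, hb.smul_left, hf.alternating, hq, hqp,
      h11, hf0]
  have proj : ∀ x, f (x + f x q • p + f x p • q) p = 0 ∧ f (x + f x q • p + f x p • q) q = 0 :=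
    fun x => by
      simp only [hb.add_left, hb.smul_left, hf.alternating, hq, hqp]
      exact ⟨by linear_combination f x p * h2, by linear_combination f x q * h2⟩
  obtain ⟨x, -, hx⟩ := exists_not_mem (T := ⊤) (S := sp F [p, q]) (by
    have := finrank_sp_le (F := F) [p, q]
    simp at this ⊢; omega)
  have n1 : x + f x q • p + f x p • q ∉ sp F [p, q] := fun h => hx (by
    have := Submodule.sub_mem _ h (mem_sp_two.2 ⟨f x q, f x p, rfl⟩)
    rwa [add_assoc, add_sub_cancel_right] at this)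
  obtain ⟨a1, a2⟩ := proj x
  generalize x + f x q • p + f x p • q = p' at n1 a1 a2
  obtain ⟨y, hy⟩ := exists_symp_pair hf (x := p') (by
    rintro rfl; exact n1 (Submodule.zero_mem _))
  obtain ⟨a3, a4⟩ := proj y
  have a5 : f p' (y + f y q • p + f y p • q) = 1 := by
    rw [hb.add_right, hb.add_right, hb.smul_right, hb.smul_right, a1, a2, hy]; ring
  generalize y + f y q • p + f y p • q = q' at a3 a4 a5
  have hk4 : k = 4 := by
    have n2 : q' ∉ sp F [p', p, q] := fun h => by
      obtain ⟨c1, c2, c3, h⟩ := mem_sp_three.1 h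
      rw [h, hb.add_right, hb.add_right, hb.smul_right, hb.smul_right, hb.smul_right, a1, a2,
        hf.alternating] at a5
      simp at a5
    have n3 : p ∉ sp F [q] := fun h => by
      obtain ⟨c1, h⟩ := mem_sp_one.1 h
      rw [h, hb.smul_left, hf.alternating] at hq
      simp at hq
    have n4 : q ≠ 0 := fun h => by
      rw [h, ← zero_smul F (0 : Fin k → F), hb.smul_right] at hq
      simp at hq
    have := Submodule.finrank_le (sp F [q', p', p, q])
    rw [finrank_sp_cons n2, finrank_sp_cons n1, finrank_sp_cons n3, finrank_sp_one n4] at this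
    simp at this; omega
  subst hk4
  have b1 : f p p' = 0 := by rw [hs, a1]
  have b2 : f q p' = 0 := by rw [hs, a2]
  have b3 : f p q' = 0 := by rw [hs, a3]
  have b4 : f q q' = 0 := by rw [hs, a4]
  have b5 : f q' p' = 1 := by rw [hs, a5]
  refine wreath_spin h2 ht h7 hN hf hc hT hp
    (S₁ := {y | ∃ r s, f r s = 0 ∧ y = rk1 hf r s + rk1 hf s r}) ?_
    (z := rk1 hf p p' + rk1 hf p' p) ⟨p, p', b1, rfl⟩ (fun v => ?_) (fun v w => ?_)
    (Or.inr fun v => ?_) ?_ hg1 hg2
    (v₁ := q') (v₂ := q') (α := p') (α' := p) (β := p') (β' := q) ?_ ?_ ?_ ?_ ?_ ?_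
  · rintro a l hl _ ⟨r, s, hrs, rfl⟩
    have hl0 : l ≠ 0 := by rintro rfl; rw [← hl] at hq; simp at hq
    refine ⟨_, ⟨a r, a s, ?_, rfl⟩, fun v => ?_⟩
    · rw [← hl] at hrs; exact (mul_eq_zero.1 hrs).resolve_right hl0
    · simp only [LinearMap.add_apply, rk1_apply, _root_.map_add, _root_.map_smul, ← hl v]
      module
  · simp [rk1_apply, hf.alternating, hb.add_left, hb.smul_left, a1, b1]
  · simp only [LinearMap.add_apply, rk1_apply, hb.add_left, hb.add_right, hb.smul_left,
      hb.smul_right, hs p w, hs p' w]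
    rw [hs w p, hs w p']; ring
  · simp only [LinearMap.add_apply, rk1_apply, hb.add_left, hb.smul_left, hs v]
    linear_combination (f v p * f v p') * h2
  · rintro _ ⟨r, s, hrs, rfl⟩
    refine ⟨f p r * f p' s + f p s * f p' r, fun v => ?_⟩
    have k1 := pf_four hf v p p' r s
    simp only [LinearMap.add_apply, rk1_apply, hb.add_left, hb.smul_left, hs p r, hs p s, hs p' r,
      hs p' s]
    rw [b1, hrs] at k1
    ext i
    have k2 := congrFun k1 i
    simp only [Pi.add_apply, Pi.sub_apply, Pi.smul_apply, smul_eq_mul, Pi.zero_apply] at k2 ⊢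
    linear_combination k2 + (f v r * f p s * p' i + f v s * f p' r * p i + f v p * f p' s * r i +
      f v p' * f p r * s i - f p s * f p' r * v i) * h2
  all_goals simp [hg₁, rk1_apply, hb.add_left, hb.add_right, hb.smul_left, hf.alternating, hq, hqp,
    h11, a1, a2, a3, a4, a5, b1, b2, b3, b4, b5]

theorem tensorWreath_small_not_max {ι : Type} [Fintype ι] [DecidableEq ι] {t : ℕ}
    (h2 : (2 : F) = 0) (ht : 2 ≤ t) (h7 : 7 ≤ Fintype.card ι) (hk : k ≤ 4) {Q : (ι → F) → F}
    (hQ : Geo.IsNondegenerateQuadraticForm Q) {e : ι ≃ (Fin t → Fin k)}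
    {P : Matrix.GeneralLinearGroup ι F} (hf : Geo.IsSymplecticForm f)
    (hT : Geo.IsTensorPowerFormStructure id (polar Q) f e P)
    (hp : ∀ xs : Fin t → (Fin k → F), Q ((P : Matrix ι ι F) *ᵥ
      ((fun a : Fin t → Fin k => ∏ i, xs i (a i)) ∘ e)) = 0) :
    ∃ M, Geo.tensorWreathSubgroup k t e P ⊓ Geo.omegaGL Q < M ∧ M < Geo.omegaGL Q := by
  obtain ⟨Q, rfl, hN⟩ := exists_quadraticForm hQ
  obtain ⟨c, hc, hT⟩ := hT
  rw [omegaGL_tr Q e P, Geo.tensorWreathSubgroup, map_map_eq_map_tr, ← map_equiv_inf]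
  rw [Fintype.card_congr e] at h7
  refine between_map _ (wreath_small h2 ht (by simpa using h7) hk (hN.comp _) hf hc
    (fun xs ys => ?_) hp)
  rw [polar_comp_equiv, ← power_form hf.bilinear, ← hT]
  rfl

end Inst

end Cfsg.Agent.H8
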