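import Cfsg.Agent.H8.U3Five

/-! The algebraic part of the identification of the unital. -/

set_option autoImplicit false

namespace Cfsg.Agent.H8.U3

variable {F : Type*} [Field F]

/-- algebraic data coming from the block fixed by an involution -/
structure AD (σ : F →+* F) (q k : ℕ) (κ : F → F) (Γ : Set F) : Prop where
  fix : ∀ x, x ≠ 0 → σ (κ x) = κ x
  ne : ∀ x, x ≠ 0 → κ x ≠ 0
  cls : ∀ x, x ≠ 0 → ∀ l : F, l ^ ((q - 1) * k) = 1 → κ (l * x) = l * σ l * κ x
  card : Γ.ncard = q + 1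
  ne0 : ∀ x ∈ Γ, x ≠ 0
  mulK : ∀ x ∈ Γ, ∀ m : F, m ^ k = 1 → m * x ∈ Γ
  sq : ∀ x ∈ Γ, ∀ y ∈ Γ, κ x * κ x = κ y * κ y
  rel : ∀ x ∈ Γ, ∀ y ∈ Γ, y ≠ x →
    4 * κ x * κ (y - x) = κ (y - x) * κ (y - x) - (σ x * y - x * σ y) ^ 2 / 4

variable [Fintype F] {σ : F →+* F} {q : ℕ}

theorem FD.cls_pow (hF : FD F σ q) {k : ℕ} (hk : Even k) {m : F} (h1 : m * σ m = 1) (h2 : m ≠ 1) :
    (m - 1) ^ ((q - 1) * k) * m ^ k = 1 := by
  have h3 : m - 1 ≠ 0 := sub_ne_zero.2 h2
  rw [pow_mul, ← mul_pow, hF.pow_sub_one h3]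
  refine Eq.trans ?_ (hk.neg_one_pow (α := F))
  congr 1
  rw [map_sub, map_one]
  field_simp
  linear_combination h1

theorem FD.norm_one (hF : FD F σ q) {d k : ℕ} (hk : q + 1 = d * k) {m : F} (h : m ^ k = 1) :
    m * σ m = 1 := by rw [hF.norm_eq, hk, mul_comm, pow_mul, h, one_pow]

namespace AD

variable {d k : ℕ} {κ : F → F} {Γ : Set F} (hF : FD F σ q) (A : AD σ q k κ Γ)
include hF A

theorem good_five (hq : q = 5) (hk : k = 2) :
    (∀ x, x ≠ 0 → 4 * (κ x * κ x) = (x * σ x) ^ 2) ∧ ∀ x ∈ Γ, ∀ y ∈ Γ, x * σ x = y * σ y := by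
  subst hq hk
  have h5 := hF.five rfl
  have h2 := hF.two_ne
  have : CharP F 5 := by
    have : ringChar F = 5 := CharP.ringChar_of_prime_eq_zero Nat.prime_five (by exact_mod_cast h5)
    exact this ▸ ringChar.charP F
  let φ : ZMod 5 →+* F := ZMod.castHom (dvd_refl 5) F
  have φi : Function.Injective φ := ZMod.castHom_injective F
  have φσ : ∀ a, σ (φ a) = φ a := fun a => by
    obtain ⟨n, rfl⟩ := ZMod.natCast_zmod_surjective a
    simp only [map_natCast]
  have φs : ∀ a, σ a = a → ∃ b, φ b = a := fun a ha => by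
    obtain ⟨n, -, rfl⟩ := hF.fix_five rfl ha
    exact ⟨n, map_natCast φ n⟩
  obtain ⟨ε, hε⟩ := hF.exists_sqrt (a := 2) (map_ofNat σ 2)
  have hε' : σ ε = -ε := (hF.fix_or (by rw [hε, map_ofNat])).resolve_left fun e => by
    obtain ⟨b, rfl⟩ := φs ε e
    rw [← map_mul, ← map_ofNat φ] at hε
    exact (by decide : ∀ b : ZMod 5, b * b ≠ 2) b (φi hε)
  have hε0 : ε ≠ 0 := by rintro rfl; exact h2 (by simpa using hε.symm)
  let ev : P5 → F := fun x => φ x.1 + φ x.2 * ε
  have ev_ml : ∀ x y, ev (P5.ml x y) = ev x * ev y := fun x y => by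
    simp only [ev, P5.ml, map_add, map_mul, map_ofNat]
    linear_combination -φ x.2 * φ y.2 * hε
  have ev_sub : ∀ x y, ev (x - y) = ev x - ev y := fun x y => by
    simp only [ev, Prod.fst_sub, Prod.snd_sub, map_sub]; ring
  have ev_neg : ∀ x, ev (-x) = -ev x := fun x => by
    simp only [ev, Prod.fst_neg, Prod.snd_neg, map_neg]; ring
  have ev_σ : ∀ x, σ (ev x) = φ x.1 - φ x.2 * ε := fun x => by
    simp only [ev, map_add, map_mul, φσ, hε']; ring
  have ev_nm : ∀ x, ev x * σ (ev x) = φ (P5.nm x) := fun x => by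
    rw [ev_σ]
    simp only [ev, P5.nm, map_sub, map_mul, map_ofNat]
    linear_combination -φ x.2 * φ x.2 * hε
  have ev_one : ev (1, 0) = 1 := by simp [ev]
  have ev_zero : ev 0 = 0 := by simp [ev]
  have ev_p8 : ∀ x, ev (P5.p8 x) = ev x ^ 8 := fun x => by simp only [P5.p8, ev_ml]; ring
  have ev_inj : Function.Injective ev := fun x y e => by
    have e' := congrArg σ e
    rw [ev_σ, ev_σ] at e'
    simp only [ev] at e
    have e1 : 2 * φ x.1 = 2 * φ y.1 := by linear_combination e + e'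
    have e2 : 2 * ε * φ x.2 = 2 * ε * φ y.2 := by linear_combination e - e'
    exact Prod.ext (φi (mul_left_cancel₀ h2 e1)) (φi (mul_left_cancel₀ (mul_ne_zero h2 hε0) e2))
  have ev_surj : Function.Surjective ev :=
    ((Fintype.bijective_iff_injective_and_card ev).2 ⟨ev_inj, by simp [hF.card]⟩).2
  have ev_ne : ∀ x, x ≠ 0 → ev x ≠ 0 := fun x hx e => hx (ev_inj (e.trans ev_zero.symm))
  have neg : ∀ x ∈ Γ, -x ∈ Γ := fun x hx => by simpa using A.mulK x hx (-1) (by norm_num)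
  have third : ∀ x y : F, ∃ z ∈ Γ, z ≠ x ∧ z ≠ -x ∧ z ≠ y ∧ z ≠ -y := fun x y => by
    by_contra hn
    push Not at hn
    have h1 : Γ ⊆ {x, -x, y, -y} := fun z hz => by
      have := hn z hz
      simp only [Set.mem_insert_iff, Set.mem_singleton_iff]
      tauto
    have h3 := Set.ncard_le_ncard h1
    have := Set.ncard_insert_le x {-x, y, -y}
    have := Set.ncard_insert_le (-x) {y, -y}
    have := Set.ncard_insert_le y {-y}
    have := A.card
    simp only [Set.ncard_singleton] at *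
    omega
  have main : ∀ u ∈ Γ, ∀ v ∈ Γ, v ≠ u → v ≠ -u →
      (∀ x, x ≠ 0 → 4 * (κ x * κ x) = (x * σ x) ^ 2) ∧ u * σ u = v * σ v := by
    intro u hu v hv vu vu'
    have u0 := A.ne0 u hu
    have u0' : σ u ≠ 0 := (map_ne_zero σ).2 u0
    have hcode : ∀ w : P5, w ≠ 0 → ∃ a, a ≠ 0 ∧ κ (ev w * u) = φ a * (u * σ u) := fun w hw => by
      have h0 := mul_ne_zero (ev_ne w hw) u0
      obtain ⟨a, ha⟩ := φs (κ (ev w * u) / (u * σ u)) (by
        rw [map_div₀, A.fix _ h0, map_mul, hF.inv, mul_comm (σ u)])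
      refine ⟨a, ?_, by rw [ha]; field_simp⟩
      rintro rfl
      rw [map_zero, eq_comm, div_eq_zero_iff] at ha
      exact ha.elim (A.ne _ h0) (mul_ne_zero u0 u0')
    obtain ⟨a, a0, ha⟩ := hcode (1, 0) (by decide)
    obtain ⟨b, b0, hb⟩ := hcode (2, 3) (by decide)
    obtain ⟨c, c0, hc⟩ := hcode (2, 2) (by decide)
    have aux : ∀ x w : P5, x ≠ 0 → w ≠ 0 → P5.p8 x = P5.p8 w → P5.nm w = 1 →
        κ (ev x * u) = φ (P5.nm x) * κ (ev w * u) := fun x w hx hw e hn => by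
      have w0 := ev_ne w hw
      have w0' : σ (ev w) ≠ 0 := (map_ne_zero σ).2 w0
      have h1 := A.cls _ (mul_ne_zero w0 u0) (ev x / ev w) (by
        rw [show (5 - 1) * 2 = 8 by rfl, div_pow, ← ev_p8, ← ev_p8, e,
          div_self (by rw [ev_p8]; exact pow_ne_zero _ w0)])
      have h3 := ev_nm w
      rw [hn, map_one] at h3
      rw [← mul_assoc, div_mul_cancel₀ _ w0] at h1
      rw [h1, ← ev_nm, map_div₀, div_mul_div_comm, h3, div_one]
    have hkap : ∀ x : P5, x ≠ 0 → κ (ev x * u) = φ (P5.kap a b c x) * (u * σ u) := fun x hx => by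
      rcases P5.cls x hx with e | e | e
      · rw [aux x (1, 0) hx (by decide) (e.trans (by decide)) (by decide), ha, P5.kap, if_pos e,
          map_mul, mul_assoc]
      · rw [aux x (2, 3) hx (by decide) (e.trans (by decide)) (by decide), hb, P5.kap,
          if_neg (by rw [e]; decide), if_pos e, map_mul, mul_assoc]
      · rw [aux x (2, 2) hx (by decide) (e.trans (by decide)) (by decide), hc, P5.kap,
          if_neg (by rw [e]; decide), if_neg (by rw [e]; decide), map_mul, mul_assoc]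
    have hn0 : (u * σ u) ^ 2 ≠ 0 := pow_ne_zero _ (mul_ne_zero u0 u0')
    have hrel : ∀ x y : P5, ev x * u ∈ Γ → ev y * u ∈ Γ → y ≠ x → P5.rel a b c x y := by
      intro x y hx hy yx
      have x0 : x ≠ 0 := by rintro rfl; exact A.ne0 _ hx (by rw [ev_zero, zero_mul])
      have h1 := A.rel _ hx _ hy fun e => yx (ev_inj (mul_right_cancel₀ u0 e))
      rw [← sub_mul, ← ev_sub, hkap _ x0, hkap _ (sub_ne_zero.2 yx), map_mul, map_mul, ev_σ,
        ev_σ] at h1
      apply φi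
      apply mul_right_cancel₀ hn0
      simp only [map_mul, map_sub, map_ofNat, ev] at h1 ⊢
      have h4 : (4 : F) ≠ 0 := by rw [show (4 : F) = 2 * 2 by norm_num]; exact mul_ne_zero h2 h2
      rw [eq_sub_iff_add_eq, ← eq_sub_iff_add_eq', div_eq_iff h4] at h1
      apply mul_left_cancel₀ h4
      linear_combination h1 - 4 * (φ x.1 * φ y.2 - φ x.2 * φ y.1) ^ 2 * (u * σ u) ^ 2 * hε
    have hc1 : ∀ x : P5, ev x * u ∈ Γ → ev x * u ≠ u → ev x * u ≠ -u → P5.c1 a b c x := by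
      intro x hx h1 h3
      have x0 : x ≠ 0 := by rintro rfl; exact A.ne0 _ hx (by rw [ev_zero, zero_mul])
      have x1 : x ≠ (1, 0) := by rintro rfl; exact h1 (by rw [ev_one, one_mul])
      have x2 : x ≠ -(1, 0) := by rintro rfl; exact h3 (by rw [ev_neg, ev_one, neg_one_mul])
      have hu' : ev (1, 0) * u ∈ Γ := by rwa [ev_one, one_mul]
      refine ⟨x0, x1, x2, ?_, hrel _ _ hu' hx x1,
        hrel _ _ hu' (by rw [ev_neg, neg_mul]; exact neg _ hx) fun e => x2 (by rw [← e, neg_neg])⟩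
      have h4 := A.sq _ hx _ hu'
      rw [hkap _ x0, ha] at h4
      apply φi
      apply mul_right_cancel₀ hn0
      rw [map_mul, map_mul]
      linear_combination h4
    obtain ⟨w, hw, w1, w2, w3, w4⟩ := third u v
    obtain ⟨x, hx⟩ := ev_surj (v / u)
    obtain ⟨y, hy⟩ := ev_surj (w / u)
    rw [eq_div_iff u0] at hx hy
    subst hx hy
    have c1x := hc1 x hv vu vu'
    have hu' : ev (1, 0) * u ∈ Γ := by rwa [ev_one, one_mul]
    have y1 : y ≠ x := by rintro rfl; exact w3 rfl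
    have y2 : y ≠ -x := by rintro rfl; exact w4 (by rw [ev_neg, neg_mul])
    obtain ⟨k1, k2, k3, k4⟩ := P5.chk a a0 b b0 c c0 x c1x y ⟨y1, y2, hc1 y hw w1 w2,
      hrel _ _ hv hw y1,
      hrel _ _ hv (by rw [ev_neg, neg_mul]; exact neg _ hw) fun e => y2 (by rw [← e, neg_neg]),
      hrel _ _ hv hu' c1x.2.1.symm,
      hrel _ _ hv (by rw [ev_neg, neg_mul]; exact neg _ hu') c1x.2.2.1.symm⟩
    refine ⟨fun z hz => ?_, ?_⟩
    · obtain ⟨z', hz'⟩ := ev_surj (z / u)
      rw [eq_div_iff u0] at hz'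
      subst hz'
      have z0 : z' ≠ 0 := by rintro rfl; exact hz (by rw [ev_zero, zero_mul])
      have h1 : 4 * (P5.kap a b c z' * P5.kap a b c z') = P5.nm z' * P5.nm z' := by
        rw [P5.kap]
        split_ifs
        · linear_combination P5.nm z' * P5.nm z' * k1
        · linear_combination P5.nm z' * P5.nm z' * k2
        · linear_combination P5.nm z' * P5.nm z' * k3
      have h3 := congrArg φ h1
      simp only [map_mul, map_ofNat, ← ev_nm] at h3
      rw [hkap _ z0, map_mul]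
      linear_combination (u * σ u) ^ 2 * h3
    · have h1 := ev_nm x
      rw [k4, map_one] at h1
      rw [map_mul]
      linear_combination -(u * σ u) * h1
  refine ⟨?_, fun x hx y hy => ?_⟩
  · obtain ⟨u, hu, -⟩ := third 0 0
    obtain ⟨v, hv, h1, h3, -⟩ := third u u
    exact (main u hu v hv h1 h3).1
  · by_cases h1 : y = x
    · rw [h1]
    by_cases h3 : y = -x
    · simp [h3]
    exact (main x hx y hy h1 h3).2

theorem eq_circle {x : F} (hx : x ∈ Γ) (h : ∀ y ∈ Γ, y * σ y = x * σ x) :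
    Γ = {y | y * σ y = x * σ x} :=
  Set.eq_of_subset_of_ncard_le h (A.card ▸ hF.ncard_norm_le _)

theorem good_big (hk : q + 1 = d * k) (hd : d = 1 ∨ (3 : F) ≠ 0) (h2 : 2 < k)
    (hm : ∃ m : F, orderOf m = k) (h4 : ∀ x, x ≠ 0 → 4 * (κ x * κ x) = (x * σ x) ^ 2) :
    ∀ x ∈ Γ, ∀ y ∈ Γ, x * σ x = y * σ y := by
  intro x hx y hy
  have x0 := A.ne0 x hx
  have x0' : σ x ≠ 0 := (map_ne_zero σ).2 x0
  have two := hF.two_ne
  rcases hd with rfl | h3
  · have h1 : (fun m => m * x) '' {m | m * σ m = 1} ⊆ Γ := by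
      rintro _ ⟨m, hm, rfl⟩
      exact A.mulK x hx m (by rwa [← one_mul k, ← hk, ← hF.norm_eq])
    have h5 := Set.eq_of_subset_of_ncard_le h1 (by
      rw [Set.ncard_image_of_injective _ (mul_left_injective₀ x0), A.card]
      exact (H9.FOrd.card_norm_one hF.card hF.inv hF.hne).ge)
    rw [← h5] at hy
    obtain ⟨m, hm, rfl⟩ := hy
    have hm' : m * σ m = 1 := hm
    rw [map_mul]
    linear_combination -(x * σ x) * hm'
  by_contra hne
  have key : ∀ y ∈ Γ, x * σ x ≠ y * σ y →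
      y * σ y = -(x * σ x) ∧ (σ x * y + x * σ y) ^ 2 = (x * σ x) ^ 2 := by
    intro y hy hne
    have yx : y ≠ x := by rintro rfl; exact hne rfl
    have e1 := A.sq x hx y hy
    have e2 := h4 x x0
    have e3 := h4 y (A.ne0 y hy)
    have e4 := h4 _ (sub_ne_zero.2 yx)
    have e5 := A.rel x hx y hy yx
    have e6 : y * σ y = -(x * σ x) := by
      have : (y * σ y - x * σ x) * (y * σ y + x * σ x) = 0 := by
        linear_combination e2 - e3 - 4 * e1
      rcases mul_eq_zero.1 this with h | h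
      · exact absurd (sub_eq_zero.1 h).symm hne
      · exact eq_neg_of_add_eq_zero_left h
    refine ⟨e6, ?_⟩
    rw [map_sub] at e4
    have h4' : (4 : F) ≠ 0 := by rw [show (4 : F) = 2 * 2 by norm_num]; exact mul_ne_zero two two
    have e7 : 4 * κ x * κ (y - x) = -(x * σ x) ^ 2 := by
      apply mul_left_cancel₀ h4'
      rw [e5, mul_sub, mul_div_cancel₀ _ h4', e4]
      linear_combination (y * σ y + x * σ x - 2 * (σ x * y + x * σ y) + 4 * x * σ x) * e6
    apply mul_left_cancel₀ (pow_ne_zero 2 (mul_ne_zero x0 x0'))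
    have e8 : ((y - x) * (σ y - σ x)) ^ 2 = (σ x * y + x * σ y) ^ 2 := by
      linear_combination (y * σ y + x * σ x - 2 * (σ x * y + x * σ y)) * e6
    rw [← e8, ← e4]
    nth_rw 1 [← e2]
    linear_combination (4 * κ x * κ (y - x) - (x * σ x) ^ 2) * e7
  obtain ⟨m, rfl⟩ := hm
  have m1 := pow_orderOf_eq_one m
  have m2 := hF.norm_one hk m1
  have m3 : (σ m) ^ orderOf m = 1 := by rw [← map_pow, m1, map_one]
  obtain ⟨e1, e2⟩ := key y hy hne
  obtain ⟨-, e3⟩ := key _ (A.mulK y hy m m1) (by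
    rw [map_mul, mul_mul_mul_comm, m2, one_mul]; exact hne)
  obtain ⟨-, e4⟩ := key _ (A.mulK y hy _ m3) (by
    rw [map_mul, mul_mul_mul_comm, hF.inv, mul_comm (σ m), m2, one_mul]; exact hne)
  rw [map_mul] at e3 e4
  rw [hF.inv] at e4
  have m4 : m * m ≠ 1 := fun e => by
    have := Nat.le_of_dvd two_pos (orderOf_dvd_of_pow_eq_one (x := m) (n := 2) (by rw [pow_two, e]))
    omega
  have h6 : (6 : F) ≠ 0 := by rw [show (6 : F) = 2 * 3 by norm_num]; exact mul_ne_zero two h3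
  have n0 := pow_ne_zero 2 (mul_ne_zero x0 x0')
  rcases sq_eq_sq_iff_eq_or_eq_neg.1 (e3.trans e4.symm) with e5 | e5
  · have e6 : (m - σ m) ^ 2 * (x * σ x) ^ 2 = 0 := by
      linear_combination (-(m + σ m) ^ 2) * e2 + 4 * e3 - 4 * (x * σ x) ^ 2 * m2 -
        (3 * (σ x * (m * y) + x * (σ m * σ y)) + (σ x * (σ m * y) + x * (m * σ y))) * e5
    have e7 : m = σ m := sub_eq_zero.1 (pow_eq_zero_iff two_ne_zero |>.1
      ((mul_eq_zero.1 e6).resolve_right n0))
    exact m4 (by nth_rw 2 [e7]; exact m2)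
  · have e6 : (m + σ m) * (σ x * y + x * σ y) = 0 := by linear_combination e5
    have e7 : σ m = -m := by
      rcases mul_eq_zero.1 e6 with e | e
      · linear_combination e
      · rw [e] at e2
        exact absurd (by rw [← e2]; ring) n0
    rw [e7] at e3 m2
    apply mul_ne_zero h6 n0
    linear_combination -e3 - e2 + 4 * x * σ x * e1 - (σ x * y - x * σ y) ^ 2 * m2

theorem final (hk : q + 1 = d * k) (ek : Even k)
    (h4 : ∀ x, x ≠ 0 → 4 * (κ x * κ x) = (x * σ x) ^ 2)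
    (hN : ∀ x ∈ Γ, ∀ y ∈ Γ, x * σ x = y * σ y) :
    ∃ α : F, (2 * α = 1 ∨ 2 * α = -1) ∧ (∀ x, x ≠ 0 → κ x = α * (x * σ x)) ∧
      ∃ n : F, Γ = {y | y * σ y = n} := by
  obtain ⟨x, hx⟩ : Γ.Nonempty := Set.nonempty_of_ncard_ne_zero (by rw [A.card]; omega)
  have x0 := A.ne0 x hx
  have x0' : σ x ≠ 0 := (map_ne_zero σ).2 x0
  have two := hF.two_ne
  have h4' : (4 : F) ≠ 0 := by rw [show (4 : F) = 2 * 2 by norm_num]; exact mul_ne_zero two two
  have hΓ := A.eq_circle hF hx fun y hy => hN y hy x hx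
  have e2 := h4 x x0
  refine ⟨κ x / (x * σ x), ?_, fun y y0 => ?_, _, hΓ⟩
  · rw [← mul_self_eq_one_iff]
    field_simp
    linear_combination e2
  have y0' : σ y ≠ 0 := (map_ne_zero σ).2 y0
  have key : ∀ z, z ≠ 0 → (y / z) ^ ((q - 1) * k) = 1 → κ z = κ x / (x * σ x) * (z * σ z) →
      κ y = κ x / (x * σ x) * (y * σ y) := fun z z0 e1 e3 => by
    have z0' : σ z ≠ 0 := (map_ne_zero σ).2 z0
    have := A.cls z z0 _ e1
    rw [div_mul_cancel₀ _ z0, e3, map_div₀] at this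
    rw [this]
    field_simp
  have w0 : x / y ≠ 0 := div_ne_zero x0 y0
  have hw := hF.pow_sub_one w0
  set m := (x / y) ^ (q - 1) with hm
  by_cases m1 : m = 1
  · refine key x x0 ?_ (by field_simp)
    rw [← inv_div, inv_pow, pow_mul, ← hm, m1, one_pow, inv_one]
  have m2 : m * σ m = 1 := by
    rw [hw, map_div₀ σ (σ (x / y)), hF.inv]
    have : σ (x / y) ≠ 0 := (map_ne_zero σ).2 w0
    field_simp
  have m3 := hF.cls_pow ek m2 m1
  have m4 : m - 1 ≠ 0 := sub_ne_zero.2 m1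
  refine key ((m - 1) * x) (mul_ne_zero m4 x0) ?_ ?_
  · have e : y / ((m - 1) * x) = ((m - 1) * (x / y))⁻¹ := by field_simp
    rw [e, inv_pow, mul_pow, pow_mul (x / y), ← hm, m3, inv_one]
  · have hy : m * x ∈ Γ := by
      rw [hΓ, Set.mem_setOf_eq, map_mul, mul_mul_mul_comm, m2, one_mul]
    have e5 := A.rel x hx _ hy fun e => m1 (by simpa [x0] using e)
    have e4 := h4 _ (mul_ne_zero m4 x0)
    rw [show m * x - x = (m - 1) * x by ring] at e5
    simp only [map_mul, map_sub, map_one] at e4 e5 ⊢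
    have e6 : 4 * κ x * κ ((m - 1) * x) = x * σ x * ((m - 1) * x * ((σ m - 1) * σ x)) := by
      apply mul_left_cancel₀ h4'
      rw [e5, mul_sub, mul_div_cancel₀ _ h4', e4]
      linear_combination (x * σ x) ^ 2 * (m * σ m - 2 * (m + σ m) + 3) * m2
    rw [div_mul_eq_mul_div, eq_div_iff (mul_ne_zero x0 x0')]
    apply mul_left_cancel₀ (mul_ne_zero x0 x0')
    linear_combination κ x * e6 - κ ((m - 1) * x) * e2

end AD

end Cfsg.Agent.H8.U3
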