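import Cfsg.Agent.H8.U3a
import Cfsg.Agent.H6.BN

/-! Split `(B,N)`-pairs of rank one as doubly transitive groups. -/

set_option autoImplicit false

namespace Cfsg.Agent.H8.U3

open MulAction

theorem bruhat_one {G : Type*} [Group G] (P : Cfsg.BNPair G) (h1 : P.rank = 1) :
    ∃ s ∈ P.N, s ∉ P.B ∧ s * s ∈ P.B ∧ ∀ g, g ∈ P.B ∨ ∃ b ∈ P.B, ∃ b' ∈ P.B, g = b * s * b' := by
  obtain ⟨s, hS⟩ := Set.ncard_eq_one.1 (show P.S.ncard = 1 from h1)
  have hs : s ∈ P.S := by simp [hS]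
  have hs' : H6.BN.π P ⟨s, P.subset hs⟩ ∈ H6.BN.SW P := ⟨_, hs, rfl⟩
  have hSW : H6.BN.SW P = {H6.BN.π P ⟨s, P.subset hs⟩} := by
    ext w
    constructor
    · rintro ⟨⟨x, hx⟩, hx', rfl⟩
      rw [hS] at hx'
      obtain rfl : x = s := hx'
      rfl
    · rintro rfl; exact hs'
  refine ⟨s, P.subset hs, fun h => H6.BN.SW_ne_one hs' ((H6.BN.π_eq_one P).2 h), P.sq_mem s hs,
    fun g => ?_⟩
  obtain ⟨w, hw⟩ := H6.BN.exists_mem_C (P := P) g
  have h2 : w ∈ Subgroup.zpowers (H6.BN.π P ⟨s, P.subset hs⟩) := by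
    rw [Subgroup.zpowers_eq_closure, ← hSW, H6.BN.closure_SW]
    trivial
  obtain ⟨i, rfl⟩ := Subgroup.mem_zpowers_iff.1 h2
  have h3 := H6.BN.SW_mul_self hs'
  rcases Int.even_or_odd' i with ⟨j, rfl | rfl⟩
  · rw [zpow_mul, zpow_two, h3, one_zpow] at hw
    exact Or.inl (H6.BN.mem_C_one.1 hw)
  · rw [zpow_add, zpow_mul, zpow_two, h3, one_zpow, one_mul, zpow_one] at hw
    exact Or.inr ((H6.BN.mem_C_iff _).1 hw)

theorem exists_RK {G : Type*} [Group G] [Finite G] (P : Cfsg.BNPair G) (h1 : P.rank = 1)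
    (U : Subgroup G) (hUB : U ≤ P.B) (hUn : ∀ b ∈ P.B, ∀ u ∈ U, b * u * b⁻¹ ∈ U)
    (hsplit : U ⊔ (P.B ⊓ P.N) = P.B) (hind : P.B.index = Nat.card U + 1) :
    ∃ R : RK G (G ⧸ P.B), R.U = U ∧ R.H = P.B ⊓ P.N := by
  obtain ⟨s, sN, sB, ss, br⟩ := bruhat_one P h1
  let a : G ⧸ P.B := QuotientGroup.mk 1
  have ha : ∀ g : G, g • a = a ↔ g ∈ P.B := fun g => by
    show (QuotientGroup.mk (g * 1) : G ⧸ P.B) = QuotientGroup.mk 1 ↔ _
    rw [QuotientGroup.eq]; simp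
  have tr : ∀ y : G ⧸ P.B, ∃ g : G, g • a = y := fun y => by
    obtain ⟨g, rfl⟩ := QuotientGroup.mk_surjective y
    exact ⟨g, by show (QuotientGroup.mk (g * 1) : G ⧸ P.B) = _; rw [mul_one]⟩
  have dec : ∀ b ∈ P.B, ∃ u ∈ U, ∃ x ∈ P.B ⊓ P.N, b = u * x := fun b hb => by
    have h2 : (U.subgroupOf P.B).Normal := ⟨fun u hu b => hUn b b.2 u hu⟩
    have h3 : (⟨b, hb⟩ : P.B) ∈ U.subgroupOf P.B ⊔ (P.B ⊓ P.N).subgroupOf P.B := by
      rw [← Subgroup.subgroupOf_sup hUB inf_le_left, hsplit, Subgroup.subgroupOf_self]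
      trivial
    rw [← SetLike.mem_coe, Subgroup.normal_mul] at h3
    obtain ⟨u, hu, x, hx, e⟩ := h3
    exact ⟨u, hu, x, hx, (congrArg Subtype.val e).symm⟩
  have hH : ∀ x ∈ P.B ⊓ P.N, x • s • a = s • a := fun x hx => by
    have := (ha _).2 (P.conj_mem s⁻¹ (inv_mem sN) x hx)
    rwa [inv_inv, mul_smul, mul_smul, inv_smul_eq_iff] at this
  have ex : ∀ y, y ≠ a → ∃ u ∈ U, u • s • a = y := fun y hy => by
    obtain ⟨g, rfl⟩ := tr y
    obtain ⟨b, hb, b', hb', rfl⟩ := (br g).resolve_left fun h => hy ((ha g).2 h)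
    obtain ⟨u, hu, x, hx, rfl⟩ := dec b hb
    exact ⟨u, hu, by rw [mul_smul, mul_smul, mul_smul, (ha b').2 hb', hH x hx]⟩
  have sa : s • a ≠ a := fun e => sB ((ha s).1 e)
  have free : ∀ u ∈ U, u • s • a = s • a → u = 1 := fun u hu e => by
    let f : U → {y : G ⧸ P.B // y ≠ a} := fun v => ⟨(v : G) • s • a, fun e =>
      sa (smul_left_cancel (v : G) (e.trans ((ha v).2 (hUB v.2)).symm))⟩
    have hf : Function.Surjective f := fun y => by
      obtain ⟨v, hv, e⟩ := ex y y.2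
      exact ⟨⟨v, hv⟩, Subtype.ext e⟩
    have hc : Nat.card U ≤ Nat.card {y : G ⧸ P.B // y ≠ a} := by
      have h2 : Nat.card {y : G ⧸ P.B // y ≠ a} = ({a}ᶜ : Set (G ⧸ P.B)).ncard := rfl
      rw [h2, Set.ncard_compl, Set.ncard_singleton, ← Subgroup.index_eq_card, hind]
      omega
    have := (hf.bijective_of_nat_card_le hc).1 (a₁ := ⟨u, hu⟩) (a₂ := 1)
      (Subtype.ext (by simpa [f] using e))
    exact congrArg Subtype.val this
  refine ⟨⟨a, s • a, U, sa.symm, fun u hu => (ha u).2 (hUB hu), fun g hg => hUn g ((ha g).1 hg),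
    ex, free, ⟨s, rfl, by rw [← mul_smul, (ha _).2 ss]⟩, tr⟩, rfl, ?_⟩
  ext g
  rw [RK.mem_H]
  constructor
  · rintro ⟨g1, g2⟩
    obtain ⟨u, hu, x, hx, rfl⟩ := dec g ((ha g).1 g1)
    have g3 : (u * x) • s • a = s • a := g2
    rw [mul_smul, hH x hx] at g3
    rwa [free u hu g3, one_mul]
  · exact fun hg => ⟨(ha g).2 hg.1, hH g hg⟩

theorem RK.faith {G Ω : Type*} [Group G] [MulAction G Ω] [IsSimpleGroup G] (R : RK G Ω) (g : G)
    (hg : ∀ y : Ω, g • y = y) : g = 1 := by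
  rcases (MonoidHom.normal_ker (toPermHom G Ω)).eq_bot_or_eq_top with h | h
  · rw [← Subgroup.mem_bot, ← h, MonoidHom.mem_ker]
    exact Equiv.ext hg
  · obtain ⟨s, sa, -⟩ := R.swap
    have : s ∈ (toPermHom G Ω).ker := h ▸ Subgroup.mem_top s
    exact absurd (sa.symm.trans (Equiv.congr_fun this R.a)).symm R.hab

end Cfsg.Agent.H8.U3
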