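import Cfsg.Agent.H9.FOrd
import Cfsg.Agent.Asch.FF
import Cfsg.Agent.Form.Adapters

/-! The field with `q ^ 2` elements, `q` odd, and invariant alternating forms on it. -/

set_option autoImplicit false

namespace Cfsg.Agent.H8.U3

theorem ncard_pow_eq_le {F : Type*} [Field F] {n : ℕ} (hn : 0 < n) (c : F) :
    {x : F | x ^ n = c}.ncard ≤ n := by
  classical
  have e : {x : F | x ^ n = c} = ((Polynomial.nthRoots n c).toFinset : Set F) := by
    ext x
    simp [Polynomial.mem_nthRoots hn]
  rw [e, Set.ncard_coe_finset]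
  exact (Multiset.toFinset_card_le _).trans (Polynomial.card_nthRoots n c)

/-- a field with `q ^ 2` elements, `q` odd, and its involutory automorphism -/
structure FD (F : Type*) [Field F] [Fintype F] (σ : F →+* F) (q : ℕ) : Prop where
  card : Fintype.card F = q ^ 2
  app : ∀ x, σ x = x ^ q
  odd : Odd q

namespace FD

variable {F : Type*} [Field F] [Fintype F] {σ : F →+* F} {q : ℕ} (hF : FD F σ q)
include hF

theorem inv (x : F) : σ (σ x) = x := by rw [hF.app, hF.app, Form.pow_q_pow_q hF.card]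

theorem char_ne : ringChar F ≠ 2 := fun h => by
  have h1 := (FiniteField.even_card_iff_char_two (F := F)).1 h
  rw [hF.card] at h1
  have h2 := Nat.odd_iff.1 (hF.odd.pow (n := 2))
  omega

theorem two_ne : (2 : F) ≠ 0 := Ring.two_ne_zero hF.char_ne

theorem q3 : 3 ≤ q := by
  have := Form.two_le_of_card_sq hF.card
  obtain ⟨j, hj⟩ := hF.odd
  omega

theorem hne : ∃ x, σ x ≠ x := by simpa only [hF.app] using Form.exists_pow_q_ne hF.card

theorem exists_eps : ∃ ε : F, ε ≠ 0 ∧ σ ε = -ε := by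
  obtain ⟨x, hx⟩ := hF.hne
  exact ⟨σ x - x, sub_ne_zero.2 hx, by rw [map_sub, hF.inv]; ring⟩

theorem exists_norm {a : F} (ha : σ a = a) : ∃ l, l * σ l = a := by
  simpa only [hF.app] using Asch.exists_norm_eq hF.card (by rwa [← hF.app])

theorem norm_eq (x : F) : x * σ x = x ^ (q + 1) := by rw [hF.app, pow_succ']

theorem pow_sub_one {x : F} (hx : x ≠ 0) : x ^ (q - 1) = σ x / x := by
  have := hF.q3
  rw [hF.app, eq_div_iff hx, ← pow_succ]
  congr 1
  omega

theorem exists_sqrt {a : F} (ha : σ a = a) : ∃ r, r * r = a := by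
  by_cases h0 : a = 0
  · exact ⟨0, by simp [h0]⟩
  obtain ⟨j, hj⟩ := hF.odd
  have h1 : a ^ (q - 1) = 1 := by rw [hF.pow_sub_one h0, ha, div_self h0]
  have h2 : Fintype.card F / 2 = (q - 1) * (j + 1) := by
    rw [hF.card, hj, Nat.add_sub_cancel]
    have : (2 * j + 1) ^ 2 = 1 + 2 * (2 * j * (j + 1)) := by ring
    omega
  obtain ⟨r, hr⟩ := (FiniteField.isSquare_iff hF.char_ne h0).2 (by rw [h2, pow_mul, h1, one_pow])
  exact ⟨r, hr.symm⟩

theorem card_fix : Nat.card {a : F // σ a = a} = q :=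
  (H9.FOrd.card_Λ_unit_aux hF.card hF.inv hF.hne).2

theorem ncard_norm_le (c : F) : {x : F | x * σ x = c}.ncard ≤ q + 1 := by
  simpa only [hF.norm_eq] using ncard_pow_eq_le (n := q + 1) (by omega) c

theorem eq_zero_of {a : F} (h1 : σ a = a) (h2 : σ a = -a) : a = 0 := by
  have : 2 * a = 0 := by linear_combination h2 - h1
  exact (mul_eq_zero.1 this).resolve_left hF.two_ne

theorem fix_or {a : F} (h : σ (a * a) = a * a) : σ a = a ∨ σ a = -a := by
  rw [map_mul] at h
  exact mul_self_eq_mul_self_iff.1 h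

theorem subfield_eq_top {d k : ℕ} (hk : q + 1 = d * k) (hd : d ≤ 3) (h2 : 2 < k) (S : Subfield F)
    {μ : F} (hμ : μ ∈ S) (ho : orderOf μ = k) : S = ⊤ := by
  classical
  have := Fintype.ofFinite S
  have h1 := Module.card_eq_pow_finrank (K := S) (V := F)
  have hμ0 : μ ≠ 0 := by
    rintro rfl
    have := pow_orderOf_eq_one (0 : F)
    rw [ho, zero_pow (by omega)] at this
    exact zero_ne_one this
  have h3 : k ∣ Fintype.card S - 1 := by
    rw [← ho, orderOf_dvd_iff_pow_eq_one]
    exact congrArg Subtype.val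
      (FiniteField.pow_card_sub_one_eq_one (⟨μ, hμ⟩ : S) fun h => hμ0 (congrArg Subtype.val h))
  have h4 : 1 < Fintype.card S := Fintype.one_lt_card
  have h5 := Nat.le_of_dvd (by omega) h3
  have h6 : 0 < Module.finrank S F := Module.finrank_pos
  rw [hF.card] at h1
  have h7 : Odd (Fintype.card S) := by
    have := hF.odd.pow (n := 2)
    rw [h1, Nat.odd_pow_iff (by omega)] at this
    exact this
  have h8 : Module.finrank S F = 1 := by
    by_contra hne
    by_cases h9 : Module.finrank S F = 2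
    · rw [h9] at h1
      have h10 := Nat.pow_left_injective (by omega) h1
      rw [← h10] at h3
      have h11 : k ∣ q + 1 := hk ▸ Dvd.intro_left d rfl
      have h12 := Nat.dvd_sub h11 h3
      have := hF.q3
      rw [show q + 1 - (q - 1) = 2 by omega] at h12
      exact absurd (Nat.le_of_dvd two_pos h12) (by omega)
    · have h10 : Fintype.card S ^ 3 ≤ q ^ 2 := h1 ▸ Nat.pow_le_pow_right (by omega) (by omega)
      have h11 : d * k ≤ 3 * k := Nat.mul_le_mul_right k hd
      obtain ⟨s, hs⟩ := h7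
      rw [hs] at h10 h5 h4
      have h12 : q ^ 2 ≤ (6 * s - 1) ^ 2 := Nat.pow_le_pow_left (by omega) 2
      obtain ⟨r, rfl⟩ : ∃ r, s = r + 1 := ⟨s - 1, by omega⟩
      rw [show 6 * (r + 1) - 1 = 6 * r + 5 by omega] at h12
      have h13 := h10.trans h12
      rcases r with _ | _ | r
      · omega
      · omega
      · nlinarith [Nat.zero_le (r ^ 3), Nat.zero_le (r ^ 2)]
  rw [h8, pow_one, ← hF.card] at h1
  rw [← SetLike.coe_set_eq, Subfield.coe_top]
  apply Set.eq_of_subset_of_ncard_le (Set.subset_univ _)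
  rw [Set.ncard_univ, Nat.card_eq_fintype_card, h1, ← Nat.card_eq_fintype_card]
  rfl

section Form
variable {A : Type*} [AddCommGroup A] (b : F →+ F →+ A)

/-- the scalars whose adjoint is the conjugate -/
def adj (b : F →+ F →+ A) (σ : F →+* F) : Subfield F where
  carrier := {a | ∀ x y, b (a * x) y = b x (σ a * y)}
  mul_mem' {a c} ha hc x y := by rw [mul_assoc, ha, hc, map_mul σ]; ring_nf
  one_mem' x y := by simp
  add_mem' {a c} ha hc x y := by simp [add_mul, ha x y, hc x y]
  zero_mem' x y := by simp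
  neg_mem' {a} ha x y := by simp [ha x y]
  inv_mem' a ha x y := by
    by_cases h : a = 0
    · simp [h]
    · have := ha (a⁻¹ * x) (σ a⁻¹ * y)
      rw [mul_inv_cancel_left₀ h, ← mul_assoc, ← map_mul, mul_inv_cancel₀ h, map_one,
        one_mul] at this
      exact this.symm

theorem herm_of_order {d k : ℕ} (hk : q + 1 = d * k) (hd : d ≤ 3) (h2 : 2 < k) {μ : F}
    (ho : orderOf μ = k) (hμ : ∀ x y, b (μ * x) (μ * y) = b x y) (x y : F) :
    b x y = b 1 (σ x * y) := by
  have h1 : μ * σ μ = 1 := by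
    rw [hF.norm_eq, hk, ← ho, mul_comm, pow_mul, pow_orderOf_eq_one, one_pow]
  have h3 := hF.subfield_eq_top hk hd h2 (adj b σ) (μ := μ) (fun x y => by
    rw [← hμ x, ← mul_assoc, h1, one_mul]) ho
  have h4 : x ∈ adj b σ := h3 ▸ Subfield.mem_top x
  simpa using h4 1 y

theorem five (hq : q = 5) : (5 : F) = 0 := by
  have := FiniteField.cast_card_eq_zero F
  rw [hF.card, hq] at this
  push_cast at this
  have h : (5 : F) ^ 2 = 0 := by rw [← this]; norm_num
  exact pow_eq_zero_iff two_ne_zero |>.1 h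

theorem fix_five (hq : q = 5) {a : F} (ha : σ a = a) : ∃ n : ℕ, n < 5 ∧ a = n := by
  have h5 := hF.five hq
  rw [hF.app, hq] at ha
  have : a * (a - 1) * (a - 2) * (a - 3) * (a - 4) = 0 := by
    linear_combination ha + (-2 * a ^ 4 + 7 * a ^ 3 - 10 * a ^ 2 + 5 * a) * h5
  simp only [mul_eq_zero, sub_eq_zero] at this
  rcases this with (((h | h) | h) | h) | h
  exacts [⟨0, by omega, by simpa using h⟩, ⟨1, by omega, by simpa using h⟩,
    ⟨2, by omega, by simpa using h⟩, ⟨3, by omega, by simpa using h⟩,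
    ⟨4, by omega, by simpa using h⟩]

theorem herm_five (hq : q = 5) (alt : ∀ x, b x x = 0) (x y : F) : b x y = b 1 (σ x * y) := by
  have anti : ∀ x y, b x y = -b y x := fun x y => by
    have := alt (x + y)
    simp only [map_add, AddMonoidHom.add_apply, alt, zero_add, add_zero] at this
    exact eq_neg_of_add_eq_zero_right this
  obtain ⟨ε, hε, hε'⟩ := hF.exists_eps
  have h2 := hF.two_ne
  have dec : ∀ x : F, ∃ m n : ℕ, x = m • (1 : F) + n • ε := fun x => by
    obtain ⟨m, -, hm⟩ := hF.fix_five hq (a := (x + σ x) / 2) (by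
      simp [map_div₀, hF.inv, map_ofNat, add_comm])
    obtain ⟨n, -, hn⟩ := hF.fix_five hq (a := (x - σ x) / (2 * ε)) (by
      simp only [map_div₀, map_sub, map_mul, hF.inv, map_ofNat, hε']
      field_simp
      ring)
    refine ⟨m, n, ?_⟩
    rw [nsmul_eq_mul, nsmul_eq_mul, ← hm, ← hn]
    field_simp
    ring
  obtain ⟨j, -, hj⟩ := hF.fix_five hq (a := ε * ε) (by simp [hε'])
  have hj' : ε * ε = j • (1 : F) := by simp [hj]
  obtain ⟨m, n, rfl⟩ := dec x
  obtain ⟨m', n', rfl⟩ := dec y
  simp only [map_add, map_nsmul, map_one, hε', mul_add, add_mul, smul_mul_assoc, mul_smul_comm,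
    one_mul, mul_one, neg_mul, hj', map_neg, AddMonoidHom.add_apply, AddMonoidHom.nsmul_apply,
    alt, anti ε 1, smul_zero, neg_zero]

end Form

end FD

end Cfsg.Agent.H8.U3
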