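import Cfsg.Agent.H8.U3F

/-! A finite verification in the field with 25 elements. -/

set_option autoImplicit false

namespace Cfsg.Agent.H8.U3

/-- pairs coding `a + b ε` with `ε ^ 2 = 2` -/
abbrev P5 := ZMod 5 × ZMod 5

namespace P5

def ml (x y : P5) : P5 := (x.1 * y.1 + 2 * x.2 * y.2, x.1 * y.2 + x.2 * y.1)

def nm (x : P5) : ZMod 5 := x.1 * x.1 - 2 * x.2 * x.2

def p8 (x : P5) : P5 := ml (ml (ml x x) (ml x x)) (ml (ml x x) (ml x x))

def kap (a b c : ZMod 5) (x : P5) : ZMod 5 :=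
  nm x * if p8 x = (1, 0) then a else if p8 x = (2, 2) then b else c

def rel (a b c : ZMod 5) (x y : P5) : Prop :=
  4 * kap a b c x * kap a b c (y - x) =
    kap a b c (y - x) * kap a b c (y - x) - 2 * ((x.1 * y.2 - x.2 * y.1) * (x.1 * y.2 - x.2 * y.1))

instance (a b c : ZMod 5) (x y : P5) : Decidable (rel a b c x y) := by unfold rel; infer_instance

def c1 (a b c : ZMod 5) (x : P5) : Prop :=
  x ≠ 0 ∧ x ≠ (1, 0) ∧ x ≠ -(1, 0) ∧ kap a b c x * kap a b c x = a * a ∧ rel a b c (1, 0) x ∧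
    rel a b c (1, 0) (-x)

instance (a b c : ZMod 5) (x : P5) : Decidable (c1 a b c x) := by unfold c1; infer_instance

def c2 (a b c : ZMod 5) (x y : P5) : Prop :=
  y ≠ x ∧ y ≠ -x ∧ c1 a b c y ∧ rel a b c x y ∧ rel a b c x (-y) ∧ rel a b c x (1, 0) ∧
    rel a b c x (-(1, 0))

instance (a b c : ZMod 5) (x y : P5) : Decidable (c2 a b c x y) := by unfold c2; infer_instance

def c3 (a b c : ZMod 5) (x : P5) : Prop :=
  4 * (a * a) = 1 ∧ 4 * (b * b) = 1 ∧ 4 * (c * c) = 1 ∧ nm x = 1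

instance (a b c : ZMod 5) (x : P5) : Decidable (c3 a b c x) := by unfold c3; infer_instance

theorem chk : ∀ a : ZMod 5, a ≠ 0 → ∀ b : ZMod 5, b ≠ 0 → ∀ c : ZMod 5, c ≠ 0 →
    ∀ x : P5, c1 a b c x → ∀ y : P5, c2 a b c x y → c3 a b c x := by
  decide +kernel

theorem cls : ∀ x : P5, x ≠ 0 → p8 x = (1, 0) ∨ p8 x = (2, 2) ∨ p8 x = (2, 3) := by decide +kernel

end P5

end Cfsg.Agent.H8.U3
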