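import Cfsg.Agent.H5.Odd
import Cfsg.Agent.H6.GrpLemmas
import Cfsg.Agent.H4.Util

/-! Doubly transitive groups whose point stabiliser has a regular normal subgroup: basics. -/

set_option autoImplicit false

namespace Cfsg.Agent.H8.U3

open MulAction

section Count

theorem ncard_eq_mul_of_fibers {α β : Type*} [Finite α] (f : α → β) (E : Set α) (k : ℕ)
    (h : ∀ x ∈ E, {y | y ∈ E ∧ f y = f x}.ncard = k) : E.ncard = (f '' E).ncard * k := by
  classical
  have hE : E.Finite := Set.toFinite E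
  lift E to Finset α using hE
  rw [Set.ncard_coe_finset, ← Finset.coe_image, Set.ncard_coe_finset,
    Finset.card_eq_sum_card_image f E, ← smul_eq_mul, ← Finset.sum_const]
  refine Finset.sum_congr rfl fun b hb => ?_
  obtain ⟨x, hx, rfl⟩ := Finset.mem_image.1 hb
  rw [← h x hx, ← Set.ncard_coe_finset]
  congr 1
  ext y
  simp

theorem ncard_le_mul_of_fibers {α β : Type*} [Finite α] (f : α → β) (E : Set α) (k : ℕ)
    (h : ∀ x ∈ E, {y | y ∈ E ∧ f y = f x}.ncard ≤ k) : E.ncard ≤ (f '' E).ncard * k := by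
  classical
  have hE : E.Finite := Set.toFinite E
  lift E to Finset α using hE
  rw [Set.ncard_coe_finset, ← Finset.coe_image, Set.ncard_coe_finset,
    Finset.card_eq_sum_card_image f E, ← smul_eq_mul, ← Finset.sum_const]
  refine Finset.sum_le_sum fun b hb => ?_
  obtain ⟨x, hx, rfl⟩ := Finset.mem_image.1 hb
  refine le_trans (le_of_eq ?_) (h x hx)
  rw [← Set.ncard_coe_finset]
  congr 1
  ext y
  simp

theorem ncard_offDiag {α : Type*} [Finite α] (D : Set α) :
    D.offDiag.ncard = D.ncard * (D.ncard - 1) := by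
  classical
  have hE : D.Finite := Set.toFinite D
  lift D to Finset α using hE
  rw [← Finset.coe_offDiag, Set.ncard_coe_finset, Set.ncard_coe_finset, Finset.offDiag_card,
    Nat.mul_sub_one]

theorem ncard_diff_one {G : Type*} [Group G] [Finite G] (W : Subgroup G) :
    ((W : Set G) \ {1}).ncard = Nat.card W - 1 := by
  rw [Set.ncard_diff_singleton_of_mem W.one_mem]
  rfl

theorem card_eq_ncard {G : Type*} [Group G] (W : Subgroup G) : Nat.card W = (W : Set G).ncard := rfl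

/-- if `p ^ a + 1` divides `p ^ (3 * e) + 1` and `a < 3 * e` then `a ≤ e` -/
theorem le_of_pow_add_one_dvd {p a e : ℕ} (hp : 2 ≤ p) (ha : a < 3 * e)
    (h : p ^ a + 1 ∣ p ^ (3 * e) + 1) : a ≤ e := by
  by_contra hlt
  push Not at hlt
  obtain ⟨r, hr⟩ : ∃ r, 3 * e = a + r := ⟨3 * e - a, by omega⟩
  have hr0 : 0 < r := by omega
  have h1 : (p ^ a + 1 : ℤ) ∣ p ^ r - 1 := by
    have h2 : ((p ^ a + 1 : ℕ) : ℤ) ∣ ((p ^ (3 * e) + 1 : ℕ) : ℤ) := Int.natCast_dvd_natCast.2 h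
    push_cast at h2
    rw [hr, pow_add] at h2
    have h3 : (p ^ r - 1 : ℤ) = (p ^ a + 1) * p ^ r - (p ^ a * p ^ r + 1) := by ring
    rw [h3]
    exact dvd_sub (dvd_mul_right _ _) h2
  have hp' : (2 : ℤ) ≤ p := by exact_mod_cast hp
  rcases le_or_gt r a with hra | hra
  · have h4 : (p : ℤ) ^ r ≤ p ^ a := pow_le_pow_right₀ (by omega) hra
    have h5 : (1 : ℤ) < p ^ r := one_lt_pow₀ (by omega) (by omega)
    have := Int.le_of_dvd (by omega) h1
    omega
  · obtain ⟨r', rfl⟩ : ∃ r', r = a + r' := ⟨r - a, by omega⟩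
    have h3 : (p ^ r' + 1 : ℤ) = (p ^ a + 1) * p ^ r' - (p ^ (a + r') - 1) := by ring
    have h4 : (p ^ a + 1 : ℤ) ∣ p ^ r' + 1 := by
      rw [h3]; exact dvd_sub (dvd_mul_right _ _) h1
    have h5 : (p : ℤ) ^ r' < p ^ a := pow_lt_pow_right₀ (by omega) (by omega)
    have h6 : (0 : ℤ) < p ^ r' := by positivity
    have := Int.le_of_dvd (by omega) h4
    omega

end Count

section Cyc
variable {G : Type*} [Group G] [Finite G] {H : Subgroup G}

theorem cyc_comm (hc : IsCyclic H) {x y : G} (hx : x ∈ H) (hy : y ∈ H) : x * y = y * x := by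
  obtain ⟨g, hg⟩ := IsCyclic.exists_generator (α := H)
  obtain ⟨i, hi⟩ := Subgroup.mem_zpowers_iff.1 (hg ⟨x, hx⟩)
  obtain ⟨j, hj⟩ := Subgroup.mem_zpowers_iff.1 (hg ⟨y, hy⟩)
  have h1 : x = (g : G) ^ i := by rw [← Subgroup.coe_zpow, hi]
  have h2 : y = (g : G) ^ j := by rw [← Subgroup.coe_zpow, hj]
  rw [h1, h2]
  exact (zpow_mul_comm _ _ _)

theorem cyc_ncard_le (hc : IsCyclic H) {n : ℕ} (hn : 0 < n) :
    {x : G | x ∈ H ∧ x ^ n = 1}.ncard ≤ n := by
  classical
  have := Fintype.ofFinite H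
  have h := IsCyclic.card_pow_eq_one_le (α := H) hn
  refine le_trans (le_of_eq ?_) h
  rw [← Set.ncard_coe_finset]
  symm
  apply Set.ncard_congr (fun (x : H) _ => (x : G))
  · intro x hx
    simp only [Finset.coe_filter, Finset.mem_univ, true_and, Set.mem_setOf_eq] at hx
    exact ⟨x.2, by rw [← Subgroup.coe_pow, hx]; rfl⟩
  · intro x y _ _ h
    exact Subtype.ext h
  · rintro x ⟨hx, hx'⟩
    refine ⟨⟨x, hx⟩, ?_, rfl⟩
    simp only [Finset.coe_filter, Finset.mem_univ, true_and, Set.mem_setOf_eq]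
    exact Subtype.ext hx'

theorem cyc_mem (hc : IsCyclic H) {Y : Subgroup G} (hY : Y ≤ H) {x : G} (hx : x ∈ H)
    (h : x ^ Nat.card Y = 1) : x ∈ Y := by
  have h1 : (Y : Set G) ⊆ {x : G | x ∈ H ∧ x ^ Nat.card Y = 1} := fun y hy =>
    ⟨hY hy, congrArg Subtype.val (pow_card_eq_one' (G := Y) (x := ⟨y, hy⟩))⟩
  have h2 := Set.eq_of_subset_of_ncard_le h1 (cyc_ncard_le hc Nat.card_pos)
  rw [← SetLike.mem_coe, h2]
  exact ⟨hx, h⟩

theorem cyc_mem_zpowers (hc : IsCyclic H) {x y : G} (hx : x ∈ H) (hy : y ∈ H)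
    (h : x ^ orderOf y = 1) : x ∈ Subgroup.zpowers y :=
  cyc_mem hc ((Subgroup.zpowers_le).2 hy) hx (by rwa [Nat.card_zpowers])

theorem cyc_inv_unique (hc : IsCyclic H) {x y : G} (hx : x ∈ H) (hy : y ∈ H) (hx1 : x ≠ 1)
    (hy1 : y ≠ 1) (hx2 : x * x = 1) (hy2 : y * y = 1) : x = y := by
  have ho : orderOf y = 2 := orderOf_eq_prime (by rw [sq, hy2]) hy1
  have h := cyc_mem_zpowers hc hx hy (by rw [ho, sq, hx2])
  rw [← mem_powers_iff_mem_zpowers] at h
  obtain ⟨n, rfl⟩ := h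
  rcases Nat.even_or_odd' n with ⟨m, rfl | rfl⟩
  · exact absurd (by simp only [pow_mul, sq, hy2, one_pow]) hx1
  · simp only [pow_succ, pow_mul, pow_zero, one_mul, hy2, one_pow]

end Cyc

/-- a group acting on `Ω` with a subgroup `U`, normal in the stabiliser of `a` and regular on the
remaining points -/
structure RK (G Ω : Type*) [Group G] [MulAction G Ω] where
  a : Ω
  b : Ω
  U : Subgroup G
  hab : a ≠ b
  fixa : ∀ u ∈ U, u • a = a
  norm : ∀ g : G, g • a = a → ∀ u ∈ U, g * u * g⁻¹ ∈ U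
  ex : ∀ y, y ≠ a → ∃ u ∈ U, u • b = y
  free : ∀ u ∈ U, u • b = b → u = 1
  swap : ∃ s : G, s • a = b ∧ s • b = a
  trans : ∀ y, ∃ g : G, g • a = y

namespace RK

variable {G Ω : Type*} [Group G] [MulAction G Ω] (R : RK G Ω)

/-- the stabiliser of two points -/
def H : Subgroup G := stabilizer G R.a ⊓ stabilizer G R.b

/-- the centraliser in `U` -/
def CU (h : G) : Subgroup G := R.U ⊓ Subgroup.centralizer {h}

variable {R}

theorem mem_H {h : G} : h ∈ R.H ↔ h • R.a = R.a ∧ h • R.b = R.b := Iff.rfl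

theorem mem_CU {h u : G} : u ∈ R.CU h ↔ u ∈ R.U ∧ h * u = u * h := by
  simp [CU, Subgroup.mem_centralizer_iff]

theorem inv_fix {g : G} {x : Ω} (h : g • x = x) : g⁻¹ • x = x := by
  rw [inv_smul_eq_iff, h]

theorem smul_ne_a {g : G} (hg : g • R.a = R.a) {y : Ω} (hy : y ≠ R.a) : g • y ≠ R.a := by
  intro h
  apply hy
  rw [← inv_fix hg, ← h, inv_smul_smul]

theorem smul_b_ne {u : G} (hu : u ∈ R.U) : u • R.b ≠ R.a := smul_ne_a (R.fixa u hu) R.hab.symm

theorem eq_of_smul_b {u v : G} (hu : u ∈ R.U) (hv : v ∈ R.U) (h : u • R.b = v • R.b) : u = v := by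
  have := R.free (v⁻¹ * u) (R.U.mul_mem (R.U.inv_mem hv) hu) (by rw [mul_smul, h, inv_smul_smul])
  exact (inv_mul_eq_one.1 this).symm

theorem norm' {g : G} (hg : g • R.a = R.a) {u : G} (hu : u ∈ R.U) : g⁻¹ * u * g ∈ R.U := by
  simpa using R.norm g⁻¹ (inv_fix hg) u hu

theorem free' {u : G} (hu : u ∈ R.U) {y : Ω} (hy : y ≠ R.a) (h : u • y = y) : u = 1 := by
  obtain ⟨v, hv, rfl⟩ := R.ex y hy
  have := R.free (v⁻¹ * u * v) (norm' (R.fixa v hv) hu)
    (by rw [mul_smul, mul_smul, h, inv_smul_smul])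
  calc u = v * (v⁻¹ * u * v) * v⁻¹ := by group
    _ = 1 := by rw [this]; group

theorem conj_smul_b {h : G} (hh : h ∈ R.H) (u : G) : (h * u * h⁻¹) • R.b = h • u • R.b := by
  rw [mul_smul, mul_smul, inv_fix hh.2]

theorem conj_mem {h : G} (hh : h ∈ R.H) {u : G} (hu : u ∈ R.U) : h * u * h⁻¹ ∈ R.U :=
  R.norm h hh.1 u hu

theorem comm_iff_fix {h : G} (hh : h ∈ R.H) {u : G} (hu : u ∈ R.U) :
    h * u = u * h ↔ h • u • R.b = u • R.b := by
  constructor
  · intro e
    rw [← mul_smul, e, mul_smul, hh.2]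
  · intro e
    rw [← conj_smul_b hh] at e
    have := eq_of_smul_b (conj_mem hh hu) hu e
    rw [← mul_inv_eq_iff_eq_mul, this]

theorem eq_one_of_mem {u : G} (hu : u ∈ R.U) (hh : u ∈ R.H) : u = 1 := R.free u hu hh.2

theorem decomp {g : G} (hg : g • R.a = R.a) : ∃ u ∈ R.U, ∃ h ∈ R.H, g = u * h := by
  obtain ⟨u, hu, e⟩ := R.ex (g • R.b) (smul_ne_a hg R.hab.symm)
  refine ⟨u, hu, u⁻¹ * g, ⟨?_, ?_⟩, by group⟩
  · show (u⁻¹ * g) • R.a = R.a
    rw [mul_smul, hg, inv_fix (R.fixa u hu)]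
  · show (u⁻¹ * g) • R.b = R.b
    rw [mul_smul, ← e, inv_smul_smul]

theorem two_trans {x y : Ω} (hxy : x ≠ y) : ∃ g : G, g • R.a = x ∧ g • R.b = y := by
  obtain ⟨g, rfl⟩ := R.trans x
  obtain ⟨u, hu, e⟩ := R.ex (g⁻¹ • y) (fun h => hxy (by rw [← h, smul_inv_smul]))
  exact ⟨g * u, by rw [mul_smul, R.fixa u hu], by rw [mul_smul, e, smul_inv_smul]⟩

theorem mem_H_of_eq {g g' : G} (ha : g • R.a = g' • R.a) (hb : g • R.b = g' • R.b) :
    g⁻¹ * g' ∈ R.H :=
  ⟨show (g⁻¹ * g') • R.a = R.a by rw [mul_smul, ← ha, inv_smul_smul],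
    show (g⁻¹ * g') • R.b = R.b by rw [mul_smul, ← hb, inv_smul_smul]⟩

theorem conj_mem_H {g h : G} (ha : h • g • R.a = g • R.a) (hb : h • g • R.b = g • R.b) :
    g⁻¹ * h * g ∈ R.H :=
  ⟨show (g⁻¹ * h * g) • R.a = R.a by rw [mul_smul, mul_smul, ha, inv_smul_smul],
    show (g⁻¹ * h * g) • R.b = R.b by rw [mul_smul, mul_smul, hb, inv_smul_smul]⟩

theorem swap_conj {s h : G} (sa : s • R.a = R.b) (sb : s • R.b = R.a) (hh : h ∈ R.H) :
    s⁻¹ * h * s ∈ R.H := conj_mem_H (by rw [sa, hh.2]) (by rw [sb, hh.1])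

theorem swap_inv {s : G} (sa : s • R.a = R.b) (sb : s • R.b = R.a) :
    s⁻¹ • R.a = R.b ∧ s⁻¹ • R.b = R.a := ⟨by rw [inv_smul_eq_iff, sb], by rw [inv_smul_eq_iff, sa]⟩

theorem swap_conj' {s h : G} (sa : s • R.a = R.b) (sb : s • R.b = R.a) (hh : h ∈ R.H) :
    s * h * s⁻¹ ∈ R.H := by
  simpa using swap_conj (swap_inv sa sb).1 (swap_inv sa sb).2 hh

theorem swap_mul {s s' : G} (sa : s • R.a = R.b) (sb : s • R.b = R.a) (sa' : s' • R.a = R.b)
    (sb' : s' • R.b = R.a) : s * s' ∈ R.H :=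
  ⟨show (s * s') • R.a = R.a by rw [mul_smul, sa', sb],
    show (s * s') • R.b = R.b by rw [mul_smul, sb', sa]⟩

theorem exists_fix_comm {h : G} (hh : h ∈ R.H) {y : Ω} (hy : y ≠ R.a) (e : h • y = y) :
    ∃ u ∈ R.CU h, u • R.b = y := by
  obtain ⟨u, hu, rfl⟩ := R.ex y hy
  exact ⟨u, mem_CU.2 ⟨hu, (comm_iff_fix hh hu).2 e⟩, rfl⟩

theorem fix_of_comm {g h : G} (e : h * g = g * h) {y : Ω} (hy : h • y = y) : h • g • y = g • y := by
  rw [← mul_smul, e, mul_smul, hy]

theorem exists_swap_comm {h g : G} (hh : h ∈ R.H) (e : h * g = g * h) (hg : g • R.a ≠ R.a) :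
    ∃ s : G, s • R.a = R.b ∧ s • R.b = R.a ∧ h * s = s * h := by
  obtain ⟨u, hu, e1⟩ := exists_fix_comm hh hg (fix_of_comm e hh.1)
  rw [mem_CU] at hu
  have c1 : Commute h (g⁻¹ * u) := (Commute.inv_right e).mul_right hu.2
  have h1 : (g⁻¹ * u) • R.b = R.a := by rw [mul_smul, e1, inv_smul_smul]
  have h2 : (g⁻¹ * u) • R.a ≠ R.a := fun h => R.hab (smul_left_cancel (g⁻¹ * u) (h.trans h1.symm))
  obtain ⟨v, hv, e2⟩ := exists_fix_comm hh h2 (fix_of_comm c1 hh.1)
  rw [mem_CU] at hv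
  refine ⟨v⁻¹ * (g⁻¹ * u), by rw [mul_smul, ← e2, inv_smul_smul],
    by rw [mul_smul, h1, inv_fix (R.fixa v hv.1)], ?_⟩
  exact ((Commute.inv_right hv.2).mul_right c1 : Commute h _)

theorem fixedBy_eq {h : G} (hh : h ∈ R.H) :
    {y : Ω | h • y = y} = insert R.a ((fun u : G => u • R.b) '' (R.CU h : Set G)) := by
  ext y
  constructor
  · intro hy
    by_cases e : y = R.a
    · exact Or.inl e
    · obtain ⟨u, hu, e⟩ := exists_fix_comm hh e hy
      exact Or.inr ⟨u, hu, e⟩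
  · rintro (rfl | ⟨u, hu, rfl⟩)
    · exact hh.1
    · exact (comm_iff_fix hh (mem_CU.1 hu).1).1 (mem_CU.1 hu).2

variable [Finite G]

theorem finite_pts (R : RK G Ω) : Finite Ω :=
  Finite.of_surjective (fun g : G => g • R.a) R.trans

theorem ncard_image_b {S : Set G} (hS : S ⊆ R.U) : ((fun u : G => u • R.b) '' S).ncard = S.ncard :=
  Set.ncard_image_of_injOn fun _ hu _ hv h => eq_of_smul_b (hS hu) (hS hv) h

theorem ncard_fix {h : G} (hh : h ∈ R.H) :
    {y : Ω | h • y = y}.ncard = Nat.card (R.CU h) + 1 := by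
  have := R.finite_pts
  rw [fixedBy_eq hh, Set.ncard_insert_of_notMem, ncard_image_b fun u hu => (mem_CU.1 hu).1]
  · rfl
  · rintro ⟨u, hu, e⟩
    exact smul_b_ne (mem_CU.1 hu).1 e

theorem card_pts : Nat.card Ω = Nat.card R.U + 1 := by
  have := ncard_fix (R := R) R.H.one_mem
  have e : R.CU 1 = R.U := by ext u; simp [mem_CU]
  simpa [e] using this

/-- counting a union of cosets of `H` by the images of the base pair -/
theorem cnt (E : Set G) (hE : ∀ g ∈ E, ∀ h ∈ R.H, g * h ∈ E) :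
    E.ncard = ((fun g : G => (g • R.a, g • R.b)) '' E).ncard * Nat.card R.H := by
  apply ncard_eq_mul_of_fibers
  intro x hx
  rw [card_eq_ncard]
  symm
  apply Set.ncard_congr (fun h _ => x * h)
  · intro h hh
    refine ⟨hE x hx h hh, ?_⟩
    simp only [mul_smul]
    rw [hh.1, hh.2]
  · intro h h' _ _ e
    exact mul_left_cancel e
  · rintro y ⟨-, e⟩
    simp only [Prod.mk.injEq] at e
    exact ⟨x⁻¹ * y, mem_H_of_eq e.1.symm e.2.symm, by group⟩

theorem card_G : Nat.card G = (Nat.card R.U + 1) * Nat.card R.U * Nat.card R.H := by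
  have := R.finite_pts
  have h := cnt (R := R) Set.univ fun _ _ _ _ => trivial
  have e : (fun g : G => (g • R.a, g • R.b)) '' Set.univ = (Set.univ : Set Ω).offDiag := by
    ext ⟨x, y⟩
    simp only [Set.image_univ, Set.mem_range, Prod.mk.injEq, Set.mem_offDiag, Set.mem_univ,
      true_and]
    constructor
    · rintro ⟨g, rfl, rfl⟩ h
      exact R.hab (smul_left_cancel g h)
    · exact fun h => two_trans h
  rw [e, ncard_offDiag, Set.ncard_univ, Set.ncard_univ, card_pts (R := R)] at h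
  simpa using h

section Cyclic
variable (hc : IsCyclic R.H)
include hc

theorem comm {x y : G} (hx : x ∈ R.H) (hy : y ∈ R.H) : x * y = y * x := cyc_comm hc hx hy

theorem swap_comm {h s s' : G} (hh : h ∈ R.H) (sa : s • R.a = R.b) (sb : s • R.b = R.a)
    (sa' : s' • R.a = R.b) (sb' : s' • R.b = R.a) (e : h * s = s * h) : h * s' = s' * h := by
  have h1 := swap_mul (swap_inv sa sb).1 (swap_inv sa sb).2 sa' sb'
  have h2 : Commute h (s * (s⁻¹ * s')) := Commute.mul_right e (comm hc hh h1)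
  simpa using h2.eq

/-- an element of `H` with a third fixed point commutes with every element swapping `a`, `b` -/
theorem comm_swap {h u s : G} (hh : h ∈ R.H) (hu : u ∈ R.CU h) (hu1 : u ≠ 1)
    (sa : s • R.a = R.b) (sb : s • R.b = R.a) : h * s = s * h := by
  rw [mem_CU] at hu
  have h1 : h ∈ Subgroup.zpowers (s * h * s⁻¹) := by
    apply cyc_mem_zpowers hc hh (swap_conj' sa sb hh)
    rw [← MulAut.conj_apply, MulEquiv.orderOf_eq, pow_orderOf_eq_one]
  have h2 : Commute (s * h * s⁻¹) (s * u * s⁻¹) := by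
    show _ = _
    calc s * h * s⁻¹ * (s * u * s⁻¹) = s * (h * u) * s⁻¹ := by group
      _ = _ := by rw [hu.2]; group
  obtain ⟨i, hi⟩ := Subgroup.mem_zpowers_iff.1 h1
  have h3 : Commute h (s * u * s⁻¹) := by
    have := h2.zpow_left i
    rwa [hi] at this
  obtain ⟨s', sa', sb', e⟩ := exists_swap_comm hh h3 (by
    rw [mul_smul, mul_smul, (swap_inv sa sb).1]
    intro e
    exact hu1 (R.free u hu.1 (smul_left_cancel s (e.trans sb.symm))))
  exact swap_comm hc hh sa' sb' sa sb e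

theorem two_trans_comm {h s : G} (hh : h ∈ R.H) (sa : s • R.a = R.b) (sb : s • R.b = R.a)
    (e : h * s = s * h) {x y : Ω} (hxy : x ≠ y) (hx : h • x = x) (hy : h • y = y) :
    ∃ g : G, h * g = g * h ∧ g • R.a = x ∧ g • R.b = y := by
  obtain ⟨g, c, rfl⟩ : ∃ g : G, Commute h g ∧ g • R.a = x := by
    by_cases hxa : x = R.a
    · exact ⟨1, Commute.one_right _, by rw [one_smul, hxa]⟩
    · obtain ⟨u, hu, rfl⟩ := exists_fix_comm hh hxa hx
      exact ⟨u * s, Commute.mul_right (mem_CU.1 hu).2 e, by rw [mul_smul, sa]⟩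
  obtain ⟨u, hu, e1⟩ := exists_fix_comm hh (y := g⁻¹ • y)
    (fun h => hxy (by rw [← h, smul_inv_smul])) (fix_of_comm c.inv_right hy)
  exact ⟨g * u, c.mul_right (mem_CU.1 hu).2, by rw [mul_smul, R.fixa u (mem_CU.1 hu).1],
    by rw [mul_smul, e1, smul_inv_smul]⟩

theorem card_centralizer {h s : G} (hh : h ∈ R.H) (sa : s • R.a = R.b) (sb : s • R.b = R.a)
    (e : h * s = s * h) : Nat.card (Subgroup.centralizer {h}) =
      (Nat.card (R.CU h) + 1) * Nat.card (R.CU h) * Nat.card R.H := by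
  have := R.finite_pts
  have hm : ∀ g, g ∈ Subgroup.centralizer {h} ↔ h * g = g * h := by
    simp [Subgroup.mem_centralizer_iff]
  have h1 := cnt (R := R) (Subgroup.centralizer {h} : Set G) fun g hg k hk =>
    (Subgroup.centralizer {h}).mul_mem hg ((hm k).2 (comm hc hh hk))
  have e : (fun g : G => (g • R.a, g • R.b)) '' (Subgroup.centralizer {h} : Set G) =
      {y : Ω | h • y = y}.offDiag := by
    ext ⟨x, y⟩
    simp only [Set.mem_image, SetLike.mem_coe, hm, Prod.mk.injEq, Set.mem_offDiag,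
      Set.mem_setOf_eq]
    constructor
    · rintro ⟨g, c, rfl, rfl⟩
      exact ⟨fix_of_comm c hh.1, fix_of_comm c hh.2, fun h => R.hab (smul_left_cancel g h)⟩
    · rintro ⟨hx, hy, hxy⟩
      exact two_trans_comm hc hh sa sb e hxy hx hy
  rw [e, ncard_offDiag, ncard_fix hh] at h1
  rw [card_eq_ncard, h1]
  simp

/-- an involution fixing two given points is unique -/
theorem inv_unique {x y : Ω} (hxy : x ≠ y) {i j : G} (hi1 : i ≠ 1) (hj1 : j ≠ 1) (hi : i * i = 1)
    (hj : j * j = 1) (ix : i • x = x) (iy : i • y = y) (jx : j • x = x) (jy : j • y = y) :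
    i = j := by
  obtain ⟨g, rfl, rfl⟩ := two_trans (R := R) hxy
  have := cyc_inv_unique hc (conj_mem_H ix iy) (conj_mem_H jx jy)
    (fun h => hi1 (by simpa [mul_assoc, inv_mul_eq_iff_eq_mul] using h))
    (fun h => hj1 (by simpa [mul_assoc, inv_mul_eq_iff_eq_mul] using h))
    (by calc _ = g⁻¹ * (i * i) * g := by group
          _ = 1 := by rw [hi]; group)
    (by calc _ = g⁻¹ * (j * j) * g := by group
          _ = 1 := by rw [hj]; group)
  simpa using this

theorem comm_of_fix_two {x y : Ω} (hxy : x ≠ y) {i j : G} (ix : i • x = x) (iy : i • y = y)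
    (jx : j • x = x) (jy : j • y = y) : i * j = j * i := by
  obtain ⟨g, rfl, rfl⟩ := two_trans (R := R) hxy
  have := comm hc (conj_mem_H ix iy) (conj_mem_H jx jy)
  calc i * j = g * ((g⁻¹ * i * g) * (g⁻¹ * j * g)) * g⁻¹ := by group
    _ = _ := by rw [this]; group

end Cyclic

end RK

end Cfsg.Agent.H8.U3
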