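import Cfsg.Agent.H8.U3a

/-! Groups of odd unitary type: counting involutions. -/

set_option autoImplicit false

namespace Cfsg.Agent.H8.U3

open MulAction RK

variable {G Ω : Type*} [Group G] [MulAction G Ω]

/-- the numerical hypotheses -/
structure Hyp (R : RK G Ω) (p e q d k : ℕ) : Prop where
  hp : p.Prime
  hp2 : p ≠ 2
  he : 1 ≤ e
  hq : q = p ^ e
  hd : d = 1 ∨ d = 3
  hk : q + 1 = d * k
  cardU : Nat.card R.U = q ^ 3
  cyc : IsCyclic R.H
  cardH : Nat.card R.H = (q - 1) * k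
  faith : ∀ g : G, (∀ y : Ω, g • y = y) → g = 1

/-- the involution of `H` -/
structure IsT (R : RK G Ω) (t : G) : Prop where
  mem : t ∈ R.H
  ne : t ≠ 1
  sq : t * t = 1

/-- the conjugates of `t` swapping the base points -/
def JJ (R : RK G Ω) (t : G) : Set G :=
  {x | (∃ g : G, x = g⁻¹ * t * g) ∧ x • R.a = R.b ∧ x • R.b = R.a}

/-- the centraliser in `H` -/
def CH (R : RK G Ω) (x : G) : Subgroup G := R.H ⊓ Subgroup.centralizer {x}

theorem mem_CH {R : RK G Ω} {x h : G} : h ∈ CH R x ↔ h ∈ R.H ∧ x * h = h * x := by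
  simp [CH, Subgroup.mem_centralizer_iff]

theorem ncard_pair_le {α : Type*} (a b : α) : ({a, b} : Set α).ncard ≤ 2 := by
  simpa using Set.ncard_insert_le a {b}

theorem conj_sq {t : G} (h : t * t = 1) (g : G) : (g⁻¹ * t * g) * (g⁻¹ * t * g) = 1 := by
  calc _ = g⁻¹ * (t * t) * g := by group
    _ = 1 := by rw [h]; group

theorem conj_ne {t : G} (h : t ≠ 1) (g : G) : g⁻¹ * t * g ≠ 1 := fun e =>
  h (by simpa [mul_assoc, inv_mul_eq_iff_eq_mul] using e)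

theorem IsT.inv {R : RK G Ω} {t : G} (ht : IsT R t) : t⁻¹ = t := H5.Odd.inv_eq_of_sq ht.sq

theorem JJ.sq {R : RK G Ω} {t ν : G} (ht : IsT R t) (hν : ν ∈ JJ R t) : ν * ν = 1 := by
  obtain ⟨⟨g, rfl⟩, -⟩ := hν
  exact conj_sq ht.sq g

theorem JJ.ne {R : RK G Ω} {t ν : G} (ht : IsT R t) (hν : ν ∈ JJ R t) : ν ≠ 1 := by
  obtain ⟨⟨g, rfl⟩, -⟩ := hν
  exact conj_ne ht.ne g

theorem ncard_fix_conj (t g : G) :
    {y : Ω | (g⁻¹ * t * g) • y = y}.ncard = {y : Ω | t • y = y}.ncard := by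
  apply Set.ncard_congr (fun y _ => g • y)
  · intro y hy
    simp only [Set.mem_setOf_eq, mul_smul, inv_smul_eq_iff] at hy ⊢
    exact hy
  · intro y z _ _ h
    exact smul_left_cancel g h
  · intro y hy
    refine ⟨g⁻¹ • y, ?_, smul_inv_smul _ _⟩
    simp only [Set.mem_setOf_eq, mul_smul, smul_inv_smul] at hy ⊢
    rw [hy]

namespace Hyp

variable {R : RK G Ω} {p e q d k : ℕ} (h : Hyp R p e q d k)
include h

theorem p3 : 3 ≤ p := by
  have := h.hp.two_le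
  have := h.hp2
  omega

theorem p_dvd : p ∣ q := h.hq ▸ dvd_pow_self p (by have := h.he; omega)

theorem q3 : 3 ≤ q := by
  have := Nat.le_of_dvd (h.hq ▸ pow_pos h.hp.pos e) h.p_dvd
  have := h.p3
  omega

theorem oddq : Odd q := h.hq ▸ (h.hp.odd_of_ne_two h.hp2).pow

theorem evenk : Even k := by
  obtain ⟨j, hj⟩ := h.oddq
  have := h.hk
  rw [Nat.even_iff]
  rcases h.hd with rfl | rfl <;> omega

theorem k2 : 2 ≤ k := by
  obtain ⟨j, hj⟩ := h.evenk
  have := h.hk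
  have := h.q3
  rcases h.hd with rfl | rfl <;> omega

theorem p5 (hd : d = 3) : 5 ≤ p := by
  have h3 := h.p3
  have hk := h.hk
  have h4 : p ≠ 4 := by rintro rfl; exact absurd h.hp (by decide)
  have h5 : p ≠ 3 := by
    rintro rfl
    obtain ⟨j, hj⟩ := h.p_dvd
    subst hd
    omega
  omega

theorem dvd_k {w : ℕ} (h1 : w ∣ q + 1) (h2 : w ∣ (q - 1) * k) : w ∣ k := by
  have hq := h.q3
  have hk := h.hk
  rcases h.hd with rfl | rfl
  · rwa [hk, one_mul] at h1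
  · have e : q - 1 = 3 * (k - 1) + 1 := by omega
    rw [hk] at h1
    rw [e, add_mul, one_mul] at h2
    refine (Nat.dvd_add_right ?_).1 h2
    rw [mul_right_comm]
    exact h1.mul_right _

theorem mul_le_of_pow_lt {a b : ℕ} (hab : p ^ a < p ^ b) : p * p ^ a ≤ p ^ b := by
  rw [← pow_succ']
  exact Nat.pow_le_pow_right h.hp.pos ((Nat.pow_lt_pow_iff_right h.hp.one_lt).1 hab)

theorem card_sub {W : Subgroup G} (hW : W ≤ R.U) : ∃ a, Nat.card W = p ^ a := by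
  have := Subgroup.card_dvd_of_le hW
  rw [h.cardU, h.hq, ← pow_mul] at this
  obtain ⟨a, -, ha⟩ := (Nat.dvd_prime_pow h.hp).1 this
  exact ⟨a, ha⟩

theorem oddU : Odd (Nat.card R.U) := h.cardU ▸ h.oddq.pow

theorem eq_one_of_sq {u : G} (hu : u ∈ R.U) (h2 : u * u = 1) : u = 1 :=
  H5.Odd.eq_one_of_sq_of_odd (H5.Odd.odd_orderOf_of_mem h.oddU hu) h2

theorem eq_one_of_comm {x : G} (hx : x ∈ R.H) (hu : ∀ u ∈ R.U, x * u = u * x) : x = 1 := by
  apply h.faith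
  intro y
  by_cases hy : y = R.a
  · rw [hy, hx.1]
  · obtain ⟨u, hu', rfl⟩ := R.ex y hy
    exact (comm_iff_fix hx hu').1 (hu u hu')

variable [Finite G]

theorem exists_t : ∃ t, IsT R t := by
  obtain ⟨t, h1, h2, h3⟩ := H5.Odd.exists_involution_of_even (X := R.H)
    (h.cardH ▸ h.evenk.mul_left _)
  exact ⟨t, h1, h2, h3⟩

theorem eq_t {t x : G} (ht : IsT R t) (hx : x ∈ R.H) (h2 : x * x = 1) : x = 1 ∨ x = t := by
  by_cases h1 : x = 1
  · exact Or.inl h1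
  · exact Or.inr (cyc_inv_unique h.cyc hx ht.mem h1 ht.ne h2 ht.sq)

theorem t_swap {t s : G} (ht : IsT R t) (sa : s • R.a = R.b) (sb : s • R.b = R.a) :
    t * s = s * t := by
  have := (h.eq_t ht (swap_conj sa sb ht.mem) (conj_sq ht.sq s)).resolve_left (conj_ne ht.ne s)
  calc t * s = s * (s⁻¹ * t * s) := by group
    _ = _ := by rw [this]

theorem card_CU_lt {x : G} (hx : x ∈ R.H) (hx1 : x ≠ 1) : Nat.card (R.CU x) < q ^ 3 := by
  rw [← h.cardU]
  refine lt_of_le_of_ne (Subgroup.card_le_of_le inf_le_left) fun e => hx1 ?_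
  have : R.CU x = R.U := Subgroup.eq_of_le_of_card_ge inf_le_left e.ge
  exact h.eq_one_of_comm hx fun u hu => (mem_CU.1 (this ▸ hu)).2

theorem card_CU_le {x : G} (hx : x ∈ R.H) (hx1 : x ≠ 1) : Nat.card (R.CU x) ≤ q := by
  have hlt := h.card_CU_lt hx hx1
  have hq3 := h.q3
  by_cases hb : R.CU x = ⊥
  · rw [hb, Subgroup.card_bot]; omega
  obtain ⟨⟨u, hu⟩, hu1⟩ := Subgroup.ne_bot_iff_exists_ne_one.1 hb
  have hu1' : u ≠ 1 := fun e => hu1 (Subtype.ext e)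
  obtain ⟨s, sa, sb⟩ := R.swap
  have h1 := card_centralizer h.cyc hx sa sb (comm_swap h.cyc hx hu hu1' sa sb)
  have h2 := Subgroup.card_subgroup_dvd_card (Subgroup.centralizer {x})
  rw [h1, card_G (R := R), h.cardU] at h2
  have h3 := Nat.dvd_of_mul_dvd_mul_right (Nat.card_pos (α := R.H)) h2
  obtain ⟨a, ha⟩ := h.card_sub (W := R.CU x) inf_le_left
  have ha0 : a ≠ 0 := by
    rintro rfl
    exact hb (Subgroup.card_eq_one.1 (by simpa using ha))
  rw [ha, h.hq, ← pow_mul] at h3 hlt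
  have h4 : p ^ a + 1 ∣ p ^ (e * 3) + 1 := by
    refine Nat.Coprime.dvd_of_dvd_mul_right ?_ ((dvd_mul_right _ _).trans h3)
    apply Nat.Coprime.pow_right
    rw [Nat.coprime_comm, Nat.Prime.coprime_iff_not_dvd h.hp, Nat.dvd_add_right (dvd_pow_self p ha0)]
    exact h.hp.not_dvd_one
  have h5 := (Nat.pow_lt_pow_iff_right h.hp.one_lt).1 hlt
  rw [mul_comm e] at h4 h5
  rw [ha, h.hq]
  exact Nat.pow_le_pow_right h.hp.pos (le_of_pow_add_one_dvd h.hp.two_le h5 h4)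

theorem count_JJ {t : G} (ht : IsT R t) : q ^ 3 - Nat.card (R.CU t) =
    (JJ R t).ncard * ((Nat.card (R.CU t) + 1) * Nat.card (R.CU t)) := by
  have := R.finite_pts
  obtain ⟨s, sa, sb⟩ := R.swap
  let E : Set G := {g | t • g • R.a = g • R.b}
  have h1 := cnt (R := R) E fun g hg x hx => by
    simp only [E, Set.mem_setOf_eq, mul_smul] at hg ⊢
    rw [hx.1, hx.2, hg]
  have e1 : (fun g : G => (g • R.a, g • R.b)) '' E =
      (fun y : Ω => (y, t • y)) '' {y : Ω | t • y = y}ᶜ := by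
    ext ⟨x, y⟩
    simp only [E, Set.mem_image, Set.mem_setOf_eq, Prod.mk.injEq, Set.mem_compl_iff]
    constructor
    · rintro ⟨g, hg, rfl, rfl⟩
      exact ⟨_, fun e => R.hab (smul_left_cancel g (e.symm.trans hg)), rfl, hg⟩
    · rintro ⟨x, hx, rfl, rfl⟩
      obtain ⟨g, e1, e2⟩ := two_trans (R := R) (Ne.symm hx)
      exact ⟨g, by rw [e1, e2], e1, e2⟩
  rw [e1, Set.ncard_image_of_injective _ (fun x y e => congrArg Prod.fst e), Set.ncard_compl,
    card_pts (R := R), ncard_fix ht.mem, h.cardU] at h1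
  have h2 := ncard_eq_mul_of_fibers (fun g : G => g⁻¹ * t * g) E
    (Nat.card (Subgroup.centralizer {t})) fun x hx => by
      rw [card_eq_ncard]
      symm
      apply Set.ncard_congr (fun c _ => c * x)
      · intro c hc
        have hc' : t * c = c * t := by simpa [Subgroup.mem_centralizer_iff] using hc
        refine ⟨?_, ?_⟩
        · simp only [E, Set.mem_setOf_eq, mul_smul] at hx ⊢
          rw [← hx, ← mul_smul, hc', mul_smul]
        · calc (c * x)⁻¹ * t * (c * x) = x⁻¹ * c⁻¹ * (t * c) * x := by group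
            _ = _ := by rw [hc']; group
      · intro c c' _ _ e
        exact mul_right_cancel e
      · rintro y ⟨-, hy⟩
        refine ⟨y * x⁻¹, ?_, by group⟩
        simp only [SetLike.mem_coe, Subgroup.mem_centralizer_iff, Set.mem_singleton_iff,
          forall_eq]
        calc t * (y * x⁻¹) = y * (y⁻¹ * t * y) * x⁻¹ := by group
          _ = _ := by rw [hy]; group
  have e2 : (fun g : G => g⁻¹ * t * g) '' E = JJ R t := by
    ext x
    constructor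
    · rintro ⟨g, hg, rfl⟩
      have hg' : t • g • R.a = g • R.b := hg
      refine ⟨⟨g, rfl⟩, ?_, ?_⟩
      · simp only [mul_smul, hg', inv_smul_smul]
      · simp only [mul_smul]
        rw [← hg', ← mul_smul t, ht.sq, one_smul, inv_smul_smul]
    · rintro ⟨⟨g, rfl⟩, e1, -⟩
      refine ⟨g, ?_, rfl⟩
      simp only [mul_smul, inv_smul_eq_iff] at e1
      exact e1
  rw [e2, card_centralizer h.cyc ht.mem sa sb (h.t_swap ht sa sb), h1, ← mul_assoc] at h2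
  have h3 := Nat.eq_of_mul_eq_mul_right (Nat.card_pos (α := R.H)) h2
  rw [← h3]
  omega

omit h in
theorem JJ_le_II {t ν : G} (ht : IsT R t) (hν : ν ∈ JJ R t) :
    (JJ R t).ncard ≤ (Cfsg.invertedBy R.H ν).ncard := by
  have h2 := JJ.sq ht hν
  refine Set.ncard_le_ncard_of_injOn (fun x => ν * x) (fun x hx => ⟨?_, ?_⟩)
    (fun x _ y _ e => mul_left_cancel e)
  · exact swap_mul hν.2.1 hν.2.2 hx.2.1 hx.2.2
  · rw [mul_inv_rev, H5.Odd.inv_eq_of_sq h2, H5.Odd.inv_eq_of_sq (JJ.sq ht hx), ← mul_assoc, h2, one_mul]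

theorem eq_of_II {t ν x y : G} (ht : IsT R t) (hx : x ∈ Cfsg.invertedBy R.H ν)
    (hy : y ∈ Cfsg.invertedBy R.H ν) (c : ν * (x⁻¹ * y) = (x⁻¹ * y) * ν) :
    y = x ∨ y = x * t := by
  have hm := R.H.mul_mem (R.H.inv_mem hx.1) hy.1
  have h1 : x⁻¹ * y = x * y⁻¹ := by
    calc x⁻¹ * y = ν * (x⁻¹ * y) * ν⁻¹ := by rw [c]; group
      _ = (ν * x * ν⁻¹)⁻¹ * (ν * y * ν⁻¹) := by group
      _ = _ := by rw [hx.2, hy.2, inv_inv]
  have h2 : x⁻¹ * y * (x⁻¹ * y) = 1 := by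
    nth_rw 2 [h1]
    rw [comm h.cyc hx.1 (R.H.inv_mem hy.1)]
    group
  rcases h.eq_t ht hm h2 with e | e
  · exact Or.inl (inv_mul_eq_one.1 e).symm
  · exact Or.inr (by rw [← e]; group)

theorem II_le {t ν : G} (ht : IsT R t) (hν : ν ∈ JJ R t) (hc : R.CU t ≠ ⊥) :
    (Cfsg.invertedBy R.H ν).ncard ≤ (Nat.card (R.CU t) - 1) * 2 := by
  obtain ⟨⟨u, hu⟩, hu1⟩ := Subgroup.ne_bot_iff_exists_ne_one.1 hc
  have hu1' : u ≠ 1 := fun e => hu1 (Subtype.ext e)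
  have hu' := mem_CU.1 hu
  refine (ncard_le_mul_of_fibers (fun x => x * u * x⁻¹) _ 2 fun x hx => ?_).trans
    (Nat.mul_le_mul_right _ ?_)
  · refine le_trans (Set.ncard_le_ncard (t := {x, x * t}) ?_) (ncard_pair_le _ _)
    rintro y ⟨hy, e⟩
    have hm := R.H.mul_mem (R.H.inv_mem hx.1) hy.1
    refine h.eq_of_II ht hx hy (comm_swap h.cyc hm (u := u) (mem_CU.2 ⟨hu'.1, ?_⟩) hu1'
      hν.2.1 hν.2.2).symm
    calc x⁻¹ * y * u = x⁻¹ * (y * u * y⁻¹) * y := by group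
      _ = _ := by rw [e]; group
  · rw [← ncard_diff_one]
    apply Set.ncard_le_ncard _ (Set.toFinite _)
    rintro _ ⟨x, hx, rfl⟩
    refine ⟨mem_CU.2 ⟨conj_mem hx.1 hu'.1, ?_⟩, fun e => hu1' (by simpa using e)⟩
    have c : Commute t x := comm h.cyc ht.mem hx.1
    exact (c.mul_right hu'.2).mul_right c.inv_right

theorem card_C_JJ {t : G} (ht : IsT R t) : Nat.card (R.CU t) = q ∧ (JJ R t).ncard = q - 1 := by
  have h1 := h.count_JJ ht
  have h2 := h.card_CU_lt ht.mem ht.ne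
  have h3 := h.card_CU_le ht.mem ht.ne
  have hq := h.q3
  obtain ⟨ν, hν⟩ : (JJ R t).Nonempty := by
    by_contra hn
    rw [Set.not_nonempty_iff_eq_empty] at hn
    rw [hn, Set.ncard_empty] at h1
    omega
  have h4 := JJ_le_II ht hν
  have hc : Nat.card (R.CU t) = q := by
    by_cases hb : R.CU t = ⊥
    · exfalso
      have h5 : (Cfsg.invertedBy R.H ν).ncard ≤ Nat.card R.H :=
        Set.ncard_le_ncard (fun x hx => hx.1) (Set.toFinite _)
      rw [hb, Subgroup.card_bot] at h1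
      rw [h.cardH] at h5
      have h6 : k ≤ q + 1 := by
        have := h.hk
        rcases h.hd with rfl | rfl <;> omega
      have h7 : (JJ R t).ncard ≤ (q - 1) * (q + 1) :=
        (h4.trans h5).trans (Nat.mul_le_mul_left _ h6)
      obtain ⟨r, rfl⟩ : ∃ r, q = r + 3 := ⟨q - 3, by omega⟩
      have e : (r + 3) ^ 3 = r ^ 3 + 9 * r ^ 2 + 27 * r + 27 := by ring
      have e' : (r + 3 - 1) * (r + 3 + 1) = r ^ 2 + 6 * r + 8 := by
        rw [show r + 3 - 1 = r + 2 by omega]; ring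
      omega
    · have h5 := h4.trans (h.II_le ht hν hb)
      obtain ⟨a, ha⟩ := h.card_sub (W := R.CU t) inf_le_left
      by_contra hne
      have h6 : p ^ a < p ^ e := by rw [← ha, ← h.hq]; omega
      have h7 := h.mul_le_of_pow_lt h6
      rw [← ha, ← h.hq] at h7
      have h8 : 3 * Nat.card (R.CU t) ≤ q := (Nat.mul_le_mul_right _ h.p3).trans h7
      have h9 : 0 < Nat.card (R.CU t) := Nat.card_pos
      generalize Nat.card (R.CU t) = c at *
      generalize (JJ R t).ncard = j at *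
      have h10 : j * ((c + 1) * c) ≤ (c - 1) * 2 * ((c + 1) * c) := Nat.mul_le_mul_right _ h5
      have h11 : (3 * c) ^ 3 ≤ q ^ 3 := Nat.pow_le_pow_left h8 3
      obtain ⟨r, rfl⟩ : ∃ r, c = r + 1 := ⟨c - 1, by omega⟩
      have e : (r + 1 - 1) * 2 * ((r + 1 + 1) * (r + 1)) = 2 * r ^ 3 + 6 * r ^ 2 + 4 * r := by
        rw [Nat.add_sub_cancel]; ring
      have e' : (3 * (r + 1)) ^ 3 = 27 * r ^ 3 + 81 * r ^ 2 + 81 * r + 27 := by ring
      omega
  refine ⟨hc, ?_⟩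
  rw [hc] at h1
  apply Nat.eq_of_mul_eq_mul_right (m := (q + 1) * q) (by positivity)
  rw [← h1]
  obtain ⟨r, rfl⟩ : ∃ r, q = r + 1 := ⟨q - 1, by omega⟩
  rw [Nat.add_sub_cancel, Nat.sub_eq_iff_eq_add (by nlinarith)]
  ring

theorem card_C {t : G} (ht : IsT R t) : Nat.card (R.CU t) = q := (h.card_C_JJ ht).1

theorem exists_JJ {t : G} (ht : IsT R t) : ∃ ν, ν ∈ JJ R t := by
  have := (h.card_C_JJ ht).2
  have hq := h.q3
  exact Set.nonempty_of_ncard_ne_zero (by omega)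

theorem card_W_le {t ν : G} (ht : IsT R t) (hν : ν ∈ JJ R t) : Nat.card (CH R ν) ≤ 2 * k := by
  have h1 := JJ_le_II ht hν
  rw [(h.card_C_JJ ht).2] at h1
  have h2 := ncard_le_mul_of_fibers (fun z : G × G => z.1 * z.2)
    ((CH R ν : Set G) ×ˢ Cfsg.invertedBy R.H ν) 2 fun z hz => by
      refine le_trans (Set.ncard_le_ncard (t := {z, (z.1 * t, z.2 * t)}) ?_)
        (ncard_pair_le _ _)
      rintro ⟨w, y⟩ ⟨⟨hw, hy⟩, e⟩
      obtain ⟨w', x⟩ := z
      obtain ⟨hw', hx⟩ := hz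
      simp only [SetLike.mem_coe, mem_CH] at hw hw' hx hy e ⊢
      have e1 : x⁻¹ * y = w⁻¹ * w' := by
        rw [comm h.cyc (R.H.inv_mem hx.1) hy.1]
        calc y * x⁻¹ = w⁻¹ * (w * y) * x⁻¹ := by group
          _ = _ := by rw [e]; group
      have c : Commute ν (w⁻¹ * w') := (Commute.inv_right hw.2).mul_right hw'.2
      rcases h.eq_of_II ht hx hy (e1 ▸ c) with rfl | rfl
      · exact Or.inl (by rw [mul_right_cancel e])
      · refine Or.inr ?_
        have : w = w' * t := by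
          rw [comm h.cyc hx.1 ht.mem, ← mul_assoc] at e
          rw [← mul_right_cancel e, mul_assoc, ht.sq, mul_one]
        rw [this]; rfl
  rw [Set.ncard_prod] at h2
  have h3 : ((fun z : G × G => z.1 * z.2) '' ((CH R ν : Set G) ×ˢ Cfsg.invertedBy R.H ν)).ncard ≤
      Nat.card R.H := by
    apply Set.ncard_le_ncard _ (Set.toFinite _)
    rintro _ ⟨z, hz, rfl⟩
    exact R.H.mul_mem (mem_CH.1 hz.1).1 hz.2.1
  rw [h.cardH] at h3
  have hq := h.q3
  rw [← card_eq_ncard] at h2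
  apply Nat.le_of_mul_le_mul_right (c := q - 1) _ (by omega)
  calc _ ≤ _ := Nat.mul_le_mul_left _ h1
    _ ≤ _ := h2
    _ ≤ (q - 1) * k * 2 := Nat.mul_le_mul_right _ h3
    _ = _ := by ring

/-- an element of `U` centralised by a non-identity element of `H` has a large centraliser -/
theorem k_le {x u : G} (hx : x ∈ R.H) (hx1 : x ≠ 1) (hu : u ∈ R.CU x) (hu1 : u ≠ 1) :
    k ≤ Nat.card (CH R u) := by
  have h1 := H6.Grp.card_conj_orbit R.H u
  have hu' := mem_CU.1 hu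
  have h2 : Set.ncard {t | ∃ g ∈ R.H, g * u * g⁻¹ = t} ≤ q - 1 := by
    refine le_trans ?_ (Nat.sub_le_sub_right (h.card_CU_le hx hx1) 1)
    rw [← ncard_diff_one]
    apply Set.ncard_le_ncard _ (Set.toFinite _)
    rintro _ ⟨g, hg, rfl⟩
    refine ⟨mem_CU.2 ⟨conj_mem hg hu'.1, ?_⟩, fun e => hu1 (by simpa using e)⟩
    have c : Commute x g := comm h.cyc hx hg
    exact (c.mul_right hu'.2).mul_right c.inv_right
  rw [h.cardH] at h1
  have hq := h.q3
  apply Nat.le_of_mul_le_mul_left (c := q - 1) _ (by omega)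
  rw [h1]
  exact Nat.mul_le_mul_right _ h2

theorem CH_le {ν u : G} (sa : ν • R.a = R.b) (sb : ν • R.b = R.a) (hu : u ∈ R.U) (hu1 : u ≠ 1) :
    CH R u ≤ CH R ν := fun y hy => by
  rw [mem_CH] at hy ⊢
  exact ⟨hy.1, (comm_swap h.cyc hy.1 (mem_CU.2 ⟨hu, hy.2.symm⟩) hu1 sa sb).symm⟩

theorem t_mem_of_even {t : G} (ht : IsT R t) {Y : Subgroup G} (hY : Y ≤ R.H)
    (he : Even (Nat.card Y)) : t ∈ Y := by
  obtain ⟨j, hj⟩ := he
  apply cyc_mem h.cyc hY ht.mem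
  rw [hj, ← two_mul, pow_mul, sq, ht.sq, one_pow]

/-- `H` is semiregular outside `C_U(t)` -/
theorem semi {t x : G} (ht : IsT R t) (hx : x ∈ R.H) (hx1 : x ≠ 1) : R.CU x ≤ R.CU t := by
  intro u hu
  have hu' := mem_CU.1 hu
  obtain ⟨ν, hν⟩ := h.exists_JJ ht
  refine mem_CU.2 ⟨hu'.1, ?_⟩
  by_contra hne
  have c : Commute x t := comm h.cyc hx ht.mem
  have hv : u⁻¹ * (t * u * t⁻¹) ∈ R.CU x := (R.CU x).mul_mem ((R.CU x).inv_mem hu)
    (mem_CU.2 ⟨conj_mem ht.mem hu'.1, (c.mul_right hu'.2).mul_right c.inv_right⟩)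
  have hv1 : u⁻¹ * (t * u * t⁻¹) ≠ 1 := fun e => hne (by
    rw [inv_mul_eq_one] at e
    nth_rw 2 [e]
    group)
  have hinv : t * (u⁻¹ * (t * u * t⁻¹)) * t⁻¹ = (u⁻¹ * (t * u * t⁻¹))⁻¹ := by
    rw [ht.inv]
    calc _ = t * u⁻¹ * t * u * (t * t) := by group
      _ = _ := by rw [ht.sq, mul_inv_rev, mul_inv_rev, mul_inv_rev, ht.inv]; group
  generalize u⁻¹ * (t * u * t⁻¹) = v at hv hv1 hinv
  have hvU := (mem_CU.1 hv).1
  have h1 := h.k_le hx hx1 hv hv1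
  have h2 := h.CH_le hν.2.1 hν.2.2 hvU hv1
  have h3 : ¬ Even (Nat.card (CH R v)) := fun he => by
    have h4 := (mem_CH.1 (h.t_mem_of_even ht inf_le_left he)).2
    apply hv1
    apply h.eq_one_of_sq hvU
    rw [← h4, mul_inv_cancel_right] at hinv
    nth_rw 1 [hinv]
    group
  have h4 : 2 ∣ Nat.card (CH R ν) := (H5.Odd.even_card_of_involution
    (mem_CH.2 ⟨ht.mem, (h.t_swap ht hν.2.1 hν.2.2).symm⟩) ht.ne ht.sq).two_dvd
  have h5 : 2 * Nat.card (CH R v) ∣ Nat.card (CH R ν) :=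
    Nat.Coprime.mul_dvd_of_dvd_of_dvd
      ((Nat.Prime.coprime_iff_not_dvd Nat.prime_two).2 fun hh => h3 (even_iff_two_dvd.2 hh)) h4
      (Subgroup.card_dvd_of_le h2)
  have h6 := Nat.le_of_dvd Nat.card_pos h5
  have h7 := h.card_W_le ht hν
  have h8 : Nat.card (CH R v) = k := by omega
  exact h3 (h8 ▸ h.evenk)

theorem fix_t {t x : G} (ht : IsT R t) (hx : x ∈ R.H) (hx1 : x ≠ 1) {y : Ω} (hy : x • y = y) :
    t • y = y := by
  by_cases hya : y = R.a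
  · rw [hya, ht.mem.1]
  · obtain ⟨u, hu, rfl⟩ := exists_fix_comm hx hya hy
    have := mem_CU.1 (h.semi ht hx hx1 hu)
    exact (comm_iff_fix ht.mem this.1).1 this.2

theorem eq_one_of_fix {t x : G} (ht : IsT R t) (hx : x ∈ R.H) {y : Ω} (hy : x • y = y)
    (hty : t • y ≠ y) : x = 1 := by
  by_contra hx1
  exact hty (h.fix_t ht hx hx1 hy)

theorem inv_decomp {t i : G} (ht : IsT R t) (hi : i • R.a = R.a) (hi1 : i ≠ 1) (hi2 : i * i = 1) :
    ∃ u ∈ R.U, i = u * t := by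
  obtain ⟨u, hu, x, hx, rfl⟩ := decomp hi
  have h1 : x * x = (u * (x * u * x⁻¹))⁻¹ := by
    rw [eq_inv_iff_mul_eq_one, mul_eq_one_comm, ← hi2]; group
  have h2 : x * x = 1 := eq_one_of_mem (h1 ▸ R.U.inv_mem (R.U.mul_mem hu (conj_mem hx hu)))
    (R.H.mul_mem hx hx)
  rcases h.eq_t ht hx h2 with rfl | rfl
  · rw [mul_one] at hi1 hi2
    exact absurd (h.eq_one_of_sq hu hi2) hi1
  · exact ⟨u, hu, rfl⟩

/-- commuting involutions with a common fixed point are equal -/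
theorem inv_comm_eq {t : G} (ht : IsT R t) {i j : G} {y : Ω} (hi : i • y = y) (hj : j • y = y)
    (hi1 : i ≠ 1) (hj1 : j ≠ 1) (hi2 : i * i = 1) (hj2 : j * j = 1) (c : i * j = j * i) :
    i = j := by
  obtain ⟨g, rfl⟩ := R.trans y
  obtain ⟨u, hu, e1⟩ := h.inv_decomp ht (i := g⁻¹ * i * g)
    (by rw [mul_smul, mul_smul, hi, inv_smul_smul]) (conj_ne hi1 g) (conj_sq hi2 g)
  obtain ⟨v, hv, e2⟩ := h.inv_decomp ht (i := g⁻¹ * j * g)
    (by rw [mul_smul, mul_smul, hj, inv_smul_smul]) (conj_ne hj1 g) (conj_sq hj2 g)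
  have h1 : g⁻¹ * (i * j) * g = u * (t * v * t⁻¹) := by
    calc _ = (g⁻¹ * i * g) * (g⁻¹ * j * g) := by group
      _ = _ := by rw [e1, e2, ht.inv]; group
  have h2 : i * j * (i * j) = 1 := by
    nth_rw 2 [c]
    calc _ = i * (j * j) * i := by group
      _ = 1 := by rw [hj2, mul_one, hi2]
  have h3 := h.eq_one_of_sq (h1 ▸ R.U.mul_mem hu (conj_mem ht.mem hv)) (conj_sq h2 g)
  have h4 : i * j = 1 := by
    by_contra hne
    exact conj_ne hne g h3
  rw [← H5.Odd.inv_eq_of_sq hj2, eq_inv_iff_mul_eq_one, h4]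

theorem not_fix {t ν : G} (ht : IsT R t) (hν : ν ∈ JJ R t) {y : Ω} (hy : ν • y = y) :
    t • y ≠ y := fun e => by
  have := h.inv_comm_eq ht e hy ht.ne (JJ.ne ht hν) ht.sq (JJ.sq ht hν)
    (h.t_swap ht hν.2.1 hν.2.2)
  apply R.hab
  rw [← hν.2.1, ← this, ht.mem.1]

theorem ncard_fix_JJ {t ν : G} (ht : IsT R t) (hν : ν ∈ JJ R t) :
    {y : Ω | ν • y = y}.ncard = q + 1 := by
  obtain ⟨⟨g, rfl⟩, -⟩ := hν
  rw [ncard_fix_conj, ncard_fix ht.mem, h.card_C ht]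

theorem exists_C {t : G} (ht : IsT R t) : ∃ u ∈ R.CU t, u ≠ 1 := by
  have hb : R.CU t ≠ ⊥ := fun e => by
    have := h.card_C ht
    have := h.q3
    rw [e, Subgroup.card_bot] at *
    omega
  obtain ⟨⟨u, hu⟩, hu1⟩ := Subgroup.ne_bot_iff_exists_ne_one.1 hb
  exact ⟨u, hu, fun e => hu1 (Subtype.ext e)⟩

theorem card_W {t ν : G} (ht : IsT R t) (hν : ν ∈ JJ R t) : Nat.card (CH R ν) = k := by
  have h1 := H4.Util.card_dvd_of_free' (CH R ν) {y : Ω | ν • y = y}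
    (fun g hg y hy => fix_of_comm (mem_CH.1 hg).2 hy)
    (fun g hg y hy e => h.eq_one_of_fix ht (mem_CH.1 hg).1 e (h.not_fix ht hν hy))
  rw [h.ncard_fix_JJ ht hν] at h1
  have h2 := h.dvd_k h1 (h.cardH ▸ Subgroup.card_dvd_of_le inf_le_left)
  obtain ⟨u, hu, hu1⟩ := h.exists_C ht
  have h3 := (h.k_le ht.mem ht.ne hu hu1).trans
    (Subgroup.card_le_of_le (h.CH_le hν.2.1 hν.2.2 (mem_CU.1 hu).1 hu1))
  exact le_antisymm (Nat.le_of_dvd (by have := h.k2; omega) h2) h3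

theorem CH_eq {t ν u : G} (ht : IsT R t) (hν : ν ∈ JJ R t) (hu : u ∈ R.CU t) (hu1 : u ≠ 1) :
    CH R u = CH R ν :=
  Subgroup.eq_of_le_of_card_ge (h.CH_le hν.2.1 hν.2.2 (mem_CU.1 hu).1 hu1)
    (h.card_W ht hν ▸ h.k_le ht.mem ht.ne hu hu1)

theorem mem_W {t ν x : G} (ht : IsT R t) (hν : ν ∈ JJ R t) :
    x ∈ CH R ν ↔ x ∈ R.H ∧ x ^ k = 1 := by
  rw [← h.card_W ht hν]
  exact ⟨fun hx => ⟨hx.1, congrArg Subtype.val (pow_card_eq_one' (G := CH R ν) (x := ⟨x, hx⟩))⟩,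
    fun hx => cyc_mem h.cyc inf_le_left hx.1 hx.2⟩

/-- elements of `H` of order dividing `k` centralise `C` -/
theorem comm_C {t x u : G} (ht : IsT R t) (hx : x ∈ R.H) (hk : x ^ k = 1) (hu : u ∈ R.CU t) :
    x * u = u * x := by
  obtain ⟨ν, hν⟩ := h.exists_JJ ht
  by_cases hu1 : u = 1
  · rw [hu1, mul_one, one_mul]
  · have := (h.mem_W ht hν).2 ⟨hx, hk⟩
    rw [← h.CH_eq ht hν hu hu1] at this
    exact (mem_CH.1 this).2.symm

theorem pow_k_of_comm {t x u : G} (ht : IsT R t) (hx : x ∈ R.H) (hu : u ∈ R.CU t) (hu1 : u ≠ 1)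
    (c : x * u = u * x) : x ^ k = 1 := by
  obtain ⟨ν, hν⟩ := h.exists_JJ ht
  have : x ∈ CH R u := mem_CH.2 ⟨hx, c.symm⟩
  rw [h.CH_eq ht hν hu hu1] at this
  exact ((h.mem_W ht hν).1 this).2

theorem orbit_eq {x : G} {S : Set G} (hx : Nat.card (CH R x) = k) (hS : S.ncard = q - 1)
    (hle : ∀ g ∈ R.H, g * x * g⁻¹ ∈ S) {y : G} (hy : y ∈ S) : ∃ g ∈ R.H, g * x * g⁻¹ = y := by
  have h1 := H6.Grp.card_conj_orbit R.H x
  rw [h.cardH, ← CH, hx] at h1
  have h2 := Nat.eq_of_mul_eq_mul_right (by have := h.k2; omega) h1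
  have h3 : {t | ∃ g ∈ R.H, g * x * g⁻¹ = t} = S :=
    Set.eq_of_subset_of_ncard_le (by rintro _ ⟨g, hg, rfl⟩; exact hle g hg) (by omega)
  rw [← h3] at hy
  exact hy

theorem C_trans {t u v : G} (ht : IsT R t) (hu : u ∈ R.CU t) (hu1 : u ≠ 1) (hv : v ∈ R.CU t)
    (hv1 : v ≠ 1) : ∃ g ∈ R.H, g * u * g⁻¹ = v := by
  obtain ⟨ν, hν⟩ := h.exists_JJ ht
  refine h.orbit_eq (S := (R.CU t : Set G) \ {1}) (by rw [h.CH_eq ht hν hu hu1, h.card_W ht hν])
    (by rw [ncard_diff_one, h.card_C ht]) (fun g hg => ?_) ⟨hv, hv1⟩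
  have hu' := mem_CU.1 hu
  refine ⟨mem_CU.2 ⟨conj_mem hg hu'.1, ?_⟩, fun e => hu1 (by simpa using e)⟩
  have c : Commute t g := comm h.cyc ht.mem hg
  exact (c.mul_right hu'.2).mul_right c.inv_right

theorem JJ_trans {t ν ν' : G} (ht : IsT R t) (hν : ν ∈ JJ R t) (hν' : ν' ∈ JJ R t) :
    ∃ g ∈ R.H, g * ν * g⁻¹ = ν' := by
  refine h.orbit_eq (h.card_W ht hν) (h.card_C_JJ ht).2 (fun g hg => ?_) hν'
  obtain ⟨⟨x, rfl⟩, sa, sb⟩ := hν
  refine ⟨⟨x * g⁻¹, by group⟩, ?_, ?_⟩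
  · rw [mul_smul, mul_smul, inv_fix hg.1, sa, hg.2]
  · rw [mul_smul, mul_smul, inv_fix hg.2, sb, hg.1]

/-- the centraliser of `t` is transitive on the points not fixed by `t` -/
theorem L_trans {t : G} (ht : IsT R t) {y z : Ω} (hy : t • y ≠ y) (hz : t • z ≠ z) :
    ∃ g : G, t * g = g * t ∧ g • y = z := by
  have key : ∀ y : Ω, t • y ≠ y → ∃ g : G, g • R.a = y ∧ g⁻¹ * t * g ∈ JJ R t := by
    intro y hy
    obtain ⟨g, e1, e2⟩ := two_trans (R := R) (Ne.symm hy)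
    refine ⟨g, e1, ⟨g, rfl⟩, ?_, ?_⟩
    · rw [mul_smul, mul_smul, e1, ← e2, inv_smul_smul]
    · rw [mul_smul, mul_smul, e2, ← mul_smul t, ht.sq, one_smul, ← e1, inv_smul_smul]
  obtain ⟨g, rfl, hg⟩ := key y hy
  obtain ⟨g', rfl, hg'⟩ := key z hz
  obtain ⟨x, hx, e⟩ := h.JJ_trans ht hg hg'
  refine ⟨g' * x * g⁻¹, ?_, by rw [mul_smul, mul_smul, inv_smul_smul, hx.1]⟩
  calc t * (g' * x * g⁻¹) = g' * (g'⁻¹ * t * g') * x * g⁻¹ := by group
    _ = _ := by rw [← e]; group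

end Hyp

end Cfsg.Agent.H8.U3
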