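import Cfsg.Agent.H8.U3b
import Cfsg.Agent.H8.U3F

/-! Groups of odd unitary type: the structure of `U`. -/

set_option autoImplicit false

namespace Cfsg.Agent.H8.U3

open MulAction RK

variable {G Ω : Type*} [Group G] [MulAction G Ω]

/-- coordinates on the elements of `U` inverted by `t` -/
structure Co (R : RK G Ω) (t : G) (F : Type*) [Field F] where
  μ : F → G
  l : G → F
  mem : ∀ x, μ x ∈ Cfsg.invertedBy R.U t
  surj : ∀ z ∈ Cfsg.invertedBy R.U t, ∃ x, μ x = z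
  inj : Function.Injective μ
  add : ∀ x y, (μ (x + y))⁻¹ * (μ x * μ y) ∈ R.CU t
  spec : ∀ g ∈ R.H, ∀ x, μ (l g * x) = g * μ x * g⁻¹

namespace Hyp

variable {R : RK G Ω} {p e q d k : ℕ} (h : Hyp R p e q d k)
include h

theorem arith {a : ℕ} (h1 : p ^ a ≤ q ^ 2) (h2 : (q - 1) * k ∣ p ^ a - 1) :
    p ^ a = 1 ∨ p ^ a = q ^ 2 := by
  have h0 : 0 < p ^ a := pow_pos h.hp.pos a
  by_contra hn
  push Not at hn
  have h3 := Nat.le_of_dvd (by omega) h2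
  have h4 : p ^ a < p ^ (e * 2) := by rw [pow_mul, ← h.hq]; omega
  have h5 := h.mul_le_of_pow_lt h4
  rw [pow_mul, ← h.hq] at h5
  have hq := h.q3
  have hk := h.hk
  have h6 : d * ((q - 1) * k) + 1 = q ^ 2 := by
    rw [mul_left_comm, ← hk]
    obtain ⟨r, rfl⟩ : ∃ r, q = r + 1 := ⟨q - 1, by omega⟩
    rw [Nat.add_sub_cancel]; ring
  rcases h.hd with rfl | rfl
  · omega
  · have h7 : 5 * p ^ a ≤ q ^ 2 := (Nat.mul_le_mul_right _ (h.p5 rfl)).trans h5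
    omega

theorem isPGroup {W : Subgroup G} (hW : W ≤ R.U) : IsPGroup p W := by
  obtain ⟨a, ha⟩ := h.card_sub hW
  exact IsPGroup.of_card ha

theorem odd_sub {W : Subgroup G} (hW : W ≤ R.U) : Odd (Nat.card W) :=
  h.oddU.of_dvd_nat (Subgroup.card_dvd_of_le hW)

variable [Finite G] {t : G} (ht : IsT R t)
include ht

theorem card_M : Nat.card (Cfsg.invertedBy R.U t) = q ^ 2 := by
  have h1 := H5.Odd.card_factor ht.sq h.oddU fun x hx => conj_mem ht.mem hx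
  rw [h.cardU, ← CU, h.card_C ht] at h1
  have := h.q3
  apply Nat.eq_of_mul_eq_mul_left (show 0 < q by omega)
  rw [← h1]; ring

theorem eq_one_of_M {z : G} (hz : z ∈ Cfsg.invertedBy R.U t) (hc : z ∈ R.CU t) : z = 1 := by
  apply h.eq_one_of_sq hz.1
  have := hz.2
  rw [(mem_CU.1 hc).2, mul_inv_cancel_right] at this
  nth_rw 1 [this]
  group

theorem conj_M {g z : G} (hg : g ∈ R.H) (hz : z ∈ Cfsg.invertedBy R.U t) :
    t * (g * z * g⁻¹) * t⁻¹ = (g * z * g⁻¹)⁻¹ := by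
  have c := comm h.cyc ht.mem hg
  calc t * (g * z * g⁻¹) * t⁻¹ = (t * g) * z * (t * g)⁻¹ := by group
    _ = g * (t * z * t⁻¹) * g⁻¹ := by rw [c]; group
    _ = _ := by rw [hz.2]; group

theorem conj_C {g c : G} (hg : g ∈ R.H) (hc : c ∈ R.CU t) : g * c * g⁻¹ ∈ R.CU t := by
  have c' : Commute t g := comm h.cyc ht.mem hg
  exact mem_CU.2 ⟨conj_mem hg (mem_CU.1 hc).1, (c'.mul_right (mem_CU.1 hc).2).mul_right c'.inv_right⟩

theorem free_M {g z : G} (hg : g ∈ R.H) (hz : z ∈ Cfsg.invertedBy R.U t) (hz1 : z ≠ 1)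
    (e : g * z * g⁻¹ = z) : g = 1 := by
  by_contra hg1
  exact hz1 (h.eq_one_of_M ht hz (h.semi ht hg hg1 (mem_CU.2 ⟨hz.1, mul_inv_eq_iff_eq_mul.1 e⟩)))

theorem factor {u : G} (hu : u ∈ R.U) :
    ∃ c ∈ R.CU t, ∃ z ∈ Cfsg.invertedBy R.U t, u = c * z := by
  obtain ⟨y, z, h1, h2, h3, h4⟩ := H5.Odd.factor ht.sq h.oddU (fun x hx => conj_mem ht.mem hx) hu
  exact ⟨y, mem_CU.2 ⟨h1, h2.symm⟩, z, h3, h4⟩

theorem inv_cases {W : Subgroup G} (hW : W ≤ R.U) (hn : ∀ g ∈ R.H, ∀ w ∈ W, g * w * g⁻¹ ∈ W) :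
    W ≤ R.CU t ∨ Cfsg.invertedBy R.U t ⊆ W := by
  have hsub : Cfsg.invertedBy W t ⊆ Cfsg.invertedBy R.U t := fun z hz => ⟨hW hz.1, hz.2⟩
  have h1 := H5.Odd.card_factor ht.sq (h.odd_sub hW) (hn t ht.mem)
  obtain ⟨a, ha⟩ := h.card_sub hW
  obtain ⟨j, -, hj⟩ := (Nat.dvd_prime_pow h.hp).1 (ha ▸ Dvd.intro_left _ h1.symm)
  have hj' : (Cfsg.invertedBy W t).ncard = p ^ j := hj
  have hM : (Cfsg.invertedBy R.U t).ncard = q ^ 2 := h.card_M ht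
  have h2 := H4.Util.card_dvd_of_conj_free R.H (Cfsg.invertedBy W t \ {1})
    (fun g hg z hz => ⟨⟨hn g hg z hz.1.1, h.conj_M ht hg (hsub hz.1)⟩,
      fun e => hz.2 (by simpa using e)⟩)
    (fun g hg z hz e => h.free_M ht hg (hsub hz.1) hz.2 e)
  rw [Set.ncard_diff_singleton_of_mem H5.Odd.inverted_one, hj', h.cardH] at h2
  rcases h.arith (by rw [← hj', ← hM]; exact Set.ncard_le_ncard hsub) h2 with h3 | h3
  · left
    intro w hw
    obtain ⟨y, z, h4, h5, h6, rfl⟩ := H5.Odd.factor ht.sq (h.odd_sub hW) (hn t ht.mem) hw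
    obtain ⟨x, hx⟩ := Set.ncard_eq_one.1 (hj'.trans h3)
    have h7 : (1 : G) ∈ Cfsg.invertedBy W t := H5.Odd.inverted_one
    rw [hx] at h6 h7
    rw [h6, ← h7, mul_one]
    exact mem_CU.2 ⟨hW h4, h5.symm⟩
  · right
    rw [← Set.eq_of_subset_of_ncard_le hsub (by omega)]
    exact fun z hz => hz.1

theorem C_comm {c c' : G} (hc : c ∈ R.CU t) (hc' : c' ∈ R.CU t) : c * c' = c' * c := by
  have := Fact.mk h.hp
  obtain ⟨u, hu, hu1⟩ := h.exists_C ht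
  have : Nontrivial (R.CU t) := ⟨⟨⟨u, hu⟩, 1, fun e => hu1 (congrArg Subtype.val e)⟩⟩
  have := (h.isPGroup (W := R.CU t) inf_le_left).center_nontrivial
  obtain ⟨⟨⟨z, hz⟩, hz'⟩, hz1⟩ := exists_ne (1 : Subgroup.center (R.CU t))
  have hz1' : z ≠ 1 := fun e => hz1 (Subtype.ext (Subtype.ext e))
  by_cases hc1 : c = 1
  · rw [hc1, one_mul, mul_one]
  obtain ⟨g, hg, rfl⟩ := h.C_trans ht hz hz1' hc hc1
  have h1 := congrArg Subtype.val
    (Subgroup.mem_center_iff.1 hz' ⟨_, h.conj_C ht (R.H.inv_mem hg) hc'⟩)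
  simp only [Subgroup.coe_mul, inv_inv] at h1
  calc g * z * g⁻¹ * c' = g * (z * (g⁻¹ * c' * g)) * g⁻¹ := by group
    _ = _ := by rw [← h1]; group

theorem C_central {c u : G} (hc : c ∈ R.CU t) (hu : u ∈ R.U) : c * u = u * c := by
  have := Fact.mk h.hp
  let Z : Subgroup G := R.U ⊓ Subgroup.centralizer R.U
  have hZ : ∀ z, z ∈ Z ↔ z ∈ R.U ∧ ∀ u ∈ R.U, u * z = z * u := fun z => Iff.rfl
  have hn : ∀ g ∈ R.H, ∀ w ∈ Z, g * w * g⁻¹ ∈ Z := fun g hg w hw => by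
    rw [hZ] at hw ⊢
    refine ⟨conj_mem hg hw.1, fun u hu => ?_⟩
    have := hw.2 _ (norm' hg.1 hu)
    calc u * (g * w * g⁻¹) = g * (g⁻¹ * u * g * w) * g⁻¹ := by group
      _ = _ := by rw [this]; group
  rcases h.inv_cases ht (W := Z) inf_le_left hn with h1 | h1
  · obtain ⟨v, hv, hv1⟩ := h.exists_C ht
    have : Nontrivial R.U := ⟨⟨⟨v, hv.1⟩, 1, fun e => hv1 (congrArg Subtype.val e)⟩⟩
    have := (h.isPGroup (W := R.U) le_rfl).center_nontrivial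
    obtain ⟨⟨⟨z, hz⟩, hz'⟩, hz1⟩ := exists_ne (1 : Subgroup.center R.U)
    have hz1' : z ≠ 1 := fun e => hz1 (Subtype.ext (Subtype.ext e))
    have hzZ : z ∈ Z := (hZ z).2 ⟨hz, fun u hu =>
      congrArg Subtype.val (Subgroup.mem_center_iff.1 hz' ⟨u, hu⟩)⟩
    by_cases hc1 : c = 1
    · rw [hc1, one_mul, mul_one]
    obtain ⟨g, hg, rfl⟩ := h.C_trans ht (h1 hzZ) hz1' hc hc1
    exact (((hZ _).1 (hn g hg z hzZ)).2 u hu).symm
  · obtain ⟨c', hc', z, hz, rfl⟩ := h.factor ht hu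
    exact (Commute.mul_right (h.C_comm ht hc hc') (((hZ z).1 (h1 hz)).2 c (mem_CU.1 hc).1) :
      Commute c (c' * z))

theorem M_unique {z z' : G} (hz : z ∈ Cfsg.invertedBy R.U t) (hz' : z' ∈ Cfsg.invertedBy R.U t)
    (e : z⁻¹ * z' ∈ R.CU t) : z = z' := by
  refine (H5.Odd.factor_unique h.oddU (y := z⁻¹ * z') (y' := 1) (mem_CU.1 e).2.symm (by simp) hz
    hz' ?_).2
  rw [h.C_central ht e hz.1]
  group

theorem comm_mod_C {u v : G} (hu : u ∈ R.U) (hv : v ∈ R.U) : (u * v)⁻¹ * (v * u) ∈ R.CU t := by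
  have key : ∀ x ∈ Cfsg.invertedBy R.U t, ∀ y ∈ Cfsg.invertedBy R.U t,
      (x * y)⁻¹ * (y * x) ∈ R.CU t := by
    intro x hx y hy
    obtain ⟨c, hc, z, hz, e⟩ := h.factor ht (R.U.mul_mem hx.1 hy.1)
    have h1 : y * x = z * c⁻¹ := by
      have h2 : t * (x * y) * t⁻¹ = x⁻¹ * y⁻¹ := by rw [← hx.2, ← hy.2]; group
      have h3 : t * (c * z) * t⁻¹ = c * z⁻¹ := by
        rw [← hz.2, ← mul_assoc, (mem_CU.1 hc).2]; group
      rw [e, h3] at h2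
      rw [← inv_inj, mul_inv_rev, ← h2]; group
    rw [e, h1, h.C_central ht hc hz.1]
    have : (z * c)⁻¹ * (z * c⁻¹) = c⁻¹ * c⁻¹ := by group
    rw [this]
    exact (R.CU t).mul_mem ((R.CU t).inv_mem hc) ((R.CU t).inv_mem hc)
  obtain ⟨c, hc, x, hx, rfl⟩ := h.factor ht hu
  obtain ⟨c', hc', y, hy, rfl⟩ := h.factor ht hv
  have h1 : c * x * (c' * y) = c * c' * (x * y) := by
    rw [mul_assoc c, ← mul_assoc x, ← h.C_central ht hc' hx.1]; group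
  have h2 : c' * y * (c * x) = c * c' * (y * x) := by
    rw [mul_assoc c', ← mul_assoc y, ← h.C_central ht hc hy.1, h.C_comm ht hc hc']; group
  rw [h1, h2]
  convert key x hx y hy using 1
  group

theorem exists_Co (F : Type) [Field F] (hF : Nat.card F = q ^ 2) : Nonempty (Co R t F) := by
  let B : Subgroup G := stabilizer G R.a
  have hUB : R.U ≤ B := fun u hu => R.fixa u hu
  have hHB : R.H ≤ B := inf_le_left
  let C' : Subgroup B := (R.CU t).subgroupOf B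
  have hC' : C'.Normal := ⟨by
    rintro ⟨c, hcB⟩ hc ⟨g, hg⟩
    obtain ⟨u, hu, x, hx, rfl⟩ := decomp hg
    have h1 := h.conj_C ht hx (show c ∈ R.CU t from hc)
    show u * x * c * (u * x)⁻¹ ∈ R.CU t
    have : u * x * c * (u * x)⁻¹ = x * c * x⁻¹ := by
      calc _ = u * (x * c * x⁻¹) * u⁻¹ := by group
        _ = _ := by rw [← h.C_central ht h1 hu]; group
    rwa [this]⟩
  let π : B →* B ⧸ C' := QuotientGroup.mk' C'
  have hπ : ∀ x y : B, π x = π y ↔ (x : G)⁻¹ * y ∈ R.CU t := fun x y => QuotientGroup.eq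
  let V : Subgroup (B ⧸ C') := (R.U.subgroupOf B).map π
  have hV : ∀ v, v ∈ V ↔ ∃ z, ∃ hz : z ∈ Cfsg.invertedBy R.U t, π ⟨z, hUB hz.1⟩ = v := by
    intro v
    constructor
    · rintro ⟨⟨u, huB⟩, hu, rfl⟩
      obtain ⟨c, hc, z, hz, rfl⟩ := h.factor ht hu
      refine ⟨z, hz, (hπ _ _).2 ?_⟩
      show z⁻¹ * (c * z) ∈ _
      rwa [h.C_central ht hc hz.1, inv_mul_cancel_left]
    · rintro ⟨z, hz, rfl⟩
      exact ⟨_, hz.1, rfl⟩
  have hinj : ∀ z (hz : z ∈ Cfsg.invertedBy R.U t) z' (hz' : z' ∈ Cfsg.invertedBy R.U t),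
      π ⟨z, hUB hz.1⟩ = π ⟨z', hUB hz'.1⟩ → z = z' := fun z hz z' hz' e =>
    h.M_unique ht hz hz' ((hπ _ _).1 e)
  have : IsMulCommutative V := ⟨⟨by
    rintro ⟨_, ⟨u, huB⟩, hu, rfl⟩ ⟨_, ⟨v, hvB⟩, hv, rfl⟩
    apply Subtype.ext
    show π _ * π _ = π _ * π _
    rw [← map_mul, ← map_mul, hπ]
    exact h.comm_mod_C ht hu hv⟩⟩
  have hcard : Nat.card V = q ^ 2 := by
    rw [← h.card_M ht]
    symm
    refine Nat.card_eq_of_bijective (fun z => ⟨π ⟨z.1, hUB z.2.1⟩, (hV _).2 ⟨z.1, z.2, rfl⟩⟩)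
      ⟨fun z z' e => Subtype.ext (hinj _ z.2 _ z'.2 (congrArg Subtype.val e)), ?_⟩
    rintro ⟨v, hv⟩
    obtain ⟨z, hz, rfl⟩ := (hV v).1 hv
    exact ⟨⟨z, hz⟩, rfl⟩
  let A : Set (B ⧸ C') := {v | ∃ g, ∃ hg : g ∈ R.H, π ⟨g, hHB hg⟩ = v}
  have hnt : V ≠ ⊥ := fun e => by
    rw [e, Subgroup.card_bot] at hcard
    have := h.q3
    nlinarith
  obtain ⟨⟨v0, hv0⟩, hv1⟩ := Subgroup.ne_bot_iff_exists_ne_one.1 hnt
  obtain ⟨φ, φ1, φ2, φ3, φ4, -, φ5, -⟩ := (H4.Util.exists_field_conj V A (by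
      rintro _ ⟨g, hg, rfl⟩ _ ⟨⟨u, huB⟩, hu, rfl⟩
      rw [← map_inv, ← map_mul, ← map_mul]
      exact ⟨_, conj_mem hg hu, rfl⟩) (by
      rintro _ ⟨g, hg, rfl⟩ _ ⟨g', hg', rfl⟩ u -
      have c : π ⟨g, hHB hg⟩ * π ⟨g', hHB hg'⟩ = π ⟨g', hHB hg'⟩ * π ⟨g, hHB hg⟩ := by
        rw [← map_mul, ← map_mul]
        congr 1
        exact Subtype.ext (comm h.cyc hg hg')
      calc _ = (π ⟨g, hHB hg⟩ * π ⟨g', hHB hg'⟩) * u * (π ⟨g, hHB hg⟩ * π ⟨g', hHB hg'⟩)⁻¹ := by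
            group
        _ = _ := by rw [c]; group) (by
      intro W hW hn
      let W' : Subgroup G := R.U ⊓ (W.comap π).map B.subtype
      have hW' : ∀ u, u ∈ W' ↔ ∃ hu : u ∈ R.U, π ⟨u, hUB hu⟩ ∈ W := fun u =>
        ⟨by rintro ⟨hu, ⟨x, hx⟩, hx', rfl⟩; exact ⟨hu, hx'⟩,
          fun ⟨hu, hu'⟩ => ⟨hu, ⟨u, hUB hu⟩, hu', rfl⟩⟩
      rcases h.inv_cases ht (W := W') inf_le_left (fun g hg w hw => by
        obtain ⟨hu, hw⟩ := (hW' w).1 hw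
        refine (hW' _).2 ⟨conj_mem hg hu, ?_⟩
        have := hn _ ⟨g, hg, rfl⟩ _ hw
        rwa [← map_inv, ← map_mul, ← map_mul] at this) with h1 | h1
      · left
        rw [eq_bot_iff]
        intro w hw
        obtain ⟨z, hz, rfl⟩ := (hV w).1 (hW hw)
        have := h.eq_one_of_M ht hz (h1 ((hW' z).2 ⟨hz.1, hw⟩))
        subst this
        exact map_one π
      · right
        refine le_antisymm hW fun v hv => ?_
        obtain ⟨z, hz, rfl⟩ := (hV v).1 hv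
        exact ((hW' z).1 (h1 hz)).2) hv0 (fun e => hv1 (Subtype.ext e))).2 F (hF.trans hcard.symm)
  choose μ hμ hμ' using fun x => (hV _).1 (φ1 x)
  have φ6 : ∀ g, ∃ c : F, ∀ hg : g ∈ R.H, ∀ x,
      φ (c * x) = π ⟨g, hHB hg⟩ * φ x * (π ⟨g, hHB hg⟩)⁻¹ := fun g => by
    by_cases hg : g ∈ R.H
    · obtain ⟨c, hc⟩ := φ5 _ ⟨g, hg, rfl⟩
      exact ⟨c, fun _ => hc⟩
    · exact ⟨0, fun hg' => absurd hg' hg⟩
  choose l hl using φ6
  refine ⟨⟨μ, l, hμ, fun z hz => ?_, fun x y e => φ3 ?_, fun x y => ?_, fun g hg x => ?_⟩⟩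
  · obtain ⟨x, hx⟩ := φ2 _ ((hV _).2 ⟨z, hz, rfl⟩)
    exact ⟨x, hinj _ (hμ x) _ hz ((hμ' x).trans hx)⟩
  · rw [← hμ' x, ← hμ' y]
    congr 1
    exact Subtype.ext e
  · have := φ4 x y
    rw [← hμ', ← hμ' x, ← hμ' y, ← map_mul, hπ] at this
    exact this
  · refine hinj _ (hμ _) _ ⟨conj_mem hg (hμ x).1, h.conj_M ht hg (hμ x)⟩ ?_
    rw [hμ', hl g hg, ← hμ' x, ← map_inv, ← map_mul, ← map_mul]
    rfl

end Hyp

end Cfsg.Agent.H8.U3
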