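import Cfsg.Agent.H8.U3c

/-! Groups of odd unitary type: the multiplication of `U` in coordinates. -/

set_option autoImplicit false

namespace Cfsg.Agent.H8.U3

open MulAction RK

variable {G Ω : Type*} [Group G] [MulAction G Ω]

/-- coordinates on `C_U(t)` -/
structure Cc (R : RK G Ω) (t : G) {F : Type*} [Field F] (σ : F →+* F) where
  ψ : F → G
  χ : G → F
  mem : ∀ z, ψ z ∈ R.CU t
  surj : ∀ c ∈ R.CU t, ∃ z, σ z = -z ∧ ψ z = c
  add : ∀ z w, ψ (z + w) = ψ z * ψ w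
  ker : ∀ z, ψ z = 1 ↔ σ z = z
  fix : ∀ g ∈ R.H, σ (χ g) = χ g
  spec : ∀ g ∈ R.H, ∀ z, ψ (χ g * z) = g * ψ z * g⁻¹

/-- the factor set -/
def Co.β {R : RK G Ω} {t : G} {F : Type*} [Field F] (co : Co R t F) (x y : F) : G :=
  (co.μ (x + y))⁻¹ * (co.μ x * co.μ y)

namespace Co
variable {R : RK G Ω} {t : G} {F : Type*} [Field F] (co : Co R t F)

theorem β_mem (x y : F) : co.β x y ∈ R.CU t := co.add x y

theorem mul (x y : F) : co.μ x * co.μ y = co.μ (x + y) * co.β x y := by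
  rw [β]; group

theorem memU (x : F) : co.μ x ∈ R.U := (co.mem x).1

theorem β_l {g : G} (hg : g ∈ R.H) (x y : F) :
    co.β (co.l g * x) (co.l g * y) = g * co.β x y * g⁻¹ := by
  rw [β, β, ← mul_add, co.spec g hg, co.spec g hg, co.spec g hg]; group

theorem l_mul {g g' : G} (hg : g ∈ R.H) (hg' : g' ∈ R.H) : co.l (g * g') = co.l g * co.l g' := by
  apply co.inj
  rw [← mul_one (co.l (g * g')), co.spec _ (R.H.mul_mem hg hg'), co.spec g hg,
    ← mul_one (co.l g'), co.spec g' hg']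
  group

theorem l_one : co.l 1 = 1 := by
  apply co.inj
  rw [← mul_one (co.l 1), co.spec _ R.H.one_mem]
  group

theorem l_pow {g : G} (hg : g ∈ R.H) (n : ℕ) : co.l (g ^ n) = co.l g ^ n := by
  induction n with
  | zero => simp [co.l_one]
  | succ n ih => rw [pow_succ, co.l_mul (R.H.pow_mem hg n) hg, ih, pow_succ]

theorem l_ne {g : G} (hg : g ∈ R.H) : co.l g ≠ 0 := fun e => by
  have := co.l_mul hg (R.H.inv_mem hg)
  rw [mul_inv_cancel, l_one, e, zero_mul] at this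
  exact one_ne_zero this

end Co

namespace Cc
variable {R : RK G Ω} {t : G} {F : Type*} [Field F] {σ : F →+* F} (cc : Cc R t σ)

theorem memU (z : F) : cc.ψ z ∈ R.U := (mem_CU.1 (cc.mem z)).1

theorem zero : cc.ψ 0 = 1 := (cc.ker 0).2 (map_zero σ)

theorem neg (z : F) : cc.ψ (-z) = (cc.ψ z)⁻¹ := by
  rw [eq_inv_iff_mul_eq_one, ← cc.add, neg_add_cancel, cc.zero]

theorem eq_iff {z w : F} : cc.ψ z = cc.ψ w ↔ σ (z - w) = z - w := by
  rw [← cc.ker, sub_eq_add_neg, cc.add, cc.neg, mul_inv_eq_one]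

variable [Fintype F] {q : ℕ} (hF : FD F σ q)
include hF

theorem inj {z w : F} (hz : σ z = -z) (hw : σ w = -w) (e : cc.ψ z = cc.ψ w) : z = w :=
  sub_eq_zero.1 (hF.eq_zero_of (cc.eq_iff.1 e) (by rw [map_sub, hz, hw]; ring))

theorem χ_eq {g : G} (hg : g ∈ R.H) {c z : F} (hc : σ c = c) (hz : σ z = -z) (h0 : z ≠ 0)
    (e : cc.ψ (c * z) = g * cc.ψ z * g⁻¹) : cc.χ g = c := by
  rw [← cc.spec g hg] at e
  exact (mul_right_cancel₀ h0 (cc.inj hF (by rw [map_mul, hc, hz]; ring)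
    (by rw [map_mul, cc.fix g hg, hz]; ring) e)).symm

theorem χ_mul {g g' : G} (hg : g ∈ R.H) (hg' : g' ∈ R.H) :
    cc.χ (g * g') = cc.χ g * cc.χ g' := by
  obtain ⟨ε, h0, hε⟩ := hF.exists_eps
  refine cc.χ_eq hF (R.H.mul_mem hg hg') (by rw [map_mul, cc.fix g hg, cc.fix g' hg']) hε h0 ?_
  rw [mul_assoc, cc.spec g hg, cc.spec g' hg']; group

theorem χ_eq_one {g : G} (hg : g ∈ R.H) (hc : ∀ c ∈ R.CU t, g * c = c * g) : cc.χ g = 1 := by
  obtain ⟨ε, h0, hε⟩ := hF.exists_eps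
  refine cc.χ_eq hF hg (map_one σ) hε h0 ?_
  rw [one_mul, hc _ (cc.mem ε), mul_inv_cancel_right]

theorem χ_ne {g : G} (hg : g ∈ R.H) : cc.χ g ≠ 0 := fun e => by
  have := cc.χ_mul hF hg (R.H.inv_mem hg)
  rw [mul_inv_cancel, cc.χ_eq_one hF R.H.one_mem (by simp), e, zero_mul] at this
  exact one_ne_zero this

end Cc

namespace Hyp

variable {R : RK G Ω} {p e q d k : ℕ} (h : Hyp R p e q d k) [Finite G] {t : G} (ht : IsT R t)
include h ht

section
variable {F : Type*} [Field F] (co : Co R t F)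

theorem μ_zero : co.μ 0 = 1 := h.eq_one_of_M ht (co.mem 0) (by simpa using co.add 0 0)

theorem μ_neg (x : F) : co.μ (-x) = (co.μ x)⁻¹ :=
  (h.M_unique ht (H5.Odd.inverted_inv (co.mem x)) (co.mem _)
    (by simpa [h.μ_zero ht co] using co.add x (-x))).symm

theorem μ_eq_one {x : F} : co.μ x = 1 ↔ x = 0 := by
  rw [← h.μ_zero ht co, co.inj.eq_iff]

theorem μ_mem_C {x : F} : co.μ x ∈ R.CU t ↔ x = 0 :=
  ⟨fun hx => (h.μ_eq_one ht co).1 (h.eq_one_of_M ht (co.mem x) hx),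
    fun hx => by rw [hx, h.μ_zero ht co]; exact one_mem _⟩

theorem β_anti (x y : F) : co.β y x = (co.β x y)⁻¹ := by
  have h1 := congrArg (fun z => (t * z * t⁻¹)⁻¹) (co.mul x y)
  have h2 : (t * (co.μ x * co.μ y) * t⁻¹)⁻¹ = co.μ y * co.μ x := by
    calc _ = ((t * co.μ x * t⁻¹) * (t * co.μ y * t⁻¹))⁻¹ := by group
      _ = _ := by rw [(co.mem x).2, (co.mem y).2]; group
  have h3 : (t * (co.μ (x + y) * co.β x y) * t⁻¹)⁻¹ = co.μ (x + y) * (co.β x y)⁻¹ := by
    rw [← h.C_central ht (inv_mem (co.β_mem x y)) (co.memU _)]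
    have := (mem_CU.1 (co.β_mem x y)).2
    calc _ = (t * co.β x y * t⁻¹)⁻¹ * (t * co.μ (x + y) * t⁻¹)⁻¹ := by group
      _ = _ := by rw [this, (co.mem _).2]; group
  rw [h2, h3, co.mul, add_comm] at h1
  exact mul_left_cancel h1

theorem β_self (x : F) : co.β x x = 1 := by
  apply h.eq_one_of_sq (mem_CU.1 (co.β_mem x x)).1
  nth_rw 1 [h.β_anti ht co]
  group

theorem μ_conj (x y : F) :
    co.μ x * co.μ y * (co.μ x)⁻¹ = co.μ y * (co.β x y * co.β x y) := by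
  have h1 := co.mul y x
  rw [h.β_anti ht co, add_comm] at h1
  have h2 : co.μ (x + y) = co.μ y * co.μ x * co.β x y := by rw [h1]; group
  have c : Commute (co.β x y * co.β x y) (co.μ x) :=
    h.C_central ht (mul_mem (co.β_mem x y) (co.β_mem x y)) (co.memU x)
  rw [co.mul, h2]
  calc _ = co.μ y * (co.μ x * (co.β x y * co.β x y)) * (co.μ x)⁻¹ := by group
    _ = _ := by rw [← c.eq]; group

theorem β_add_left (x x' y : F) : co.β (x + x') y = co.β x y * co.β x' y := by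
  have m1 := co.β_mem x y
  have m2 := co.β_mem x' y
  have odd : ∀ c ∈ R.CU t, Odd (orderOf c) := fun c hc =>
    H5.Odd.odd_orderOf_of_mem h.oddU (mem_CU.1 hc).1
  apply H5.Odd.eq_of_sq_eq_of_odd (odd _ (co.β_mem _ _)) (odd _ (mul_mem m1 m2))
  apply mul_left_cancel (a := co.μ y)
  have h1 : co.μ (x + x') = co.μ x * co.μ x' * (co.β x x')⁻¹ := by rw [co.mul]; group
  have c1 : Commute (co.β x x')⁻¹ (co.μ y) := h.C_central ht (inv_mem (co.β_mem _ _)) (co.memU y)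
  have c2 : Commute (co.β x' y * co.β x' y) (co.μ x)⁻¹ :=
    h.C_central ht (mul_mem m2 m2) (inv_mem (co.memU x))
  have c3 := h.C_comm ht m1 m2
  rw [← h.μ_conj ht co, h1]
  calc _ = co.μ x * co.μ x' * ((co.β x x')⁻¹ * co.μ y) * co.β x x' * (co.μ x')⁻¹ *
        (co.μ x)⁻¹ := by group
    _ = co.μ x * (co.μ x' * co.μ y * (co.μ x')⁻¹) * (co.μ x)⁻¹ := by rw [c1.eq]; group
    _ = co.μ x * co.μ y * (co.β x' y * co.β x' y * (co.μ x)⁻¹) := by rw [h.μ_conj ht co]; group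
    _ = co.μ x * co.μ y * (co.μ x)⁻¹ * (co.β x' y * co.β x' y) := by rw [c2.eq]; group
    _ = co.μ y * (co.β x y * (co.β x y * co.β x' y) * co.β x' y) := by rw [h.μ_conj ht co]; group
    _ = co.μ y * (co.β x y * (co.β x' y * co.β x y) * co.β x' y) := by rw [c3]
    _ = _ := by group

theorem β_add_right (x y y' : F) : co.β x (y + y') = co.β x y * co.β x y' := by
  rw [h.β_anti ht co, h.β_add_left ht co, h.β_anti ht co y, h.β_anti ht co y',
    h.C_comm ht (co.β_mem _ _) (co.β_mem _ _), mul_inv_rev]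

theorem l_eq_one {g : G} (hg : g ∈ R.H) (e : co.l g = 1) : g = 1 := by
  have h1 := co.spec g hg 1
  rw [e, one_mul] at h1
  exact h.free_M ht hg (co.mem 1) (fun e => one_ne_zero ((h.μ_eq_one ht co).1 e)) h1.symm

theorem l_t : co.l t = -1 := by
  apply co.inj
  rw [← mul_one (co.l t), co.spec t ht.mem, h.μ_neg ht co, (co.mem 1).2]

omit ht in
theorem l_pow_m {g : G} (hg : g ∈ R.H) : co.l g ^ ((q - 1) * k) = 1 := by
  rw [← co.l_pow hg, ← h.cardH, ← co.l_one]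
  congr 1
  exact congrArg Subtype.val (pow_card_eq_one' (G := R.H) (x := ⟨g, hg⟩))

theorem l_range {x : F} (hx : x ^ ((q - 1) * k) = 1) : ∃ g ∈ R.H, co.l g = x := by
  have hq := h.q3
  have hk := h.k2
  have h1 : co.l '' R.H ⊆ {x | x ^ ((q - 1) * k) = 1} := by
    rintro _ ⟨g, hg, rfl⟩
    exact h.l_pow_m co hg
  have h0 : 0 < (q - 1) * k := Nat.mul_pos (by omega) (by omega)
  have h2 : (co.l '' R.H).ncard = (q - 1) * k := by
    rw [Set.ncard_image_of_injOn, ← h.cardH, card_eq_ncard]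
    intro g hg g' hg' e
    have h3 := co.l_mul (R.H.inv_mem hg) hg'
    rw [← e, ← co.l_mul (R.H.inv_mem hg) hg, inv_mul_cancel, co.l_one] at h3
    exact inv_mul_eq_one.1 (h.l_eq_one ht co (R.H.mul_mem (R.H.inv_mem hg) hg') h3)
  have h3 := Set.eq_of_subset_of_ncard_le h1 ((ncard_pow_eq_le h0 (1 : F)).trans h2.ge)
    (Set.Finite.subset (Polynomial.nthRoots ((q - 1) * k) (1 : F)).finite_toSet fun x hx =>
      (Polynomial.mem_nthRoots h0).2 hx)
  exact (h3 ▸ hx : x ∈ co.l '' R.H)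

theorem l_range_k {x : F} (hx : x ^ k = 1) : ∃ g ∈ R.H, g ^ k = 1 ∧ co.l g = x := by
  obtain ⟨g, hg, rfl⟩ := h.l_range ht co (x := x) (by rw [mul_comm, pow_mul, hx, one_pow])
  exact ⟨g, hg, h.l_eq_one ht co (R.H.pow_mem hg k) (by rw [co.l_pow hg, hx]), rfl⟩

variable [Fintype F] {σ : F →+* F} (hF : FD F σ q)
include hF

omit [Finite G] ht in
theorem exists_order : ∃ μ : F, orderOf μ = k := by
  obtain ⟨γ, -, -, h2⟩ := H9.Arith.exists_gen hF.card
  have h3 : orderOf γ = q ^ 2 - 1 := Nat.dvd_antisymm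
    (orderOf_dvd_iff_pow_eq_one.2 ((h2 _).2 dvd_rfl)) ((h2 _).1 (pow_orderOf_eq_one γ))
  have hq := h.q3
  have hd : 0 < d := by rcases h.hd with rfl | rfl <;> omega
  have h4 : q ^ 2 - 1 = (q - 1) * d * k := by
    rw [mul_assoc, ← h.hk]
    obtain ⟨r, rfl⟩ : ∃ r, q = r + 1 := ⟨q - 1, by omega⟩
    rw [Nat.add_sub_cancel, Nat.sub_eq_iff_eq_add (by nlinarith)]; ring
  have h5 : 0 < (q - 1) * d := Nat.mul_pos (by omega) hd
  refine ⟨γ ^ ((q - 1) * d), ?_⟩
  rw [orderOf_pow_of_dvd h5.ne' (by rw [h3, h4]; exact dvd_mul_right _ _), h3, h4,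
    Nat.mul_div_cancel_left _ h5]

omit [Finite G] ht hF in
theorem k_cases : 2 < k ∨ (q = 5 ∧ d = 3 ∧ k = 2) := by
  have := h.k2
  have := h.q3
  have := h.hk
  rcases h.hd with rfl | rfl <;> omega

open scoped IsMulCommutative in
theorem herm (x y : F) : co.β x y = co.β 1 (σ x * y) := by
  have : IsMulCommutative (R.CU t) := ⟨⟨fun a b => Subtype.ext (h.C_comm ht a.2 b.2)⟩⟩
  let b : F →+ F →+ Additive (R.CU t) := AddMonoidHom.mk' (fun x => AddMonoidHom.mk'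
    (fun y => Additive.ofMul ⟨co.β x y, co.β_mem x y⟩) fun y y' =>
      congrArg Additive.ofMul (Subtype.ext (h.β_add_right ht co x y y'))) fun x x' =>
    AddMonoidHom.ext fun y => congrArg Additive.ofMul (Subtype.ext (h.β_add_left ht co x x' y))
  have hb : ∀ x y x' y', b x y = b x' y' ↔ co.β x y = co.β x' y' := fun x y x' y' =>
    ⟨fun e => congrArg (fun z => ((Additive.toMul z : R.CU t) : G)) e,
      fun e => congrArg Additive.ofMul (Subtype.ext e)⟩
  rw [← hb]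
  rcases h.k_cases with hk | hk
  · obtain ⟨μ, hμ⟩ := h.exists_order hF
    obtain ⟨g, hg, hgk, rfl⟩ := h.l_range_k ht co (x := μ) (hμ ▸ pow_orderOf_eq_one μ)
    refine hF.herm_of_order b h.hk (by rcases h.hd with rfl | rfl <;> omega) hk hμ
      (fun x y => (hb _ _ _ _).2 ?_) x y
    rw [co.β_l hg, h.comm_C ht hg hgk (co.β_mem x y), mul_inv_cancel_right]
  · exact hF.herm_five b hk.1 (fun x => congrArg Additive.ofMul (Subtype.ext (h.β_self ht co x)))
      x y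

theorem exists_CcA (hA : ∃ x y, co.β x y ≠ 1) : ∃ cc : Cc R t σ,
    (∀ x y, co.β x y = cc.ψ (σ x * y)) ∧ ∀ g ∈ R.H, cc.χ g = co.l g * σ (co.l g) := by
  have spec : ∀ g ∈ R.H, ∀ z, co.β 1 (co.l g * σ (co.l g) * z) = g * co.β 1 z * g⁻¹ := by
    intro g hg z
    rw [← co.β_l hg, h.herm ht co hF (co.l g * 1)]
    congr 1
    rw [mul_one]; ring
  have k1 : ∀ z, σ z = z → co.β 1 z = 1 := fun z hz => by
    obtain ⟨l, rfl⟩ := hF.exists_norm hz
    rw [mul_comm, ← h.herm ht co hF, h.β_self ht co]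
  have su : ∀ c ∈ R.CU t, ∃ z, co.β 1 z = c := fun c hc => by
    by_cases hc1 : c = 1
    · exact ⟨0, by rw [hc1, k1 0 (map_zero σ)]⟩
    obtain ⟨x, y, hxy⟩ := hA
    obtain ⟨g, hg, rfl⟩ := h.C_trans ht (co.β_mem x y) hxy hc hc1
    exact ⟨_, by rw [spec g hg, ← h.herm ht co hF]⟩
  have half : ∀ z, co.β 1 z = co.β 1 ((z - σ z) / 2) := fun z => by
    have h2 := hF.two_ne
    have e : z = (z - σ z) / 2 + (z + σ z) / 2 := by field_simp; ring
    nth_rw 1 [e]
    rw [h.β_add_right ht co, k1 ((z + σ z) / 2) (by simp [map_div₀, hF.inv, map_ofNat, add_comm]),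
      mul_one]
  have him : ∀ z : F, σ ((z - σ z) / 2) = -((z - σ z) / 2) := fun z => by
    simp only [map_div₀, map_sub, hF.inv, map_ofNat]; ring
  refine ⟨⟨co.β 1, fun g => co.l g * σ (co.l g), co.β_mem 1, fun c hc => ?_,
    h.β_add_right ht co 1, fun z => ⟨fun hz => ?_, k1 z⟩, fun g _ => ?_, spec⟩,
    h.herm ht co hF, fun _ _ => rfl⟩
  · obtain ⟨z, rfl⟩ := su c hc
    exact ⟨_, him z, (half z).symm⟩
  · obtain ⟨ε, h0, hε⟩ := hF.exists_eps
    let f : {a : F // σ a = a} → R.CU t := fun a => ⟨co.β 1 (a * ε), co.β_mem _ _⟩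
    have hf : Function.Surjective f := by
      rintro ⟨c, hc⟩
      obtain ⟨w, rfl⟩ := su c hc
      refine ⟨⟨(w - σ w) / 2 / ε, by rw [map_div₀, him, hε, neg_div_neg_eq]⟩, Subtype.ext ?_⟩
      show co.β 1 ((w - σ w) / 2 / ε * ε) = _
      rw [div_mul_cancel₀ _ h0, ← half]
    have hf' := (hf.bijective_of_nat_card_le (by rw [hF.card_fix, h.card_C ht])).1
    have h3 := @hf' ⟨(z - σ z) / 2 / ε, by rw [map_div₀, him, hε, neg_div_neg_eq]⟩
      ⟨0, map_zero σ⟩ (Subtype.ext (by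
        show co.β 1 ((z - σ z) / 2 / ε * ε) = co.β 1 (0 * ε)
        rw [div_mul_cancel₀ _ h0, ← half, hz, zero_mul, k1 0 (map_zero σ)]))
    have h4 : (z - σ z) / 2 / ε = 0 := congrArg Subtype.val h3
    have h2 := hF.two_ne
    simp only [div_eq_zero_iff, h0, h2, or_false, sub_eq_zero] at h4
    exact h4.symm
  · simp only [map_mul, hF.inv, mul_comm]

end

theorem exists_Cc {F : Type} [Field F] [Fintype F] {σ : F →+* F} (hF : FD F σ q) :
    Nonempty (Cc R t σ) := by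
  have : IsMulCommutative (R.CU t) := ⟨⟨fun a b => Subtype.ext (h.C_comm ht a.2 b.2)⟩⟩
  obtain ⟨u, hu, hu1⟩ := h.exists_C ht
  let K : Subfield F := RingHom.eqLocusField σ (RingHom.id F)
  have hK : Nat.card K = Nat.card (R.CU t) := by rw [h.card_C ht, ← hF.card_fix]; rfl
  obtain ⟨φ, φ1, φ2, φ3, φ4, -, φ5, -⟩ := (H4.Util.exists_field_conj (R.CU t) R.H
    (fun g hg c hc => h.conj_C ht hg hc)
    (fun g hg g' hg' c _ => by
      calc _ = (g * g') * c * (g * g')⁻¹ := by group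
        _ = _ := by rw [comm h.cyc hg hg']; group)
    (fun W hW hn => by
      by_cases hb : W = ⊥
      · exact Or.inl hb
      obtain ⟨⟨w, hw⟩, hw1⟩ := Subgroup.ne_bot_iff_exists_ne_one.1 hb
      refine Or.inr (le_antisymm hW fun c hc => ?_)
      by_cases hc1 : c = 1
      · rw [hc1]; exact one_mem _
      obtain ⟨g, hg, rfl⟩ := h.C_trans ht (hW hw) (fun e => hw1 (Subtype.ext e)) hc hc1
      exact hn g hg w hw) hu hu1).2 K hK
  obtain ⟨ε, h0, hε⟩ := hF.exists_eps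
  have h2 := hF.two_ne
  let j : F → K := fun z => ⟨(z - σ z) / ε, show σ _ = _ by
    rw [map_div₀, map_sub, hF.inv, hε, RingHom.id_apply]; field_simp; ring⟩
  have φ6 : ∀ g, ∃ c : K, g ∈ R.H → ∀ x, φ (c * x) = g * φ x * g⁻¹ := fun g => by
    by_cases hg : g ∈ R.H
    · obtain ⟨c, hc⟩ := φ5 g hg
      exact ⟨c, fun _ => hc⟩
    · exact ⟨0, fun hg' => absurd hg' hg⟩
  choose χ hχ using φ6
  have φ0 : φ 0 = 1 := by simpa using φ4 0 0
  refine ⟨⟨fun z => φ (j z), fun g => χ g, fun z => φ1 _, fun c hc => ?_, fun z w => ?_,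
    fun z => ?_, fun g _ => (χ g).2, fun g hg z => ?_⟩⟩
  · obtain ⟨x, rfl⟩ := φ2 c hc
    have hx : σ x = x := x.2
    refine ⟨x * ε / 2, by rw [map_div₀, map_mul, hx, hε, map_ofNat]; ring, congrArg φ ?_⟩
    apply Subtype.ext
    show (x * ε / 2 - σ (x * ε / 2)) / ε = x
    rw [map_div₀, map_mul, hx, hε, map_ofNat]; field_simp; ring
  · rw [← φ4]
    refine congrArg φ (Subtype.ext ?_)
    show (z + w - σ (z + w)) / ε = (z - σ z) / ε + (w - σ w) / ε
    rw [map_add]; ring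
  · rw [← φ0, φ3.eq_iff, Subtype.ext_iff]
    show (z - σ z) / ε = 0 ↔ _
    rw [div_eq_zero_iff, or_iff_left h0, sub_eq_zero, eq_comm]
  · rw [← hχ g hg]
    refine congrArg φ (Subtype.ext ?_)
    have hx : σ (χ g) = χ g := (χ g).2
    show (χ g * z - σ (χ g * z)) / ε = χ g * ((z - σ z) / ε)
    rw [map_mul, hx]; ring

end Hyp

end Cfsg.Agent.H8.U3
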