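import Cfsg.Agent.H8.U3d
import Cfsg.Agent.H4.Mob

/-! Groups of odd unitary type: the centraliser of `t` acts by Moebius transformations. -/

set_option autoImplicit false

namespace Cfsg.Agent.H8.U3

open MulAction RK H4.Mob

variable {G Ω : Type*} [Group G] [MulAction G Ω] {F : Type*} [Field F]

open Classical in
/-- the affine coordinate -/
noncomputable def cd (z : P1 F) : F := if h : z = inf then 0 else (exists_pt_of_ne h).choose

theorem cd_pt (s : F) : cd (pt s) = s := by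
  rw [cd, dif_neg (pt_ne_inf s)]
  exact (pt_inj.1 (exists_pt_of_ne (pt_ne_inf s)).choose_spec).symm

open Classical in
/-- the anti-conjugation -/
noncomputable def jj (σ : F →+* F) (z : P1 F) : P1 F := if z = inf then inf else pt (-σ (cd z))

@[simp] theorem jj_inf (σ : F →+* F) : jj σ inf = inf := if_pos rfl

@[simp] theorem jj_pt (σ : F →+* F) (s : F) : jj σ (pt s) = pt (-σ s) := by
  rw [jj, if_neg (pt_ne_inf s), cd_pt]

namespace Cc
variable {R : RK G Ω} {t : G} {σ : F →+* F} (cc : Cc R t σ)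

open Classical in
/-- the points fixed by `t` -/
noncomputable def ee (z : P1 F) : Ω := if z = inf then R.a else cc.ψ (cd z) • R.b

@[simp] theorem ee_inf : cc.ee inf = R.a := if_pos rfl

@[simp] theorem ee_pt (s : F) : cc.ee (pt s) = cc.ψ s • R.b := by
  rw [ee, if_neg (pt_ne_inf s), cd_pt]

/-- `M` induces `g` on the points fixed by `t` -/
def RR (g : G) (M : PG F) : Prop :=
  (∀ z, M • jj σ z = jj σ (M • z)) ∧ ∀ z, jj σ z = z → cc.ee (M • z) = g • cc.ee z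

variable {cc}

theorem RR.mul {g g' : G} {M M' : PG F} (h : cc.RR g M) (h' : cc.RR g' M') :
    cc.RR (g * g') (M * M') :=
  ⟨fun z => by rw [mul_smul, mul_smul, h'.1, h.1],
    fun z hz => by rw [mul_smul, mul_smul, h.2 _ (by rw [← h'.1, hz]), h'.2 z hz]⟩

theorem RR.inv {g : G} {M : PG F} (h : cc.RR g M) : cc.RR g⁻¹ M⁻¹ := by
  have h1 : ∀ z, M⁻¹ • jj σ z = jj σ (M⁻¹ • z) := fun z => by
    rw [inv_smul_eq_iff, h.1, smul_inv_smul]
  refine ⟨h1, fun z hz => ?_⟩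
  rw [eq_inv_smul_iff, ← h.2 _ (by rw [← h1, hz]), smul_inv_smul]

theorem RR_C {ζ : F} (hζ : σ ζ = -ζ) : cc.RR (cc.ψ ζ) (tr ζ) := by
  refine ⟨fun z => ?_, fun z _ => ?_⟩ <;> rcases P1_cases z with rfl | ⟨s, rfl⟩
  · simp
  · simp [hζ, add_comm]
  · simp [R.fixa _ (cc.memU ζ)]
  · simp only [tr_smul_pt, ee_pt]
    rw [add_comm, cc.add, mul_smul]

theorem RR_H {g : G} (hg : g ∈ R.H) (h0 : cc.χ g ≠ 0) : cc.RR g (aff (cc.χ g) 0 h0) := by
  refine ⟨fun z => ?_, fun z _ => ?_⟩ <;> rcases P1_cases z with rfl | ⟨s, rfl⟩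
  · simp
  · simp [cc.fix g hg]
  · simp [(mem_H.1 hg).1]
  · simp only [aff_smul_pt, ee_pt, add_zero]
    rw [cc.spec g hg, conj_smul_b hg]

theorem RR_ν {ν : G} {c : F} (hc : σ c = c) (h0 : c ≠ 0) (sa : ν • R.a = R.b) (sb : ν • R.b = R.a)
    (hν : ∀ ζ, ζ ≠ 0 → σ ζ = -ζ → ν • cc.ψ ζ • R.b = cc.ψ (c / ζ) • R.b) :
    cc.RR ν (H4.Mob.flip c h0) := by
  refine ⟨fun z => ?_, fun z hz => ?_⟩ <;> rcases P1_cases z with rfl | ⟨s, rfl⟩
  · simp
  · by_cases hs : s = 0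
    · simp [hs]
    · rw [jj_pt, flip_smul_pt _ _ hs, flip_smul_pt _ _ (by simpa using hs), jj_pt, map_div₀, hc,
        div_neg]
  · simp [sa, cc.zero]
  · by_cases hs : s = 0
    · simp [hs, cc.zero, sb]
    · rw [flip_smul_pt _ _ hs, ee_pt, ee_pt, hν s hs]
      rw [jj_pt, pt_inj] at hz
      exact neg_eq_iff_eq_neg.1 hz

variable [Fintype F] {q : ℕ} (hF : FD F σ q)
include hF

theorem ee_inj {z z' : P1 F} (hz : jj σ z = z) (hz' : jj σ z' = z') (e : cc.ee z = cc.ee z') :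
    z = z' := by
  rcases P1_cases z with rfl | ⟨s, rfl⟩ <;> rcases P1_cases z' with rfl | ⟨s', rfl⟩
  · rfl
  · exact absurd (by simpa using e.symm) (smul_b_ne (cc.memU s'))
  · exact absurd (by simpa using e) (smul_b_ne (cc.memU s))
  · rw [jj_pt, pt_inj] at hz hz'
    rw [ee_pt, ee_pt] at e
    rw [cc.inj hF (neg_eq_iff_eq_neg.1 hz) (neg_eq_iff_eq_neg.1 hz')
      (eq_of_smul_b (cc.memU s) (cc.memU s') e)]

theorem RR.unique {g : G} {M M' : PG F} (h : cc.RR g M) (h' : cc.RR g M') : M = M' := by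
  have key : ∀ z, jj σ z = z → M • z = M' • z := fun z hz =>
    ee_inj hF (by rw [← h.1, hz]) (by rw [← h'.1, hz]) ((h.2 z hz).trans (h'.2 z hz).symm)
  obtain ⟨ε, h0, hε⟩ := hF.exists_eps
  exact eq_of_three (x := inf) (y := pt 0) (z := pt ε) (by simp) (by simpa using h0.symm) (by simp)
    (key _ (by simp)) (key _ (by simp)) (key _ (by simp [hε]))

end Cc

/-- the second coordinate of the points not fixed by `t` -/
structure Tau {R : RK G Ω} {t : G} {σ : F →+* F} (cc : Cc R t σ) (ν : G) where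
  τ : Ω → F
  c : F
  c_fix : σ c = c
  c_ne : c ≠ 0
  νC : ∀ ζ, ζ ≠ 0 → σ ζ = -ζ → ν • cc.ψ ζ • R.b = cc.ψ (c / ζ) • R.b
  re : ∀ y, t • y ≠ y → σ (τ y) ≠ -τ y
  onC : ∀ y ζ, t • y ≠ y → σ ζ = -ζ → τ (cc.ψ ζ • y) = τ y + ζ
  onH : ∀ y, ∀ g ∈ R.H, t • y ≠ y → τ (g • y) = cc.χ g * τ y
  onν : ∀ y, t • y ≠ y → τ (ν • y) = c / τ y

namespace Hyp

variable {R : RK G Ω} {p e q d k : ℕ} (h : Hyp R p e q d k) [Finite G] {t ν : G} (ht : IsT R t)
  (hν : ν ∈ JJ R t) [Fintype F] {σ : F →+* F} (hF : FD F σ q) (cc : Cc R t σ)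
include h ht hν hF

theorem exists_c : ∃ c, σ c = c ∧ c ≠ 0 ∧
    ∀ ζ, ζ ≠ 0 → σ ζ = -ζ → ν • cc.ψ ζ • R.b = cc.ψ (c / ζ) • R.b := by
  obtain ⟨ε, h0, hε⟩ := hF.exists_eps
  have ne1 : ∀ ζ, ζ ≠ 0 → σ ζ = -ζ → cc.ψ ζ ≠ 1 := fun ζ hζ hζ' e =>
    hζ (hF.eq_zero_of ((cc.ker ζ).1 e) hζ')
  have ct := h.t_swap ht hν.2.1 hν.2.2
  obtain ⟨c, hc, e1⟩ := exists_fix_comm ht.mem (y := ν • cc.ψ ε • R.b) (fun e =>
    ne1 ε h0 hε (R.free _ (cc.memU ε) (smul_left_cancel ν (e.trans hν.2.2.symm))))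
    (fix_of_comm ct (fix_of_comm (mem_CU.1 (cc.mem ε)).2 ht.mem.2))
  obtain ⟨ε', hε', rfl⟩ := cc.surj c hc
  have h0' : ε' ≠ 0 := by
    rintro rfl
    rw [cc.zero, one_smul] at e1
    exact smul_b_ne (cc.memU ε) (smul_left_cancel ν (e1.symm.trans hν.2.1.symm))
  refine ⟨ε * ε', by simp [hε, hε'], mul_ne_zero h0 h0', fun ζ hζ hζ' => ?_⟩
  obtain ⟨g, hg, e2⟩ := h.C_trans ht (cc.mem ε) (ne1 ε h0 hε) (cc.mem ζ) (ne1 ζ hζ hζ')
  have e3 : ζ = cc.χ g * ε := cc.inj hF hζ' (by rw [map_mul, cc.fix g hg, hε]; ring)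
    (by rw [cc.spec g hg, e2])
  have hg' := swap_conj' hν.2.1 hν.2.2 hg
  have e4 : cc.χ (ν * g * ν⁻¹) * cc.χ g = 1 := by
    rw [← cc.χ_mul hF hg' hg]
    have hm := R.H.mul_mem hg' hg
    refine cc.χ_eq_one hF hm fun c hc => h.comm_C ht hm ((h.mem_W ht hν).1 (mem_CH.2 ⟨hm, ?_⟩)).2 hc
    nth_rw 2 [comm h.cyc hg' hg]
    rw [H5.Odd.inv_eq_of_sq (JJ.sq ht hν)]
    calc _ = (ν * ν) * g * ν * g := by group
      _ = g * ν * g * (ν * ν) := by rw [JJ.sq ht hν]; group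
      _ = _ := by group
  have e5 : ε * ε' / ζ = cc.χ (ν * g * ν⁻¹) * ε' := by
    rw [div_eq_iff hζ, e3]
    linear_combination -ε * ε' * e4
  rw [e5, cc.spec _ hg', conj_smul_b hg', e1, ← e2, conj_smul_b hg, mul_smul, mul_smul,
    inv_smul_smul]

theorem exists_Tau : Nonempty (Tau cc ν) := by
  obtain ⟨c, hc, c0, hνC⟩ := h.exists_c ht hν hF cc
  have rν := Cc.RR_ν (cc := cc) hc c0 hν.2.1 hν.2.2 hνC
  have ct := h.t_swap ht hν.2.1 hν.2.2
  have allB : ∀ g : G, t * g = g * t → g • R.a = R.a → ∃ M, cc.RR g M := fun g c ga => by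
    obtain ⟨u, hu, x, hx, rfl⟩ := decomp ga
    have c' : Commute t (u * x * x⁻¹) :=
      Commute.mul_right c (Commute.inv_right (comm h.cyc ht.mem hx))
    rw [mul_inv_cancel_right] at c'
    obtain ⟨ζ, hζ, rfl⟩ := cc.surj u (mem_CU.2 ⟨hu, c'⟩)
    exact ⟨_, (Cc.RR_C hζ).mul (Cc.RR_H hx (cc.χ_ne hF hx))⟩
  have all : ∀ g : G, t * g = g * t → ∃ M, cc.RR g M := fun g c => by
    by_cases ga : g • R.a = R.a
    · exact allB g c ga
    obtain ⟨u, hu, e1⟩ := exists_fix_comm ht.mem ga (fix_of_comm c ht.mem.1)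
    obtain ⟨ζ, hζ, rfl⟩ := cc.surj u hu
    obtain ⟨M, hM⟩ := allB ((cc.ψ ζ * ν)⁻¹ * g)
      (Commute.mul_right (Commute.inv_right (Commute.mul_right (mem_CU.1 hu).2 ct)) c)
      (by rw [mul_smul, inv_smul_eq_iff, mul_smul, hν.2.1, e1])
    exact ⟨_, by simpa only [mul_inv_cancel_left] using ((Cc.RR_C hζ).mul rν).mul hM⟩
  obtain ⟨y₀, hy₀⟩ : {y : Ω | ν • y = y}.Nonempty :=
    Set.nonempty_of_ncard_ne_zero (by rw [h.ncard_fix_JJ ht hν]; omega)
  have hy₀' : ν • y₀ = y₀ := hy₀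
  have ty₀ := h.not_fix ht hν hy₀'
  obtain ⟨r, hr⟩ := hF.exists_sqrt hc
  have r0 : r ≠ 0 := by rintro rfl; exact c0 (by simpa using hr.symm)
  have rr : pt r ≠ pt (-r) := fun e => r0 (by
    have h2 : 2 * r = 0 := by linear_combination pt_inj.1 e
    exact (mul_eq_zero.1 h2).resolve_left hF.two_ne)
  have f1 : H4.Mob.flip c c0 • pt r = pt r := by
    rw [flip_smul_pt _ _ r0, ← hr, mul_div_cancel_right₀ _ r0]
  have f2 : H4.Mob.flip c c0 • pt (-r) = pt (-r) := by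
    rw [flip_smul_pt _ _ (neg_ne_zero.2 r0), ← hr, ← neg_mul_neg,
      mul_div_cancel_right₀ _ (neg_ne_zero.2 r0)]
  have f0 : H4.Mob.flip c c0 ≠ 1 := fun e => by simpa [e] using flip_smul_inf c c0
  have σr : σ r = r := (hF.fix_or (by rw [hr, hc])).resolve_right fun e => by
    have h1 := rν.2 (pt r) (by simp [e])
    rw [f1, Cc.ee_pt] at h1
    exact h.not_fix ht hν h1.symm (fix_of_comm (mem_CU.1 (cc.mem r)).2 ht.mem.2)
  have stab : ∀ g M, t * g = g * t → cc.RR g M → g • y₀ = y₀ → M • pt r = pt r := by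
    intro g M cg hM gy
    have c1 := comm_of_fix_two h.cyc (Ne.symm ty₀) gy (fix_of_comm cg.symm gy) hy₀'
      (fix_of_comm ct.symm hy₀')
    have c2 : M * H4.Mob.flip c c0 = H4.Mob.flip c c0 * M :=
      (hM.mul rν).unique hF (by rw [c1]; exact rν.mul hM)
    have k1 : ∀ z, H4.Mob.flip c c0 • z = z → M • z = pt r ∨ M • z = pt (-r) := fun z hz =>
      fix_eq f0 rr f1 f2 (by rw [← mul_smul, ← c2, mul_smul, hz])
    refine (k1 _ f1).resolve_right fun e1 => ?_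
    have e2 := (k1 _ f2).resolve_right fun e2 => rr (smul_left_cancel M (e1.trans e2.symm))
    have h2 := hM.mul hM
    rw [mul_self_of_swap rr e1 e2] at h2
    have h3 : g * g = 1 := h.eq_one_of_fix ht
      ⟨by simpa using (h2.2 inf (by simp)).symm,
        by simpa [cc.zero] using (h2.2 (pt 0) (by simp)).symm⟩ (by rw [mul_smul, gy, gy]) ty₀
    have h4 : g ≠ 1 := by
      rintro rfl
      have : cc.RR 1 1 := ⟨by simp, by simp⟩
      rw [hM.unique hF this, one_smul] at e1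
      exact rr e1
    have h5 := inv_unique h.cyc (Ne.symm ty₀) h4 (JJ.ne ht hν) h3 (JJ.sq ht hν) gy
      (fix_of_comm cg.symm gy) hy₀' (fix_of_comm ct.symm hy₀')
    subst h5
    rw [hM.unique hF rν, f1] at e1
    exact rr e1
  let T : Ω → P1 F → Prop := fun y z =>
    ∃ g M, t * g = g * t ∧ cc.RR g M ∧ g • y₀ = y ∧ M • pt r = z
  have func : ∀ y z z', T y z → T y z' → z = z' := by
    rintro _ _ _ ⟨g, M, c, hM, rfl, rfl⟩ ⟨g', M', c', hM', e, rfl⟩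
    have := stab _ _ (Commute.mul_right (Commute.inv_right c) c') (hM.inv.mul hM')
      (by rw [mul_smul, e, inv_smul_smul])
    rw [mul_smul, inv_smul_eq_iff] at this
    exact this.symm
  have eqv : ∀ y z g M, T y z → t * g = g * t → cc.RR g M → T (g • y) (M • z) := by
    rintro _ _ g M ⟨g', M', c', hM', rfl, rfl⟩ c hM
    exact ⟨g * g', M * M', Commute.mul_right c c', hM.mul hM', mul_smul _ _ _, mul_smul _ _ _⟩
  have ex : ∀ y, ∃ s : F, t • y ≠ y → σ s ≠ -s ∧ T y (pt s) := fun y => by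
    by_cases hy : t • y = y
    · exact ⟨0, fun h => absurd hy h⟩
    obtain ⟨g, c, rfl⟩ := h.L_trans ht ty₀ hy
    obtain ⟨M, hM⟩ := all g c
    have h1 : jj σ (M • pt r) ≠ M • pt r := by
      rw [← hM.1, jj_pt, σr]
      exact fun e => rr (smul_left_cancel M e).symm
    obtain ⟨s, hs⟩ := exists_pt_of_ne (z := M • pt r) fun e => h1 (by rw [e, jj_inf])
    refine ⟨s, fun _ => ⟨fun e => h1 ?_, g, M, c, hM, rfl, hs⟩⟩
    rw [hs, jj_pt, e, neg_neg]
  choose τ hτ using ex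
  have key : ∀ y g M, t • y ≠ y → t * g = g * t → cc.RR g M → pt (τ (g • y)) = M • pt (τ y) :=
    fun y g M hy c hM => func _ _ _ (hτ _ fun e => hy (smul_left_cancel g (by
      rw [← mul_smul, ← c, mul_smul, e]))).2 (eqv _ _ _ _ (hτ y hy).2 c hM)
  refine ⟨⟨τ, c, hc, c0, hνC, fun y hy => (hτ y hy).1, fun y ζ hy hζ => ?_, fun y g hg hy => ?_,
    fun y hy => ?_⟩⟩
  · simpa using key y _ _ hy (mem_CU.1 (cc.mem ζ)).2 (Cc.RR_C hζ)
  · simpa using key y _ _ hy (comm h.cyc ht.mem hg) (Cc.RR_H hg (cc.χ_ne hF hg))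
  · have := key y _ _ hy ct rν
    rw [flip_smul_pt _ _ (fun e => (hτ y hy).1 (by simp [e]))] at this
    exact pt_inj.1 this

end Hyp

end Cfsg.Agent.H8.U3
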