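import Cfsg.Agent.H8.U3e
import Cfsg.Agent.H8.U3Alg

/-! Groups of odd unitary type: blocks and the determination of the coordinate function. -/

set_option autoImplicit false

namespace Cfsg.Agent.H8.U3

open MulAction RK

variable {G Ω : Type*} [Group G] [MulAction G Ω] {F : Type*} [Field F]

/-- three points fixed by a common involution -/
def Col (G : Type*) [Group G] [MulAction G Ω] (x y z : Ω) : Prop :=
  ∃ i : G, i ≠ 1 ∧ i * i = 1 ∧ i • x = x ∧ i • y = y ∧ i • z = z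

theorem Col.smul {x y z : Ω} (h : Col G x y z) (g : G) : Col G (g • x) (g • y) (g • z) := by
  obtain ⟨i, h1, h2, hx, hy, hz⟩ := h
  refine ⟨g⁻¹⁻¹ * i * g⁻¹, conj_ne h1 _, conj_sq h2 _, ?_, ?_, ?_⟩ <;>
    simp only [inv_inv, mul_smul, inv_smul_smul, hx, hy, hz]

theorem four_roots {a b c d : F} (ha : a ^ 3 = 1) (hb : b ^ 3 = 1) (hc : c ^ 3 = 1)
    (hd : d ^ 3 = 1) : a = b ∨ a = c ∨ a = d ∨ b = c ∨ b = d ∨ c = d := by grind

/-- the value of the coordinate on the elements inverted by `t` -/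
def Tau.κ {R : RK G Ω} {t ν : G} {σ : F →+* F} {cc : Cc R t σ} (T : Tau cc ν) (co : Co R t F)
    (x : F) : F := T.τ (co.μ x • R.b)

namespace Hyp

variable {R : RK G Ω} {p e q d k : ℕ} (h : Hyp R p e q d k) [Finite G] {t ν : G} (ht : IsT R t)
include h ht

theorem col_a {y z : Ω} (hy : y ≠ R.a) (hz : z ≠ R.a) (c : Col G R.a y z) :
    ∃ c ∈ R.CU t, c • y = z := by
  obtain ⟨u, hu, rfl⟩ := R.ex y hy
  obtain ⟨i, h1, h2, ia, iy, iz⟩ := c.smul u⁻¹
  rw [inv_fix (R.fixa u hu)] at ia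
  rw [inv_smul_smul] at iy
  have e := (h.eq_t ht ⟨ia, iy⟩ h2).resolve_left h1
  subst e
  obtain ⟨c, hc, e⟩ := exists_fix_comm ht.mem (smul_ne_a (inv_fix (R.fixa u hu)) hz) iz
  exact ⟨c, hc, by rw [← mul_smul, h.C_central ht hc hu, mul_smul, e, smul_inv_smul]⟩

omit [Finite G] h in
theorem col_t {y z w : Ω} (hy : t • y = y) (hz : t • z = z) (hw : t • w = w) : Col G y z w :=
  ⟨t, ht.ne, ht.sq, hy, hz, hw⟩

theorem K_central {g x : G} (hν : ν ∈ JJ R t) (hg : t * g = g * t) (hx : x ∈ R.H)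
    (hk : x ^ k = 1) : x * g = g * x := by
  have allB : ∀ g : G, t * g = g * t → g • R.a = R.a → Commute x g := fun g c ga => by
    obtain ⟨u, hu, y, hy, rfl⟩ := decomp ga
    have c' : Commute t (u * y * y⁻¹) :=
      Commute.mul_right c (Commute.inv_right (comm h.cyc ht.mem hy))
    rw [mul_inv_cancel_right] at c'
    exact Commute.mul_right (h.comm_C ht hx hk (mem_CU.2 ⟨hu, c'⟩)) (comm h.cyc hx hy)
  by_cases ga : g • R.a = R.a
  · exact allB g hg ga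
  obtain ⟨u, hu, e1⟩ := exists_fix_comm ht.mem ga (fix_of_comm hg ht.mem.1)
  have c1 := allB ((u * ν)⁻¹ * g) (Commute.mul_right (Commute.inv_right
    (Commute.mul_right (mem_CU.1 hu).2 (h.t_swap ht hν.2.1 hν.2.2))) hg)
    (by rw [mul_smul, inv_smul_eq_iff, mul_smul, hν.2.1, e1])
  have c2 : Commute x (u * ν) := Commute.mul_right (h.comm_C ht hx hk hu)
    (mem_CH.1 ((h.mem_W ht hν).2 ⟨hx, hk⟩)).2.symm
  simpa only [mul_inv_cancel_left] using (c2.mul_right c1).eq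

theorem col_K (hν : ν ∈ JJ R t) {y : Ω} (hy : t • y ≠ y) {x x' : G} (hx : x ∈ R.H)
    (hk : x ^ k = 1) (hx' : x' ∈ R.H) (hk' : x' ^ k = 1) : Col G y (x • y) (x' • y) := by
  obtain ⟨y₀, hy₀⟩ : {y : Ω | ν • y = y}.Nonempty :=
    Set.nonempty_of_ncard_ne_zero (by rw [h.ncard_fix_JJ ht hν]; omega)
  obtain ⟨g, c, rfl⟩ := h.L_trans ht (h.not_fix ht hν hy₀) hy
  rw [← mul_smul, ← mul_smul x', h.K_central ht hν c hx hk, h.K_central ht hν c hx' hk', mul_smul,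
    mul_smul]
  exact Col.smul ⟨ν, JJ.ne ht hν, JJ.sq ht hν, hy₀,
    fix_of_comm (mem_CH.1 ((h.mem_W ht hν).2 ⟨hx, hk⟩)).2 hy₀,
    fix_of_comm (mem_CH.1 ((h.mem_W ht hν).2 ⟨hx', hk'⟩)).2 hy₀⟩ g

theorem t_pow_k : t ^ k = 1 := by
  obtain ⟨j, hj⟩ := h.evenk
  rw [hj, ← two_mul, pow_mul, sq, ht.sq, one_pow]

/-- differences of points of the base block lie in different `H`-orbits -/
theorem princ (hν : ν ∈ JJ R t) {u v w g : G} (hu : u ∈ R.U) (hv : v ∈ R.U) (hw : w ∈ R.U)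
    (fu : ν • u • R.b = u • R.b) (fv : ν • v • R.b = v • R.b) (fw : ν • w • R.b = w • R.b)
    (hg : g ∈ R.H) (e : g * (u⁻¹ * v) * g⁻¹ = u⁻¹ * w) : v = w := by
  by_cases huw : u = w
  · subst huw
    rw [inv_mul_cancel, conj_eq_one_iff, inv_mul_eq_one] at e
    exact e.symm
  have e1 : (u * g * u⁻¹) • u • R.b = u • R.b := by
    rw [mul_smul, inv_smul_smul, mul_smul, hg.2]
  have e2 : (u * g * u⁻¹) • v • R.b = w • R.b := by
    rw [← mul_inv_cancel_left u w, ← e, mul_smul u (g * _ * _), conj_smul_b hg]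
    simp only [mul_smul]
  have e3 : (u * g * u⁻¹) • R.a = R.a := by
    rw [mul_smul, mul_smul, inv_fix (R.fixa u hu), hg.1, R.fixa u hu]
  generalize u * g * u⁻¹ = s at e1 e2 e3
  have e4 : s⁻¹⁻¹ * ν * s⁻¹ = ν := inv_unique h.cyc (x := u • R.b) (y := w • R.b)
    (fun e => huw (eq_of_smul_b hu hw e)) (conj_ne (JJ.ne ht hν) _) (JJ.ne ht hν)
    (conj_sq (JJ.sq ht hν) _) (JJ.sq ht hν)
    (by rw [inv_inv, mul_smul, mul_smul, inv_fix e1, fu, e1])
    (by rw [inv_inv, mul_smul, mul_smul, ← e2, inv_smul_smul, fv]) fu fw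
  have e5 : s • R.b = R.b := by
    rw [← hν.2.1, ← mul_smul]
    nth_rw 2 [← e4]
    rw [inv_inv, mul_smul _ s⁻¹, inv_fix e3]
  have e6 := h.eq_one_of_fix ht ⟨e3, e5⟩ e1 (h.not_fix ht hν fu)
  rw [e6, one_smul] at e2
  exact eq_of_smul_b hv hw e2

section
variable (co : Co R t F)

theorem off {x : F} (hx : x ≠ 0) {c : G} (hc : c ∈ R.CU t) :
    t • (co.μ x * c) • R.b ≠ (co.μ x * c) • R.b := fun e => by
  have hm := R.U.mul_mem (co.memU x) (mem_CU.1 hc).1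
  have h1 := mem_CU.2 ⟨hm, (comm_iff_fix ht.mem hm).2 e⟩
  exact hx ((h.μ_mem_C ht co).1 (by simpa using mul_mem h1 (inv_mem hc)))

theorem off' {x : F} (hx : x ≠ 0) : t • co.μ x • R.b ≠ co.μ x • R.b := by
  simpa using h.off ht co hx (one_mem _)

variable {σ : F →+* F} {cc : Cc R t σ}

theorem elt (cc : Cc R t σ) {u : G} (hu : u ∈ R.U) :
    ∃ x ζ, σ ζ = -ζ ∧ u = co.μ x * cc.ψ ζ := by
  obtain ⟨c, hc, z, hz, rfl⟩ := h.factor ht hu
  obtain ⟨x, rfl⟩ := co.surj z hz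
  obtain ⟨ζ, hζ, rfl⟩ := cc.surj c hc
  exact ⟨x, ζ, hζ, h.C_central ht hc hz.1⟩

theorem elt_off (cc : Cc R t σ) {y : Ω} (hy : t • y ≠ y) :
    ∃ x ζ, x ≠ 0 ∧ σ ζ = -ζ ∧ y = (co.μ x * cc.ψ ζ) • R.b := by
  obtain ⟨u, hu, rfl⟩ := R.ex y (by rintro rfl; exact hy ht.mem.1)
  obtain ⟨x, ζ, hζ, rfl⟩ := h.elt ht co cc hu
  refine ⟨x, ζ, ?_, hζ, rfl⟩
  rintro rfl
  rw [h.μ_zero ht co, one_mul] at hy
  exact hy (fix_of_comm (mem_CU.1 (cc.mem ζ)).2 ht.mem.2)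

variable (T : Tau cc ν)

theorem τ_pt {x ζ : F} (hx : x ≠ 0) (hζ : σ ζ = -ζ) :
    T.τ ((co.μ x * cc.ψ ζ) • R.b) = T.κ co x + ζ := by
  rw [← h.C_central ht (cc.mem ζ) (co.memU x), mul_smul, T.onC _ _ (h.off' ht co hx) hζ, Tau.κ]

theorem κ_l {g : G} (hg : g ∈ R.H) {x : F} (hx : x ≠ 0) :
    T.κ co (co.l g * x) = cc.χ g * T.κ co x := by
  rw [Tau.κ, co.spec g hg, conj_smul_b hg, T.onH _ g hg (h.off' ht co hx), Tau.κ]

theorem κ_re {x : F} (hx : x ≠ 0) : T.κ co x + σ (T.κ co x) ≠ 0 := fun e =>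
  T.re _ (h.off' ht co hx) (eq_neg_of_add_eq_zero_right e)

variable (hν : ν ∈ JJ R t)
include hν

omit co in
theorem off_ν {y : Ω} (hy : t • y ≠ y) : t • ν • y ≠ ν • y := fun e => hy (smul_left_cancel ν (by
  rw [← mul_smul, ← h.t_swap ht hν.2.1 hν.2.2, mul_smul, e]))

omit co in
theorem phi {y z : Ω} (hy : t • y ≠ y) (hz : t • z ≠ z) (c : Col G R.b y z) :
    (T.τ y)⁻¹ + σ (T.τ y)⁻¹ = (T.τ z)⁻¹ + σ (T.τ z)⁻¹ := by
  have c' := c.smul ν
  rw [hν.2.2] at c'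
  have hy' := h.off_ν ht hν hy
  obtain ⟨c, hc, e⟩ := h.col_a ht (fun e => hy' (by rw [e, ht.mem.1]))
    (fun e => h.off_ν ht hν hz (by rw [e, ht.mem.1])) c'
  obtain ⟨ζ, hζ, rfl⟩ := cc.surj c hc
  have h1 := T.onC _ ζ hy' hζ
  rw [e, T.onν _ hy, T.onν _ hz, div_eq_mul_inv, div_eq_mul_inv] at h1
  have h2 := congrArg σ h1
  rw [map_add, map_mul, map_mul, T.c_fix, hζ] at h2
  apply mul_left_cancel₀ T.c_ne
  linear_combination -h1 - h2

variable [Fintype F] (hF : FD F σ q)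
include hF

omit hν T in
theorem χ_t : cc.χ t = 1 := cc.χ_eq_one hF ht.mem fun _ hc => (mem_CU.1 hc).2

omit hν in
theorem κ_neg {x : F} (hx : x ≠ 0) : T.κ co (-x) = T.κ co x := by
  have := h.κ_l ht co T ht.mem hx
  rwa [h.l_t ht co, h.χ_t ht hF, neg_one_mul, one_mul] at this

omit co hν in
theorem τ_fix {y : Ω} (hy : t • y ≠ y) {a : F} (ha : σ a = a) (e : T.τ y = a / T.τ y) :
    σ (T.τ y) = T.τ y := by
  have h0 : T.τ y ≠ 0 := fun e => T.re y hy (by simp [e])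
  rw [eq_div_iff h0] at e
  exact (hF.fix_or (by rw [e, ha])).resolve_right (T.re y hy)

theorem step {x : F} (hx : x ≠ 0) : ∃ x', x' ≠ 0 ∧
    (T.κ co x - σ (T.κ co x)) / (T.κ co x + σ (T.κ co x)) =
      -2 * ((T.κ co x' - σ (T.κ co x')) / (T.κ co x' + σ (T.κ co x'))) := by
  have o1 := h.off' ht co hx
  obtain ⟨x', ζ, hx', hζ, e⟩ := h.elt_off ht co cc (h.off_ν ht hν o1)
  refine ⟨x', hx', ?_⟩
  have e1 := T.onν _ o1
  rw [e, h.τ_pt ht co T hx' hζ, ← Tau.κ] at e1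
  have e2 : (co.μ x' * cc.ψ ζ)⁻¹ = co.μ (-x') * cc.ψ (-ζ) := by
    rw [← h.C_central ht (cc.mem ζ) (co.memU x'), mul_inv_rev, h.μ_neg ht co, cc.neg]
  have hw : co.μ x' * cc.ψ ζ ∈ R.U := mul_mem (co.memU _) (cc.memU _)
  have o2 := h.off ht co (neg_ne_zero.2 hx') (cc.mem (-ζ))
  have e3 := h.τ_pt ht co T (neg_ne_zero.2 hx') (ζ := -ζ) (by rw [map_neg, hζ])
  rw [h.κ_neg ht co T hF hx'] at e3
  rw [← e2] at o2 e3
  generalize co.μ x' * cc.ψ ζ = w at e hw o2 e3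
  have tb : t • (co.μ x)⁻¹ • R.b = co.μ x • R.b := by
    rw [← conj_smul_b ht.mem, ← h.μ_neg ht co, (co.mem _).2, h.μ_neg ht co, inv_inv]
  obtain ⟨ia, ib⟩ := swap_inv hν.2.1 hν.2.2
  let s := w⁻¹ * ν * t * (co.μ x)⁻¹ * ν⁻¹ * w
  have sa : s • R.a = R.b := by
    simp only [s, mul_smul]
    rw [R.fixa w hw, ia, tb, e, inv_smul_smul]
  have sb : s • R.b = R.a := by
    simp only [s, mul_smul]
    rw [← e, inv_smul_smul, inv_smul_smul, ht.mem.2, hν.2.2, inv_fix (R.fixa w hw)]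
  have sy : s • w⁻¹ • R.b = w⁻¹ • R.b := by
    simp only [s, mul_smul]
    rw [smul_inv_smul, ib, inv_fix (R.fixa _ (co.memU x)), ht.mem.1, hν.2.1]
  have hg := swap_mul sa sb ia ib
  have e4 := T.onH _ _ hg (h.off_ν ht hν o2)
  rw [mul_smul, inv_smul_smul, sy, T.onν _ o2, ← mul_div_assoc] at e4
  have e5 := h.τ_fix ht T hF o2 (by rw [map_mul, cc.fix _ hg, T.c_fix]) e4
  rw [e3, map_add, map_neg, hζ] at e5
  have r1 := h.κ_re ht co T hx
  have r2 := h.κ_re ht co T hx'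
  have k0 : T.κ co x ≠ 0 := fun e => r1 (by simp [e])
  have k0' : σ (T.κ co x) ≠ 0 := (map_ne_zero σ).2 k0
  have e6 := congrArg σ e1
  rw [map_add, map_div₀, hζ, T.c_fix] at e6
  rw [eq_div_iff k0] at e1
  rw [eq_div_iff k0'] at e6
  generalize T.κ co x = a at *
  generalize T.κ co x' = a' at *
  generalize σ a = b at *
  generalize σ a' = b' at *
  have c0 := T.c_ne
  field_simp
  have e7 : a' - b' = 2 * ζ := by linear_combination -e5
  apply mul_left_cancel₀ c0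
  have e8 : T.c * (a - b) = a * b * ((b' - ζ) - (a' + ζ)) := by
    linear_combination -a * e6 + b * e1
  have e9 : T.c * (a + b) = a * b * (a' + b') := by linear_combination -a * e6 - b * e1
  linear_combination (a' + b') * e8 + 2 * (a' - b') * e9 + a * b * (a' + b') * e7

omit ht hν T co in
theorem pow_m_d {x : F} (hx : x ≠ 0) : (x ^ ((q - 1) * k)) ^ d = 1 := by
  rw [← pow_mul, mul_assoc, mul_comm k, ← h.hk, pow_mul, ← hF.norm_eq, hF.pow_sub_one hx, map_div₀,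
    hF.inv]
  have := (map_ne_zero σ).2 hx
  field_simp

omit hν T hF in
theorem cls_l {x y : F} (hy : y ≠ 0) (e : x ^ ((q - 1) * k) = y ^ ((q - 1) * k)) :
    ∃ g ∈ R.H, x = co.l g * y := by
  obtain ⟨g, hg, e'⟩ := h.l_range ht co (x := x / y) (by rw [div_pow, e, div_self (pow_ne_zero _ hy)])
  exact ⟨g, hg, by rw [e', div_mul_cancel₀ _ hy]⟩

theorem κ_fix_three (hd : d = 3) (h3 : (3 : F) ≠ 0) {x : F} (hx : x ≠ 0) :
    σ (T.κ co x) = T.κ co x := by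
  let γ : F → F := fun x => (T.κ co x - σ (T.κ co x)) / (T.κ co x + σ (T.κ co x))
  have hγ : ∀ x y, y ≠ 0 → x ^ ((q - 1) * k) = y ^ ((q - 1) * k) → γ x = γ y := fun x y hy e => by
    obtain ⟨g, hg, rfl⟩ := h.cls_l ht co hy e
    simp only [γ, h.κ_l ht co T hg hy, map_mul, cc.fix g hg]
    rw [← mul_sub, ← mul_add, mul_div_mul_left _ _ (cc.χ_ne hF hg)]
  obtain ⟨x₁, h1, e1⟩ := h.step ht co T hν hF hx
  obtain ⟨x₂, h2, e2⟩ := h.step ht co T hν hF h1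
  obtain ⟨x₃, h4, e3⟩ := h.step ht co T hν hF h2
  change γ x = -2 * γ x₁ at e1
  change γ x₁ = -2 * γ x₂ at e2
  change γ x₂ = -2 * γ x₃ at e3
  have h9 : (9 : F) ≠ 0 := by rw [show (9 : F) = 3 * 3 by norm_num]; exact mul_ne_zero h3 h3
  have key : γ x = 0 := by
    subst hd
    rcases four_roots (h.pow_m_d hF hx) (h.pow_m_d hF h1) (h.pow_m_d hF h2) (h.pow_m_d hF h4)
      with e | e | e | e | e | e
    · exact mul_left_cancel₀ h3 (by linear_combination e1 + 2 * hγ _ _ h1 e)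
    · exact mul_left_cancel₀ h3 (by linear_combination -e1 + 2 * e2 + 4 * hγ _ _ h2 e)
    · exact mul_left_cancel₀ h9 (by linear_combination e1 - 2 * e2 + 4 * e3 + 8 * hγ _ _ h4 e)
    · exact mul_left_cancel₀ h3 (by linear_combination 3 * e1 - 2 * e2 - 4 * hγ _ _ h2 e)
    · exact mul_left_cancel₀ h3 (by linear_combination 3 * e1 + 2 * e2 - 4 * e3 - 8 * hγ _ _ h4 e)
    · exact mul_left_cancel₀ h3 (by linear_combination 3 * e1 - 6 * e2 + 4 * e3 + 8 * hγ _ _ h4 e)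
  simp only [γ, div_eq_zero_iff, h.κ_re ht co T hx, or_false, sub_eq_zero] at key
  exact key.symm

theorem fix_ν (hκ : ∀ x, x ≠ 0 → σ (T.κ co x) = T.κ co x) {y : Ω} (hy : ν • y = y) :
    ∃ x, x ≠ 0 ∧ y = co.μ x • R.b ∧ T.κ co x * T.κ co x = T.c := by
  have o := h.not_fix ht hν hy
  obtain ⟨x, ζ, hx, hζ, rfl⟩ := h.elt_off ht co cc o
  have e1 := T.onν _ o
  rw [hy] at e1
  have e2 := h.τ_fix ht T hF o T.c_fix e1
  rw [h.τ_pt ht co T hx hζ] at e1 e2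
  rw [map_add, hκ x hx] at e2
  have e3 : ζ = 0 := hF.eq_zero_of (add_left_cancel e2) hζ
  subst e3
  have k0 : T.κ co x ≠ 0 := fun e => h.κ_re ht co T hx (by simp [e])
  rw [add_zero, eq_div_iff k0] at e1
  exact ⟨x, hx, by rw [cc.zero, mul_one], e1⟩

theorem ncard_Γ (hκ : ∀ x, x ≠ 0 → σ (T.κ co x) = T.κ co x) :
    {x | ν • co.μ x • R.b = co.μ x • R.b}.ncard = q + 1 := by
  rw [← h.ncard_fix_JJ ht hν]
  apply Set.ncard_congr (fun x _ => co.μ x • R.b)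
  · exact fun x hx => hx
  · exact fun x y _ _ e => co.inj (eq_of_smul_b (co.memU x) (co.memU y) e)
  · intro y hy
    obtain ⟨x, -, rfl, -⟩ := h.fix_ν ht co T hν hF hκ hy
    exact ⟨x, hy, rfl⟩

omit [Finite G] ht hν in
theorem three_ne (hd : d = 3) : (3 : F) ≠ 0 := fun h3 => by
  have h1 := FiniteField.cast_card_eq_zero F
  have h2 := h.hk
  subst hd
  have h4 : (q : F) + 1 = 0 := by
    have : ((q + 1 : ℕ) : F) = ((3 * k : ℕ) : F) := by rw [h2]
    push_cast at this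
    rw [this, h3, zero_mul]
  rw [hF.card] at h1
  push_cast at h1
  rw [pow_eq_zero_iff two_ne_zero |>.1 h1, zero_add] at h4
  exact one_ne_zero h4

/-- `U` is not abelian -/
theorem not_comm (T : Tau cc ν) : ∃ x y, co.β x y ≠ 1 := by
  by_contra hB
  push Not at hB
  have diff : ∀ x y, (co.μ x)⁻¹ * co.μ y = co.μ (y - x) := fun x y => by
    rw [← h.μ_neg ht co, co.mul, hB, mul_one, neg_add_eq_sub]
  rcases h.k_cases with hk | ⟨hq, hd, hk⟩
  · obtain ⟨y₀, hy₀⟩ : {y : Ω | ν • y = y}.Nonempty :=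
      Set.nonempty_of_ncard_ne_zero (by rw [h.ncard_fix_JJ ht hν]; omega)
    obtain ⟨x, ζ, hx, hζ, rfl⟩ := h.elt_off ht co cc (h.not_fix ht hν hy₀)
    have key : ∀ g ∈ R.H, g ^ k = 1 →
        ν • (co.μ (co.l g * x) * cc.ψ ζ) • R.b = (co.μ (co.l g * x) * cc.ψ ζ) • R.b ∧
        (co.μ x * cc.ψ ζ)⁻¹ * (co.μ (co.l g * x) * cc.ψ ζ) = co.μ ((co.l g - 1) * x) := by
      intro g hg hgk
      constructor
      · have e : co.μ (co.l g * x) * cc.ψ ζ = g * (co.μ x * cc.ψ ζ) * g⁻¹ := by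
          rw [co.spec g hg, ← mul_assoc, mul_assoc _ (cc.ψ ζ), mul_assoc _ g⁻¹]
          congr 1
          exact (Commute.inv_left (h.comm_C ht hg hgk (cc.mem ζ))).eq
        rw [e, conj_smul_b hg]
        exact fix_of_comm (mem_CH.1 ((h.mem_W ht hν).2 ⟨hg, hgk⟩)).2 hy₀
      · rw [mul_inv_rev, mul_assoc, ← mul_assoc (co.μ x)⁻¹, diff,
          ← h.C_central ht (cc.mem ζ) (co.memU _), inv_mul_cancel_left, sub_one_mul]
    obtain ⟨m, hm⟩ := h.exists_order hF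
    have m1 : m ^ k = 1 := hm ▸ pow_orderOf_eq_one m
    obtain ⟨g, hg, hgk, rfl⟩ := h.l_range_k ht co m1
    obtain ⟨f1, d1⟩ := key g hg hgk
    obtain ⟨f2, d2⟩ := key t ht.mem (h.t_pow_k ht)
    have m2 : co.l g * co.l g ≠ 1 := fun e => by
      have := Nat.le_of_dvd two_pos
        (orderOf_dvd_of_pow_eq_one (x := co.l g) (n := 2) (by rw [pow_two, e]))
      omega
    have n1 : (-1 : F) ≠ 1 := fun e => hF.two_ne (by linear_combination -e)
    have c1 := hF.cls_pow h.evenk (hF.norm_one h.hk m1) (fun e => m2 (by rw [e, one_mul]))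
    have c2 := hF.cls_pow h.evenk (m := -1) (by simp) n1
    rw [m1, mul_one] at c1
    rw [h.evenk.neg_one_pow, mul_one] at c2
    obtain ⟨g', hg', e⟩ := h.cls_l ht co (sub_ne_zero.2 n1) (c1.trans c2.symm)
    have hU : ∀ y, co.μ y * cc.ψ ζ ∈ R.U := fun y => mul_mem (co.memU _) (cc.memU _)
    have := h.princ ht hν (hU _) (hU _) (hU _) hy₀ f2 f1 hg' (by
      rw [d1, d2, ← co.spec g' hg', h.l_t ht co, e, mul_assoc])
    have e2 := mul_right_cancel₀ hx (co.inj (mul_right_cancel this))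
    exact m2 (by rw [← e2, h.l_t ht co]; ring)
  · have hκ := fun x => h.κ_fix_three ht co T hν hF hd (h.three_ne hF hd) (x := x)
    have h1 := h.ncard_Γ ht co T hν hF hκ
    obtain ⟨x, hx⟩ : {x | ν • co.μ x • R.b = co.μ x • R.b}.Nonempty :=
      Set.nonempty_of_ncard_ne_zero (by omega)
    have h2 := Set.ncard_le_ncard_of_injOn (s := {x | ν • co.μ x • R.b = co.μ x • R.b} \ {x})
      (t := {w : F | w ^ d = 1}) (fun y => (y - x) ^ ((q - 1) * k))
      (fun y hy => h.pow_m_d hF (sub_ne_zero.2 hy.2)) (fun y hy z hz e => by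
        obtain ⟨g, hg, e'⟩ := h.cls_l ht co (sub_ne_zero.2 hz.2) e
        exact (co.inj (h.princ ht hν (co.memU x) (co.memU z) (co.memU y) hx hz.1 hy.1 hg (by
          rw [diff, diff, e', co.spec g hg]))).symm)
    rw [Set.ncard_diff_singleton_of_mem hx, h1] at h2
    have h3 := ncard_pow_eq_le (n := d) (by omega) (1 : F)
    omega

section A
variable (hβ : ∀ x y, co.β x y = cc.ψ (σ x * y)) (hχ : ∀ g ∈ R.H, cc.χ g = co.l g * σ (co.l g))
include hβ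

omit hν in
theorem diff (x y : F) :
    (co.μ x)⁻¹ * co.μ y = co.μ (y - x) * cc.ψ (-((σ x * y - x * σ y) / 2)) := by
  rw [← h.μ_neg ht co, co.mul, hβ, neg_add_eq_sub, cc.eq_iff.2]
  have := hF.two_ne
  simp only [map_sub, map_mul, map_neg, map_div₀, map_ofNat, hF.inv]
  field_simp
  ring

omit hβ hν h ht co T [Finite G] in
theorem im_diff (x y : F) :
    σ (-((σ x * y - x * σ y) / 2)) = - -((σ x * y - x * σ y) / 2) := by
  simp only [map_sub, map_mul, map_neg, map_div₀, map_ofNat, hF.inv]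
  ring

theorem phi_diff {x y z : F} (hy : y ≠ x) (hz : z ≠ x)
    (c : Col G (co.μ x • R.b) (co.μ y • R.b) (co.μ z • R.b)) :
    (T.κ co (y - x) - (σ x * y - x * σ y) / 2)⁻¹ + σ (T.κ co (y - x) - (σ x * y - x * σ y) / 2)⁻¹ =
    (T.κ co (z - x) - (σ x * z - x * σ z) / 2)⁻¹ +
      σ (T.κ co (z - x) - (σ x * z - x * σ z) / 2)⁻¹ := by
  have c' := c.smul (co.μ x)⁻¹
  rw [inv_smul_smul, ← mul_smul, ← mul_smul, h.diff ht co hF hβ, h.diff ht co hF hβ] at c'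
  have := h.phi ht T hν (h.off ht co (sub_ne_zero.2 hy) (cc.mem _))
    (h.off ht co (sub_ne_zero.2 hz) (cc.mem _)) c'
  rwa [h.τ_pt ht co T (sub_ne_zero.2 hy) (im_diff hF _ _),
    h.τ_pt ht co T (sub_ne_zero.2 hz) (im_diff hF _ _), ← sub_eq_add_neg, ← sub_eq_add_neg] at this

include hχ

omit hβ hν hF [Fintype F] in
theorem κ_cls {x : F} (hx : x ≠ 0) {l : F} (hl : l ^ ((q - 1) * k) = 1) :
    T.κ co (l * x) = l * σ l * T.κ co x := by
  obtain ⟨g, hg, rfl⟩ := h.l_range ht co hl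
  rw [h.κ_l ht co T hg hx, hχ g hg]

omit hβ hν in
theorem κ_two {x : F} (hx : x ≠ 0) : T.κ co (-x - x) = 4 * T.κ co x := by
  have n1 : (-1 : F) ≠ 1 := fun e => hF.two_ne (by linear_combination -e)
  have c2 := hF.cls_pow h.evenk (m := -1) (by simp) n1
  rw [h.evenk.neg_one_pow, mul_one] at c2
  have := h.κ_cls ht co T hχ hx c2
  rw [show -x - x = (-1 - 1) * x by ring, this]
  simp only [map_sub, map_neg, map_one]
  ring

theorem phi_neg {x y : F} (hx : x ≠ 0) (hy : y ≠ x)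
    (c : Col G (co.μ x • R.b) (co.μ y • R.b) (co.μ (-x) • R.b)) :
    (T.κ co (y - x) + σ (T.κ co (y - x))) * (4 * (T.κ co x * σ (T.κ co x))) =
      (T.κ co x + σ (T.κ co x)) * ((T.κ co (y - x) - (σ x * y - x * σ y) / 2) *
        (σ (T.κ co (y - x)) + (σ x * y - x * σ y) / 2)) := by
  have two := hF.two_ne
  have h1 := h.phi_diff ht co T hν hF hβ hy (z := -x)
    (fun e => hx (mul_left_cancel₀ two (by linear_combination -e))) c
  have r1 := h.κ_re ht co T hx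
  have r2 := h.κ_re ht co T (sub_ne_zero.2 hy)
  have i1 := im_diff hF x y
  rw [map_neg, neg_inj] at i1
  rw [h.κ_two ht co T hF hχ hx, show (σ x * -x - x * σ (-x)) / 2 = 0 by rw [map_neg]; ring,
    sub_zero, map_inv₀, map_inv₀, map_sub, map_mul, map_ofNat, i1] at h1
  have k0 : T.κ co x ≠ 0 := fun e => r1 (by simp [e])
  have k0' : σ (T.κ co x) ≠ 0 := (map_ne_zero σ).2 k0
  have k1 : T.κ co (y - x) - (σ x * y - x * σ y) / 2 ≠ 0 := fun e => r2 (by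
    rw [sub_eq_zero.1 e, i1, add_neg_cancel])
  have k2 : σ (T.κ co (y - x)) - -((σ x * y - x * σ y) / 2) ≠ 0 := by
    rw [← i1, ← map_sub]; exact (map_ne_zero σ).2 k1
  have h4 : (4 : F) ≠ 0 := by rw [show (4 : F) = 2 * 2 by norm_num]; exact mul_ne_zero two two
  generalize (σ x * y - x * σ y) / 2 = D at *
  field_simp at h1
  linear_combination h1

theorem κ_big (hk : 2 < k) {x : F} (hx : x ≠ 0) :
    σ (T.κ co x) = T.κ co x ∧ 4 * (T.κ co x * T.κ co x) = (x * σ x) ^ 2 := by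
  have key : ∀ m : F, m ^ k = 1 → m ≠ 1 →
      (m - 1) * (σ m - 1) * (T.κ co x + σ (T.κ co x)) * (4 * (T.κ co x * σ (T.κ co x))) =
      (T.κ co x + σ (T.κ co x)) * (((m - 1) * (σ m - 1) * T.κ co x - x * σ x * (m - σ m) / 2) *
        ((m - 1) * (σ m - 1) * σ (T.κ co x) + x * σ x * (m - σ m) / 2)) := by
    intro m hm m1
    have c1 := hF.cls_pow h.evenk (hF.norm_one h.hk hm) m1
    rw [hm, mul_one] at c1
    obtain ⟨g, hg, hgk, rfl⟩ := h.l_range_k ht co hm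
    have c := h.col_K ht hν (h.off' ht co hx) hg hgk ht.mem (h.t_pow_k ht)
    rw [← conj_smul_b hg, ← conj_smul_b ht.mem, ← co.spec g hg, ← co.spec t ht.mem, h.l_t ht co,
      neg_one_mul] at c
    have h1 := h.phi_neg ht co T hν hF hβ hχ hx (fun e => m1 (by simpa [hx] using e)) c
    rw [← sub_one_mul, h.κ_cls ht co T hχ hx c1] at h1
    simp only [map_mul, map_sub, map_one, hF.inv] at h1
    linear_combination h1
  obtain ⟨m, hm⟩ := h.exists_order hF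
  have m1 : m ^ k = 1 := hm ▸ pow_orderOf_eq_one m
  have m2 := hF.norm_one h.hk m1
  have m3 : m * m ≠ 1 := fun e => by
    have := Nat.le_of_dvd two_pos (orderOf_dvd_of_pow_eq_one (x := m) (n := 2) (by rw [pow_two, e]))
    omega
  have m4 : m ≠ 1 := fun e => m3 (by rw [e, one_mul])
  have m5 : σ m ≠ 1 := fun e => m4 (by rw [← hF.inv m, e, map_one])
  have m6 : m - σ m ≠ 0 := fun e => m3 (by nth_rw 2 [sub_eq_zero.1 e]; exact m2)
  have m7 : (m + 1) * (σ m + 1) ≠ 0 := by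
    have : m + 1 ≠ 0 := fun e => m3 (by rw [eq_neg_of_add_eq_zero_left e]; ring)
    exact mul_ne_zero this (by simpa using (map_ne_zero σ).2 this)
  have e1 := key m m1 m4
  have e2 := key (σ m) (by rw [← map_pow, m1, map_one]) m5
  rw [hF.inv] at e2
  have r1 := h.κ_re ht co T hx
  have two := hF.two_ne
  have n0 : x * σ x ≠ 0 := mul_ne_zero hx ((map_ne_zero σ).2 hx)
  have E0 : (m - 1) * (σ m - 1) ≠ 0 := mul_ne_zero (sub_ne_zero.2 m4) (sub_ne_zero.2 m5)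
  have f1 : σ (T.κ co x) = T.κ co x := by
    apply mul_left_cancel₀ (mul_ne_zero (mul_ne_zero (mul_ne_zero r1 E0) n0) m6)
    field_simp at e1 e2
    apply mul_left_cancel₀ (mul_ne_zero two two)
    linear_combination (T.κ co x + σ (T.κ co x)) * (e1 - e2)
  refine ⟨f1, ?_⟩
  rw [f1] at e1 r1
  rw [mul_assoc, mul_comm (_ + _), ← mul_assoc, mul_comm (_ + _)] at e1
  have e3 := mul_right_cancel₀ r1 e1
  apply mul_left_cancel₀ (mul_ne_zero E0 m7)
  field_simp at e3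
  linear_combination e3 + (8 * (m - 1) * (σ m - 1) * T.κ co x ^ 2 -
    (x * σ x) ^ 2 * (m * σ m - 1)) * m2

theorem ad (hκ : ∀ x, x ≠ 0 → σ (T.κ co x) = T.κ co x) :
    AD σ q k (T.κ co) {x | ν • co.μ x • R.b = co.μ x • R.b} := by
  have ne0 : ∀ x, ν • co.μ x • R.b = co.μ x • R.b → x ≠ 0 := by
    rintro _ hx rfl
    rw [h.μ_zero ht co, one_smul, hν.2.2] at hx
    exact R.hab hx
  have sq : ∀ x, ν • co.μ x • R.b = co.μ x • R.b → T.κ co x * T.κ co x = T.c := fun x hx => by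
    obtain ⟨y, -, e, e'⟩ := h.fix_ν ht co T hν hF hκ hx
    rwa [co.inj (eq_of_smul_b (co.memU x) (co.memU y) e)]
  have mulK : ∀ x, ν • co.μ x • R.b = co.μ x • R.b → ∀ m : F, m ^ k = 1 →
      ν • co.μ (m * x) • R.b = co.μ (m * x) • R.b := fun x hx m hm => by
    obtain ⟨g, hg, hgk, rfl⟩ := h.l_range_k ht co hm
    rw [co.spec g hg, conj_smul_b hg]
    exact fix_of_comm (mem_CH.1 ((h.mem_W ht hν).2 ⟨hg, hgk⟩)).2 hx
  refine ⟨hκ, fun x hx e => h.κ_re ht co T hx (by simp [e]),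
    fun x hx l hl => h.κ_cls ht co T hχ hx hl, h.ncard_Γ ht co T hν hF hκ, ne0, mulK,
    fun x hx y hy => (sq x hx).trans (sq y hy).symm, fun x hx y hy yx => ?_⟩
  have h1 := h.phi_neg ht co T hν hF hβ hχ (ne0 x hx) yx ⟨ν, JJ.ne ht hν, JJ.sq ht hν, hx, hy, by
    simpa using mulK x hx (-1) h.evenk.neg_one_pow⟩
  have r1 := h.κ_re ht co T (ne0 x hx)
  rw [hκ x (ne0 x hx)] at h1 r1
  rw [hκ _ (sub_ne_zero.2 yx)] at h1
  apply mul_left_cancel₀ r1
  have two := hF.two_ne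
  have h4 : (4 : F) ≠ 0 := by rw [show (4 : F) = 2 * 2 by norm_num]; exact mul_ne_zero two two
  rw [show (σ x * y - x * σ y) ^ 2 / 4 = ((σ x * y - x * σ y) / 2) ^ 2 by field_simp; norm_num]
  linear_combination h1

theorem κ_eq : ∃ α : F, (2 * α = 1 ∨ 2 * α = -1) ∧ (∀ x, x ≠ 0 → T.κ co x = α * (x * σ x)) ∧
    ∃ n : F, σ n = n ∧ ∀ y, ν • y = y ↔ ∃ x, x * σ x = n ∧ y = co.μ x • R.b := by
  have hκ : ∀ x, x ≠ 0 → σ (T.κ co x) = T.κ co x := fun x hx => by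
    rcases h.k_cases with hk | ⟨-, hd, -⟩
    · exact (h.κ_big ht co T hν hF hβ hχ hk hx).1
    · exact h.κ_fix_three ht co T hν hF hd (h.three_ne hF hd) hx
  have A := h.ad ht co T hν hF hβ hχ hκ
  have key : (∀ x, x ≠ 0 → 4 * (T.κ co x * T.κ co x) = (x * σ x) ^ 2) ∧
      ∀ x ∈ {x | ν • co.μ x • R.b = co.μ x • R.b}, ∀ y ∈ {x | ν • co.μ x • R.b = co.μ x • R.b},
        x * σ x = y * σ y := by
    rcases h.k_cases with hk | ⟨hq, -, hk⟩
    · have h4 := fun x hx => (h.κ_big ht co T hν hF hβ hχ hk (x := x) hx).2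
      exact ⟨h4, A.good_big hF h.hk (h.hd.imp_right (h.three_ne hF)) hk (h.exists_order hF) h4⟩
    · exact A.good_five hF hq hk
  obtain ⟨α, h1, h2, n, hn⟩ := A.final hF h.hk h.evenk key.1 key.2
  obtain ⟨x₀, hx₀⟩ : {x | ν • co.μ x • R.b = co.μ x • R.b}.Nonempty :=
    Set.nonempty_of_ncard_ne_zero (by rw [A.card]; omega)
  rw [hn] at hx₀
  refine ⟨α, h1, h2, n, by rw [← hx₀, map_mul, hF.inv, mul_comm], fun y => ⟨fun hy => ?_, ?_⟩⟩
  · obtain ⟨x, -, rfl, -⟩ := h.fix_ν ht co T hν hF hκ hy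
    exact ⟨x, (hn ▸ hy : x ∈ {y | y * σ y = n}), rfl⟩
  · rintro ⟨x, hx, rfl⟩
    exact (hn ▸ hx : x ∈ {x | ν • co.μ x • R.b = co.μ x • R.b})

end A

end

end Hyp

end Cfsg.Agent.H8.U3
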