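import Cfsg.Agent.H8.U3g
import Cfsg.Agent.H8.U3Id

/-! Groups of odd unitary type: identification with `PSU₃(q)`. -/

set_option autoImplicit false

namespace Cfsg.Agent.H8.U3

open MulAction RK

variable {G Ω : Type*} [Group G] [MulAction G Ω] {F : Type*} [Field F]

/-- normalised coordinates -/
structure Nice {R : RK G Ω} {t ν : G} {σ : F →+* F} (co : Co R t F) {cc : Cc R t σ}
    (T : Tau cc ν) : Prop where
  hβ : ∀ x y, co.β x y = cc.ψ (σ x * y)
  hχ : ∀ g ∈ R.H, cc.χ g = co.l g * σ (co.l g)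
  hκ : ∀ x, x ≠ 0 → 2 * T.κ co x = x * σ x
  hΓ : ∃ n : F, σ n = n ∧ ∀ y, ν • y = y ↔ ∃ x, x * σ x = n ∧ y = co.μ x • R.b

/-- the point with given coordinates -/
def PP {R : RK G Ω} {t : G} {σ : F →+* F} (co : Co R t F) (cc : Cc R t σ) (x z : F) : Ω :=
  (co.μ x * cc.ψ z) • R.b

namespace Hyp

variable {R : RK G Ω} {p e q d k : ℕ} (h : Hyp R p e q d k) [Finite G] {t ν : G} (ht : IsT R t)
  (hν : ν ∈ JJ R t) [Fintype F] {σ : F →+* F} (hF : FD F σ q)
include h ht hν hF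

theorem exists_nice (co : Co R t F) (hA : ∃ x y, co.β x y ≠ 1) :
    ∃ (co : Co R t F) (cc : Cc R t σ) (T : Tau cc ν), Nice co T := by
  obtain ⟨cc, hβ, hχ⟩ := h.exists_CcA ht co hF hA
  obtain ⟨T⟩ := h.exists_Tau ht hν hF cc
  obtain ⟨α, hα | hα, h1, n, hn, h2⟩ := h.κ_eq ht co T hν hF hβ hχ
  · exact ⟨co, cc, T, hβ, hχ, fun x hx => by rw [h1 x hx, ← mul_assoc, hα, one_mul], n, hn, h2⟩
  let co' : Co R t F := ⟨fun x => co.μ (σ x), fun g => σ (co.l g), fun x => co.mem _,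
    fun z hz => by
      obtain ⟨x, rfl⟩ := co.surj z hz
      exact ⟨σ x, by rw [hF.inv]⟩,
    co.inj.comp σ.injective, fun x y => by rw [map_add]; exact co.add _ _,
    fun g hg x => by rw [map_mul, hF.inv, co.spec g hg]⟩
  let cc' : Cc R t σ := ⟨fun z => cc.ψ (-z), cc.χ, fun z => cc.mem _,
    fun c hc => by
      obtain ⟨z, hz, rfl⟩ := cc.surj c hc
      exact ⟨-z, by rw [map_neg, hz], by rw [neg_neg]⟩,
    fun z w => by rw [neg_add, cc.add], fun z => by rw [cc.ker, map_neg, neg_inj], cc.fix,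
    fun g hg z => by rw [← mul_neg, cc.spec g hg]⟩
  let T' : Tau cc' ν := ⟨fun y => -T.τ y, T.c, T.c_fix, T.c_ne,
    fun ζ h0 hζ => by
      show ν • cc.ψ (-ζ) • R.b = cc.ψ (-(T.c / ζ)) • R.b
      rw [T.νC _ (neg_ne_zero.2 h0) (by rw [map_neg, hζ]), div_neg],
    fun y hy e => T.re y hy (by rw [map_neg, neg_inj] at e; exact e),
    fun y ζ hy hζ => by
      show -T.τ (cc.ψ (-ζ) • y) = _
      rw [T.onC _ _ hy (by rw [map_neg, hζ])]; ring,
    fun y g hg hy => by rw [T.onH y g hg hy, mul_neg],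
    fun y hy => by rw [T.onν y hy, div_neg]⟩
  refine ⟨co', cc', T', fun x y => ?_, fun g hg => ?_, fun x hx => ?_, n, hn, fun y => ?_⟩
  · show (co.μ (σ (x + y)))⁻¹ * (co.μ (σ x) * co.μ (σ y)) = cc.ψ (-(σ x * y))
    rw [map_add, ← Co.β, hβ, cc.eq_iff]
    simp only [map_sub, map_mul, map_neg, hF.inv]
    ring
  · show cc.χ g = σ (co.l g) * σ (σ (co.l g))
    rw [hχ g hg, hF.inv, mul_comm]
  · show 2 * -T.κ co (σ x) = _
    rw [h1 _ ((map_ne_zero σ).2 hx), hF.inv]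
    linear_combination -(σ x * x) * hα
  · rw [h2]
    constructor
    · rintro ⟨x, hx, rfl⟩
      exact ⟨σ x, by rw [hF.inv, mul_comm, hx], by show _ = co.μ (σ (σ x)) • R.b; rw [hF.inv]⟩
    · rintro ⟨x, hx, rfl⟩
      exact ⟨σ x, by rw [hF.inv, mul_comm, hx], rfl⟩

variable {co : Co R t F} {cc : Cc R t σ} {T : Tau cc ν}

omit hν h ht [Finite G] in
theorem ψ_half (z : F) : cc.ψ z = cc.ψ ((z - σ z) / 2) ∧ σ ((z - σ z) / 2) = -((z - σ z) / 2) := by
  have := hF.two_ne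
  rw [cc.eq_iff]
  simp only [map_sub, map_div₀, map_ofNat, hF.inv]
  constructor
  · field_simp; ring
  · ring

omit hν h ht [Finite G] in
theorem elt_z {x ζ : F} (hζ : σ ζ = -ζ) : (ζ + x * σ x / 2) + σ (ζ + x * σ x / 2) = x * σ x ∧
    cc.ψ (ζ + x * σ x / 2) = cc.ψ ζ := by
  have := hF.two_ne
  rw [cc.eq_iff]
  simp only [add_sub_cancel_left, map_add, map_mul, map_div₀, map_ofNat, hF.inv, hζ]
  constructor
  · field_simp; ring
  · ring

omit hν in
theorem elt' {u : G} (hu : u ∈ R.U) : ∃ x z, z + σ z = x * σ x ∧ u = co.μ x * cc.ψ z := by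
  obtain ⟨x, ζ, hζ, rfl⟩ := h.elt ht co cc hu
  exact ⟨x, _, (elt_z hF (cc := cc) hζ).1, by rw [(elt_z hF hζ).2]⟩

omit hν in
theorem cover (y : Ω) : y = R.a ∨ ∃ x z, z + σ z = x * σ x ∧ y = PP co cc x z := by
  by_cases hy : y = R.a
  · exact Or.inl hy
  obtain ⟨u, hu, rfl⟩ := R.ex y hy
  obtain ⟨x, z, e, rfl⟩ := h.elt' ht hF (co := co) (cc := cc) hu
  exact Or.inr ⟨x, z, e, rfl⟩

omit hν h ht hF [Finite G] [Fintype F] in
theorem PP_ne (x z : F) : PP co cc x z ≠ R.a := smul_b_ne (mul_mem (co.memU x) (cc.memU z))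

omit hν in
theorem PP_inj {x z x' z' : F} (e1 : z + σ z = x * σ x) (e2 : z' + σ z' = x' * σ x')
    (e : PP co cc x z = PP co cc x' z') : x = x' ∧ z = z' := by
  have e3 := eq_of_smul_b (mul_mem (co.memU x) (cc.memU z)) (mul_mem (co.memU x') (cc.memU z')) e
  have e4 : x = x' := co.inj (h.M_unique ht (co.mem x) (co.mem x') (by
    have : (co.μ x)⁻¹ * co.μ x' = cc.ψ z * (cc.ψ z')⁻¹ := by
      rw [inv_mul_eq_iff_eq_mul, ← mul_assoc, e3, mul_inv_cancel_right]
    rw [this]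
    exact mul_mem (cc.mem z) (inv_mem (cc.mem z'))))
  subst e4
  refine ⟨rfl, sub_eq_zero.1 (hF.eq_zero_of (cc.eq_iff.1 (mul_left_cancel e3)) ?_)⟩
  rw [map_sub]
  linear_combination e1 - e2

omit hν hF [Fintype F] in
theorem PP_zero : PP co cc 0 0 = R.b := by rw [PP, h.μ_zero ht co, cc.zero, one_mul, one_smul]

omit hν hF [Fintype F] in
theorem ψ_PP (ζ x z : F) : cc.ψ ζ • PP co cc x z = PP co cc x (z + ζ) := by
  rw [PP, PP, ← mul_smul, ← mul_assoc, h.C_central ht (cc.mem ζ) (co.memU x), mul_assoc, ← cc.add,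
    add_comm]

variable (N : Nice co T)
include N

omit hν hF [Fintype F] in
theorem U_PP (y w x z : F) :
    (co.μ y * cc.ψ w) • PP co cc x z = PP co cc (x + y) (z + w + σ y * x) := by
  rw [mul_smul, h.ψ_PP ht, PP, PP, ← mul_smul, ← mul_assoc, co.mul, N.hβ, mul_assoc, ← cc.add,
    add_comm y, add_comm (σ y * x)]

omit hν hF h ht [Finite G] [Fintype F] in
theorem H_PP {g : G} (hg : g ∈ R.H) (x z : F) :
    g • PP co cc x z = PP co cc (co.l g * x) (co.l g * σ (co.l g) * z) := by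
  rw [PP, PP, ← N.hχ g hg, co.spec g hg, cc.spec g hg, ← conj_smul_b hg]
  congr 1
  group

omit hν in
theorem τ_PP {x z : F} (hx : x ≠ 0) (e : z + σ z = x * σ x) : T.τ (PP co cc x z) = z := by
  rw [PP, (ψ_half hF z).1, h.τ_pt ht co T hx (ψ_half hF (cc := cc) z).2]
  have := hF.two_ne
  field_simp
  linear_combination N.hκ x hx - e

omit hν in
theorem ν_fix_iff : ∃ c : F, ∀ x z, z + σ z = x * σ x →
    (ν • PP co cc x z = PP co cc x z ↔ z = c) := by
  obtain ⟨n, hn, hΓ⟩ := N.hΓ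
  have two := hF.two_ne
  have : NeZero (2 : F) := ⟨two⟩
  have h1 : σ (n / 2) = n / 2 := by rw [map_div₀, map_ofNat, hn]
  have h2 : ∀ x, PP co cc x (n / 2) = co.μ x • R.b := fun x => by
    rw [PP, (cc.ker _).2 h1, mul_one]
  refine ⟨n / 2, fun x z e => ?_⟩
  rw [hΓ]
  constructor
  · rintro ⟨x', hx', e'⟩
    rw [← h2] at e'
    exact (h.PP_inj ht hF e (by rw [h1, hx', add_halves]) e').2
  · rintro rfl
    exact ⟨x, by rw [← e, h1, add_halves], h2 x⟩

theorem block_line {i : G} (i1 : i ≠ 1) (i2 : i * i = 1) (ia : i • R.a ≠ R.a) {y y' : Ω}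
    (hy : y ≠ y') (f1 : i • y = y) (f2 : i • y' = y') : ∃ A B : F, ∀ x z, z + σ z = x * σ x →
      (i • PP co cc x z = PP co cc x z ↔ z = A * x + B) := by
  obtain ⟨g, rfl, rfl⟩ := two_trans (R := R) hy
  have e1 := (h.eq_t ht (conj_mem_H f1 f2) (conj_sq i2 g)).resolve_left (conj_ne i1 g)
  obtain ⟨u, hu, e2⟩ := R.ex _ ia
  have hJ : u⁻¹ * i * u ∈ JJ R t := by
    refine ⟨⟨g⁻¹ * u, by rw [← e1]; group⟩, ?_, ?_⟩
    · rw [mul_smul, mul_smul, R.fixa u hu, ← e2, inv_smul_smul]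
    · rw [mul_smul, mul_smul, e2, ← mul_smul i, i2, one_smul, inv_fix (R.fixa u hu)]
  obtain ⟨s, hs, e3⟩ := h.JJ_trans ht hν hJ
  obtain ⟨c, hc⟩ := h.ν_fix_iff ht hF N
  have hs' := R.H.inv_mem hs
  have l0 := co.l_ne hs'
  have l0' := (map_ne_zero σ).2 l0
  obtain ⟨a', w', e5, e6⟩ := h.elt' ht hF (co := co) (cc := cc) (inv_mem hu)
  refine ⟨-σ a', c / (co.l s⁻¹ * σ (co.l s⁻¹)) - w', fun x z e => ?_⟩
  have e7 : i • PP co cc x z = PP co cc x z ↔
      ν • s⁻¹ • u⁻¹ • PP co cc x z = s⁻¹ • u⁻¹ • PP co cc x z := by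
    have : i = u * (s * ν * s⁻¹) * u⁻¹ := by rw [e3]; group
    rw [this]
    simp only [mul_smul]
    rw [← eq_inv_smul_iff, ← eq_inv_smul_iff]
  rw [e7, e6, h.U_PP ht N, H_PP N hs', hc]
  · rw [mul_comm, ← eq_div_iff (mul_ne_zero l0 l0')]
    constructor <;> intro e <;> linear_combination e
  · simp only [map_mul, map_add, hF.inv]
    linear_combination co.l s⁻¹ * σ (co.l s⁻¹) * (e + e5)

theorem line_b {x z x' z' : F} (hx : x ≠ 0) (e : z + σ z = x * σ x) (e' : z' + σ z' = x' * σ x') :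
    Col G R.b (PP co cc x z) (PP co cc x' z') ↔ z * x' = z' * x := by
  have o : t • PP co cc x z ≠ PP co cc x z := h.off ht co hx (cc.mem z)
  have nb : R.b ≠ PP co cc x z := fun e => o (by rw [← e, ht.mem.2])
  have key : ∀ i : G, i ≠ 1 → i * i = 1 → i • R.b = R.b → i • PP co cc x z = PP co cc x z →
      (i • PP co cc x' z' = PP co cc x' z' ↔ z * x' = z' * x) := by
    intro i i1 i2 ib iy
    obtain ⟨A, B, hAB⟩ := h.block_line ht hν hF N i1 i2 (fun ia => o (by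
      rwa [(h.eq_t ht ⟨ia, ib⟩ i2).resolve_left i1] at iy)) nb ib iy
    have hB := (hAB 0 0 (by simp)).1 (by rwa [h.PP_zero ht])
    have hA := (hAB x z e).1 iy
    rw [mul_zero, zero_add] at hB
    rw [hAB x' z' e', hA, ← hB, add_zero, add_zero, mul_right_comm, eq_comm]
    exact (mul_left_inj' hx).symm
  constructor
  · rintro ⟨i, i1, i2, ib, iy, iz⟩
    exact (key i i1 i2 ib iy).1 iz
  · intro hz
    obtain ⟨g, ga, gb⟩ := two_trans (R := R) nb
    have f1 : (g⁻¹⁻¹ * t * g⁻¹) • R.b = R.b := by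
      rw [inv_inv, mul_smul, mul_smul, ← ga, inv_smul_smul, ht.mem.1]
    have f2 : (g⁻¹⁻¹ * t * g⁻¹) • PP co cc x z = PP co cc x z := by
      rw [inv_inv, mul_smul, mul_smul, ← gb, inv_smul_smul, ht.mem.2]
    exact ⟨_, conj_ne ht.ne _, conj_sq ht.sq _, f1, f2,
      (key _ (conj_ne ht.ne _) (conj_sq ht.sq _) f1 f2).2 hz⟩

omit hν N in
theorem line_a {x z x' z' : F} (e : z + σ z = x * σ x) (e' : z' + σ z' = x' * σ x') :
    Col G R.a (PP co cc x z) (PP co cc x' z') ↔ x = x' := by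
  constructor
  · intro c
    obtain ⟨c, hc, e1⟩ := h.col_a ht (PP_ne x z) (PP_ne x' z') c
    obtain ⟨ζ, hζ, rfl⟩ := cc.surj c hc
    rw [h.ψ_PP ht] at e1
    exact (h.PP_inj ht hF (by rw [map_add, hζ, ← e]; ring) e' e1).1
  · rintro rfl
    have := (col_t ht ht.mem.1 (fix_of_comm (mem_CU.1 (cc.mem z)).2 ht.mem.2)
      (fix_of_comm (mem_CU.1 (cc.mem z')).2 ht.mem.2)).smul (co.μ x)
    rwa [R.fixa _ (co.memU x), ← mul_smul, ← mul_smul] at this

theorem ν_PP : ∃ γ : F, γ ≠ 0 ∧ ∀ x z, z + σ z = x * σ x → z ≠ 0 →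
    ν • PP co cc x z = PP co cc (γ * x / z) (γ * σ γ / z) := by
  have two := hF.two_ne
  have ex : ∀ x z : F, ∃ x' : F, x ≠ 0 → z + σ z = x * σ x → x' ≠ 0 ∧
      T.c / z + σ (T.c / z) = x' * σ x' ∧ ν • PP co cc x z = PP co cc x' (T.c / z) := by
    intro x z
    by_cases hx : x = 0
    · exact ⟨0, fun h => absurd hx h⟩
    by_cases e : z + σ z = x * σ x
    swap
    · exact ⟨0, fun _ h => absurd h e⟩
    have o : t • PP co cc x z ≠ PP co cc x z := h.off ht co hx (cc.mem z)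
    have o' := h.off_ν ht hν o
    obtain ⟨x', z', e1, e2⟩ := (h.cover ht hF (co := co) (cc := cc) (ν • PP co cc x z)).resolve_left
      fun e => o' (by rw [e, ht.mem.1])
    have hx' : x' ≠ 0 := by
      rintro rfl
      rw [e2, PP, h.μ_zero ht co, one_mul] at o'
      exact o' (fix_of_comm (mem_CU.1 (cc.mem z')).2 ht.mem.2)
    have e3 := T.onν _ o
    rw [e2, h.τ_PP ht hF N hx' e1, h.τ_PP ht hF N hx e] at e3
    subst e3
    exact ⟨x', fun _ _ => ⟨hx', e1, e2⟩⟩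
  choose f hf using ex
  have z0 : ∀ x z : F, x ≠ 0 → z + σ z = x * σ x → z ≠ 0 := by
    rintro x _ hx e rfl
    exact hx (by simpa using e.symm)
  have kA : ∀ x z z', x ≠ 0 → z + σ z = x * σ x → z' + σ z' = x * σ x →
      f x z * z = f x z' * z' := fun x z z' hx e e' => by
    have c := ((h.line_a ht hF (co := co) (cc := cc) e e').2 rfl).smul ν
    obtain ⟨h1, h2, h3⟩ := hf x z hx e
    obtain ⟨-, h2', h3'⟩ := hf x z' hx e'
    rw [hν.2.1, h3, h3', h.line_b ht hν hF N h1 h2 h2'] at c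
    have := z0 x z hx e
    have := z0 x z' hx e'
    have := T.c_ne
    field_simp at c
    linear_combination -c
  have kB : ∀ x z x' z', x ≠ 0 → x' ≠ 0 → z + σ z = x * σ x → z' + σ z' = x' * σ x' →
      z * x' = z' * x → f x z = f x' z' := fun x z x' z' hx hx' e e' hz => by
    have c := ((h.line_b ht hν hF N hx e e').2 hz).smul ν
    obtain ⟨-, h2, h3⟩ := hf x z hx e
    obtain ⟨-, h2', h3'⟩ := hf x' z' hx' e'
    rwa [hν.2.2, h3, h3', h.line_a ht hF h2 h2'] at c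
  have hh : ∀ x : F, x * σ x / 2 + σ (x * σ x / 2) = x * σ x := fun x => by
    simp only [map_div₀, map_mul, map_ofNat, hF.inv]
    field_simp; ring
  have kC : ∀ x x', x * σ x' ≠ x' * σ x →
      f x (x * σ x / 2) * (x * σ x / 2) * x' = f x' (x' * σ x' / 2) * (x' * σ x' / 2) * x := by
    intro x x' hne
    have hx : x ≠ 0 := by rintro rfl; simp at hne
    have hx' : x' ≠ 0 := by rintro rfl; simp at hne
    have d0 : x * σ x' - x' * σ x ≠ 0 := sub_ne_zero.2 hne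
    have d1 : σ x * x' - σ x' * x = -(x * σ x' - x' * σ x) := by ring
    let A := (x * σ x * σ x' - x' * σ x' * σ x) / (x * σ x' - x' * σ x)
    have e1 : A * x + σ (A * x) = x * σ x := by
      simp only [A, map_div₀, map_mul, map_sub, hF.inv, d1, div_neg]
      rw [neg_mul, ← sub_eq_add_neg, div_mul_eq_mul_div, div_mul_eq_mul_div, ← sub_div,
        div_eq_iff d0]
      ring
    have e2 : A * x' + σ (A * x') = x' * σ x' := by
      simp only [A, map_div₀, map_mul, map_sub, hF.inv, d1, div_neg]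
      rw [neg_mul, ← sub_eq_add_neg, div_mul_eq_mul_div, div_mul_eq_mul_div, ← sub_div,
        div_eq_iff d0]
      ring
    rw [kA x _ _ hx (hh x) e1, kA x' _ _ hx' (hh x') e2, kB x _ x' _ hx hx' e1 e2 (by ring)]
    ring
  obtain ⟨ε, h0, hε⟩ := hF.exists_eps
  have kD : ∀ x, x ≠ 0 → f x (x * σ x / 2) * (x * σ x / 2) =
      f 1 (1 * σ 1 / 2) * (1 * σ 1 / 2) * x := fun x hx => by
    by_cases e : σ x = x
    · have h1 := kC x ε (by
        rw [e, hε]
        exact fun e => mul_ne_zero two (mul_ne_zero hx h0) (by linear_combination -e))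
      have h2 := kC ε 1 (by
        rw [hε, map_one]
        exact fun e => mul_ne_zero two h0 (by linear_combination e))
      apply mul_right_cancel₀ h0
      rw [h1, ← mul_one (f ε _ * _), h2]
      ring
    · simpa using kC x 1 (by simpa using Ne.symm e)
  obtain ⟨g1, g2, -⟩ := hf 1 _ one_ne_zero (hh 1)
  generalize f 1 (1 * σ 1 / 2) = g at kD g1 g2
  have hγ : g / 2 * σ (g / 2) = T.c := by
    simp only [map_div₀, map_ofNat, map_one, T.c_fix, mul_one] at g2 ⊢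
    field_simp at g2 ⊢
    linear_combination -g2
  refine ⟨g / 2, div_ne_zero g1 two, fun x z e hz => ?_⟩
  rw [hγ]
  by_cases hx : x = 0
  · subst hx
    rw [PP, PP, mul_zero, zero_div, h.μ_zero ht co, one_mul, one_mul]
    exact T.νC z hz (by rw [zero_mul] at e; exact eq_neg_of_add_eq_zero_right e)
  · rw [(hf x z hx e).2.2]
    congr 1
    rw [eq_div_iff hz, kA x _ _ hx e (hh x), kD x hx, map_one]
    ring

theorem exists_dat : Nonempty (U3Id.Dat G Ω σ) := by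
  refine ⟨⟨R.a, PP co cc, hF.inv, h.faith, h.cover ht hF, fun x z _ => PP_ne x z,
    fun x z x' z' => h.PP_inj ht hF, fun y w _ => ⟨co.μ y * cc.ψ w,
      R.fixa _ (mul_mem (co.memU y) (cc.memU w)), fun x z _ => h.U_PP ht N y w x z⟩,
    fun g ga gb => ?_, fun c hc => ?_, ?_⟩⟩
  · rw [h.PP_zero ht] at gb
    exact ⟨co.l g, co.l_ne ⟨ga, gb⟩, fun x z _ => H_PP N ⟨ga, gb⟩ x z⟩
  · obtain ⟨g, hg, e⟩ := h.l_range ht co (x := σ c / c ^ 2) (by
      have h1 := fun x => h.pow_m_d hF (x := x)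
      rcases h.hd with rfl | rfl
      · simpa using h1 _ (div_ne_zero ((map_ne_zero σ).2 hc) (pow_ne_zero 2 hc))
      · have hk := h.hk
        have hq := h.q3
        have e : σ c / c ^ 2 = (c ^ (k - 1)) ^ 3 := by
          rw [div_eq_iff (pow_ne_zero 2 hc), hF.app, ← pow_mul, ← pow_add]
          congr 1
          omega
        rw [e, ← pow_mul, mul_comm 3, pow_mul, h1 _ (pow_ne_zero _ hc)])
    exact ⟨g, hg.1, fun x z _ => by rw [H_PP N hg, e]⟩
  · obtain ⟨γ, h0, hγ⟩ := h.ν_PP ht hν hF N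
    exact ⟨ν, γ, h0, by rw [h.PP_zero ht, hν.2.1], by rw [h.PP_zero ht, hν.2.2], hγ⟩

end Hyp

theorem Hyp.main {R : RK G Ω} {p e q d k : ℕ} (h : Hyp R p e q d k) [Finite G] [IsSimpleGroup G] :
    ∃ (F : Type) (_ : Field F) (_ : Fintype F), Fintype.card F = q ^ 2 ∧
      Nonempty (G ≃* PSU 3 F q) := by
  have := Fact.mk h.hp
  let F := GaloisField p (e * 2)
  have := Fintype.ofFinite F
  have hc : Nat.card F = q ^ 2 := by
    rw [GaloisField.card p _ (by have := h.he; omega), pow_mul, h.hq]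
  have hc' : Fintype.card F = q ^ 2 := by rw [← Nat.card_eq_fintype_card, hc]
  have hF : FD F (Form.frobQ hc' : F →+* F) q := ⟨hc', fun _ => rfl, h.oddq⟩
  obtain ⟨t, ht⟩ := h.exists_t
  obtain ⟨ν, hν⟩ := h.exists_JJ ht
  obtain ⟨co⟩ := h.exists_Co ht F hc
  obtain ⟨cc⟩ := h.exists_Cc ht hF
  obtain ⟨T⟩ := h.exists_Tau ht hν hF cc
  obtain ⟨co', cc', T', N⟩ := h.exists_nice ht hν hF co (h.not_comm ht co hν hF T)
  obtain ⟨D⟩ := h.exists_dat ht hν hF N
  exact ⟨F, inferInstance, inferInstance, hc', U3Id.iso_psu hc' hF.app D⟩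

end Cfsg.Agent.H8.U3
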