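import Cfsg.Agent.H6.SUExt4
import Cfsg.Agent.H8.L5f
import Cfsg.Agent.H8.L5c

/-!
Shared definitions for the maximal subgroups of `SU₅(q)`.
-/

set_option autoImplicit false

namespace Cfsg.Agent.H8.U5

open Module Subgroup Cfsg.Agent.Form Cfsg.Agent.H7 Cfsg.Agent.H6.SU Cfsg.Agent.H5.Zas1 Cfsg.Agent.H4.CAG

/-- the order of `SU₅(q)` -/
def NU (q : ℕ) : ℕ := q ^ 10 * (q ^ 2 - 1) * (q ^ 3 + 1) * (q ^ 4 - 1) * (q ^ 5 + 1)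

/-- `(q ^ 5 + 1) / (q + 1)` -/
def tt (q : ℕ) : ℕ := (q ^ 5 + 1) / (q + 1)

variable {F : Type*} [Field F] {σ : F →+* F} {hσ : ∀ a, σ (σ a) = a}
  {V : Type*} [AddCommGroup V] [Module F V]

/-- a five-dimensional unitary space over the field with `q ^ 2` elements -/
structure Un (S : PQ (FP.unit σ hσ) V) (q : ℕ) : Prop where
  card : Nat.card F = q ^ 2
  pow : ∀ a, σ a = a ^ q
  ne : ∃ a, σ a ≠ a
  nd : S.Nondeg
  dim : finrank F V = 5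

/-- the squares of `M` act irreducibly -/
def Irr2 (M : Subgroup (V ≃ₗ[F] V)) : Prop :=
  ∀ Y : Submodule F V, Y ≠ ⊥ → (∀ g ∈ M, ∀ y ∈ Y, g (g y) ∈ Y) → Y = ⊤

/-- `M` contains a transvection -/
def HasT (S : PQ (FP.unit σ hσ) V) (M : Subgroup (V ≃ₗ[F] V)) : Prop :=
  ∃ (d : V) (c : F), d ≠ 0 ∧ S.B d d = 0 ∧ c ≠ 0 ∧ c + σ c = 0 ∧ HT S M d c

/-- the orbit of `v` under `M` and the scalars of norm one -/
def Orb (σ : F →+* F) (M : Subgroup (V ≃ₗ[F] V)) (v : V) : Set V :=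
  {w | ∃ g ∈ M, ∃ c : F, c * σ c = 1 ∧ w = c • g v}

/-- the data attached to a proper overgroup of the normaliser of a Singer cycle -/
structure SgD (S : PQ (FP.unit σ hσ) V) (q : ℕ) (K T : Subgroup (V ≃ₗ[F] V)) {Γ : Type*} [Group Γ]
    (π : K →* Γ) (X : Subgroup Γ) : Prop where
  le : K ≤ sisom S
  surj : Function.Surjective π
  ker : ∀ g : K, π g = 1 ↔ ∃ c : F, ∀ v, g.1 v = c • v
  ca : CA X
  gen : ∀ L : Subgroup Γ, L.Normal → X ≤ L → L = ⊤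
  ne : ∃ g, g ∉ Nm X
  wt : wt X = 1 ∨ wt X = 5
  card : Nat.gcd 5 (q + 1) * Nat.card X = tt q
  dvd : Nat.gcd 5 (q + 1) * Nat.card Γ ∣ NU q
  cyc : IsCyclic T
  tle : T ≤ S.isom
  tcard : Nat.card T = q ^ 5 + 1
  free : ∀ x ∈ T, ∀ v, x v = v → x = 1 ∨ v = 0
  sc : ∀ x : V ≃ₗ[F] V, ∀ c : F, c * σ c = 1 → (∀ v, x v = c • v) → x ∈ T
  lift : ∀ x ∈ X, ∃ g : K, g.1 ∈ T ∧ π g = x ∧ g ^ Nat.card X = 1
  phi : ∃ φ ∈ S.isom, ∀ g ∈ T, φ * g * φ⁻¹ = g ^ q ^ 2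
  irr : Irr2 K

end Cfsg.Agent.H8.U5
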