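import Cfsg.Agent.H2.Tr1
import Mathlib.RingTheory.SimpleModule.IsAlgClosed
import Mathlib.LinearAlgebra.PID

/-!
The twisted group algebra of a finite abelian group with a non-degenerate bicharacter.
-/

set_option autoImplicit false
set_option linter.unusedSectionVars false

namespace Cfsg.Agent.H8.U5

open Finset Module Cfsg.Agent.H2.Tr Cfsg.Agent.H5.Char
open scoped ComplexConjugate

/-- a bicharacter with non-degenerate commutator -/
structure Bi (V : Type*) [AddCommGroup V] where
  f : V → V → ℂ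
  l : ∀ u u' v, f (u + u') v = f u v * f u' v
  r : ∀ u v v', f u (v + v') = f u v * f u v'
  l0 : ∀ v, f 0 v = 1
  r0 : ∀ v, f v 0 = 1
  nd : ∀ v, v ≠ 0 → ∃ u, f u v ≠ f v u

variable {V : Type*} [AddCommGroup V] {b : Bi V}

theorem Bi.negl (b : Bi V) (u v : V) : b.f (-u) v * b.f u v = 1 := by rw [← b.l, neg_add_cancel, b.l0]
theorem Bi.negr (b : Bi V) (u v : V) : b.f u (-v) * b.f u v = 1 := by rw [← b.r, neg_add_cancel, b.r0]
theorem Bi.ne (b : Bi V) (u v : V) : b.f u v ≠ 0 := right_ne_zero_of_mul_eq_one (b.negl u v)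
theorem Bi.negl' (b : Bi V) (u v : V) : b.f (-u) v = (b.f u v)⁻¹ := eq_inv_of_mul_eq_one_left (b.negl u v)
theorem Bi.negr' (b : Bi V) (u v : V) : b.f u (-v) = (b.f u v)⁻¹ := eq_inv_of_mul_eq_one_left (b.negr u v)

/-- the twisted group algebra -/
def TA (_b : Bi V) := V → ℂ

noncomputable instance instTAadd : AddCommGroup (TA b) := inferInstanceAs (AddCommGroup (V → ℂ))
noncomputable instance instTAmod : Module ℂ (TA b) := inferInstanceAs (Module ℂ (V → ℂ))

theorem add_ap (x y : TA b) (w : V) : (x + y) w = x w + y w := rfl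
theorem sub_ap (x y : TA b) (w : V) : (x - y) w = x w - y w := rfl
theorem smul_ap (c : ℂ) (x : TA b) (w : V) : (c • x) w = c * x w := rfl
theorem zero_ap (w : V) : (0 : TA b) w = 0 := rfl
theorem sum_ap {ι : Type*} (s : Finset ι) (x : ι → TA b) (w : V) : (∑ i ∈ s, x i) w = ∑ i ∈ s, x i w :=
  Finset.sum_apply w s x

open Classical in
/-- basis elements -/
noncomputable def rho (b : Bi V) (v : V) : TA b := fun w => if w = v then 1 else 0

open Classical in
theorem rho_ap (v w : V) : rho b v w = if w = v then 1 else 0 := rfl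

variable [Fintype V]

noncomputable instance instTAfin : FiniteDimensional ℂ (TA b) := inferInstanceAs (FiniteDimensional ℂ (V → ℂ))

noncomputable instance instTAmul : Mul (TA b) := ⟨fun x y w => ∑ v, x v * y (w - v) * b.f v (w - v)⟩
noncomputable instance instTAone : One (TA b) := ⟨rho b 0⟩

theorem mul_ap (x y : TA b) (w : V) : (x * y) w = ∑ v, x v * y (w - v) * b.f v (w - v) := rfl

theorem one_eq : (1 : TA b) = rho b 0 := rfl

theorem rho_mul_ap (v : V) (y : TA b) (w : V) : (rho b v * y) w = y (w - v) * b.f v (w - v) := by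
  rw [mul_ap, sum_eq_single v (fun u _ h => by rw [rho_ap, if_neg h, zero_mul, zero_mul]) (by simp), rho_ap,
    if_pos rfl, one_mul]

theorem mul_rho_ap (y : TA b) (v w : V) : (y * rho b v) w = y (w - v) * b.f (w - v) v := by
  rw [mul_ap, sum_eq_single (w - v) (fun u _ h => by
    rw [rho_ap, if_neg fun e => h (by rw [← e]; abel), mul_zero, zero_mul]) (by simp), sub_sub_cancel, rho_ap,
    if_pos rfl, mul_one]

noncomputable instance instTAring : Ring (TA b) :=
  { (instTAadd : AddCommGroup (TA b)), (instTAmul : Mul (TA b)), (instTAone : One (TA b)) with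
    zero_mul := fun y => funext fun w => by
      rw [mul_ap]; exact sum_eq_zero fun v _ => by rw [zero_ap, zero_mul, zero_mul]
    mul_zero := fun y => funext fun w => by
      rw [mul_ap]; exact sum_eq_zero fun v _ => by rw [zero_ap, mul_zero, zero_mul]
    left_distrib := fun x y z => funext fun w => by
      simp only [add_ap, mul_ap, ← sum_add_distrib]
      exact sum_congr rfl fun v _ => by ring
    right_distrib := fun x y z => funext fun w => by
      simp only [add_ap, mul_ap, ← sum_add_distrib]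
      exact sum_congr rfl fun v _ => by ring
    one_mul := fun y => funext fun w => by rw [one_eq, rho_mul_ap, sub_zero, b.l0, mul_one]
    mul_one := fun y => funext fun w => by rw [one_eq, mul_rho_ap, sub_zero, b.r0, mul_one]
    mul_assoc := fun x y z => funext fun w => by
      simp only [mul_ap, sum_mul, mul_sum]
      rw [sum_comm]
      refine sum_congr rfl fun v _ => (Fintype.sum_equiv (Equiv.addLeft v) _ _ fun u => ?_).symm
      have e : w - v = u + (w - v - u) := by abel
      simp only [Equiv.coe_addLeft, add_sub_cancel_left, ← sub_sub, b.l]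
      conv_lhs => rw [show b.f v (w - v) = b.f v u * b.f v (w - v - u) by rw [← b.r, ← e]]
      ring }

noncomputable instance instTAalg : Algebra ℂ (TA b) := Algebra.ofModule
  (fun c x y => funext fun w => by simp only [smul_ap, mul_ap, mul_sum, mul_assoc])
  (fun c x y => funext fun w => by simp only [smul_ap, mul_ap, mul_sum, mul_assoc, mul_left_comm])

theorem one_zero : (1 : TA b) 0 = 1 := by simp [one_eq, rho_ap]

theorem rho_mul (u v : V) : rho b u * rho b v = b.f u v • rho b (u + v) := funext fun w => by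
  rw [rho_mul_ap, smul_ap, rho_ap, rho_ap]
  by_cases h : w = u + v
  · simp [h]
  · rw [if_neg h, if_neg fun e => h (by rw [← e]; abel)]; simp

theorem expand' (x : TA b) : x = ∑ v, x v • rho b v := funext fun w => by
  rw [sum_ap, sum_eq_single w (fun u _ h => by rw [smul_ap, rho_ap, if_neg h.symm, mul_zero]) (by simp), smul_ap,
    rho_ap, if_pos rfl, mul_one]

/-- the inverse of a basis element -/
noncomputable def rhi (b : Bi V) (v : V) : TA b := b.f v v • rho b (-v)

theorem rho_rhi (v : V) : rho b v * rhi b v = 1 := by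
  rw [rhi, mul_smul_comm, rho_mul, smul_smul, add_neg_cancel, mul_comm, b.negr, one_smul, one_eq]

theorem rhi_rho (v : V) : rhi b v * rho b v = 1 := by
  rw [rhi, smul_mul_assoc, rho_mul, smul_smul, neg_add_cancel, mul_comm, b.negl, one_smul, one_eq]

theorem cj_ap (v : V) (x : TA b) (w : V) : (rho b v * x * rhi b v) w = x w * (b.f v w * (b.f w v)⁻¹) := by
  rw [rhi, mul_smul_comm, smul_ap, mul_rho_ap, rho_mul_ap, sub_neg_eq_add, add_sub_cancel_right, b.l, b.negr', b.negr']
  have := b.ne v v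
  field_simp

theorem cj_ap' (v : V) (x : TA b) (w : V) : (rhi b v * x * rho b v) w = x w * (b.f w v * (b.f v w)⁻¹) := by
  have := cj_ap v (rhi b v * x * rho b v) w
  rw [← mul_assoc, ← mul_assoc, rho_rhi, one_mul, mul_assoc, rho_rhi, mul_one] at this
  rw [this]
  have := b.ne v w
  have := b.ne w v
  field_simp

open Classical in
theorem sum_om (w : V) : ∑ v, b.f v w * (b.f w v)⁻¹ = if w = 0 then (Fintype.card V : ℂ) else 0 := by
  split_ifs with h
  · simp [h, b.l0, b.r0]
  obtain ⟨u, hu⟩ := b.nd w h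
  have e : ∑ v, b.f v w * (b.f w v)⁻¹ = (b.f u w * (b.f w u)⁻¹) * ∑ v, b.f v w * (b.f w v)⁻¹ := by
    rw [mul_sum]
    exact (Fintype.sum_equiv (Equiv.addLeft u) _ _ fun v => by
      simp only [Equiv.coe_addLeft, b.l, b.r, mul_inv]; ring).symm
  by_contra hc
  exact hu ((mul_inv_eq_one₀ (b.ne w u)).1 ((mul_eq_right₀ hc).1 e.symm))

theorem avg (x : TA b) : ∑ v, rho b v * x * rhi b v = (Fintype.card V * x 0) • (1 : TA b) := funext fun w => by
  simp only [sum_ap, cj_ap, ← mul_sum, sum_om, smul_ap, one_eq, rho_ap]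
  split_ifs with h <;> simp [h, mul_comm]

theorem avg' (x : TA b) : ∑ v, rhi b v * x * rho b v = (Fintype.card V * x 0) • (1 : TA b) := by
  rw [← avg]
  refine Fintype.sum_equiv (Equiv.neg V) _ _ fun v => funext fun w => ?_
  rw [cj_ap, cj_ap', Equiv.neg_apply, b.negl', b.negr', inv_inv, mul_comm (b.f w v)]

theorem cardV : (Fintype.card V : ℂ) ≠ 0 := Nat.cast_ne_zero.2 Fintype.card_ne_zero

theorem central {x : TA b} (h : ∀ v, rho b v * x = x * rho b v) : x = x 0 • (1 : TA b) := by
  have := avg x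
  simp only [h, mul_assoc, rho_rhi, mul_one, sum_const, card_univ, mul_smul] at this
  exact smul_right_injective _ (cardV (V := V)) (by simpa [Nat.cast_smul_eq_nsmul] using this)

theorem comm0 (x y : TA b) : (x * y) 0 = (y * x) 0 := by
  rw [mul_ap, mul_ap]
  refine Fintype.sum_equiv (Equiv.neg V) _ _ fun v => ?_
  simp only [Equiv.neg_apply, zero_sub, neg_neg, b.negl', b.negr']
  ring

instance instTAnt : Nontrivial (TA b) := ⟨1, 0, fun h => by simpa [one_zero, zero_ap] using congrFun h 0⟩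

instance instTAsimple : IsSimpleRing (TA b) := .of_eq_bot_or_eq_top fun I => by
  refine or_iff_not_imp_left.2 fun h => ?_
  obtain ⟨x, hx, x0⟩ : ∃ x ∈ I, x ≠ 0 := by
    by_contra! hc
    exact h (eq_bot_iff.2 fun x hx => by simpa using hc x hx)
  obtain ⟨w, hw⟩ := Function.ne_iff.1 x0
  have h1 : ∑ v, rho b v * (x * rho b (-w)) * rhi b v ∈ I :=
    sum_mem fun v _ => I.mul_mem_right _ _ (I.mul_mem_left _ _ (I.mul_mem_right _ _ hx))
  rw [avg, mul_rho_ap, zero_sub, neg_neg] at h1
  have h2 := I.mul_mem_left (((Fintype.card V : ℂ) * (x w * b.f w (-w)))⁻¹ • (1 : TA b)) _ h1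
  rw [smul_mul_smul_comm, inv_mul_cancel₀ (mul_ne_zero cardV (mul_ne_zero hw (b.ne _ _))), one_smul, one_mul] at h2
  exact (TwoSidedIdeal.one_mem_iff I).1 h2

theorem finrank_TA : finrank ℂ (TA b) = Fintype.card V := finrank_fintype_fun_eq_card ℂ

/-- a matrix model -/
theorem exists_mat {n : ℕ} (hn : n * n = Fintype.card V) :
    ∃ φ : TA b ≃ₐ[ℂ] Matrix (Fin n) (Fin n) ℂ, ∀ x, (φ x).trace = n * x 0 := by
  obtain ⟨m, -, ⟨φ⟩⟩ := IsSimpleRing.exists_algEquiv_matrix_of_isAlgClosed ℂ (TA b)
  obtain rfl : m = n := by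
    have := φ.toLinearEquiv.finrank_eq
    rw [finrank_TA, ← hn, finrank_matrix, Fintype.card_fin, finrank_self, mul_one] at this
    exact (Nat.mul_self_inj.1 this).symm
  refine ⟨φ, fun x => mul_left_cancel₀ (cardV (V := V)) ?_⟩
  have := congrArg (fun y => (φ y).trace) (avg x)
  simp only [map_sum, map_mul, Matrix.trace_sum, map_smul, map_one, Matrix.trace_smul, Matrix.trace_one,
    Fintype.card_fin, smul_eq_mul] at this
  rw [sum_congr rfl fun v _ => by rw [Matrix.trace_mul_cycle, ← map_mul, rhi_rho, map_one, one_mul], sum_const,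
    card_univ, nsmul_eq_mul] at this
  rw [this]; ring

theorem trace_lr (x y : TA b) :
    LinearMap.trace ℂ (TA b) (LinearMap.mulLeft ℂ x ∘ₗ LinearMap.mulRight ℂ y) = Fintype.card V * x 0 * y 0 := by
  classical
  let B : Basis V ℂ (TA b) := Pi.basisFun ℂ V
  have hB : ∀ v, B v = rho b v := fun v => funext fun w => by
    change (Pi.basisFun ℂ V v) w = _
    simp [rho_ap, Pi.single_apply]
  have hB' : ∀ (z : TA b) v, B.repr z v = z v := fun z v => rfl
  rw [LinearMap.trace_eq_matrix_trace ℂ B, Matrix.trace]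
  have e : ∀ v, (LinearMap.toMatrix B B
      (LinearMap.mulLeft ℂ x ∘ₗ LinearMap.mulRight ℂ y)).diag v = (rhi b v * x * rho b v * y) 0 := fun v => by
    rw [Matrix.diag_apply, LinearMap.toMatrix_apply, hB, hB', mul_assoc, mul_assoc, rhi, smul_mul_assoc, smul_ap,
      rho_mul_ap, zero_sub, neg_neg, mul_left_comm, mul_comm (b.f v v), b.negl, mul_one]
    rfl
  simp only [e, ← sum_ap, ← sum_mul, avg', smul_mul_assoc, one_mul, smul_ap]

section grp
variable {G : Type*} [Group G] [Fintype G] {n : ℕ}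

/-- the trace of a multiplicative family is a character -/
theorem ch_fam (hn : n * n = Fintype.card V) (s : G → TA b) (hs : ∀ g h, s (g * h) = s g * s h) :
    ∃ m, Ch (fun g => n * s g 0) m := by
  obtain ⟨φ, hφ⟩ := exists_mat (b := b) hn
  let L : G → (Fin n → ℂ) →ₗ[ℂ] (Fin n → ℂ) := fun g => Matrix.toLin' (φ (s g))
  have hL : ∀ g h x, L (g * h) x = L g (L h x) := fun g h x => by simp [L, hs]
  have h1 : ∀ g x, L g x ∈ LinearMap.range (L 1) := fun g x => ⟨L g x, by rw [← hL, one_mul]⟩
  let ρ : Representation ℂ G (LinearMap.range (L 1)) :=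
    { toFun := fun g => (L g).restrict fun x _ => h1 g x
      map_one' := LinearMap.ext fun ⟨_, x, rfl⟩ => Subtype.ext (by simp [← hL])
      map_mul' := fun g h => LinearMap.ext fun x => Subtype.ext (hL g h x) }
  obtain ⟨m, hm⟩ := ch_rep ρ
  refine ⟨m, fun g => ?_⟩
  beta_reduce
  rw [← hm g, ← hφ, ← Matrix.trace_toLin'_eq]
  exact (LinearMap.trace_restrict_eq_of_forall_mem _ _ (h1 g)).symm

theorem Ch.conj {f : G → ℂ} {m : Irr G → ℕ} (h : Ch f m) (g : G) : conj (f g) = f g⁻¹ := by
  simp only [h g, h g⁻¹, map_sum, map_mul, map_natCast, conj_irr]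

theorem hom_proj (hn : n * n = Fintype.card V) {s s' : G → TA b} (hs : ∀ g h, s (g * h) = s g * s h)
    (hs' : ∀ g h, s' (g * h) = s' g * s' h) : ∃ U : Submodule ℂ (TA b),
      (finrank ℂ U : ℂ) = classInner (fun g => n * s' g 0) (fun g => n * s g 0) ∧
      ∀ a, (∀ g, s' g * a = a * s g) → a * s 1 = a → a ∈ U := by
  obtain ⟨m, hm⟩ := ch_fam hn s hs
  let T : TA b →ₗ[ℂ] TA b := (Nat.card G : ℂ)⁻¹ • ∑ g, LinearMap.mulLeft ℂ (s' g) ∘ₗ LinearMap.mulRight ℂ (s g⁻¹)
  have hT : ∀ a, T a = (Nat.card G : ℂ)⁻¹ • ∑ g, s' g * (a * s g⁻¹) := fun a => by simp [T]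
  have fix : ∀ a, (∀ g, s' g * (a * s g⁻¹) = a) → T a = a := fun a h => by
    rw [hT, sum_congr rfl fun g _ => h g, sum_const, card_univ, ← Nat.cast_smul_eq_nsmul ℂ, smul_smul,
      ← Nat.card_eq_fintype_card, inv_mul_cancel₀ card_ne, one_smul]
  have hi : IsIdempotentElem T := LinearMap.ext fun a => fix _ fun g => by
    rw [hT, smul_mul_assoc, mul_smul_comm, sum_mul, mul_sum]
    congr 1
    exact Fintype.sum_equiv (Equiv.mulLeft g) _ _ fun h => by simp [hs, hs', mul_assoc]
  refine ⟨LinearMap.range T, ?_, fun a h1 h2 => ⟨a, fix a fun g => ?_⟩⟩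
  · rw [← (LinearMap.IsIdempotentElem.isProj_range _ hi).trace, map_smul, map_sum, classInner]
    simp only [trace_lr, Ch.conj hm, ← hn, smul_eq_mul]
    congr 1
    exact sum_congr rfl fun g _ => by push_cast; ring
  · rw [← mul_assoc, h1, mul_assoc, ← hs, mul_inv_cancel, h2]

theorem hom_zero (hn : n * n = Fintype.card V) {s s' : G → TA b} (hs : ∀ g h, s (g * h) = s g * s h)
    (hs' : ∀ g h, s' (g * h) = s' g * s' h) (h0 : classInner (fun g => n * s' g 0) (fun g => n * s g 0) = 0)
    {a : TA b} (h1 : ∀ g, s' g * a = a * s g) (h2 : a * s 1 = a) : a = 0 := by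
  obtain ⟨U, hU, h⟩ := hom_proj hn hs hs'
  rw [h0, Nat.cast_eq_zero, Submodule.finrank_eq_zero] at hU
  simpa [hU] using h a h1 h2

theorem hom_one (hn : n * n = Fintype.card V) {s : G → TA b} (hs : ∀ g h, s (g * h) = s g * s h)
    (h0 : classInner (fun g => n * s g 0) (fun g => n * s g 0) = 1)
    {a : TA b} (h1 : ∀ g, s g * a = a * s g) (h2 : a * s 1 = a) : ∃ c : ℂ, a = c • s 1 := by
  obtain ⟨U, hU, h⟩ := hom_proj hn hs hs
  rw [h0, Nat.cast_eq_one] at hU
  have e1 : s 1 ∈ U := h _ (fun g => by rw [← hs, ← hs, mul_one, one_mul]) (by rw [← hs, mul_one])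
  have e0 : s 1 ≠ 0 := fun e => by
    have : ∀ g, s g = 0 := fun g => by rw [← mul_one g, hs, e, mul_zero]
    simp [classInner, this, zero_ap] at h0
  obtain ⟨c, hc⟩ := (finrank_eq_one_iff_of_nonzero' (⟨_, e1⟩ : U) (fun e => e0 (congrArg Subtype.val e))).1 hU
    ⟨a, h a h1 h2⟩
  exact ⟨c, (congrArg Subtype.val hc).symm⟩

end grp

end Cfsg.Agent.H8.U5
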