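import Cfsg.Agent.H8.U5a
import Cfsg.Agent.H8.U5Defs
import Cfsg.Agent.H9.FOrd

/-!
Intertwiners in the twisted group algebra, and hermitian Gauss sums.
-/

set_option autoImplicit false
set_option linter.unusedSectionVars false

namespace Cfsg.Agent.H8.U5

open Finset Module Cfsg.Agent.H6.SU
open scoped ComplexConjugate Classical

section II
variable {F : Type*} [Field F] {V : Type*} [AddCommGroup V] [Module F V] [Fintype V] {b : Bi V}

/-- the standard intertwiner -/
noncomputable def II (b : Bi V) (g : V ≃ₗ[F] V) : TA b := ∑ v, rho b (g v) * rhi b v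

/-- `g` preserves the bicharacter -/
def Pres (b : Bi V) (g : V ≃ₗ[F] V) : Prop := ∀ u v, b.f (g u) (g v) = b.f u v

/-- `a` intertwines `g` -/
def Itw (a : TA b) (g : V ≃ₗ[F] V) : Prop := ∀ u, a * rho b u = rho b (g u) * a

theorem Pres.inv {g : V ≃ₗ[F] V} (h : Pres b g) : Pres b g⁻¹ := fun u v => by
  rw [← h (g⁻¹ u)]; simp

theorem rhi_add (u v : V) : rhi b (u + v) = b.f u v • (rhi b v * rhi b u) := by
  simp only [rhi, smul_mul_smul_comm, rho_mul, smul_smul, b.l, b.r, b.negl', b.negr', inv_inv, neg_add_rev]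
  congr 1
  ring

theorem itw_II {g : V ≃ₗ[F] V} (h : Pres b g) : Itw (II b g) g := fun u => by
  rw [II, sum_mul, mul_sum]
  refine (Fintype.sum_equiv (Equiv.addLeft u) _ _ fun v => ?_).symm
  rw [Equiv.coe_addLeft, rhi_add, map_add, ← mul_assoc, rho_mul, h]
  simp only [mul_smul_comm, smul_mul_assoc, mul_assoc, rhi_rho, mul_one]

theorem Itw.mul {a a' : TA b} {g h : V ≃ₗ[F] V} (h1 : Itw a g) (h2 : Itw a' h) : Itw (a * a') (g * h) :=
  fun u => by rw [mul_assoc, h2, ← mul_assoc, h1, mul_assoc]; rfl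

theorem Itw.smul {a : TA b} {g : V ≃ₗ[F] V} (h1 : Itw a g) (c : ℂ) : Itw (c • a) g :=
  fun u => by rw [smul_mul_assoc, h1, mul_smul_comm]

theorem Itw.mul_left {a : TA b} {g : V ≃ₗ[F] V} (h : Itw a g) : II b g⁻¹ * a = (Fintype.card V * a 0) • (1 : TA b) := by
  rw [← avg, II, sum_mul]
  refine (Fintype.sum_equiv g.toEquiv _ _ fun v => ?_).symm
  have e : rhi b (g v) * a = a * rhi b v := by
    rw [← mul_one (_ * a), ← rho_rhi v, ← mul_assoc, mul_assoc _ a, h, ← mul_assoc, rhi_rho, one_mul]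
  simp [mul_assoc, e]

theorem Itw.uniq {a : TA b} {g : V ≃ₗ[F] V} (h : Itw a g) (hg : Pres b g) : II b g⁻¹ 0 • a = a 0 • II b g := by
  have h1 := (itw_II hg.inv).mul_left
  rw [inv_inv] at h1
  have h2 := congrArg (II b g * ·) h.mul_left
  simp only [← mul_assoc, h1, smul_mul_assoc, one_mul, mul_smul_comm, mul_one, mul_smul] at h2
  exact smul_right_injective _ (cardV (V := V)) h2

theorem Itw.act {a : TA b} {g : V ≃ₗ[F] V} (h : Itw a g) (x y : TA b) (e : ∀ w, y (g w) = x w) : a * x = y * a := by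
  rw [expand' x, expand' y, mul_sum, sum_mul]
  refine Fintype.sum_equiv g.toEquiv _ _ fun v => ?_
  simp [h v, e]

theorem term_eq (u v : V) : rho b u * rhi b v = (b.f v v * (b.f u v)⁻¹) • rho b (u - v) := by
  rw [rhi, mul_smul_comm, rho_mul, smul_smul, b.negr', sub_eq_add_neg]

theorem II_ap (g : V ≃ₗ[F] V) (w : V) :
    II b g w = ∑ v, if g v - v = w then b.f v v * (b.f (g v) v)⁻¹ else 0 := by
  simp only [II, sum_ap, term_eq, smul_ap, rho_ap, mul_ite, mul_one, mul_zero, eq_comm]

/-- the dimension of the fixed space -/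
noncomputable def fx (g : V ≃ₗ[F] V) : ℕ := finrank F (LinearMap.ker ((g : V →ₗ[F] V) - 1))

theorem fx_inv (g : V ≃ₗ[F] V) : fx g⁻¹ = fx g := by
  have : LinearMap.ker ((g⁻¹ : V ≃ₗ[F] V) - 1 : V →ₗ[F] V) = LinearMap.ker ((g : V →ₗ[F] V) - 1) := by
    ext v
    simp only [LinearMap.mem_ker, LinearMap.sub_apply, LinearEquiv.coe_coe, End.one_apply, sub_eq_zero,
      LinearEquiv.coe_inv, LinearEquiv.symm_apply_eq]
    exact eq_comm
  rw [fx, this, fx]

theorem card_sub (W : Submodule F V) :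
    (univ.filter (· ∈ W)).card = Nat.card F ^ finrank F W := by
  rw [← Module.natCard_eq_pow_finrank, Nat.subtype_card]
  simp

theorem II_zero (g : V ≃ₗ[F] V) : II b g 0 = Nat.card F ^ fx g := by
  rw [II_ap, fx, ← Nat.cast_pow, ← card_sub, card_filter]
  push_cast
  refine sum_congr rfl fun v _ => ?_
  simp only [LinearMap.mem_ker, LinearMap.sub_apply, LinearEquiv.coe_coe, End.one_apply]
  split_ifs with h
  · rw [sub_eq_zero.1 h, mul_inv_cancel₀ (b.ne _ _)]
  · rfl

theorem II_inv (hc : ∀ u v, conj (b.f u v) = (b.f u v)⁻¹) {g : V ≃ₗ[F] V} (hg : Pres b g) (w : V) :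
    II b g⁻¹ w = conj (II b g (-w)) * b.f w w := by
  rw [II_ap, II_ap, map_sum, sum_mul]
  refine (Fintype.sum_equiv g.toEquiv _ _ fun v => ?_).symm
  have e : g v - v = -w ↔ v - g v = w := by rw [← neg_sub, neg_inj]
  simp only [LinearEquiv.coe_toEquiv, LinearEquiv.coe_inv, LinearEquiv.symm_apply_apply, e]
  split_ifs with h
  · rw [← h, map_mul, map_inv₀, hc, hc, sub_eq_add_neg, b.l, b.r, b.r, b.negl', b.negl', b.negr', b.negr']
    have := b.ne v v
    have := b.ne (g v) v
    field_simp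
  · simp

theorem c_conj (hc : ∀ u v, conj (b.f u v) = (b.f u v)⁻¹) {g h : V ≃ₗ[F] V} (hg : Pres b g) (hh : Pres b h) :
    (II b h⁻¹ * II b g⁻¹) 0 = conj ((II b g * II b h) 0) := by
  rw [mul_ap, mul_ap, map_sum]
  refine sum_congr rfl fun v _ => ?_
  rw [II_inv hc hg, II_inv hc hh, zero_sub, neg_neg, map_mul, map_mul, hc, b.negl', b.negr', inv_inv]
  have := b.ne v v
  field_simp

theorem c_mul {g h : V ≃ₗ[F] V} (hg : Pres b g) (hh : Pres b h) :
    (II b g * II b h) 0 * (II b h⁻¹ * II b g⁻¹) 0 = Fintype.card V * Nat.card F ^ (fx g + fx h + fx (g * h)) := by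
  have hgh : Pres b (g * h) := fun u v => (hg _ _).trans (hh u v)
  have e1 := ((itw_II hg).mul (itw_II hh)).uniq hgh
  have e2 := ((itw_II hh.inv).mul (itw_II hg.inv)).uniq (by rw [← mul_inv_rev]; exact hgh.inv)
  rw [← mul_inv_rev] at e2
  have e3 : ∀ {g : V ≃ₗ[F] V}, Pres b g → II b g * II b g⁻¹ = (Fintype.card V * Nat.card F ^ fx g : ℂ) • (1 : TA b) :=
    fun {g} hg => by simpa [II_zero, fx_inv] using (itw_II hg.inv).mul_left
  have e4 := congrArg₂ (· * ·) e1 e2
  simp only [smul_mul_smul_comm] at e4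
  rw [e3 hgh, mul_assoc (II b g), ← mul_assoc (II b h), e3 hh, smul_mul_assoc, one_mul, mul_smul_comm, e3 hg] at e4
  have e5 := congrFun e4 0
  simp only [smul_ap, one_zero, II_zero, fx_inv, mul_one] at e5
  have h0 : (Nat.card F : ℂ) ≠ 0 ∨ fx (g * h) = 0 := by
    by_cases h0 : Nat.card F = 0
    · have := II_zero (b := b) (g * h)
      have h1 := congrFun (e3 hgh) 0
      by_contra hc
      push Not at hc
      have h2 : Fintype.card V = Nat.card F ^ finrank F V := by
        rw [← Module.natCard_eq_pow_finrank, Nat.card_eq_fintype_card]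
      have h3 : finrank F V ≠ 0 := fun e => hc.2 (Nat.eq_zero_of_le_zero ((Submodule.finrank_le _).trans e.le))
      rw [h0, zero_pow h3] at h2
      exact Fintype.card_ne_zero h2
    · exact Or.inl (Nat.cast_ne_zero.2 h0)
  have h1 : (Fintype.card V * Nat.card F ^ fx (g * h) : ℂ) ≠ 0 :=
    mul_ne_zero cardV (by rcases h0 with h0 | h0 <;> simp [h0])
  refine mul_right_cancel₀ h1 ?_
  rw [← e5]
  ring

end II

section field
variable {F : Type*} [Field F] [Fintype F] {σ : F →+* F} {q : ℕ}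

/-- a field with `q ^ 2` elements, with its involution -/
structure Fd (σ : F →+* F) (q : ℕ) : Prop where
  card : Fintype.card F = q ^ 2
  inv : ∀ a, σ (σ a) = a
  ne : ∃ a, σ a ≠ a

/-- characters which are not trivial on the elements of trace zero -/
def Adm (σ : F →+* F) (χ : AddChar F ℂ) : Prop := ∃ y, y + σ y = 0 ∧ χ y ≠ 1

variable (h : Fd σ q) {χ : AddChar F ℂ}
include h

theorem Fd.cL : (univ.filter fun y : F => y + σ y = 0).card = q := by
  rw [← H9.FOrd.card_Λ_unit h.card h.inv h.ne, Nat.subtype_card]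
  simp

theorem Fd.cF : (univ.filter fun y : F => σ y = y).card = q := by
  rw [← (H9.FOrd.card_Λ_unit_aux h.card h.inv h.ne).2, Nat.subtype_card]
  simp

theorem Fd.cN {c : F} (hc : σ c = c) (c0 : c ≠ 0) : (univ.filter fun y : F => y * σ y = c).card = q + 1 := by
  obtain ⟨a, ha⟩ := exists_norm h.ne h.inv hc
  have a0 : a ≠ 0 := by rintro rfl; exact c0 (by simpa using ha.symm)
  have a1 : σ a ≠ 0 := σ_ne a0
  rw [← H9.FOrd.card_norm_one h.card h.inv h.ne, Nat.subtype_card (univ.filter fun y : F => y * σ y = 1) (by simp)]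
  refine card_bij' (fun y _ => y / a) (fun y _ => y * a) (fun y hy => ?_) (fun y hy => ?_) (by simp [a0]) (by simp [a0])
  · simp only [mem_filter, mem_univ, true_and] at hy ⊢
    rw [map_div₀, div_mul_div_comm, hy, ha, div_self c0]
  · simp only [mem_filter, mem_univ, true_and] at hy ⊢
    rw [map_mul, mul_mul_mul_comm, hy, ha, one_mul]

theorem Fd.sumL (hχ : Adm σ χ) (c : F) : ∑ y with y + σ y = c, χ y = 0 := by
  obtain ⟨z, hz, z1⟩ := hχ
  have e : ∑ y with y + σ y = c, χ y = χ z * ∑ y with y + σ y = c, χ y := by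
    rw [mul_sum]
    refine sum_bij' (fun y _ => y - z) (fun y _ => y + z) (fun y hy => ?_) (fun y hy => ?_) (by simp) (by simp)
      fun y _ => by rw [← AddChar.map_add_eq_mul, add_sub_cancel]
    · simp only [mem_filter, mem_univ, true_and, map_sub] at hy ⊢
      linear_combination hy - hz
    · simp only [mem_filter, mem_univ, true_and, map_add] at hy ⊢
      linear_combination hy + hz
  by_contra hc
  exact z1 ((mul_eq_right₀ hc).1 e.symm)

theorem Fd.gauss1 (hχ : Adm σ χ) {c : F} (hc : c + σ c = 0) (c0 : c ≠ 0) : ∑ a, χ (a * σ a * c) = -q := by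
  have e1 : ∑ y with σ y = y, χ (y * c) = 0 := by
    rw [← h.sumL hχ 0]
    have hc' : σ c = -c := by linear_combination hc
    refine sum_bij' (fun y _ => y * c) (fun y _ => y / c) (fun y hy => ?_) (fun y hy => ?_) (by simp [c0])
      (by simp [c0]) fun y _ => rfl
    · simp only [mem_filter, mem_univ, true_and, map_mul] at hy ⊢
      rw [hy, hc']; ring
    · simp only [mem_filter, mem_univ, true_and, map_div₀] at hy ⊢
      rw [hc', show σ y = -y by linear_combination hy, neg_div_neg_eq]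
  rw [← sum_fiberwise_of_maps_to (s := univ) (t := univ.filter fun y => σ y = y) (g := fun a => a * σ a)
    (fun a _ => by simp [h.inv, mul_comm])]
  have e2 : ∀ y ∈ univ.filter fun y => σ y = y, ∑ a with a * σ a = y, χ (a * σ a * c) =
      (q + 1) * χ (y * c) - if y = 0 then q else 0 := fun y hy => by
    rw [sum_congr rfl fun a ha => by rw [(mem_filter.1 ha).2], sum_const, nsmul_eq_mul]
    split_ifs with y0
    · rw [y0, show (univ.filter fun a : F => a * σ a = 0) = {0} by ext; simp]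
      simp
    · rw [h.cN (mem_filter.1 hy).2 y0]
      simp
  rw [sum_congr rfl e2, sum_sub_distrib, ← mul_sum, e1]
  simp

theorem Fd.gauss (hχ : Adm σ χ) {U : Type*} [AddCommGroup U] [Module F U] [Fintype U] (β : U → U → F)
    (l1 : ∀ x y z, β (x + y) z = β x z + β y z) (l2 : ∀ (a : F) x y, β (a • x) y = a * β x y)
    (r1 : ∀ x y z, β x (y + z) = β x y + β x z) (r2 : ∀ (a : F) x y, β x (a • y) = σ a * β x y)
    (W : Submodule F U) (hW : ∀ x ∈ W, β x x + σ (β x x) = 0) :
    ∃ k : ℕ, ∑ x with x ∈ W, χ (β x x) = (-q) ^ k := by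
  induction W using WellFoundedLT.induction with
  | ind W ih =>
  by_cases h0 : ∀ x ∈ W, β x x = 0
  · refine ⟨2 * finrank F W, ?_⟩
    rw [sum_congr rfl fun x hx => by rw [h0 x (mem_filter.1 hx).2, AddChar.map_zero_eq_one], sum_const, card_sub,
      Nat.card_eq_fintype_card, h.card, pow_mul]
    simp
  push Not at h0
  obtain ⟨x, hx, x0⟩ := h0
  let W' : Submodule F U :=
    { carrier := {y | y ∈ W ∧ β y x = 0}
      add_mem' := fun ha hb => ⟨W.add_mem ha.1 hb.1, by rw [l1, ha.2, hb.2, add_zero]⟩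
      zero_mem' := ⟨W.zero_mem, by simpa using l2 0 x x⟩
      smul_mem' := fun c y hy => ⟨W.smul_mem c hy.1, by rw [l2, hy.2, mul_zero]⟩ }
  obtain ⟨k, hk⟩ := ih W' (lt_of_le_of_ne (fun y hy => hy.1) fun e => x0 (e.ge hx).2) fun y hy => hW y hy.1
  have e1 : ∀ y ∈ W', β x y = 0 := fun y hy => by
    by_contra hc
    obtain ⟨θ, hθ⟩ := exists_tr_one h.ne h.inv
    have := hW _ (W.add_mem (W.smul_mem (θ / β x y) hx) hy.1)
    have e := div_mul_cancel₀ θ hc
    have e' := congrArg σ e
    simp only [l1, l2, r1, r2, hy.2, map_add, map_mul, h.inv, mul_zero, zero_add] at this e'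
    refine one_ne_zero (α := F) ?_
    linear_combination this - hθ - hW y hy.1 - θ / β x y * σ (θ / β x y) * hW x hx - e - e'
  refine ⟨k + 1, ?_⟩
  rw [pow_succ, ← hk, ← h.gauss1 hχ (hW x hx) x0, sum_mul_sum, ← sum_product']
  refine (sum_bij' (fun p _ => p.2 • x + p.1) (fun y _ => (y - (β y x / β x x) • x, β y x / β x x))
    (fun p hp => ?_) (fun y hy => ?_) (fun p hp => ?_) (by simp) fun p hp => ?_).symm
  · simp only [mem_product, mem_filter, mem_univ, true_and, and_true] at hp ⊢
    exact W.add_mem (W.smul_mem _ hx) hp.1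
  · simp only [mem_product, mem_filter, mem_univ, true_and, and_true] at hy ⊢
    refine ⟨W.sub_mem hy (W.smul_mem _ hx), ?_⟩
    rw [sub_eq_add_neg, ← neg_smul, l1, l2]
    field_simp
    ring
  · simp only [mem_product, mem_filter, mem_univ, true_and, and_true] at hp
    simp [l1, l2, hp.2, x0]
  · simp only [mem_product, mem_filter, mem_univ, true_and, and_true] at hp
    simp only [l1, l2, r1, r2, hp.2, e1 _ hp, ← AddChar.map_add_eq_mul]
    congr 1
    ring

end field

end Cfsg.Agent.H8.U5
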