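import Cfsg.Agent.H8.U5b

/-!
The Weil representation of a finite unitary group inside the twisted group algebra.
-/

set_option autoImplicit false
set_option linter.unusedSectionVars false

namespace Cfsg.Agent.H8.U5

open Finset Module Cfsg.Agent.Form Cfsg.Agent.H6.SU
open scoped ComplexConjugate Classical

variable {F : Type*} [Field F] [Fintype F] {σ : F →+* F} {hσ : ∀ a, σ (σ a) = a}
  {V : Type*} [AddCommGroup V] [Module F V] [Fintype V] {S : PQ (FP.unit σ hσ) V} {q : ℕ} {χ : AddChar F ℂ}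

/-- data for the Weil representation -/
structure Wd (S : PQ (FP.unit σ hσ) V) (q : ℕ) (χ : AddChar F ℂ) : Prop where
  fd : Fd σ q
  nd : S.Nondeg
  adm : Adm σ χ

/-- the elements of norm one -/
def ZZ (σ : F →+* F) : Subgroup Fˣ where
  carrier := {c | (c : F) * σ c = 1}
  mul_mem' := fun {a b} ha hb => by
    simp only [Set.mem_setOf_eq, Units.val_mul, map_mul] at *
    rw [mul_mul_mul_comm, ha, hb, one_mul]
  one_mem' := by simp
  inv_mem' := fun {a} ha => by
    simp only [Set.mem_setOf_eq, Units.val_inv_eq_inv_val, map_inv₀] at *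
    rw [← mul_inv, ha, inv_one]

/-- scalars -/
noncomputable def scl (V : Type*) [AddCommGroup V] [Module F V] : ZZ σ →* V ≃ₗ[F] V :=
  (DistribMulAction.toModuleAut F V).comp (ZZ σ).subtype

theorem scl_ap (c : ZZ σ) (v : V) : scl V c v = ((c : Fˣ) : F) • v := rfl

theorem zz (c : ZZ σ) : ((c : Fˣ) : F) * σ (c : Fˣ) = 1 := c.2

theorem scl_mem (S : PQ (FP.unit σ hσ) V) (c : ZZ σ) : scl V c ∈ S.isom := (S.unit_mem_isom _).2 fun x y => by
  rw [scl_ap, scl_ap, S.B_smul_left, Bsr, ← mul_assoc, zz, one_mul]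

theorem scl_comm (g : V ≃ₗ[F] V) (c : ZZ σ) : g * scl V c = scl V c * g :=
  LinearEquiv.ext fun v => g.map_smul _ v

theorem Fd.cZ (h : Fd σ q) : Fintype.card (ZZ σ) = q + 1 := by
  rw [← h.cN (map_one σ) one_ne_zero, ← card_univ]
  exact card_bij (fun c _ => ((c : Fˣ) : F)) (fun c _ => by simp [zz]) (fun a _ c _ e => Subtype.ext (Units.ext e))
    fun y hy => ⟨⟨Units.mk0 y (left_ne_zero_of_mul_eq_one (mem_filter.1 hy).2), (mem_filter.1 hy).2⟩, by simp, rfl⟩

theorem Fd.two_le (h : Fd σ q) : 2 ≤ q := by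
  have := Fintype.one_lt_card (α := F)
  rw [h.card] at this
  by_contra hc
  interval_cases q <;> simp at this

theorem sub_ne {c : ZZ σ} (hc : c ≠ 1) : 1 - σ (c : Fˣ) ≠ 0 := fun e => hc (Subtype.ext (Units.ext (by
  have := zz c
  rwa [← sub_eq_zero.1 e, mul_one] at this)))

theorem Fd.sumZ (h : Fd σ q) (φ : F → ℂ) :
    ∑ c ∈ (univ : Finset (ZZ σ)).erase 1, φ (1 - σ (c : Fˣ))⁻¹ = ∑ s with s + σ s = 1, φ s := by
  refine sum_bij (fun c _ => (1 - σ (c : Fˣ))⁻¹) (fun c hc => ?_) (fun a _ c _ e => Subtype.ext (Units.ext ?_))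
    (fun s hs => ?_) fun _ _ => rfl
  · have h1 := sub_ne (ne_of_mem_erase hc)
    have h2 := σ_ne (σ := σ) h1
    simp only [mem_filter, mem_univ, true_and, map_inv₀, map_sub, map_one, h.inv] at h2 ⊢
    field_simp
    linear_combination -zz c
  · exact σ.injective (by simpa using e)
  · have h1 := (mem_filter.1 hs).2
    have s0 : s ≠ 0 := by rintro rfl; simp at h1
    have s1 := σ_ne (σ := σ) s0
    have e : (1 - (σ s)⁻¹) * σ (1 - (σ s)⁻¹) = 1 := by
      simp only [map_inv₀, map_sub, map_one, h.inv]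
      field_simp
      linear_combination -h1
    refine ⟨⟨Units.mk0 _ (left_ne_zero_of_mul_eq_one e), e⟩, mem_erase.2 ⟨fun e' => ?_, mem_univ _⟩, by simp [h.inv]⟩
    simpa [s1] using congrArg (fun c : ZZ σ => ((c : Fˣ) : F)) e'

variable (H : Wd S q χ)

/-- the bicharacter attached to the form -/
def bi : Bi V where
  f u v := χ (S.B u v)
  l u u' v := by rw [S.B_add_left, AddChar.map_add_eq_mul]
  r u v v' := by rw [S.B_add_right, AddChar.map_add_eq_mul]
  l0 v := by simp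
  r0 v := by simp
  nd v hv := by
    obtain ⟨y, hy, y1⟩ := H.adm
    obtain ⟨a, rfl⟩ := exists_sub_eq H.fd.ne hσ hy
    obtain ⟨u, rfl⟩ := H.nd.exists_eq hv a
    exact ⟨u, fun e => y1 (by rw [AddChar.map_sub_eq_div, Bs, e, div_self (by
      rw [← Bs]; exact (χ.val_isUnit _).ne_zero)])⟩

theorem bi_f (u v : V) : (bi H).f u v = χ (S.B u v) := rfl

theorem pres {g : V ≃ₗ[F] V} (hg : g ∈ S.isom) : Pres (bi H) g := fun u v => by rw [bi_f, PQ.B_isom hg, bi_f]

include H in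
theorem Wd.cardV : (Fintype.card V : ℂ) = (-q) ^ (2 * finrank F V) := by
  rw [← Nat.card_eq_fintype_card, Module.natCard_eq_pow_finrank (K := F), Nat.card_eq_fintype_card, H.fd.card, pow_mul]
  simp

include H in
theorem Wd.sq : q ^ finrank F V * q ^ finrank F V = Fintype.card V := by
  rw [← Nat.card_eq_fintype_card, Module.natCard_eq_pow_finrank (K := F), Nat.card_eq_fintype_card, H.fd.card]
  ring

include H in
theorem Wd.q0 : (-q : ℂ) ≠ 0 := neg_ne_zero.2 (Nat.cast_ne_zero.2 (by have := H.fd.two_le; omega))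

include H in
theorem Wd.q1 : (q + 1 : ℂ) ≠ 0 := by exact_mod_cast Nat.succ_ne_zero q

theorem II_zero' (g : V ≃ₗ[F] V) : II (bi H) g 0 = (-q) ^ (2 * fx g) := by
  rw [II_zero, Nat.card_eq_fintype_card, H.fd.card, pow_mul]
  simp

theorem c_gauss {g h : V ≃ₗ[F] V} (hg : g ∈ S.isom) (hh : h ∈ S.isom) :
    ∃ k : ℕ, (II (bi H) g * II (bi H) h) 0 = (-q) ^ k := by
  obtain ⟨k, hk⟩ := H.fd.gauss H.adm (U := V × V) (fun x y => S.B (g x.1 - x.1) (y.2 - g y.1))
    (fun x y z => by simp; ring) (fun a x y => by simp [S.B_smul_left]; ring) (fun x y z => by simp; ring)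
    (fun a x y => by simp; ring) (LinearMap.ker (((g : V →ₗ[F] V) - 1).coprod ((h : V →ₗ[F] V) - 1))) (fun x hx => by
      have e : h x.2 = x.2 - (g x.1 - x.1) := by
        rw [← sub_eq_zero, ← LinearMap.mem_ker.1 hx]; simp; abel
      have e1 := PQ.B_isom hg x.1 x.1
      have e2 := PQ.B_isom hh x.2 x.2
      rw [e] at e2
      simp only [Bs, PQ.B_sub_left, PQ.B_sub_right, map_sub] at e2 ⊢
      linear_combination -e2 - e1)
  refine ⟨k, ?_⟩
  rw [← hk, II, II, sum_mul_sum, ← sum_product', sum_ap, sum_filter]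
  refine sum_congr rfl fun x _ => ?_
  rw [term_eq, term_eq, smul_mul_smul_comm, rho_mul, smul_smul, smul_ap, rho_ap, LinearMap.mem_ker]
  refine (mul_ite _ _ _ _).trans (if_ctx_congr (by simp [eq_comm]) (fun e0 => ?_) fun _ => mul_zero _)
  have e : h x.2 = x.2 - (g x.1 - x.1) := by
    rw [← sub_eq_zero, ← e0]; simp; abel
  simp only [bi_f, ← AddChar.map_neg_eq_inv, ← AddChar.map_add_eq_mul, mul_one, e, PQ.B_sub_left, PQ.B_sub_right]
  congr 1
  ring

theorem c_eq {g h : V ≃ₗ[F] V} (hg : g ∈ S.isom) (hh : h ∈ S.isom) :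
    (II (bi H) g * II (bi H) h) 0 = (-q) ^ (finrank F V + fx g + fx h + fx (g * h)) := by
  obtain ⟨k, hk⟩ := c_gauss H hg hh
  have e := c_mul (pres H hg) (pres H hh)
  rw [c_conj (fun u v => by rw [bi_f, ← AddChar.map_neg_eq_conj, AddChar.map_neg_eq_inv]) (pres H hg) (pres H hh), hk,
    H.cardV, Nat.card_eq_fintype_card, H.fd.card] at e
  simp only [map_pow, map_neg, map_natCast, Nat.cast_pow, ← pow_add, ← pow_mul, ← two_mul, even_two.neg_pow, pow_mul,
    Even.neg_pow] at e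
  simp only [← pow_mul, ← pow_add] at e
  have e' : 2 * k = 2 * (finrank F V + (fx g + fx h + fx (g * h))) :=
    Nat.pow_right_injective H.fd.two_le (by exact_mod_cast e)
  rw [hk]
  congr 1
  omega

/-- the Weil representation -/
noncomputable def WW (g : V ≃ₗ[F] V) : TA (bi H) := ((-q : ℂ) ^ (finrank F V + fx g))⁻¹ • II (bi H) g

theorem itw_W {g : V ≃ₗ[F] V} (hg : g ∈ S.isom) : Itw (WW H g) g := (itw_II (pres H hg)).smul _

theorem W_mul {g h : V ≃ₗ[F] V} (hg : g ∈ S.isom) (hh : h ∈ S.isom) : WW H (g * h) = WW H g * WW H h := by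
  have e := ((itw_II (pres H hg)).mul (itw_II (pres H hh))).uniq (pres H (S.isom.mul_mem hg hh))
  rw [c_eq H hg hh, II_zero', fx_inv, ← eq_inv_smul_iff₀ (pow_ne_zero _ H.q0)] at e
  rw [WW, WW, WW, smul_mul_smul_comm, e, smul_smul, smul_smul]
  congr 1
  have := H.q0
  field_simp
  ring

theorem W_zero (g : V ≃ₗ[F] V) : (q ^ finrank F V : ℕ) * WW H g 0 = (-1) ^ finrank F V * (-q) ^ fx g := by
  rw [WW, smul_ap, II_zero', Nat.cast_pow, ← neg_neg (q : ℂ), neg_pow (-q : ℂ)]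
  have := H.q0
  field_simp
  ring

theorem W_one : WW H (1 : V ≃ₗ[F] V) = 1 := by
  have e : fx (1 : V ≃ₗ[F] V) = finrank F V := by
    rw [fx, show ((1 : V ≃ₗ[F] V) : V →ₗ[F] V) - 1 = 0 from sub_self _, LinearMap.ker_zero, finrank_top]
  have e' : II (bi H) (1 : V ≃ₗ[F] V) = (Fintype.card V : ℂ) • (1 : TA (bi H)) := by
    simp [II, rho_rhi, Nat.cast_smul_eq_nsmul]
  rw [WW, e, e', H.cardV, smul_smul, two_mul, inv_mul_cancel₀ (pow_ne_zero _ H.q0), one_smul]

theorem fx_eq_zero {g : V ≃ₗ[F] V} (h : ∀ v, g v = v → v = 0) : fx g = 0 := by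
  rw [fx, Submodule.finrank_eq_zero]
  exact (Submodule.eq_bot_iff _).2 fun v hv => h v (sub_eq_zero.1 hv)

theorem W_scl {c : ZZ σ} (hc : c ≠ 1) (w : V) :
    WW H (scl V c) w = ((-q : ℂ) ^ finrank F V)⁻¹ * χ (S.B w w * (1 - σ (c : Fˣ))⁻¹) := by
  have h1 := sub_ne hc
  have h2 := σ_ne (σ := σ) h1
  rw [map_sub, map_one, hσ] at h2
  have e : ∀ v : V, scl V c v - v = w ↔ v = (-(1 - ((c : Fˣ) : F))⁻¹) • w := fun v => by
    rw [eq_comm (a := v), neg_smul, neg_eq_iff_eq_neg, inv_smul_eq_iff₀ h2, scl_ap, smul_neg, sub_smul, one_smul,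
      neg_sub, eq_comm]
  rw [WW, fx_eq_zero fun v hv => (smul_eq_zero_iff_right h2).1 (by rw [sub_smul, one_smul, ← scl_ap, hv, sub_self]),
    add_zero, smul_ap, II_ap]
  simp only [e, sum_ite_eq', mem_univ, if_true]
  simp only [bi_f, ← AddChar.map_neg_eq_inv, ← AddChar.map_add_eq_mul, scl_ap,
    S.B_smul_left, Bsr, map_neg, map_inv₀, map_sub, map_one]
  congr 2
  field_simp
  ring

/-- the idempotents attached to the characters of the centre -/
noncomputable def ee (l : ZZ σ →* ℂ) : TA (bi H) := (q + 1 : ℂ)⁻¹ • ∑ c, l c⁻¹ • WW H (scl V c)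

theorem W_ee (l : ZZ σ →* ℂ) (c : ZZ σ) : WW H (scl V c) * ee H l = l c • ee H l := by
  rw [ee, mul_smul_comm, smul_comm (l c), mul_sum, smul_sum (r := l c)]
  congr 1
  refine Fintype.sum_equiv (M := TA (bi H)) (Equiv.mulLeft c) _ _ fun d => ?_
  rw [mul_smul_comm, ← W_mul H (scl_mem S c) (scl_mem S d), ← map_mul, smul_smul, ← map_mul]
  simp [mul_comm]

theorem ee_mul (l l' : ZZ σ →* ℂ) : ee H l * ee H l' = if l = l' then ee H l else 0 := by
  rw [ee, smul_mul_assoc, sum_mul]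
  simp only [smul_mul_assoc, W_ee, smul_smul, ← sum_smul]
  split_ifs with h
  · subst h
    simp only [← map_mul, inv_mul_cancel, map_one, sum_const, card_univ, H.fd.cZ, nsmul_eq_mul, Nat.cast_add,
      Nat.cast_one, mul_one, inv_mul_cancel₀ H.q1, one_smul]
    rfl
  · have := sum_hom_units_eq_zero (l.comp invMonoidHom * l') fun e => h (MonoidHom.ext fun c => by
      have : l c * (l c⁻¹ * l' c) = l c * 1 := congrArg (l c * ·) (DFunLike.congr_fun e c)
      rwa [← mul_assoc, ← map_mul, mul_inv_cancel, map_one, one_mul, mul_one, eq_comm] at this)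
    simp only [MonoidHom.mul_apply, MonoidHom.comp_apply, invMonoidHom_apply] at this
    rw [this, mul_zero, zero_smul]

theorem ee_comm {g : V ≃ₗ[F] V} (hg : g ∈ S.isom) (l : ZZ σ →* ℂ) : WW H g * ee H l = ee H l * WW H g := by
  simp only [ee, mul_smul_comm, smul_mul_assoc, mul_sum, sum_mul, ← W_mul H hg (scl_mem S _),
    ← W_mul H (scl_mem S _) hg, scl_comm]

theorem zeta_eq {g : V ≃ₗ[F] V} (hg : g ∈ S.isom) (l : ZZ σ →* ℂ) : (q ^ finrank F V : ℕ) * (WW H g * ee H l) 0 =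
    (q + 1 : ℂ)⁻¹ * ∑ c, l c⁻¹ * ((-1) ^ finrank F V * (-q) ^ fx (g * scl V c)) := by
  simp only [ee, mul_smul_comm, mul_sum, ← W_mul H hg (scl_mem S _), smul_ap, sum_ap, ← W_zero H]
  exact sum_congr rfl fun c _ => by ring

/-- the values of `ee` -/
noncomputable def EE (χ : AddChar F ℂ) (q n : ℕ) (l : ZZ σ →* ℂ) (y : F) : ℂ :=
  (q + 1 : ℂ)⁻¹ * ((-q : ℂ) ^ n)⁻¹ * ∑ c ∈ univ.erase 1, l c⁻¹ * χ (y * (1 - σ (c : Fˣ))⁻¹)

theorem ee_ap (l : ZZ σ →* ℂ) (w : V) :
    ee H l w = EE χ q (finrank F V) l (S.B w w) + if w = 0 then (q + 1 : ℂ)⁻¹ else 0 := by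
  rw [ee, smul_ap, sum_ap, ← sum_erase_add _ _ (mem_univ 1), sum_congr rfl fun c hc => by
    rw [smul_ap, W_scl H (ne_of_mem_erase hc), mul_left_comm], ← mul_sum, EE, map_one, W_one, smul_ap, one_eq, rho_ap]
  split_ifs <;> simp [mul_add, mul_assoc]

include H in
theorem EE_one (n : ℕ) {y : F} (hy : σ y = y) :
    EE χ q n (1 : ZZ σ →* ℂ) y = if y = 0 then (q + 1 : ℂ)⁻¹ * ((-q : ℂ) ^ n)⁻¹ * q else 0 := by
  simp only [EE, MonoidHom.one_apply, one_mul]
  rw [H.fd.sumZ fun s => χ (y * s)]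
  split_ifs with h
  · obtain ⟨θ, hθ⟩ := exists_tr_one H.fd.ne hσ
    have : (univ.filter fun s : F => s + σ s = 1).card = q := by
      rw [← H.fd.cL]
      refine card_bij' (fun y _ => y - θ) (fun y _ => y + θ) (fun y hy => ?_) (fun y hy => ?_) (by simp) (by simp)
      · simp only [mem_filter, mem_univ, true_and, map_sub] at hy ⊢
        linear_combination hy - hθ
      · simp only [mem_filter, mem_univ, true_and, map_add] at hy ⊢
        linear_combination hy + hθ
    simp [h, this]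
  · rw [mul_eq_zero, ← H.fd.sumL H.adm y]
    refine Or.inr (sum_bij' (fun s _ => y * s) (fun s _ => s / y) (fun s hs => ?_) (fun s hs => ?_) (by simp [h])
      (fun s _ => mul_div_cancel₀ s h) fun _ _ => rfl)
    · simp only [mem_filter, mem_univ, true_and, map_mul, hy] at hs ⊢
      rw [← mul_add, hs, mul_one]
    · simp only [mem_filter, mem_univ, true_and, map_div₀, hy] at hs ⊢
      rw [← add_div, hs, div_self h]

theorem sum_l {l : ZZ σ →* ℂ} (hl : l ≠ 1) : ∑ c, l c⁻¹ = 0 := by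
  rw [← sum_hom_units_eq_zero l hl]
  exact Fintype.sum_equiv (Equiv.inv _) _ _ fun _ => rfl

end Cfsg.Agent.H8.U5
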