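import Cfsg.Agent.H8.U5c
import Mathlib.Analysis.Fourier.FiniteAbelian.PontryaginDuality

/-!
Orbits of a subgroup on which parts of the Weil representation stay irreducible.
-/

set_option autoImplicit false
set_option linter.unusedSectionVars false

namespace Cfsg.Agent.H8.U5

open Finset Module Cfsg.Agent.Form Cfsg.Agent.H6.SU
open scoped ComplexConjugate Classical

variable {F : Type*} [Field F] [Fintype F] {σ : F →+* F} {hσ : ∀ a, σ (σ a) = a}
  {V : Type*} [AddCommGroup V] [Module F V] [Fintype V] {S : PQ (FP.unit σ hσ) V} {q : ℕ} {χ : AddChar F ℂ}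
  {M : Subgroup (V ≃ₗ[F] V)}

theorem fourier {m : F → ℂ} {β : F} (h : ∀ χ : AddChar F ℂ, Adm σ χ → ∑ y with y + σ y = β, m y * χ y = 0)
    {y₁ y₂ : F} (h1 : y₁ + σ y₁ = β) (h2 : y₂ + σ y₂ = β) : m y₁ = m y₂ := by
  have key : ∀ z, z + σ z = β → (Fintype.card F : ℂ) * m z =
      ∑ χ : AddChar F ℂ, if Adm σ χ then 0 else ∑ y with y + σ y = β, m y := fun z hz => by
    have e : ∀ χ : AddChar F ℂ, (if Adm σ χ then 0 else ∑ y with y + σ y = β, m y) =
        ∑ y with y + σ y = β, m y * χ (y - z) := fun χ => by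
      split_ifs with hχ
      · simp only [sub_eq_add_neg, AddChar.map_add_eq_mul, ← mul_assoc, ← sum_mul, h χ hχ, zero_mul]
      · refine sum_congr rfl fun y hy => ?_
        rw [by_contra fun hc => hχ ⟨y - z, by rw [map_sub]; linear_combination (mem_filter.1 hy).2 - hz, hc⟩, mul_one]
    simp only [e]
    rw [sum_comm]
    simp [← mul_sum, AddChar.sum_apply_eq_ite, sub_eq_zero, hz, mul_comm]
  exact mul_left_cancel₀ (Nat.cast_ne_zero.2 Fintype.card_ne_zero) ((key _ h1).trans (key _ h2).symm)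

theorem Fd.cT (h : Fd σ q) {β : F} (hβ : σ β = β) : (univ.filter fun s : F => s + σ s = β).card = q := by
  obtain ⟨θ, hθ⟩ := exists_tr_eq h.ne h.inv hβ
  rw [← h.cL]
  refine card_bij' (fun y _ => y - θ) (fun y _ => y + θ) (fun y hy => ?_) (fun y hy => ?_) (by simp) (by simp)
  · simp only [mem_filter, mem_univ, true_and, map_sub] at hy ⊢
    linear_combination hy - hθ
  · simp only [mem_filter, mem_univ, true_and, map_add] at hy ⊢
    linear_combination hy + hθ

theorem Fd.pigeon (h : Fd σ q) (ho : Odd q) {β β' a a' : F} (hβ : σ β = β) (hβ' : σ β' = β') (ha : σ a = a)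
    (ha' : σ a' = a') (a0 : a ≠ 0) (a0' : a' ≠ 0) :
    ∃ z z', z + σ z = β ∧ z' + σ z' = β' ∧ a * (z * σ z) = a' * (z' * σ z') := by
  have key : ∀ {β a : F}, σ β = β → a ≠ 0 →
      q < 2 * ((univ.filter fun z : F => z + σ z = β).image fun z => a * (z * σ z)).card := fun {β a} hβ a0 => by
    have := card_le_mul_card_image (f := fun z => a * (z * σ z)) (univ.filter fun z : F => z + σ z = β) 2 fun n hn => by
      obtain ⟨z, hz, rfl⟩ := mem_image.1 hn
      refine (card_le_card fun y hy => ?_).trans (card_le_two (a := z) (b := σ z))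
      simp only [mem_filter, mem_univ, true_and, mul_right_inj' a0] at hy hz
      rw [mem_insert, mem_singleton, ← sub_eq_zero, ← sub_eq_zero (a := y), ← mul_eq_zero]
      linear_combination y * (hy.1 - hz) - hy.2
    rw [h.cT hβ] at this
    obtain ⟨k, hk⟩ := ho
    omega
  by_contra! hc
  have h1 := key hβ a0
  have h2 := key hβ' a0'
  have h3 := card_le_card (show (_ ∪ _ : Finset F) ⊆ univ.filter fun y => σ y = y from union_subset
    (s := (univ.filter fun z : F => z + σ z = β).image fun z => a * (z * σ z))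
    (t := (univ.filter fun z : F => z + σ z = β').image fun z => a' * (z * σ z))
    (image_subset_iff.2 fun z _ => by simp [ha, h.inv, mul_comm]) (image_subset_iff.2 fun z _ => by
      simp [ha', h.inv, mul_comm]))
  rw [h.cF, card_union_of_disjoint (disjoint_left.2 fun n hn hn' => by
    obtain ⟨z, hz, rfl⟩ := mem_image.1 hn
    obtain ⟨z', hz', e⟩ := mem_image.1 hn'
    exact hc z z' (mem_filter.1 hz).2 (mem_filter.1 hz').2 e.symm)] at h3
  omega

theorem self_orb (v : V) : v ∈ Orb σ M v := ⟨1, M.one_mem, 1, by simp, by simp⟩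

theorem orb_smul {v w : V} {c : F} (hc : c * σ c = 1) (h : w ∈ Orb σ M v) : c • w ∈ Orb σ M v := by
  obtain ⟨g, hg, d, hd, rfl⟩ := h
  exact ⟨g, hg, c * d, by rw [map_mul, mul_mul_mul_comm, hc, hd, one_mul], smul_smul _ _ _⟩

theorem orb_map {v w : V} {g : V ≃ₗ[F] V} (hg : g ∈ M) (h : w ∈ Orb σ M v) : g w ∈ Orb σ M v := by
  obtain ⟨k, hk, d, hd, rfl⟩ := h
  exact ⟨g * k, M.mul_mem hg hk, d, hd, by simp⟩

theorem orb_norm (hM : M ≤ S.isom) {v w : V} (h : w ∈ Orb σ M v) : S.B w w = S.B v v := by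
  obtain ⟨g, hg, d, hd, rfl⟩ := h
  rw [S.B_smul_left, Bsr, ← mul_assoc, hd, one_mul, PQ.B_isom (hM hg)]

/-- the characteristic function of an orbit -/
noncomputable def ind (H : Wd S q χ) (M : Subgroup (V ≃ₗ[F] V)) (v : V) : TA (bi H) :=
  fun w => if w ∈ Orb σ M v then 1 else 0

/-- the orbit sums act as scalars on a component of the Weil module -/
def Sc (H : Wd S q χ) (M : Subgroup (V ≃ₗ[F] V)) (l : ZZ σ →* ℂ) : Prop := ∀ v, ∃ s : ℂ, ind H M v * ee H l = s • ee H l

/-- the number of vectors in an orbit with a given product with `w` -/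
noncomputable def nw (S : PQ (FP.unit σ hσ) V) (M : Subgroup (V ≃ₗ[F] V)) (v w : V) (y : F) : ℕ :=
  (univ.filter fun u => u ∈ Orb σ M v ∧ S.B u w = y).card

theorem sum_nw (v w : V) (φ : F → ℂ) : ∑ u with u ∈ Orb σ M v, φ (S.B u w) = ∑ y, nw S M v w y * φ y := by
  rw [← sum_fiberwise (g := fun u => S.B u w)]
  refine sum_congr rfl fun y _ => ?_
  rw [sum_congr rfl fun u hu => by rw [(mem_filter.1 hu).2], sum_const, nsmul_eq_mul, filter_filter, nw]

theorem nw_smul (v w : V) {κ : F} (hκ : κ ≠ 0) (y : F) : nw S M v (κ • w) (σ κ * y) = nw S M v w y := by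
  simp only [nw, Bsr, mul_right_inj' (σ_ne hκ)]

theorem nw_rot (v w : V) {y y' : F} (h : y * σ y = y' * σ y') : nw S M v w y = nw S M v w y' := by
  by_cases y0 : y = 0
  · obtain rfl : y' = 0 := by simpa [y0] using h.symm
    rw [y0]
  have y1 : y' ≠ 0 := by rintro rfl; simp [y0] at h
  have key : ∀ {y y' : F}, y * σ y = y' * σ y' → y ≠ 0 → ∀ u, u ∈ Orb σ M v ∧ S.B u w = y →
      (y' / y) • u ∈ Orb σ M v ∧ S.B ((y' / y) • u) w = y' := fun {y y'} h y0 u hu =>
    ⟨orb_smul (by rw [map_div₀, div_mul_div_comm, ← h, div_self (mul_ne_zero y0 (σ_ne y0))]) hu.1,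
      by rw [S.B_smul_left, hu.2, div_mul_cancel₀ _ y0]⟩
  exact card_bij' (fun u _ => (y' / y) • u) (fun u _ => (y / y') • u)
    (fun u hu => mem_filter.2 ⟨mem_univ _, key h y0 u (mem_filter.1 hu).2⟩)
    (fun u hu => mem_filter.2 ⟨mem_univ _, key h.symm y1 u (mem_filter.1 hu).2⟩)
    (fun u _ => by simp [smul_smul, y0, y1]) fun u _ => by simp [smul_smul, y0, y1]

variable (H : Wd S q χ) (hM : M ≤ S.isom)
include hM

theorem ind_ee (l : ZZ σ →* ℂ) (v w : V) : (ind H M v * ee H l) w = (q + 1 : ℂ)⁻¹ * ind H M v w +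
    ∑ y, nw S M v w y * (EE χ q (finrank F V) l (S.B w w + S.B v v - (y + σ y)) * χ (y - S.B v v)) := by
  rw [← sum_nw, mul_ap, sum_filter, ← sum_ite_eq_of_mem univ w (fun u => (q + 1 : ℂ)⁻¹ * ind H M v u) (mem_univ _),
    ← sum_add_distrib]
  refine sum_congr rfl fun u _ => ?_
  simp only [ind, ee_ap, bi_f, sub_eq_zero, PQ.B_sub_left, PQ.B_sub_right, Bs]
  split_ifs with h1 h2
  · subst h2
    simp [orb_norm hM h1, add_mul, add_comm]
  · rw [orb_norm hM h1, add_zero, one_mul, zero_add]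
    congr 2
    ring
  · simp
  · simp

theorem ind_e0 (h5 : finrank F V = 5) (hs : Sc H M 1) (v : V) : ∃ s : ℂ, ∀ w, w ≠ 0 →
    ∑ y with y + σ y = S.B w w + S.B v v, nw S M v w y * χ (y - S.B v v) =
      q ^ 4 * ind H M v w + if S.B w w = 0 then s else 0 := by
  obtain ⟨s, hs⟩ := hs v
  refine ⟨s, fun w hw => ?_⟩
  have e := congrFun hs w
  rw [ind_ee H hM, smul_ap, ee_ap, if_neg hw, add_zero, EE_one H _ (Bs S w w), h5, sum_congr rfl fun y _ => by
    rw [EE_one H _ (by simp [Bs, hσ, add_comm])]] at e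
  simp only [sub_eq_zero, ite_mul, zero_mul, mul_ite, mul_zero, ← sum_filter, eq_comm (a := S.B w w + S.B v v),
    mul_left_comm (nw S M v w _ : ℂ), ← mul_sum] at e
  have h0 := neg_ne_zero.1 H.q0
  have h1 := H.q1
  split_ifs at e ⊢
  · field_simp at e
    linear_combination -e
  · field_simp at e
    linear_combination -e

theorem line (h5 : finrank F V = 5) (hs : ∀ χ (H : Wd S q χ), Sc H M 1) (hF : Fd σ q) (hS : S.Nondeg) (v : V) {w : V}
    (hw : S.B w w ≠ 0) {y₁ y₂ : F} (h1 : y₁ + σ y₁ = S.B w w + S.B v v) (h2 : y₂ + σ y₂ = S.B w w + S.B v v) :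
    (nw S M v w y₁ : ℂ) - (if w ∈ Orb σ M v ∧ y₁ = S.B v v then q ^ 4 else 0) =
      (nw S M v w y₂ : ℂ) - if w ∈ Orb σ M v ∧ y₂ = S.B v v then q ^ 4 else 0 := by
  refine fourier (m := fun y => (nw S M v w y : ℂ) - (if w ∈ Orb σ M v ∧ y = S.B v v then q ^ 4 else 0))
    (fun χ hχ => ?_) h1 h2
  obtain ⟨s, e⟩ := ind_e0 ⟨hF, hS, hχ⟩ hM h5 (hs χ _) v
  have e := congrArg (· * χ (S.B v v)) (e w (by rintro rfl; simp at hw))
  simp only [if_neg hw, add_zero, sum_mul, mul_assoc, ← AddChar.map_add_eq_mul, sub_add_cancel, ind] at e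
  simp only [sub_mul, sum_sub_distrib, e]
  split_ifs with h
  · simp [h, orb_norm hM h, Bs]
  · simp [h]

theorem G1 (h5 : finrank F V = 5) (hs : ∀ χ (H : Wd S q χ), Sc H M 1) (H : Wd S q χ) (v : V) (a : F)
    (hv : S.B v v = 0) (ha : σ a = a) (a0 : a ≠ 0) : a • v ∈ Orb σ M v := by
  by_cases v0 : v = 0
  · simpa [v0] using self_orb (0 : V)
  have H' : Wd S q (χ.mulShift a) := ⟨H.fd, H.nd, by
    obtain ⟨y, hy, y1⟩ := H.adm
    exact ⟨y / a, by rw [map_div₀, ha, ← add_div, hy, zero_div], by simpa [mul_div_cancel₀ _ a0] using y1⟩⟩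
  obtain ⟨s, e⟩ := ind_e0 H hM h5 (hs _ _) v
  obtain ⟨s', e'⟩ := ind_e0 H' hM h5 (hs _ _) v
  have key : ∀ w, w ≠ 0 → S.B w w = 0 → q ^ 4 * ind H M v (a • w) + s = q ^ 4 * ind H M v w + s' := fun w w0 hw => by
    have hw' : S.B (a • w) (a • w) = 0 := by simp [S.B_smul_left, hw]
    have e1 := e (a • w) (smul_ne_zero a0 w0)
    have e2 := e' w w0
    simp only [hw, hw', hv, if_true, sub_zero, add_zero] at e1 e2
    refine e1.symm.trans (Eq.trans ?_ e2)
    refine (sum_bij' (fun y _ => a * y) (fun y _ => y / a) (fun y hy => ?_) (fun y hy => ?_) (by simp [a0])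
      (fun y _ => mul_div_cancel₀ y a0) fun y _ => ?_).symm
    · simp only [mem_filter, mem_univ, true_and, map_mul, ha] at hy ⊢
      rw [← mul_add, hy, mul_zero]
    · simp only [mem_filter, mem_univ, true_and, map_div₀, ha] at hy ⊢
      rw [← add_div, hy, zero_div]
    · rw [← nw_smul v w a0, ha, AddChar.mulShift_apply]
  by_contra hc
  have e1 := key v v0 hv
  have e2 := key (a • v) (smul_ne_zero a0 v0) (by simp [S.B_smul_left, hv])
  simp only [ind, if_neg hc, if_pos (self_orb v)] at e1 e2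
  have h0 := pow_ne_zero 4 (neg_ne_zero.1 H.q0)
  split_ifs at e2
  · exact mul_ne_zero two_ne_zero h0 (by linear_combination e2 - e1)
  · exact h0 (by linear_combination e2 - e1)

theorem G2 (h5 : finrank F V = 5) (hs : ∀ χ (H : Wd S q χ), Sc H M 1) (hF : Fd σ q) (hS : S.Nondeg) (h2 : (2 : F) = 0)
    (v : V) (hv : S.B v v ≠ 0) : q ^ 2 ∣ (Orb σ M v).ncard := by
  have e1 : (Orb σ M v).ncard = ∑ y, nw S M v v y := by
    have := sum_nw (S := S) (M := M) v v fun _ => 1
    simp only [sum_const, nsmul_eq_mul, mul_one] at this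
    rw [Set.ncard_eq_toFinset_card', show (Orb σ M v).toFinset = univ.filter (· ∈ Orb σ M v) by ext; simp]
    exact_mod_cast this
  have inj : Function.Injective fun x : F => x * x := fun x y e => by
    rw [← sub_eq_zero, ← mul_self_eq_zero]
    linear_combination e + (y * y - x * y) * h2
  have e2 : ∀ y, nw S M v v y ≡ nw S M v v 0 [MOD q ^ 2] := fun y => by
    obtain ⟨b, hb⟩ := Finite.injective_iff_surjective.1 inj (y * σ y)
    replace hb : b * b = y * σ y := hb
    have hb' : σ b = b := inj (by simp only [← map_mul]; rw [hb, map_mul, hσ, mul_comm])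
    have := line hM h5 hs hF hS v hv (y₁ := b) (y₂ := 0) (by rw [hb']; linear_combination (b - S.B v v) * h2)
      (by linear_combination map_zero σ - S.B v v * h2)
    rw [nw_rot v v (y' := b) (by rw [hb', ← hb])]
    simp only [self_orb, true_and, hv.symm, if_false] at this
    rw [Nat.cast_zero, sub_zero, sub_eq_iff_eq_add] at this
    split_ifs at this
    · rw [show nw S M v v b = nw S M v v 0 + q ^ 2 * q ^ 2 by rw [← pow_add]; exact_mod_cast this]
      exact Nat.add_mul_mod_self_left _ _ _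
    · rw [show nw S M v v b = nw S M v v 0 by exact_mod_cast this]
  rw [e1, ← Nat.modEq_zero_iff_dvd]
  refine (Nat.ModEq.sum fun y _ => e2 y).trans ?_
  simp [hF.card, Nat.modEq_zero_iff_dvd]

theorem reg (h5 : finrank F V = 5) (hs : ∀ χ (H : Wd S q χ), Sc H M 1) (ho : Odd q) {v w : V} (hv : S.B v v ≠ 0)
    (hw : S.B w w ≠ 0) (hn : ∀ κ : F, κ ≠ 0 → κ • w ∉ Orb σ M v) (l : ZZ σ →* ℂ) : (ind H M v * ee H l) w = 0 := by
  have e1 : ∀ κ : F, κ ≠ 0 → ∀ y y', y + σ y = κ * σ κ * S.B w w + S.B v v →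
      y' + σ y' = κ * σ κ * S.B w w + S.B v v → nw S M v w (y / σ κ) = nw S M v w (y' / σ κ) := fun κ κ0 y y' h1 h2 => by
    have e : S.B (κ • w) (κ • w) = κ * σ κ * S.B w w := by rw [S.B_smul_left, Bsr, mul_assoc]
    have := line hM h5 hs H.fd H.nd v (w := κ • w) (by rw [e]; exact mul_ne_zero (mul_ne_zero κ0 (σ_ne κ0)) hw)
      (h1.trans (by rw [e])) (h2.trans (by rw [e]))
    rw [← nw_smul v w κ0, ← nw_smul v w κ0, mul_div_cancel₀ _ (σ_ne κ0), mul_div_cancel₀ _ (σ_ne κ0)]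
    simpa [hn κ κ0] using this
  have e2 : ∀ y, ∃ κ : F, κ ≠ 0 ∧ σ κ * y + σ (σ κ * y) = κ * σ κ * S.B w w + S.B v v := fun y => by
    obtain ⟨a, ha⟩ := exists_norm H.fd.ne hσ (c := (y * σ y - S.B v v * S.B w w) / S.B w w ^ 2)
      (by simp [Bs, hσ, mul_comm])
    have e : σ (a + y / S.B w w) * y + σ (σ (a + y / S.B w w) * y) =
        (a + y / S.B w w) * σ (a + y / S.B w w) * S.B w w + S.B v v := by
      simp only [map_add, map_mul, map_div₀, hσ, Bs]
      field_simp at ha ⊢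
      linear_combination -ha
    exact ⟨_, fun h => hv (by simpa [h] using e.symm), e⟩
  have e3 : ∀ y, nw S M v w y = nw S M v w 0 := fun y => by
    obtain ⟨κ, κ0, hκ⟩ := e2 y
    obtain ⟨μ, μ0, hμ⟩ := e2 0
    obtain ⟨z, z', hz, hz', e⟩ := H.fd.pigeon ho (β := κ * σ κ * S.B w w + S.B v v) (β' := μ * σ μ * S.B w w + S.B v v)
      (a := (κ * σ κ)⁻¹) (a' := (μ * σ μ)⁻¹) (by simp [Bs, hσ, mul_comm]) (by simp [Bs, hσ, mul_comm])
      (by simp [hσ, mul_comm]) (by simp [hσ, mul_comm]) (by simp [κ0]) (by simp [μ0])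
    have a1 := e1 κ κ0 _ _ hκ hz
    have a2 := e1 μ μ0 _ _ hμ hz'
    rw [mul_div_cancel_left₀ _ (σ_ne κ0)] at a1
    rw [mul_div_cancel_left₀ _ (σ_ne μ0)] at a2
    rw [a1, a2]
    refine nw_rot v w ?_
    rw [map_div₀, map_div₀, hσ, hσ, div_mul_div_comm, div_mul_div_comm, div_eq_inv_mul, div_eq_inv_mul, mul_comm (σ κ),
      mul_comm (σ μ), e]
  rw [ind_ee H hM, ind, if_neg (by simpa using hn 1 one_ne_zero), mul_zero, zero_add]
  simp only [e3, ← mul_sum]
  rw [← sum_fiberwise (g := fun y => y + σ y), sum_eq_zero, mul_zero]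
  intro β _
  rw [sum_congr rfl fun y hy => by rw [(mem_filter.1 hy).2, sub_eq_add_neg y, AddChar.map_add_eq_mul], ← mul_sum,
    ← sum_mul, H.fd.sumL H.adm, zero_mul, mul_zero]

theorem TR (h5 : finrank F V = 5) (hs : ∀ χ (H : Wd S q χ), Sc H M 1) (ho : Odd q) {l l' : ZZ σ →* ℂ} (hl : Sc H M l)
    (l1 : l ≠ 1) (l2 : l' ≠ 1) (l3 : l' ≠ l) (e0 : ee H l ≠ 0) (e0' : ee H l' ≠ 0) (v w : V) (hv : S.B v v ≠ 0)
    (hw : S.B w w = S.B v v) : w ∈ Orb σ M v := by
  by_contra hc
  have key : ∀ c, σ c = c → c ≠ 0 → EE χ q 5 l c = 0 := fun c hc1 c0 => by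
    obtain ⟨κ, hκ⟩ := exists_norm H.fd.ne hσ (c := c / S.B v v) (by simp [Bs, hc1])
    have e : ∀ u, S.B u u = S.B v v → S.B (κ • u) (κ • u) = c := fun u hu => by
      rw [S.B_smul_left, Bsr, ← mul_assoc, hκ, hu, div_mul_cancel₀ _ hv]
    have κ0 : κ ≠ 0 := by rintro rfl; exact c0 (by simpa using (e v rfl).symm)
    obtain ⟨s, hs'⟩ := hl (κ • v)
    have e1 := reg H hM h5 hs ho (v := κ • v) (w := κ • w) (by rwa [e v rfl]) (by rwa [e w hw]) (fun μ μ0 hμ => by
      have h1 := orb_norm hM hμ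
      rw [S.B_smul_left, Bsr, ← mul_assoc, e w hw, e v rfl, mul_eq_right₀ c0] at h1
      obtain ⟨g, hg, d, hd, e⟩ := hμ
      refine hc ⟨g, hg, μ⁻¹ * d, by rw [map_mul, map_inv₀, mul_mul_mul_comm, ← mul_inv, h1, hd, inv_one, one_mul], ?_⟩
      rw [mul_smul, eq_inv_smul_iff₀ μ0]
      exact smul_right_injective V κ0 (by simpa [smul_comm κ] using e)) l
    rw [hs', smul_ap, ee_ap, e w hw, h5, if_neg (by rintro h; simp [h] at e1; exact c0 (by simpa [h] using (e w hw).symm)),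
      add_zero, mul_eq_zero] at e1
    refine e1.elim (fun s0 => ?_) id
    have e2 := congrFun hs' 0
    rw [ind_ee H hM, s0, zero_smul, zero_ap, ind, if_neg fun h => c0 (by simpa [e v rfl] using (orb_norm hM h).symm),
      sum_eq_single 0 (fun y _ y0 => by simp [nw, y0.symm]) (by simp), e v rfl, h5] at e2
    have e3 : nw S M (κ • v) 0 0 ≠ 0 := card_ne_zero_of_mem (a := κ • v) (by simp [self_orb])
    simpa [e3, (χ.val_isUnit _).ne_zero] using e2
  have h0 := H.q0
  have h1 := H.q1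
  have e : ee H l = (EE χ q 5 l 0 / EE χ q 5 (1 : ZZ σ →* ℂ) 0) • ee H 1 +
      ((1 - EE χ q 5 l 0 / EE χ q 5 (1 : ZZ σ →* ℂ) 0) * (q + 1 : ℂ)⁻¹) • (1 : TA (bi H)) := funext fun u => by
    rw [add_ap, smul_ap, smul_ap, ee_ap, ee_ap, one_eq, rho_ap, h5]
    have e5 : EE χ q 5 (1 : ZZ σ →* ℂ) 0 ≠ 0 := by simp [EE_one H, h1, neg_ne_zero.1 h0]
    by_cases hu : S.B u u = 0
    · rw [hu]
      split_ifs <;> field_simp <;> ring
    · rw [key _ (Bs S u u) hu, EE_one H _ (Bs S u u), if_neg hu]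
      simp [show u ≠ 0 by rintro rfl; simp at hu]
  have e1 := congrArg (ee H l' * ·) e
  simp only [mul_add, mul_smul_comm, ee_mul, if_neg l2, if_neg l3, smul_zero, zero_add, mul_one] at e1
  rw [(smul_eq_zero_iff_left e0').1 e1.symm, zero_smul, add_zero] at e
  have e2 := congrArg (ee H l * ·) e
  simp only [mul_smul_comm, ee_mul, if_neg l1, if_true, smul_zero] at e2
  exact e0 e2

end Cfsg.Agent.H8.U5
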