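import Cfsg.Agent.H8.U5a
import Mathlib.RingTheory.Valuation.LocalSubring

/-!
Uniqueness of the projective cover of the trivial module, in the twisted group algebra.
-/

set_option autoImplicit false
set_option linter.unusedSectionVars false

namespace Cfsg.Agent.H8.U5

open Finset Cfsg Cfsg.Agent.H5.Char Cfsg.Agent.H2.Tr
open scoped Classical

theorem exists_R {r : ℕ} (hr : r.Prime) : ∃ R : ValuationSubring ℂ, (r : ℂ) ∈ R.nonunits ∧
    (∀ k : ℕ, ¬ r ∣ k → (k : ℂ)⁻¹ ∈ R) ∧ ∀ (z : ℂ) (k : ℕ), k ≠ 0 → z ^ k = 1 → z ∈ R := by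
  obtain ⟨R, -, h⟩ := Ideal.image_subset_nonunits_valuationSubring (A := (⊥ : Subring ℂ)) (Ideal.span {(r : (⊥ : Subring ℂ))})
    (by
      rw [Ne, Ideal.span_singleton_eq_top, isUnit_iff_exists_inv]
      rintro ⟨⟨_, a, rfl⟩, e⟩
      have e0 : (r : ℂ) * a = 1 := congrArg Subtype.val e
      have e' : (r : ℤ) * a = 1 := by exact_mod_cast e0
      exact hr.not_dvd_one (by exact_mod_cast Dvd.intro _ e'))
  have h1 : (r : ℂ) ∈ R.nonunits := h ⟨_, Ideal.subset_span rfl, rfl⟩
  refine ⟨R, h1, fun k hk => (R.mem_or_inv_mem k⁻¹).elim id fun _ => ?_, fun z k k0 e => ?_⟩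
  · by_contra hc
    have h2 : (k : ℂ) ∈ R.nonunits := by
      rw [← inv_inv (k : ℂ), R.inv_mem_nonunits_iff]
      exact Or.inr hc
    obtain ⟨a, c, e⟩ := Nat.isCoprime_iff_coprime.2 ((Nat.Prime.coprime_iff_not_dvd hr).2 hk)
    have e' : (a : ℂ) * r + c * k = 1 := by exact_mod_cast e
    have key : ∀ (a : ℤ) (x : ℂ), x ∈ R.nonunits → R.valuation (a * x) < 1 := fun a x hx => by
      rw [map_mul]
      exact (mul_le_of_le_one_left' ((R.valuation_le_one_iff _).2 (intCast_mem R a))).trans_lt (R.mem_nonunits_iff.1 hx)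
    simpa [e'] using R.valuation.map_add_lt (key a _ h1) (key c _ h2)
  · refine (R.mem_or_inv_mem z).elim id fun h => ?_
    obtain ⟨k, rfl⟩ := Nat.exists_eq_succ_of_ne_zero k0
    rw [pow_succ] at e
    rw [eq_inv_of_mul_eq_one_right e, ← inv_pow]
    exact pow_mem h k

variable {V : Type*} [AddCommGroup V] [Fintype V] {b : Bi V} {G : Type*} [Group G] [Fintype G] {n : ℕ}

/-- a bound for the valuations of the coefficients -/
def Le (R : ValuationSubring ℂ) (c : R.ValueGroup) (a : TA b) : Prop := ∀ w, R.valuation (a w) ≤ c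

theorem Le.mul {R : ValuationSubring ℂ} (hf : ∀ u v, b.f u v ∈ R) {c d : R.ValueGroup} {x y : TA b} (h1 : Le R c x)
    (h2 : Le R d y) : Le R (c * d) (x * y) := fun w => R.valuation.map_sum_le fun v _ => by
  rw [map_mul, map_mul, ← mul_one (c * d)]
  exact mul_le_mul' (mul_le_mul' (h1 _) (h2 _)) ((R.valuation_le_one_iff _).2 (hf _ _))

theorem Le.sum {R : ValuationSubring ℂ} {c : R.ValueGroup} {ι : Type*} [Fintype ι] {x : ι → TA b} (h : ∀ i, Le R c (x i)) :
    Le R c (∑ i, x i) := fun w => by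
  rw [sum_ap]
  exact R.valuation.map_sum_le fun i _ => h i w

theorem Le.smul {R : ValuationSubring ℂ} {c : R.ValueGroup} {x : TA b} (h : Le R c x) (z : ℂ) :
    Le R (R.valuation z * c) (z • x) := fun w => by
  rw [smul_ap, map_mul]
  exact mul_le_mul_right (h w) _

theorem Le.mono {R : ValuationSubring ℂ} {c d : R.ValueGroup} {x : TA b} (h : Le R c x) (e : c ≤ d) : Le R d x :=
  fun w => (h w).trans e

theorem exists_P {s : G → TA b} (hs : ∀ g h, s (g * h) = s g * s h) {χ : Irr G} (h1 : χ ≠ triv G)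
    (hc : ∀ g, n * s g 0 = 1 + χ.1 g) : ∃ P : TA b, n * P 0 = 1 ∧ P * P = P ∧ ∀ g, s g * P = P ∧ P * s g = P := by
  have e : ∀ g, s g * ((Nat.card G : ℂ)⁻¹ • ∑ g, s g) = (Nat.card G : ℂ)⁻¹ • ∑ g, s g := fun g => by
    rw [mul_smul_comm, mul_sum]
    congr 1
    exact Fintype.sum_equiv (Equiv.mulLeft g) _ _ fun h => (hs g h).symm
  refine ⟨(Nat.card G : ℂ)⁻¹ • ∑ g, s g, ?_, ?_, fun g => ⟨e g, ?_⟩⟩
  · have := inner_irr χ (triv G)
    simp only [if_neg h1, classInner, triv_apply, map_one, mul_one] at this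
    rw [smul_ap, sum_ap, mul_left_comm, mul_sum]
    simp only [hc, sum_add_distrib, mul_add, this, sum_const, card_univ, nsmul_eq_mul, mul_one, add_zero]
    rw [← Nat.card_eq_fintype_card, inv_mul_cancel₀ card_ne]
  · nth_rewrite 1 [smul_mul_assoc, sum_mul]
    simp only [e, sum_const, card_univ, ← Nat.cast_smul_eq_nsmul ℂ]
    rw [smul_smul, ← Nat.card_eq_fintype_card, inv_mul_cancel₀ card_ne, one_smul]
  · rw [smul_mul_assoc, sum_mul]
    congr 1
    exact Fintype.sum_equiv (Equiv.mulRight g) _ _ fun h => (hs h g).symm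

theorem val_contra (hn : n * n = Fintype.card V) {s s' : G → TA b} (hs : ∀ g h, s (g * h) = s g * s h)
    (hs' : ∀ g h, s' (g * h) = s' g * s' h) {χ χ' : Irr G} (h1 : χ ≠ triv G) (hne : χ ≠ χ')
    (hc : ∀ g, n * s g 0 = 1 + χ.1 g) (hc' : ∀ g, n * s' g 0 = 1 + χ'.1 g) (h1' : χ' ≠ triv G)
    (X : Subgroup G) [Fintype X] (R : ValuationSubring ℂ) (hf : ∀ u v, b.f u v ∈ R) (hV : (Fintype.card V : ℂ)⁻¹ ∈ R)
    (hI : (X.index : ℂ)⁻¹ ∈ R) (hX : (Nat.card X : ℂ) ∈ R.nonunits) (i1 : ∀ g w, s g w ∈ R) (i2 : ∀ g w, s' g w ∈ R)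
    {θ θ' : TA b} (i3 : ∀ w, θ w ∈ R) (i4 : ∀ w, θ' w ∈ R) (e1 : s 1 = ∑ x : X, s x * θ * s (x : G)⁻¹)
    (e2 : s' 1 = ∑ x : X, s' x * θ' * s' (x : G)⁻¹) : False := by
  obtain ⟨P, p1, p2, p3⟩ := exists_P hs h1 hc
  obtain ⟨P', p1', -, p3'⟩ := exists_P hs' h1' hc'
  have hs0 : ∀ g h, s (g * h) - P = (s g - P) * (s h - P) := fun g h => by
    rw [sub_mul, mul_sub, mul_sub, ← hs, (p3 g).1, (p3 h).2, p2, sub_self, sub_zero]
  have inv : ∀ α : TA b, (∀ g, s' g * α = α * s g) → α * s 1 = α → ∀ g, α * s g = α := fun α a1 a2 g => by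
    have := hom_zero hn (s := fun g => s g - P) hs0 hs' (by
      simp only [sub_ap, mul_sub, hc, hc', p1, add_sub_cancel_left]
      have e1 := inner_irr (triv G) χ
      have e2 := inner_irr χ' χ
      simp only [if_neg h1.symm, if_neg hne.symm, classInner, triv_apply] at e1 e2
      simp only [classInner, add_mul, sum_add_distrib, mul_add, e1, e2, add_zero]) (a := α * (s 1 - P))
      (fun g => by rw [← mul_assoc, a1, mul_assoc, mul_assoc, ← hs0, mul_sub, ← hs, (p3 g).1, mul_one, one_mul])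
      (by rw [mul_assoc, ← hs0, mul_one])
    rw [mul_sub, a2, sub_eq_zero] at this
    rw [this, mul_assoc, (p3 g).2]
  have le1 : ∀ {x : TA b}, (∀ w, x w ∈ R) → Le R 1 x := fun h w => (R.valuation_le_one_iff _).2 (h w)
  have lr : ∀ v, Le R 1 (rho b v) := fun v => le1 fun w => by rw [rho_ap]; split_ifs; exacts [one_mem _, zero_mem _]
  obtain ⟨w, -, hw⟩ := exists_max_image univ (fun w => R.valuation (P w)) univ_nonempty
  obtain ⟨w', -, hw'⟩ := exists_max_image univ (fun w => R.valuation (P' w)) univ_nonempty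
  have lP : Le R (R.valuation (P w)) P := fun u => hw u (mem_univ _)
  have lP' : Le R (R.valuation (P' w')) P' := fun u => hw' u (mem_univ _)
  have hX0 : (Nat.card X : ℂ) ≠ 0 := card_ne
  have e3 : ∑ g, s' g * (θ' * P') = (X.index : ℂ) • P' := by
    have e : ∑ x : X, s' x * (θ' * P') = P' := by
      simpa only [sum_mul, mul_assoc, (p3' _).1] using (congrArg (· * P') e2).symm
    refine smul_right_injective _ hX0 ?_
    have e' : ∀ x : X, ∑ g, s' g * (θ' * P') = ∑ g, s' g * (s' x * (θ' * P')) := fun x =>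
      (Fintype.sum_equiv (Equiv.mulRight (x : G)) _ _ fun g => by simp [hs', mul_assoc]).symm
    have e'' := sum_congr (rfl : (univ : Finset X) = univ) fun x _ => e' x
    rw [sum_comm (s := (univ : Finset X)) (t := (univ : Finset G)) (f := fun x g => s' g * (s' x * (θ' * P')))] at e''
    simp only [sum_const] at e''
    simp only [← mul_sum, e, (p3' _).1, sum_const, card_univ, ← Nat.cast_smul_eq_nsmul ℂ, ← Nat.card_eq_fintype_card,
      ← X.card_mul_index, Nat.cast_mul, mul_smul] at e''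
    exact e''
  have key : ∀ v, Le R (R.valuation (Nat.card X) * (R.valuation (P' w') * R.valuation (P w))) (P' * rho b v * P) := fun v => by
    have lα : Le R (R.valuation (P' w')) (∑ g, s' g * (θ' * P') * rho b v * s g⁻¹) := Le.sum fun g => by
      simpa using (((le1 (i2 g)).mul hf ((le1 i4).mul hf lP')).mul hf (lr v)).mul hf (le1 (i1 g⁻¹))
    have a := inv (∑ g, s' g * (θ' * P') * rho b v * s g⁻¹) (fun h => by
      rw [mul_sum, sum_mul]
      exact Fintype.sum_equiv (Equiv.mulLeft h) _ _ fun g => by simp [hs', mul_assoc, ← hs]) (by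
      simp only [sum_mul, mul_assoc, ← hs, mul_one])
    have b1 : (∑ g, s' g * (θ' * P') * rho b v * s g⁻¹) * P = (X.index : ℂ) • (P' * rho b v * P) := by
      simp only [sum_mul, mul_assoc _ (s _), (p3 _).1]
      rw [← sum_mul, ← sum_mul, e3, smul_mul_assoc, smul_mul_assoc]
    generalize (∑ g, s' g * (θ' * P') * rho b v * s g⁻¹) = α at lα a b1
    have b2 : α * P = (Nat.card X : ℂ) • (α * θ * P) := by
      conv_lhs => rw [← (p3 1).1, e1]
      simp only [sum_mul, mul_sum, mul_assoc _ (s _), (p3 _).1, ← mul_assoc α, a, sum_const, card_univ,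
        ← Nat.cast_smul_eq_nsmul ℂ, ← Nat.card_eq_fintype_card]
    rw [b2, eq_comm, ← eq_inv_smul_iff₀ (Nat.cast_ne_zero.2 X.index_ne_zero_of_finite)] at b1
    rw [b1]
    refine ((((lα.mul hf (le1 i3)).mul hf lP).smul _).smul _).mono ?_
    rw [mul_one]
    exact mul_le_of_le_one_left' ((R.valuation_le_one_iff _).2 hI)
  have lri : ∀ v, Le R 1 (rhi b v) := fun v => ((lr (-v)).smul (b.f v v)).mono (by
    rw [mul_one]; exact (R.valuation_le_one_iff _).2 (hf _ _))
  have fin := (Le.sum fun v => ((key v).mul hf (lr (-w))).mul hf (lri v)).smul ((Fintype.card V : ℂ)⁻¹ * b.f w w) w'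
  have e4 := congrArg (P' * ·) (avg (P * rho b (-w)))
  simp only [mul_sum, ← mul_assoc, mul_smul_comm, mul_one, mul_rho_ap, zero_sub, neg_neg] at e4
  have e5 : (Fintype.card V : ℂ)⁻¹ * b.f w w * (Fintype.card V * P w * b.f w (-w)) = P w := by
    have := b.ne w w
    have := cardV (V := V)
    rw [b.negr']
    field_simp
  rw [e4, smul_smul, e5, smul_ap, map_mul, mul_one, mul_one, mul_comm] at fin
  have pos : ∀ {P : TA b} {w : V}, n * P 0 = 1 → Le R (R.valuation (P w)) P → 0 < R.valuation (P w) := fun h h' =>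
    ((Valuation.pos_iff _).2 (right_ne_zero_of_mul_eq_one h)).trans_le (h' 0)
  refine (fin.trans (mul_le_of_le_one_left' ((R.valuation_le_one_iff _).2 (mul_mem hV (hf _ _))))).not_gt ?_
  exact mul_lt_of_lt_one_left (mul_pos (pos p1' lP') (pos p1 lP)) (R.mem_nonunits_iff.1 hX)

end Cfsg.Agent.H8.U5
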