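import Cfsg.Agent.H8.U5d
import Cfsg.Agent.H8.U5h
import Cfsg.Agent.H8.U5v
import Cfsg.Agent.H2.U5G2
import Cfsg.Agent.H3.U5Rc
import Mathlib.GroupTheory.FiniteAbelian.Duality

/-!
An overgroup of the Singer normaliser in `SU₅(q)` is the whole group.
-/

set_option autoImplicit false
set_option linter.unusedSectionVars false

namespace Cfsg.Agent.H8.U5

open Finset Module Cfsg.Agent.Form Cfsg.Agent.H6.SU Cfsg.Agent.H7 Cfsg.Agent.H5.Char Cfsg.Agent.H2.Tr
  Cfsg.Agent.H4.CAG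
open scoped ComplexConjugate Classical

universe u v

variable {F : Type u} [Field F] [Fintype F] {σ : F →+* F} {hσ : ∀ a, σ (σ a) = a}
  {V : Type v} [AddCommGroup V] [Module F V] [Fintype V] {S : PQ (FP.unit σ hσ) V} {q : ℕ} {χ : AddChar F ℂ}

theorem fx_lt {g : V ≃ₗ[F] V} (h : g ≠ 1) : fx g < finrank F V :=
  Submodule.finrank_lt fun e => h (LinearEquiv.ext fun v => sub_eq_zero.1 (LinearMap.mem_ker.1 (e.ge trivial)))

instance finEq : Finite (V ≃ₗ[F] V) := Finite.of_injective (fun g => (g : V → V)) DFunLike.coe_injective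

theorem exists_rep (A Ω : Type*) [Group A] [MulAction A Ω] :
    ∃ rep : Ω → Ω, (∀ (a : A) w, rep (a • w) = rep w) ∧ ∀ w, ∃ a : A, a • w = rep w :=
  ⟨fun w => (Quotient.mk (MulAction.orbitRel A Ω) w).out,
    fun a w => congrArg Quotient.out (Quotient.sound (MulAction.mem_orbit w a)),
    fun w => Quotient.mk_out (s := MulAction.orbitRel A Ω) w⟩

variable (H : Wd S q χ) (h5 : finrank F V = 5)
include h5

theorem zeta5 {g : V ≃ₗ[F] V} (hg : g ∈ S.isom) (l : ZZ σ →* ℂ) : (q ^ 5 : ℕ) * (WW H g * ee H l) 0 =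
    (q + 1 : ℂ)⁻¹ * ∑ c, l c⁻¹ * -(-q) ^ fx (g * scl V c) := by
  have := zeta_eq H hg l
  rw [h5] at this
  simpa [Odd.neg_one_pow (n := 5) (by decide)] using this

omit h5 in
include H in
theorem sum_l' (l : ZZ σ →* ℂ) : (q + 1 : ℂ)⁻¹ * ∑ c, l c⁻¹ = if l = 1 then 1 else 0 := by
  split_ifs with h
  · simp [h, H.fd.cZ, H.q1]
  · rw [sum_l h, mul_zero]

theorem ee_zero (l : ZZ σ →* ℂ) : (q ^ 5 : ℕ) * ee H l 0 = tt q - if l = 1 then 1 else 0 := by
  have e := zeta5 H h5 S.isom.one_mem l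
  have e1 : ∀ c : ZZ σ, l c⁻¹ * -(-q : ℂ) ^ fx (1 * scl V c) = (if c = 1 then ((q + 1) * tt q : ℂ) else 0) - l c⁻¹ := fun c => by
    split_ifs with h
    · have : fx (1 : V ≃ₗ[F] V) = 5 := by
        rw [fx, show ((1 : V ≃ₗ[F] V) : V →ₗ[F] V) - 1 = 0 from sub_self _, LinearMap.ker_zero, finrank_top, h5]
      have e2 : ((q + 1) * tt q : ℂ) = q ^ 5 + 1 := by exact_mod_cast tt_mul q
      rw [h, map_one, one_mul, this, e2, inv_one, map_one]
      ring
    · have h2 := σ_ne (σ := σ) (sub_ne h)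
      rw [map_sub, map_one, hσ] at h2
      rw [one_mul, fx_eq_zero fun v hv => (smul_eq_zero_iff_right h2).1 (by rw [sub_smul, one_smul, ← scl_ap, hv, sub_self])]
      simp
  rw [W_one, one_mul] at e
  simp only [e, e1, sum_sub_distrib, mul_sub, sum_l' H, sum_ite_eq', mem_univ, if_true, inv_mul_cancel_left₀ H.q1]

theorem ee_ne (l : ZZ σ →* ℂ) : ee H l ≠ 0 := fun e => by
  have e1 := ee_zero H h5 l
  have e2 := tt_eq q
  have h2 := H.fd.two_le
  have : q ^ 3 * 2 ≤ q ^ 4 := by rw [pow_succ q 3]; exact Nat.mul_le_mul_left _ h2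
  have : q * 2 ≤ q ^ 2 := by nlinarith
  rw [e, zero_ap, mul_zero, eq_comm, sub_eq_zero] at e1
  split_ifs at e1 <;> norm_cast at e1 <;> omega

omit h5 in
theorem exists_theta {A : Type*} [Group A] [Fintype A] (ι : A →* V ≃ₗ[F] V) (h1 : ∀ a, ι a ∈ S.isom)
    (h2 : ∀ a v, ι a v = v → a = 1 ∨ v = 0) (l : ZZ σ →* ℂ) : ∃ θ : TA (bi H),
    (∀ w, θ w = ee H l 0 / Nat.card A ∨ θ w = ee H l w ∨ θ w = 0) ∧
    ee H l = ∑ a, WW H (ι a) * ee H l * θ * (WW H (ι a⁻¹) * ee H l) := by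
  letI := MulAction.compHom V ι
  obtain ⟨rep, r1, r2⟩ := exists_rep A V
  let θ : TA (bi H) := fun w => if w = 0 then ee H l 0 / Nat.card A else if w = rep w then ee H l w else 0
  refine ⟨θ, fun w => by simp only [θ]; split_ifs <;> simp, ?_⟩
  let y : A → TA (bi H) := fun a w => θ (ι a⁻¹ w)
  have e1 : ∀ a, WW H (ι a) * θ * WW H (ι a⁻¹) = y a := fun a => by
    rw [(itw_W H (h1 a)).act θ (y a) (by simp [y]), mul_assoc, ← W_mul H (h1 _) (h1 _), ← map_mul,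
      mul_inv_cancel, map_one, W_one, mul_one]
  have e2 : ∑ a, WW H (ι a) * θ * WW H (ι a⁻¹) = ee H l := funext fun w => by
    simp only [e1, sum_ap]
    simp only [y, θ, EmbeddingLike.map_eq_zero_iff]
    split_ifs with w0
    · rw [sum_const, card_univ, nsmul_eq_mul, ← Nat.card_eq_fintype_card, mul_div_cancel₀ _ card_ne, w0]
    · obtain ⟨a, ha⟩ := r2 w
      replace ha : ι a w = rep w := ha
      have e3 : ∀ a, rep (ι a w) = rep w := fun a => r1 a w
      rw [sum_eq_single a⁻¹ (fun b _ hb => if_neg fun e => hb ?_) (by simp), inv_inv, e3, if_pos ha, ee_ap, ee_ap,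
        PQ.B_isom (h1 a)]
      · simp [w0]
      · rw [e3, ← ha] at e
        have := (h2 (b * a) w (by rw [map_mul, LinearEquiv.mul_apply]; exact e ▸ by simp)).resolve_right w0
        exact eq_inv_of_mul_eq_one_left this
  have e3 : ee H l * ee H l = ee H l := by simp [ee_mul]
  calc ee H l = ee H l * (∑ a, WW H (ι a) * θ * WW H (ι a⁻¹)) * ee H l := by rw [e2, e3, e3]
    _ = _ := by simp only [mul_sum, sum_mul, ee_comm H (h1 _), mul_assoc]

omit h5 in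
theorem W_int {R : ValuationSubring ℂ} (h1 : ∀ (z : ℂ) (k : ℕ), k ≠ 0 → z ^ k = 1 → z ∈ R) (h2 : (q : ℂ)⁻¹ ∈ R)
    (h3 : ((q + 1 : ℕ) : ℂ)⁻¹ ∈ R) : (∀ u v, (bi H).f u v ∈ R) ∧ ∀ (g : V ≃ₗ[F] V) l w, (WW H g * ee H l) w ∈ R := by
  have hf : ∀ u v, (bi H).f u v ∈ R := fun u v => h1 _ (Fintype.card F) Fintype.card_ne_zero (by
    rw [bi_f, ← AddChar.map_nsmul_eq_pow, card_nsmul_eq_zero, AddChar.map_zero_eq_one])
  have sm : ∀ {x : TA (bi H)} {z : ℂ}, z ∈ R → Le R 1 x → Le R 1 (z • x) := fun hz hx => (hx.smul _).mono (by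
    rw [mul_one]; exact (R.valuation_le_one_iff _).2 hz)
  have mu : ∀ {x y : TA (bi H)}, Le R 1 x → Le R 1 y → Le R 1 (x * y) := fun hx hy => by simpa using hx.mul hf hy
  have lr : ∀ v, Le R 1 (rho (bi H) v) := fun v w => by rw [rho_ap]; split_ifs <;> simp
  have lW : ∀ g : V ≃ₗ[F] V, Le R 1 (WW H g) := fun g => sm (by
    rw [← inv_pow, inv_neg]; exact pow_mem (neg_mem h2) _) (Le.sum fun v => mu (lr _) (sm (hf _ _) (lr _)))
  refine ⟨hf, fun g l w => (R.valuation_le_one_iff _).1 (mu (lW g) (sm (by simpa using h3) (Le.sum fun c => sm ?_ (lW _))) w)⟩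
  exact h1 _ (Fintype.card (ZZ σ)) Fintype.card_ne_zero (by rw [← map_pow, pow_card_eq_one, map_one])

/-- minus one -/
def mone (σ : F →+* F) : ZZ σ := ⟨-1, by simp [ZZ]⟩

theorem parity {z : V ≃ₗ[F] V} (hz : z ∈ S.isom) (z1 : z ≠ 1) (z2 : z * z = 1) {i j : ZZ σ →* ℂ} (hi : i ≠ 1) (hj : j ≠ 1)
    (hij : i (mone σ) ≠ j (mone σ)) : (WW H z * ee H i) 0 ≠ (WW H z * ee H j) 0 := fun e => by
  have e1 := congrArg (((q ^ 5 : ℕ) : ℂ) * ·) e
  simp only [zeta5 H h5 hz, mul_right_inj' (inv_ne_zero H.q1)] at e1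
  have e2 : ∑ c : ZZ σ, (i c⁻¹ - j c⁻¹) * (1 - (-q : ℂ) ^ fx (z * scl V c)) = 0 := by
    simp only [sub_mul, mul_sub, mul_one, sum_sub_distrib, sum_l hi, sum_l hj]
    simp only [mul_neg, sum_neg_distrib] at e1
    linear_combination e1
  rw [sum_eq_single (mone σ) (fun c _ hc => ?_) (by simp), mul_eq_zero, sub_eq_zero, sub_eq_zero,
    show (mone σ)⁻¹ = mone σ from Subtype.ext (by simp [mone])] at e2
  · refine e2.elim hij fun e3 => ?_
    obtain ⟨x, hx⟩ : ∃ x, z x ≠ x := by_contra fun hc => z1 (LinearEquiv.ext (by simpa using hc))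
    have e4 : fx (z * scl V (mone σ)) ≠ 0 := by
      rw [fx, Ne, Submodule.finrank_eq_zero, Submodule.eq_bot_iff]
      intro hc
      refine hx (sub_eq_zero.1 (hc _ ?_))
      have : z (z x) = x := congrArg (· x) z2
      simp [scl_ap, mone, this]
    have := congrArg norm e3
    rw [norm_one, norm_pow, norm_neg, Complex.norm_natCast, eq_comm, pow_eq_one_iff_of_nonneg q.cast_nonneg e4] at this
    have h2 := H.fd.two_le
    norm_cast at this
    omega
  · by_cases c1 : c = 1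
    · simp [c1]
    rw [fx_eq_zero fun v hv => ?_, pow_zero, sub_self, mul_zero]
    have e3 : ((c : Fˣ) : F) • z v = v := by simpa [scl_ap] using hv
    have e4 : ((c : Fˣ) : F) • v = z v := by
      have := congrArg z e3
      rwa [map_smul, show z (z v) = v from congrArg (· v) z2] at this
    rw [← e4, smul_smul, ← sub_eq_zero, ← one_smul F v, smul_smul, mul_one, ← sub_smul, smul_eq_zero, sub_eq_zero,
      mul_self_eq_one_iff] at e3
    exact e3.resolve_left (not_or.2 ⟨fun e => c1 (Subtype.ext (Units.ext e)), fun e => hc (Subtype.ext (Units.ext e))⟩)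

omit h5 in
theorem exists_ij (hF : Fd σ q) (ho : Odd q) (h9 : q ≠ 9) : ∃ i j : ZZ σ →* ℂ, i ≠ 1 ∧ j ≠ 1 ∧ i (mone σ) ≠ j (mone σ) ∧
    (∀ c, c ^ 5 = 1 → i c = 1) ∧ ∀ c, c ^ 5 = 1 → j c = 1 := by
  have h2 := hF.two_le
  obtain ⟨φ, hφ⟩ := CommGroup.exists_apply_ne_one_of_hasEnoughRootsOfUnity (ZZ σ) ℂ (a := mone σ) fun e => by
    have e1 : (-1 : F) = 1 := congrArg (fun c : ZZ σ => ((c : Fˣ) : F)) e
    have := FiniteField.even_card_of_char_two (F := F) (CharP.ringChar_of_prime_eq_zero Nat.prime_two (by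
      push_cast; linear_combination -e1))
    rw [hF.card] at this
    have := Nat.odd_iff.1 (ho.pow (n := 2))
    omega
  obtain ⟨c, hc⟩ : ∃ c : ZZ σ, c ^ 10 ≠ 1 := by
    by_contra! hc
    have := Monoid.exponent_dvd_of_forall_pow_eq_one hc
    rw [IsCyclic.exponent_eq_card, Nat.card_eq_fintype_card, hF.cZ] at this
    have h3 := Nat.le_of_dvd (by omega) this
    obtain ⟨k, rfl⟩ := ho
    have : k ≤ 4 := by omega
    interval_cases k <;> omega
  obtain ⟨ψ, hψ⟩ := CommGroup.exists_apply_ne_one_of_hasEnoughRootsOfUnity (ZZ σ) ℂ hc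
  have m2 : mone σ ^ 2 = 1 := Subtype.ext (by simp [mone])
  have m5 : mone σ ^ 5 = mone σ := by rw [show 5 = 2 * 2 + 1 from rfl, pow_succ, pow_mul, m2, one_pow, one_mul]
  have m10 : mone σ ^ 10 = 1 := by rw [show 10 = 2 * 5 from rfl, pow_mul, m2, one_pow]
  refine ⟨(Units.coeHom ℂ).comp (φ.comp (powMonoidHom 5)), (Units.coeHom ℂ).comp (ψ.comp (powMonoidHom 10)),
    fun e => hφ ?_, fun e => hψ ?_, ?_, fun c hc => ?_, fun c hc => ?_⟩
  · simpa only [MonoidHom.comp_apply, powMonoidHom_apply, m5, Units.coeHom_apply, MonoidHom.one_apply, Units.val_eq_one]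
      using DFunLike.congr_fun e (mone σ)
  · simpa only [MonoidHom.comp_apply, powMonoidHom_apply, Units.coeHom_apply, MonoidHom.one_apply, Units.val_eq_one]
      using DFunLike.congr_fun e c
  · simpa only [MonoidHom.comp_apply, powMonoidHom_apply, m5, m10, Units.coeHom_apply, map_one, Ne, Units.val_eq_one]
      using hφ
  · simp only [MonoidHom.comp_apply, powMonoidHom_apply, hc, map_one]
  · simp only [MonoidHom.comp_apply, powMonoidHom_apply, show 10 = 5 * 2 from rfl, pow_mul, hc, one_pow, map_one]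

section sgd
variable {K T : Subgroup (V ≃ₗ[F] V)} {Γ : Type*} [Group Γ] [Fintype Γ] {π : K →* Γ} {X : Subgroup Γ}
  (D : SgD S q K T π X)
include D

omit h5 in
theorem SgD.iso (g : K) : g.1 ∈ S.isom := (D.le g.2).1

include H in
theorem SgD.ker' {g : K} (hg : π g = 1) : ∃ c : ZZ σ, c ^ 5 = 1 ∧ g.1 = scl V c := by
  obtain ⟨c, hc⟩ := (D.ker g).1 hg
  have : Nontrivial V := Module.nontrivial_of_finrank_pos (R := F) (by omega)
  obtain ⟨v, hv⟩ := exists_ne (0 : V)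
  obtain ⟨u, hu⟩ := H.nd.exists_ne hv
  have e := PQ.B_isom (D.iso g) u v
  rw [hc, hc, S.B_smul_left, Bsr, ← mul_assoc, mul_eq_right₀ hu] at e
  refine ⟨⟨Units.mk0 c (left_ne_zero_of_mul_eq_one e), e⟩, Subtype.ext (Units.ext ?_), LinearEquiv.ext hc⟩
  have e1 : LinearMap.det (g.1 : V →ₗ[F] V) = 1 := by
    rw [← LinearEquiv.coe_det, (mem_sisom.1 (D.le g.2)).2, Units.val_one]
  rw [show (g.1 : V →ₗ[F] V) = c • LinearMap.id from LinearMap.ext hc, LinearMap.det_smul, h5] at e1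
  simpa using e1

theorem SgD.fam {l : ZZ σ →* ℂ} (hl : ∀ c, c ^ 5 = 1 → l c = 1) : ∃ (s : Γ → TA (bi H)) (m : Irr Γ → ℕ),
    (∀ g : K, s (π g) = WW H g.1 * ee H l) ∧ Ch (fun γ => (q ^ 5 : ℕ) * s γ 0) m ∧
    (q ^ 5 : ℕ) * s 1 0 = (tt q - if l = 1 then 1 else 0) ∧
    (∀ x ∈ X, x ≠ 1 → (q ^ 5 : ℕ) * s x 0 = -if l = 1 then 1 else 0) ∧
    (classInner (fun γ => (q ^ 5 : ℕ) * s γ 0) (fun γ => (q ^ 5 : ℕ) * s γ 0) = 1 → Sc H K l) := by
  have e0 : ee H l * ee H l = ee H l := by simp [ee_mul]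
  have e1 : ∀ g : K, WW H (Function.surjInv D.surj (π g)).1 * ee H l = WW H g.1 * ee H l := fun g => by
    obtain ⟨c, c1, c2⟩ := D.ker' H h5 (g := g⁻¹ * Function.surjInv D.surj (π g)) (by simp [Function.surjInv_eq])
    rw [Subgroup.coe_mul, Subgroup.coe_inv, inv_mul_eq_iff_eq_mul] at c2
    rw [c2, W_mul H (D.iso g) (scl_mem S c), mul_assoc, W_ee, hl c c1, one_smul]
  have hs : ∀ γ δ, WW H (Function.surjInv D.surj (γ * δ)).1 * ee H l =
      WW H (Function.surjInv D.surj γ).1 * ee H l * (WW H (Function.surjInv D.surj δ).1 * ee H l) := fun γ δ => by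
    obtain ⟨g, rfl⟩ := D.surj γ
    obtain ⟨h, rfl⟩ := D.surj δ
    rw [← map_mul, e1, e1, e1, Subgroup.coe_mul, W_mul H (D.iso g) (D.iso h), mul_assoc, mul_assoc, ← mul_assoc (ee H l),
      ← ee_comm H (D.iso h), mul_assoc, e0]
  have hn : q ^ 5 * q ^ 5 = Fintype.card V := h5 ▸ H.sq
  have e2 : WW H (Function.surjInv D.surj 1).1 * ee H l = ee H l := by
    rw [← map_one π, e1, OneMemClass.coe_one, W_one, one_mul]
  obtain ⟨m, hm⟩ := ch_fam hn (fun γ => WW H (Function.surjInv D.surj γ).1 * ee H l) hs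
  refine ⟨_, m, e1, hm, by rw [e2, ee_zero H h5], fun x hx x1 => ?_, fun h0 v => ?_⟩
  · obtain ⟨g, g1, rfl, -⟩ := D.lift x hx
    rw [e1, zeta5 H h5 (D.iso g), ← sum_l' H, ← mul_neg, ← sum_neg_distrib]
    congr 1
    refine sum_congr rfl fun c _ => ?_
    rw [fx_eq_zero fun v hv => (D.free _ (T.mul_mem g1 (D.sc _ _ (zz c) (scl_ap c))) v hv).resolve_left fun e => x1 ?_]
    · simp
    · rw [mul_eq_one_iff_eq_inv, ← map_inv] at e
      exact (D.ker g).2 ⟨_, fun v => by rw [e, scl_ap]⟩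
  · have c1 : ∀ g ∈ S.isom, (∀ w ∈ Orb σ K v, g w ∈ Orb σ K v) → (∀ w ∈ Orb σ K v, g⁻¹ w ∈ Orb σ K v) →
        WW H g * ind H K v = ind H K v * WW H g := fun g hg a b => (itw_W H hg).act _ _ fun w =>
      if_congr ⟨fun h => by simpa using b _ h, a w⟩ rfl rfl
    have c2 : ee H l * ind H K v = ind H K v * ee H l := by
      simp only [ee, mul_smul_comm, smul_mul_assoc, mul_sum, sum_mul, fun c => c1 _ (scl_mem S c)
        (fun w => orb_smul (zz c)) fun w => by rw [← map_inv]; exact orb_smul (zz c⁻¹)]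
    simpa only [e2] using hom_one hn hs h0 (a := ind H K v * ee H l) (fun γ => by
      rw [mul_assoc, ← mul_assoc (ee H l), c2, ← mul_assoc, ← mul_assoc, c1 _ (D.iso _) (fun w => orb_map (Subtype.prop _))
        fun w => orb_map (K.inv_mem (Subtype.prop _)), mul_assoc _ (WW H _), ee_comm H (D.iso _)]
      simp only [mul_assoc, ee_comm H (D.iso _)]) (by rw [e2, mul_assoc, e0])

include H in
theorem main0 {p f : ℕ} (hp : p.Prime) (hq : q = p ^ f) (h3 : 3 ≤ q) (h4 : q ≠ 4) :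
    wt X = 5 ∧ Sc H K 1 ∧ q * (q - 1) * (q ^ 2 + 1) ∣ Nat.card K := by
  obtain ⟨s, m, s1, s2, s3, s4, s5⟩ := D.fam H h5 (l := 1) fun _ _ => rfl
  obtain ⟨a, b, c⟩ := CH0 hp hq h3 h4 D.ca D.gen D.ne D.wt D.card D.dvd s2 (by simpa using s3) (by simpa using s4)
    fun γ γ1 => by
      obtain ⟨g, rfl⟩ := D.surj γ
      have e : ∀ c : ZZ σ, (-(-q : ℂ) ^ fx (g.1 * scl V c)).re ≤ q ^ 3 := fun c => by
        have := fx_lt (g := g.1 * scl V c) fun e => γ1 (by
          rw [mul_eq_one_iff_eq_inv, ← map_inv] at e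
          exact (D.ker g).2 ⟨_, fun v => by rw [e, scl_ap]⟩)
        rw [show (-(-q : ℂ) ^ fx (g.1 * scl V c)) = ((-(-q : ℝ) ^ fx (g.1 * scl V c) : ℝ) : ℂ) by simp, Complex.ofReal_re]
        have h3' : (3 : ℝ) ≤ q := by exact_mod_cast h3
        generalize fx (g.1 * scl V c) = k at this
        rw [h5] at this
        interval_cases k <;> nlinarith [pow_pos (show (0 : ℝ) < q by linarith) 2, pow_pos (show (0 : ℝ) < q by linarith) 3,
          pow_pos (show (0 : ℝ) < q by linarith) 4]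
      simp only [s1, zeta5 H h5 (D.iso g), MonoidHom.one_apply, one_mul]
      rw [show (q + 1 : ℂ)⁻¹ = ((q + 1 : ℝ)⁻¹ : ℝ) by simp, Complex.re_ofReal_mul, Complex.re_sum,
        inv_mul_le_iff₀ (by positivity)]
      simpa [H.fd.cZ] using sum_le_card_nsmul univ _ _ fun c _ => e c
  exact ⟨a, s5 b, c.trans (Subgroup.card_dvd_of_surjective π D.surj)⟩

include H in
theorem SgD.red (h3 : 3 ≤ q) (h4 : q ≠ 4) (h2 : 2 ∣ Nat.card K) {i j : ZZ σ →* ℂ} (hi : i ≠ 1) (hj : j ≠ 1)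
    (hij : i (mone σ) ≠ j (mone σ)) {φ ψ : Irr Γ} (φ1 : φ ≠ triv Γ) (ψ1 : ψ ≠ triv Γ)
    (hφ : ∀ g : K, (q ^ 5 : ℕ) * (WW H g.1 * ee H i) 0 = 1 + φ.1 (π g))
    (hψ : ∀ g : K, (q ^ 5 : ℕ) * (WW H g.1 * ee H j) 0 = 1 + ψ.1 (π g)) : False := by
  have := Fintype.ofFinite K
  obtain ⟨r, hr, r1, r2, r3, r4⟩ := CH2 h3 h4 D.ca D.card
  obtain ⟨R, R1, R2, R3⟩ := exists_R hr
  obtain ⟨i1, i2⟩ := W_int H R3 (R2 q r3) (R2 _ r4)
  have hT : ∀ a : X.comap π, a.1.1 ∈ T := fun a => by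
    obtain ⟨g, g1, g2, -⟩ := D.lift _ a.2
    obtain ⟨c, -, c2⟩ := D.ker' H h5 (g := g⁻¹ * a.1) (by simp [g2])
    rw [Subgroup.coe_mul, Subgroup.coe_inv, inv_mul_eq_iff_eq_mul] at c2
    exact c2 ▸ T.mul_mem g1 (D.sc _ _ (zz c) (scl_ap c))
  obtain ⟨k, hk⟩ : Nat.card (X.comap π) ∣ (q + 1) * tt q := by
    rw [tt_mul, ← D.tcard]
    exact Subgroup.card_dvd_of_injective ((K.subtype.comp (X.comap π).subtype).codRestrict T hT) fun a b e =>
      Subtype.ext (Subtype.ext (congrArg (Subtype.val : T → _) e))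
  have key : ∀ l : ZZ σ →* ℂ, l ≠ 1 → (∀ g h : K, WW H (g * h).1 * ee H l = WW H g.1 * ee H l * (WW H h.1 * ee H l)) ∧
      ∃ θ : TA (bi H), (∀ w, θ w ∈ R) ∧ WW H (1 : K).1 * ee H l =
        ∑ a : X.comap π, WW H a.1.1 * ee H l * θ * (WW H (a.1⁻¹).1 * ee H l) := fun l hl => by
    refine ⟨fun g h => by rw [Subgroup.coe_mul, W_mul H (D.iso g) (D.iso h), mul_assoc, mul_assoc, ← mul_assoc (ee H l),
      ← ee_comm H (D.iso h), mul_assoc, ee_mul, if_pos rfl], ?_⟩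
    obtain ⟨θ, t1, t2⟩ := exists_theta H (K.subtype.comp (X.comap π).subtype) (fun a => D.iso a.1)
      (fun a v e => (D.free _ (hT a) v e).imp_left fun e => Subtype.ext (Subtype.ext e)) l
    refine ⟨θ, fun w => ?_, by rw [OneMemClass.coe_one, W_one, one_mul]; exact t2⟩
    rcases t1 w with e | e | e <;> rw [e]
    · have e1 := ee_zero H h5 l
      have e2 : ((q + 1) * tt q : ℂ) = Nat.card (X.comap π) * k := by exact_mod_cast hk
      have h0 := neg_ne_zero.1 H.q0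
      have h1 := H.q1
      have h2 : (Nat.card (X.comap π) : ℂ) ≠ 0 := card_ne
      rw [show ee H l 0 / Nat.card (X.comap π) = k * ((q + 1 : ℕ) : ℂ)⁻¹ * (q : ℂ)⁻¹ ^ 5 by
        rw [if_neg hl] at e1
        push_cast at e1 ⊢
        field_simp
        linear_combination (q + 1) * e1 + e2]
      exact mul_mem (mul_mem (natCast_mem R k) (R2 _ r4)) (pow_mem (R2 q r3) 5)
    · simpa [W_one] using i2 1 l w
    · exact zero_mem R
  obtain ⟨a1, θ, a2, a3⟩ := key i hi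
  obtain ⟨b1, θ', b2, b3⟩ := key j hj
  have nt : ∀ {φ : Irr Γ}, φ ≠ triv Γ → (⟨_, isIrr_comp π D.surj φ⟩ : Irr K) ≠ triv K := fun h e =>
    h (Subtype.ext (funext fun γ => by
      obtain ⟨g, rfl⟩ := D.surj γ
      exact congrFun (congrArg Subtype.val e) g))
  refine val_contra (h5 ▸ H.sq) a1 b1 (nt φ1) (fun e => ?_) hφ hψ (nt ψ1) (X.comap π) R i1 ?_ ?_ ?_ (fun g => i2 _ i)
    (fun g => i2 _ j) a2 b2 a3 b3
  · obtain ⟨z, hz⟩ := exists_prime_orderOf_dvd_card' (hp := ⟨Nat.prime_two⟩) 2 h2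
    refine parity H h5 (D.iso z) (fun e => by simp [show z = 1 from Subtype.ext e] at hz)
      (congrArg Subtype.val (show z * z = 1 by rw [← sq, ← hz, pow_orderOf_eq_one])) hi hj hij ?_
    refine mul_left_cancel₀ (a := ((q ^ 5 : ℕ) : ℂ)) (by simpa using neg_ne_zero.1 H.q0) ?_
    rw [hφ, hψ]
    exact congrArg (1 + ·) (congrFun (congrArg Subtype.val e) z)
  · rw [← H.sq]
    exact R2 _ fun h => r3 (hr.dvd_of_dvd_pow (pow_add q _ _ ▸ h))
  · exact R2 _ (by rwa [Subgroup.index_comap_of_surjective _ D.surj])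
  · obtain ⟨a, ha⟩ := r1.trans (Subgroup.card_dvd_of_surjective (π.subgroupComap X)
      (π.subgroupComap_surjective_of_surjective X D.surj))
    rw [ha, R.mem_nonunits_iff, Nat.cast_mul, map_mul]
    exact (mul_le_of_le_one_right' ((R.valuation_le_one_iff _).2 (natCast_mem R a))).trans_lt (R.mem_nonunits_iff.1 R1)

end sgd

omit [Fintype F] [Fintype V] h5 in
theorem weil [Finite F] [FiniteDimensional F V] (h : Un S q) (hq : 3 ≤ q) (h4 : q ≠ 4) (h9 : q ≠ 9)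
    {K T : Subgroup (V ≃ₗ[F] V)} {Γ : Type v} [Group Γ] [Fintype Γ] {π : K →* Γ} {X : Subgroup Γ}
    (D : SgD S q K T π X) : sisom S ≤ K := by
  have := Fintype.ofFinite F
  have := Module.finite_of_finite F (M := V)
  have := Fintype.ofFinite V
  have := Fintype.ofFinite K
  have hF : Fd σ q := ⟨by rw [← h.card, Nat.card_eq_fintype_card], hσ, h.ne⟩
  obtain ⟨δ, δ0, hδ⟩ := exists_tr_zero h.ne hσ
  obtain ⟨χ, hχ⟩ := AddChar.exists_apply_ne_zero.2 δ0
  have H : Wd S q χ := ⟨hF, h.nd, δ, hδ, hχ⟩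
  obtain ⟨p, _, n, hp, hn⟩ := FiniteField.card' F
  obtain ⟨f, -, hf⟩ := (Nat.dvd_prime_pow hp).1 (hn ▸ hF.card ▸ dvd_pow_self q two_ne_zero)
  have hM : K ≤ S.isom := fun g hg => (D.le hg).1
  have hs : ∀ χ (H : Wd S q χ), Sc H K 1 := fun χ H => (main0 H h.dim D hp hf hq h4).2.1
  obtain ⟨hw, -, hd⟩ := main0 H h.dim D hp hf hq h4
  have hT : HasT S K := by
    rcases Nat.even_or_odd q with he | ho
    · have h2 : (2 : F) = 0 := by
        have := (FiniteField.even_card_iff_char_two (F := F)).2 (by rw [hF.card]; exact Nat.even_iff.1 (he.pow_of_ne_zero two_ne_zero))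
        exact_mod_cast (ringChar.spec F 2).2 (this ▸ dvd_rfl)
      exact H2.U5G.GA h hM h2 (G2 hM h.dim hs hF h.nd h2)
    obtain ⟨i, j, hi, hj, hij, i5, j5⟩ := exists_ij hF ho h9
    have key : ∀ l : ZZ σ →* ℂ, l ≠ 1 → (∀ c, c ^ 5 = 1 → l c = 1) → Sc H K l ∨
        ∃ φ : Irr Γ, φ ≠ triv Γ ∧ ∀ g : K, (q ^ 5 : ℕ) * (WW H g.1 * ee H l) 0 = 1 + φ.1 (π g) := fun l hl l5 => by
      obtain ⟨s, m, s1, s2, s3, s4, s5⟩ := D.fam H h.dim l5
      refine (CH1 hp hf hq h4 D.ca D.gen hw D.card D.dvd (fun h5 => ?_) s2 (by simpa [hl] using s3)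
        (by simpa only [if_neg hl, neg_zero] using s4)).imp s5 fun ⟨φ, a, b⟩ => ⟨φ, a, fun g => s1 g ▸ b (π g)⟩
      obtain ⟨r, k, r1, r2, r3, r4⟩ := H3.U5R.A3 (q := q) (by have := Nat.odd_iff.1 ho; omega)
      refine ⟨_, r4, r3, fun φ => ?_⟩
      obtain ⟨d, d1, d2⟩ := H3.U5R.rtrick h hM r1 r2 r3 ((r3.mul_left _).trans hd) r4 ⟨_, isIrr_comp π D.surj φ⟩
      refine ⟨d, d1, ?_⟩
      rwa [show deg φ = deg (⟨_, isIrr_comp π D.surj φ⟩ : Irr K) from Nat.cast_injective (R := ℂ) (by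
        rw [← deg_eq, ← deg_eq]; simp)]
    have hne : i ≠ j := fun e => hij (e ▸ rfl)
    rcases key i hi i5 with a | ⟨φ, a, a'⟩
    · exact H2.U5G.GB h hM (TR H hM h.dim hs ho a hi hj hne.symm (ee_ne H h.dim i) (ee_ne H h.dim j))
    rcases key j hj j5 with b | ⟨ψ, b, b'⟩
    · exact H2.U5G.GB h hM (TR H hM h.dim hs ho b hj hi hne (ee_ne H h.dim j) (ee_ne H h.dim i))
    exact (D.red H h.dim hq h4 ((((Nat.even_mul_pred_self q).mul_right _).two_dvd).trans hd) hi hj hij a b a' b').elim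
  obtain ⟨d, d0, hd⟩ := H2.U5G.GD h hM hT (G1 hM h.dim hs H)
  exact H2.U5G.GC h hq D.le D.irr d0 hd

end Cfsg.Agent.H8.U5
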