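import Cfsg.Agent.H8.MS

/-!
Maximality of the normaliser of a quadratic field of similarities (unitary type).
-/

set_option autoImplicit false
set_option linter.unusedSectionVars false
set_option linter.unusedVariables false

namespace Cfsg.Agent.H8

open QuadraticMap Module

variable {F V : Type*} [Field F] [AddCommGroup V] [Module F V]

/-- `J` generates a quadratic field acting by similarities. -/
structure UJ (Q : QuadraticForm F V) (J : V →ₗ[F] V) (τ ν : F) : Prop where
  sq : ∀ x, J (J x) = τ • J x - ν • x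
  Q_J : ∀ x, Q (J x) = ν * Q x
  pol_J : ∀ x, polar Q x (J x) = τ * Q x
  aniso : ∀ c d : F, c * c + c * d * τ + d * d * ν = 0 → c = 0 ∧ d = 0

variable {Q : QuadraticForm F V} {J : V →ₗ[F] V} {τ ν : F} {K : Subgroup (V ≃ₗ[F] V)}

namespace UJ

theorem adj (h : UJ Q J τ ν) (x y : V) : polar Q (J x) y = τ * polar Q x y - polar Q x (J y) := by
  have h1 := h.pol_J (x + y)
  rw [_root_.map_add, polar_add_left, polar_add_right, polar_add_right, h.pol_J, h.pol_J, Q_add,
    pol_comm Q y] at h1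
  linear_combination h1

theorem pol_JJ (h : UJ Q J τ ν) (x y : V) : polar Q (J x) (J y) = ν * polar Q x y := by
  rw [h.adj, h.sq, polar_sub_right, pol_smul_right, pol_smul_right]; ring

theorem mem_of_comb (h : UJ Q J τ ν) {W : Submodule F V} (hW : ∀ x ∈ W, J x ∈ W) {x : V} {c d : F}
    (hcd : ¬ (c = 0 ∧ d = 0)) (hx : c • x + d • J x ∈ W) : x ∈ W := by
  have h1 : c * c + c * d * τ + d * d * ν ≠ 0 := fun h0 => hcd (h.aniso c d h0)
  have h2 := W.sub_mem (W.smul_mem (c + d * τ) hx) (W.smul_mem d (hW _ hx))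
  have e : (c + d * τ) • (c • x + d • J x) - d • J (c • x + d • J x) =
      (c * c + c * d * τ + d * d * ν) • x := by
    rw [_root_.map_add, _root_.map_smul, _root_.map_smul, h.sq]; module
  rw [e] at h2
  exact (W.smul_mem_iff h1).1 h2

theorem J_mem (h : UJ Q J τ ν) (a : V) : ∀ x ∈ sp F [a, J a], J x ∈ sp F [a, J a] := by
  intro x hx
  obtain ⟨c, d, rfl⟩ := mem_sp_two.1 hx
  exact mem_sp_two.2 ⟨-(d * ν), c + d * τ, by
    rw [_root_.map_add, _root_.map_smul, _root_.map_smul, h.sq]; module⟩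

theorem eq_zero (h : UJ Q J τ ν) {x : V} {c d : F} (hx : x ≠ 0) (h0 : c • x + d • J x = 0) :
    c = 0 ∧ d = 0 := by
  by_contra hcd
  exact hx (h.mem_of_comb (W := ⊥) (fun y hy => by rw [(Submodule.mem_bot F).1 hy]; simp) hcd
    (by rw [h0]; exact Submodule.zero_mem _))

theorem mem_swap (h : UJ Q J τ ν) {x y : V} (hx : x ≠ 0) (hxy : x ∈ sp F [y, J y]) :
    y ∈ sp F [x, J x] := by
  obtain ⟨c, d, e⟩ := mem_sp_two.1 hxy
  refine h.mem_of_comb (h.J_mem x) (c := c) (d := d) (fun h0 => hx ?_)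
    (by rw [← e]; exact mem_sp_of_mem (by simp))
  rw [e, h0.1, h0.2]; simp

theorem comm (h : UJ Q J τ ν) {v : V} (hv : Q v = 0) (c : F) (x : V) :
    siegel Q v (c • J v) (J x) = J (siegel Q v (c • J v) x) := by
  have h1 : polar Q v (c • J v) = 0 := by rw [pol_smul_right, h.pol_J, hv]; ring
  have h2 : Q (c • J v) = 0 := by rw [Q_smul, h.Q_J, hv]; ring
  rw [siegel_apply hv h1, siegel_apply hv h1, h2, pol_smul_right, pol_smul_right, h.adj,
    h.pol_JJ]
  simp only [_root_.map_add, _root_.map_sub, _root_.map_smul, h.sq]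
  module

variable [Finite F] [FiniteDimensional F V]

theorem exists_z (h : UJ Q J τ ν) (hN : ND Q) (h12 : 12 ≤ finrank F V) {a y w : V}
    (hy : y ∉ sp F [a, J a]) (hw : w ∉ sp F [y, a, J a]) :
    ∃ z, Q z = 0 ∧ polar Q a z = 0 ∧ polar Q (J a) z = 0 ∧ polar Q y z = 0 ∧
      polar Q (J y) z ≠ 0 ∧ polar Q w z ≠ 0 := by
  have h1 : J y ∉ sp F [y, a, J a] := by
    intro h1
    obtain ⟨c, hc⟩ := mem_sp_cons.1 h1
    exact hy (h.mem_of_comb (h.J_mem a) (c := -c) (d := 1) (by simp)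
      (by convert hc using 1; module))
  obtain ⟨z, hz, h2, h3⟩ := hN.exists_perp_two h1 hw
  obtain ⟨z', hQ, hz'⟩ := hN.exists_value_list [a, J a, y, J y, w] (by simpa using h12) z 0
  have k := mem_perp_sp.1 hz
  exact ⟨z', hQ, by rw [hz' a (by simp), k a (by simp)], by rw [hz' _ (by simp), k _ (by simp)],
    by rw [hz' _ (by simp), k _ (by simp)], by rwa [hz' _ (by simp)], by rwa [hz' _ (by simp)]⟩

theorem spread_one (h : UJ Q J τ ν) (hN : ND Q) (h12 : 12 ≤ finrank F V)
    (hK : ∀ v, Q v = 0 → J v ∈ MS Q K v) {a b : V} (ha : Q a = 0) (hb : b ∈ MS Q K a)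
    (hab : b ∉ sp F [a, J a]) : perp Q (sp F [a, J a]) ≤ MS Q K a := by
  have step : ∀ y ∈ MS Q K a, ∀ z, Q z = 0 → polar Q a z = 0 → polar Q (J a) z = 0 →
      polar Q y z = 0 → polar Q (J y) z ≠ 0 → z ∈ MS Q K a := by
    intro y hy z hz h1 h2 h3 h4
    have h5 : polar Q a (J z) = 0 := by
      have := h.adj a z; rw [h1, h2] at this; linear_combination this
    have h6 : polar Q y (J z) = -polar Q (J y) z := by
      have := h.adj y z; rw [h3] at this; linear_combination this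
    have h7 := MS_fix (siegel_mem_OG z (J z)) (MS_siegel (hK z hz)) (siegel_fix h1 h5) hy
    rw [siegel_apply_of_perp hz (hK z hz).1 h3, h6] at h7
    have h8 := (MS Q K a).sub_mem h7 hy
    have e : y - -polar Q (J y) z • z - y = polar Q (J y) z • z := by module
    rw [e] at h8
    exact ((MS Q K a).smul_mem_iff h4).1 h8
  by_contra hne
  have h1 : ¬ perp Q (MS Q K a) ≤ sp F [a, J a] := by
    intro h1
    have := perp_anti (Q := Q) h1
    rw [hN.perp_perp] at this
    exact hne this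
  obtain ⟨w, hw, hwa⟩ := SetLike.not_le_iff_exists.1 h1
  have key : ∀ y ∈ MS Q K a, y ∉ sp F [a, J a] → w ∈ sp F [y, a, J a] := by
    intro y hy hya
    by_contra h2
    obtain ⟨z, hz, e1, e2, e3, e4, e5⟩ := h.exists_z hN h12 hya h2
    exact e5 (mem_perp'.1 hw z (step y hy z hz e1 e2 e3 e4))
  obtain ⟨r, hr, hr'⟩ := exists_not_mem (T := perp Q (sp F [a, J a])) (S := sp F [b, a, J a]) (by
    have h2 := hN.finrank_perp (sp F [a, J a])
    have h3 := finrank_sp_le (F := F) [a, J a]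
    have h4 := finrank_sp_le (F := F) [b, a, J a]
    simp only [List.length_cons, List.length_nil] at h3 h4
    omega)
  obtain ⟨z, hz, e1, e2, e3, e4, e5⟩ := h.exists_z hN h12 hab hr'
  have hza : z ∉ sp F [a, J a] := fun h2 => e5 (mem_perp'.1 hr z h2)
  obtain ⟨c, hc⟩ := mem_sp_cons.1 (key b hb hab)
  obtain ⟨d, hd⟩ := mem_sp_cons.1 (key z (step b hb z hz e1 e2 e3 e4) hza)
  have hc0 : c ≠ 0 := by rintro rfl; exact hwa (by simpa using hc)
  have h5 := Submodule.sub_mem _ hd hc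
  have h6 : polar Q a (J z) = 0 := by
    have := h.adj a z; rw [e1, e2] at this; linear_combination this
  have h7 : J z ∈ perp Q (sp F [a, J a]) := mem_perp_sp.2 (by
    simp only [List.mem_cons, List.not_mem_nil, or_false, forall_eq_or_imp, forall_eq]
    exact ⟨h6, by rw [h.pol_JJ, e1, mul_zero]⟩)
  have h8 := mem_perp.1 h7 _ h5
  have e : w - d • z - (w - c • b) = c • b - d • z := by abel
  rw [e, polar_sub_left, pol_smul_left, pol_smul_left, h.pol_J, hz] at h8
  have h9 := h.adj b z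
  rw [e3] at h9
  apply e4
  have : c * polar Q (J b) z = 0 := by rw [h9]; linear_combination -h8
  exact (mul_eq_zero.1 this).resolve_left hc0

theorem exists_link (hN : ND Q) (h11 : 11 ≤ finrank F V) (a x : V) :
    ∃ y, Q y = 0 ∧ y ∈ perp Q (sp F [a, J a]) ∧ y ∈ perp Q (sp F [x, J x]) ∧
      y ∉ sp F [a, J a] ∧ y ∉ sp F [x, J x] := by
  obtain ⟨y, -, h1, h2, h3⟩ := exists_sing Q ⊤ [a, J a, x, J x] [a, J a, x, J x]
    (by rw [finrank_top]; simpa using h11)
  refine ⟨y, h3, mem_perp_sp.2 fun w hw => h2 w ?_, mem_perp_sp.2 fun w hw => h2 w ?_,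
    fun h => h1 (sp_le.2 (fun w hw => mem_sp_of_mem ?_) h),
    fun h => h1 (sp_le.2 (fun w hw => mem_sp_of_mem ?_) h)⟩ <;>
  simp only [List.mem_cons, List.not_mem_nil, or_false] at hw ⊢ <;> tauto

theorem spread_all (h : UJ Q J τ ν) (hN : ND Q) (h12 : 12 ≤ finrank F V)
    (hK : ∀ v, Q v = 0 → J v ∈ MS Q K v) {a b : V} (ha : Q a = 0) (ha0 : a ≠ 0)
    (hb : b ∈ MS Q K a) (hab : b ∉ sp F [a, J a]) {x : V} (hx : Q x = 0) :
    perp Q (sp F [x, J x]) ≤ MS Q K x := by
  obtain ⟨y, hy, h1, h2, h3, h4⟩ := exists_link (J := J) hN (by omega) a x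
  have hy0 : y ≠ 0 := by rintro rfl; exact h3 (Submodule.zero_mem _)
  have k1 := h.spread_one hN h12 hK ha hb hab
  have k2 := h.spread_one hN h12 hK hy (MS_swap ha hy (k1 h1)) fun h5 => h3 (h.mem_swap ha0 h5)
  have h6 : x ∈ perp Q (sp F [y, J y]) := by
    have e1 := mem_perp_sp.1 h2 x (by simp)
    have e2 := mem_perp_sp.1 h2 (J x) (by simp)
    refine mem_perp_sp.2 ?_
    simp only [List.mem_cons, List.not_mem_nil, or_false, forall_eq_or_imp, forall_eq]
    refine ⟨by rwa [pol_comm], ?_⟩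
    have := h.adj x y
    rw [pol_comm]; rw [e1, e2] at this; linear_combination this
  exact h.spread_one hN h12 hK hx (MS_swap hy hx (k2 h6)) h4

theorem all_siegel (h : UJ Q J τ ν) (hN : ND Q) (h12 : 12 ≤ finrank F V) (hKO : K ≤ OG Q)
    (hK : ∀ v, Q v = 0 → J v ∈ MS Q K v)
    (hall : ∀ x, Q x = 0 → perp Q (sp F [x, J x]) ≤ MS Q K x) {u : V} (hu : Q u = 0) (v : V) :
    siegel Q u v ∈ K := by
  by_cases hu0 : u = 0
  · have := MS_smul 0 (hall u hu (Submodule.zero_mem _))
    have e : siegel Q u v = 1 := by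
      ext x
      rw [siegel_apply hu (by simp [hu0])]
      simp [hu0]
    rw [e]; exact K.one_mem
  have h1 : J u ∉ sp F [u] := by
    intro h1
    obtain ⟨c, hc⟩ := mem_sp_one.1 h1
    have := (h.eq_zero (c := -c) (d := 1) hu0 (by rw [hc]; module)).2
    exact one_ne_zero this
  obtain ⟨x₀, hx1, hx2⟩ := hN.exists_dual h1
  obtain ⟨x, hx, hx'⟩ := hN.exists_value_list [u, J u] (by simp; omega) x₀ 0
  have e1 : polar Q u x = 0 := by rw [hx' u (by simp), hx2 u (mem_sp_of_mem (by simp))]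
  have e2 : polar Q (J u) x = 1 := by rw [hx' _ (by simp), hx1]
  obtain ⟨y, hy, hy'⟩ := hN.exists_value_list [u, x, J x] (by simp; omega) 0 1
  simp only [polar_zero_right, List.mem_cons, List.not_mem_nil, or_false, forall_eq_or_imp,
    forall_eq] at hy'
  obtain ⟨e3, e4, e5⟩ := hy'
  have k1 : y ∈ MS Q K x := hall x hx (mem_perp_sp.2 (by simp [e4, e5]))
  have k2 := MS_fix (siegel_mem_OG x y) (MS_siegel k1) (siegel_fix e1 e3) (hK u hu)
  have e6 : polar Q (J u) (siegel Q x y (J u)) = -1 := by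
    rw [siegel_apply hx e4, polar_sub_right, polar_add_right, pol_smul_right, pol_smul_right,
      pol_self, h.Q_J, hu, e2, hy]
    ring
  refine siegel_all_of_MS (fun z hz => ?_) v
  have e : z = (z + polar Q (J u) z • siegel Q x y (J u)) -
      polar Q (J u) z • siegel Q x y (J u) := by abel
  rw [e]
  refine Submodule.sub_mem _ (hall u hu (mem_perp_sp.2 ?_)) (Submodule.smul_mem _ _ k2)
  simp only [List.mem_cons, List.not_mem_nil, or_false, forall_eq_or_imp, forall_eq]
  exact ⟨by rw [polar_add_right, pol_smul_right, hz, k2.1]; ring,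
    by rw [polar_add_right, pol_smul_right, e6]; ring⟩

theorem semilinear (h : UJ Q J τ ν) (hN : ND Q) (h11 : 11 ≤ finrank F V) {L : V →ₗ[F] V}
    (hL : ∀ w, Q w = 0 → L w ∈ sp F [w, J w]) : ∃ α β : F, ∀ x, L x = α • x + β • J x := by
  obtain ⟨w₀, -, hw0, hw⟩ := exists_sing_three Q (T := ⊤) (by rw [finrank_top]; omega)
  obtain ⟨α, β, hab⟩ := mem_sp_two.1 (hL w₀ hw)
  let κ : V →ₗ[F] V := L - α • LinearMap.id - β • J
  have hκ : ∀ x, κ x = L x - α • x - β • J x := fun x => rfl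
  have k1 : ∀ w, Q w = 0 → κ w ∈ sp F [w, J w] := fun w hw => by
    rw [hκ]
    exact Submodule.sub_mem _ (Submodule.sub_mem _ (hL w hw)
      (Submodule.smul_mem _ _ (mem_sp_of_mem (by simp))))
      (Submodule.smul_mem _ _ (mem_sp_of_mem (by simp)))
  have step : ∀ x y, x ≠ 0 → Q x = 0 → Q y = 0 → polar Q x y = 0 → y ∉ sp F [x, J x] → κ x = 0 →
      κ y = 0 := by
    intro x y hx0 hx hy hxy h1 h2
    obtain ⟨c, d, e1⟩ := mem_sp_two.1 (k1 y hy)
    obtain ⟨c', d', e2⟩ := mem_sp_two.1 (k1 (x + y) (by rw [Q_add, hx, hy, hxy]; ring))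
    rw [_root_.map_add, h2, zero_add, e1, _root_.map_add] at e2
    have e3 : (c - c') • y + (d - d') • J y = c' • x + d' • J x := by
      linear_combination (norm := module) e2
    have h3 : c - c' = 0 ∧ d - d' = 0 := by
      by_contra h3
      exact h1 (h.mem_of_comb (h.J_mem x) h3 (by rw [e3]; exact mem_sp_two.2 ⟨_, _, rfl⟩))
    rw [h3.1, h3.2, zero_smul, zero_smul, add_zero] at e3
    obtain ⟨h4, h5⟩ := h.eq_zero hx0 e3.symm
    rw [e1, sub_eq_zero.1 h3.1, sub_eq_zero.1 h3.2, h4, h5]; simp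
  refine ⟨α, β, fun x => ?_⟩
  have := eq_zero_of_sing hN (by omega) (κ := κ) (fun u hu => ?_) x
  · rw [hκ] at this; linear_combination (norm := module) this
  by_cases hu0 : u = 0
  · rw [hu0, _root_.map_zero]
  obtain ⟨y, hy, h1, h2, h3, h4⟩ := exists_link (J := J) hN h11 w₀ u
  have hy0 : y ≠ 0 := by rintro rfl; exact h3 (Submodule.zero_mem _)
  refine step y u hy0 hy hu (by rw [pol_comm]; exact mem_perp_sp.1 h2 u (by simp))
    (fun h5 => h4 (h.mem_swap hu0 h5))
    (step w₀ y hw0 hw hy (mem_perp_sp.1 h1 w₀ (by simp)) h3 (by rw [hκ, hab]; abel))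

theorem max (h : UJ Q J τ ν) (hN : ND Q) (h12 : 12 ≤ finrank F V) {S : Subgroup (V ≃ₗ[F] V)}
    (hS : ∀ g : V ≃ₗ[F] V, (∃ α β : F, ∀ x, g (J x) = α • g x + β • J (g x)) → g ∈ S)
    (hlt : ¬ Om Q ≤ S) : Geo.IsMaximalIn (Om Q) (S ⊓ Om Q) := by
  have h5 : 5 ≤ finrank F V := by omega
  refine isMaximalIn_of (SetLike.not_le_iff_exists.1 hlt) fun K hK1 hK2 g hg hgS => ?_
  have hKO : K ≤ OG Q := hK2.trans Om_le_OG
  have hK : ∀ v, Q v = 0 → J v ∈ MS Q K v := fun v hv =>
    ⟨by rw [h.pol_J, hv, mul_zero], fun c => hK1 ⟨hS _ ⟨0, 1, fun x => by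
      rw [h.comm hv]; simp⟩, siegel_mem_Om hN h5 _ _⟩⟩
  have hex : ∃ v, Q v = 0 ∧ g (J v) ∉ sp F [g v, J (g v)] := by
    by_contra hc
    push Not at hc
    obtain ⟨α, β, hab⟩ := h.semilinear hN (by omega)
      (L := (g : V →ₗ[F] V) ∘ₗ J ∘ₗ ((g⁻¹ : V ≃ₗ[F] V) : V →ₗ[F] V)) fun w hw => by
        have := hc (g⁻¹ w) (by rw [(OG Q).inv_mem (hKO hg), hw])
        rwa [apply_inv_apply] at this
    refine hgS (hS g ⟨α, β, fun x => ?_⟩)
    have := hab (g x)
    simpa [inv_apply_apply] using this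
  obtain ⟨v, hv, hgv⟩ := hex
  have hv0 : g v ≠ 0 := by
    intro h0
    have : v = 0 := by simpa using h0
    rw [this] at hgv; simp at hgv
  exact Om_le_of_siegel hN h5 fun u w hu _ => h.all_siegel hN h12 hKO hK (fun x hx =>
    h.spread_all hN h12 hK (by rw [hKO hg, hv]) hv0 (MS_conj (hKO hg) hg (hK v hv)) hgv hx) hu w

end UJ

open Matrix

theorem unitary_max {ι : Type} [Fintype ι] [DecidableEq ι] {F : Type*} [Field F] [Finite F]
    {Q : (ι → F) → F} (hQ : Geo.IsNondegenerateQuadraticForm Q) (h12 : 12 ≤ Fintype.card ι)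
    {K : Subalgebra F (Matrix ι ι F)} (hK : Geo.IsFieldSubalgebra 2 K)
    (hsc : ∀ k ∈ K, ∃ c : F, ∀ v, Q (k *ᵥ v) = c * Q v) :
    Geo.IsMaximalIn (Geo.omegaGL Q) (Geo.subalgebraNormalizer K ⊓ Geo.omegaGL Q) := by
  have hlt := omega_not_le_subalgebraNormalizer hQ (by omega) hK (by norm_num)
  obtain ⟨Q, rfl, hN⟩ := exists_quadraticForm hQ
  obtain ⟨S, hS⟩ := exists_pull (Geo.subalgebraNormalizer K)
  rw [omegaGL_eq, ← hS, pull_le_pull] at hlt
  rw [omegaGL_eq, ← hS, ← pull_inf]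
  obtain ⟨j, hj, hjs⟩ := field_exists_nonscalar hK (by norm_num)
  obtain ⟨ν, hν⟩ := hsc j hj
  obtain ⟨μ, hμ⟩ := hsc (1 + j) (K.add_mem K.one_mem hj)
  have hpol : ∀ x, polar Q x (j *ᵥ x) = (μ - 1 - ν) * Q x := fun x => by
    have := hμ x
    rw [Matrix.add_mulVec, Matrix.one_mulVec, Q_add, hν] at this
    linear_combination this
  set τ := μ - 1 - ν
  have hadj : ∀ x y, polar Q (j *ᵥ x) y = τ * polar Q x y - polar Q x (j *ᵥ y) := fun x y => by
    have h1 := hpol (x + y)
    rw [Matrix.mulVec_add, polar_add_left, polar_add_right, polar_add_right, hpol, hpol, Q_add,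
      pol_comm Q y] at h1
    linear_combination h1
  have hsq : ∀ x, j *ᵥ (j *ᵥ x) = τ • j *ᵥ x - ν • x := fun x => by
    rw [← sub_eq_zero]
    refine hN _ fun y => ?_
    have h1 := hν (y + x)
    rw [Matrix.mulVec_add, Q_add, Q_add, hν, hν, hadj] at h1
    rw [pol_comm, polar_sub_right, polar_sub_right, pol_smul_right, pol_smul_right]
    linear_combination -h1
  have hsq' : j * j = τ • j - ν • (1 : Matrix ι ι F) :=
    Matrix.toLin'.injective (LinearMap.ext fun x => by
      simp only [Matrix.toLin'_apply, ← Matrix.mulVec_mulVec, hsq, Matrix.sub_mulVec,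
        Matrix.smul_mulVec, Matrix.one_mulVec])
  have hscal : ∀ c d : F, c • (1 : Matrix ι ι F) + d • j = 0 → d = 0 := fun c d h0 => by
    by_contra hd
    exact hjs ⟨-(c / d), by
      have : j = d⁻¹ • (d • j) := by rw [smul_smul, inv_mul_cancel₀ hd, one_smul]
      rw [this, eq_neg_of_add_eq_zero_right h0, div_eq_inv_mul]; module⟩
  have hcomb : ∀ c d : F, c • (1 : Matrix ι ι F) + d • j ∈ K := fun c d =>
    K.add_mem (K.smul_mem K.one_mem c) (K.smul_mem hj d)
  have hU : UJ Q (Matrix.toLin' j) τ ν := by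
    refine ⟨by simpa using hsq, by simpa using hν, by simpa using hpol, fun c d h0 => ?_⟩
    have e : ((c + d * τ) • (1 : Matrix ι ι F) + (-d) • j) * (c • 1 + d • j) =
        (c * c + c * d * τ + d * d * ν) • 1 := by
      simp only [add_mul, mul_add, smul_mul_assoc, mul_smul_comm, one_mul, mul_one, hsq']
      module
    rw [h0, zero_smul] at e
    have hd : d = 0 := by
      by_cases h1 : (c + d * τ) • (1 : Matrix ι ι F) + (-d) • j = 0
      · simpa using hscal _ _ h1
      · obtain ⟨y, hy, hy'⟩ := hK.inv _ (hcomb _ _) h1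
        rw [hK.comm _ (hcomb _ _) _ hy] at hy'
        have : c • (1 : Matrix ι ι F) + d • j = 0 := by
          have e' := congrArg (y * ·) e
          simp only [← mul_assoc, hy', one_mul, mul_zero] at e'
          exact e'
        exact hscal _ _ this
    rw [hd] at h0
    exact ⟨by simpa using h0, hd⟩
  have hspan : ∀ k ∈ K, ∃ c d : F, k = c • (1 : Matrix ι ι F) + d • j := by
    have h1 : sp F [j, (1 : Matrix ι ι F)] = Subalgebra.toSubmodule K := by
      apply Submodule.eq_of_le_of_finrank_le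
      · exact sp_le.2 (by simp [hj, K.one_mem])
      · have h4 : finrank F (Subalgebra.toSubmodule K) = 2 := hK.finrank_eq
        have : Nonempty ι := Fintype.card_pos_iff.1 (by omega)
        rw [h4, finrank_sp_cons (fun h => hjs (mem_sp_one.1 h)), finrank_sp_one one_ne_zero]
    intro k hk
    obtain ⟨c, d, h2⟩ := mem_sp_two.1 (show k ∈ sp F [j, (1 : Matrix ι ι F)] by rw [h1]; exact hk)
    exact ⟨d, c, by rw [h2, add_comm]⟩
  refine isMaximalIn_pull (hU.max hN (by rwa [finrank_pi_card]) ?_ hlt)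
  rintro g ⟨α, β, hg⟩
  obtain ⟨g, rfl⟩ := toLE.surjective g
  rw [← mem_pull, hS]
  have e1 : (g : Matrix ι ι F) * j = (α • 1 + β • j) * (g : Matrix ι ι F) :=
    Matrix.toLin'.injective (LinearMap.ext fun x => by
      have := hg x
      simp only [toLE_apply, Matrix.toLin'_apply] at this
      simp only [Matrix.toLin'_apply, ← Matrix.mulVec_mulVec, this, Matrix.add_mulVec,
        Matrix.smul_mulVec, Matrix.one_mulVec])
  have e2 : (g : Matrix ι ι F) * j * ((g⁻¹ : GL ι F) : Matrix ι ι F) = α • 1 + β • j := by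
    rw [e1, mul_assoc, ← Units.val_mul, mul_inv_cancel, Units.val_one, mul_one]
  have e3 : ∀ c d : F, (g : Matrix ι ι F) * (c • 1 + d • j) * ((g⁻¹ : GL ι F) : Matrix ι ι F) =
      (c + d * α) • 1 + (d * β) • j := fun c d => by
    rw [mul_add, add_mul, mul_smul_comm, mul_smul_comm, smul_mul_assoc, smul_mul_assoc, e2, mul_one,
      ← Units.val_mul, mul_inv_cancel, Units.val_one]
    module
  have inj : ∀ x y : Matrix ι ι F, (g : Matrix ι ι F) * x * ((g⁻¹ : GL ι F) : Matrix ι ι F) =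
      (g : Matrix ι ι F) * y * ((g⁻¹ : GL ι F) : Matrix ι ι F) → x = y := fun x y h =>
    (Units.mul_right_inj g).1 ((Units.mul_left_inj g⁻¹).1 h)
  have hβ : β ≠ 0 := by
    rintro rfl
    apply hjs ⟨α, inj _ _ _⟩
    have := e3 α 0
    simp only [zero_smul, add_zero, zero_mul] at this e2
    rw [this, e2]
  intro k
  constructor
  · intro hk
    obtain ⟨c, d, rfl⟩ := hspan k hk
    rw [e3]; exact hcomb _ _
  · intro hk
    obtain ⟨c, d, h1⟩ := hspan _ hk
    have : k = (c - d / β * α) • 1 + (d / β) • j := inj _ _ (by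
      rw [e3, h1, div_mul_cancel₀ _ hβ, sub_add_cancel])
    rw [this]; exact hcomb _ _

end Cfsg.Agent.H8
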